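/-
Groups with a single block: constrained centralizers of elements of order `p` and no character of defect zero.
-/
import Cfsg.Agent.Lib.Block.BlkBas
import Cfsg.Agent.Lib.Block.BlkZero
import Cfsg.Agent.Lib.Block.H11Tr

namespace CA.BlkOne

open Cfsg MonoidAlgebra CA.BlkAlg CA.BlkVal CA.BlkCore CA.BlkDefect CA.BlkInd CA.BlkZero CA.BlkBas
  CChar.CharFun CChar.CharOrth CChar.CharInt Subgroup
open scoped ComplexConjugate

variable {p : ℕ} {M : Ideal AlgInt} {G : Type*} [Group G] [Finite G]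

/-- the centralizer of `z` in `K` has a self-centralizing normal `p`-subgroup -/
def Loc (p : ℕ) {G : Type*} [Group G] (K : Subgroup G) (z : G) : Prop :=
  ∃ Q : Subgroup G, IsPGroup p Q ∧ Q ≤ K ⊓ centralizer {z} ∧ (∀ g ∈ K ⊓ centralizer {z}, ∀ x ∈ Q, g * x * g⁻¹ ∈ Q) ∧
    ∀ g ∈ K ⊓ centralizer {z}, (∀ x ∈ Q, x * g = g * x) → g ∈ Q

omit [Finite G] in
theorem Loc.sub {K : Subgroup G} {z : K} (h : Loc p K (z : G)) : Loc p ⊤ z := by
  obtain ⟨Q, h1, h2, h3, h4⟩ := h
  have e : ∀ g : K, g ∈ (⊤ : Subgroup K) ⊓ centralizer {z} ↔ (g : G) ∈ K ⊓ centralizer {(z : G)} := fun g => by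
    simp only [mem_inf, mem_top, true_and, mem_centralizer_singleton_iff, Subtype.ext_iff, g.2, coe_mul]
  refine ⟨Q.subgroupOf K, h1.comap_of_injective _ K.subtype_injective, fun g hg => (e g).2 (h2 hg),
    fun g hg x hx => h3 g ((e g).1 hg) x hx, fun g hg hc => h4 g ((e g).1 hg) fun x hx => ?_⟩
  exact congrArg Subtype.val (hc ⟨x, (h2 hx).1⟩ hx)

omit [Finite G] in
theorem cent_zp (z : G) : centralizer ((zpowers z : Subgroup G) : Set G) = centralizer {z} := by
  rw [zpowers_eq_closure, centralizer_closure]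

variable [hp : Fact p.Prime]

theorem trunc_eq_one (hM : IsPModular p M) {B : Set (IrrCharacter G)} (hB : IsPBlock M B) {z : G}
    (hz : orderOf z = p) (hl : Loc p ⊤ z) (h : trunc (centralizer {z}) (eB M B) ≠ 0) :
    trunc (centralizer {z}) (eB M B) = 1 := by
  classical
  obtain ⟨Q, h1, h2, h3, h4⟩ := hl
  rw [top_inf_eq] at h2 h3 h4
  have hP : IsPGroup p (zpowers z) := IsPGroup.of_card (n := 1) (by rw [Nat.card_zpowers, hz, pow_one])
  have hi : trunc (centralizer {z}) (eB M B) * trunc (centralizer {z}) (eB M B) = trunc (centralizer {z}) (eB M B) := by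
    have := trunc_mul_of_fixed (p_eq_zero hM) hP (mem_fixed_of_mem_Z (eB_mem_Z (M := M) B) _)
      (mem_fixed_of_mem_Z (eB_mem_Z (M := M) B) _)
    rw [eB_mul_self hM hB, cent_zp] at this
    exact this.symm
  set H := centralizer ({z} : Set G)
  set f := trunc H (eB M B)
  have : (Q.subgroupOf H).Normal := ⟨fun x hx g => h3 g g.2 x hx⟩
  have hc := cut_eq_self_of_idem (p_eq_zero hM) (P := Q.subgroupOf H)
    (h1.comap_of_injective _ H.subtype_injective) (trunc_mem_Z_of_Z H (eB_mem_Z (M := M) B)) hi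
  have h0 : ∀ x : H, x ≠ 1 → f.coeff x = 0 := fun x hx => by
    by_cases hx' : x ∈ centralizer ((Q.subgroupOf H : Subgroup H) : Set H)
    · have hq : (x : G) ∈ Q := h4 x x.2 fun y hy => congrArg Subtype.val (hx' ⟨y, h2 hy⟩ hy)
      refine coeff_eB_eq_zero_of_dvd hM (isSat_of_isPBlock hM hB) ?_
      obtain ⟨n, hn⟩ := IsPGroup.iff_orderOf.1 h1 ⟨x, hq⟩
      rw [← Subgroup.orderOf_coe] at hn
      rcases n with _ | n
      · exact absurd (Subtype.ext (orderOf_eq_one_iff.1 hn)) hx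
      · exact hn ▸ dvd_pow_self p n.succ_ne_zero
    · exact cut_eq_self_iff.1 hc x hx'
  have e : f = f.coeff 1 • (1 : (k M)[H]) := ext_coeff fun x => by
    rw [coeff_smul', coeff_one']
    split_ifs with hx
    · rw [hx, mul_one]
    · rw [h0 x hx, mul_zero]
  have h5 : f.coeff 1 ≠ 0 := fun h5 => h (by rw [e, h5, zero_smul])
  have h6 := congrArg (fun a : (k M)[H] => a.coeff 1) hi
  rw [e, smul_mul_smul_comm, mul_one] at h6
  simp only [coeff_smul', coeff_one', if_true, mul_one] at h6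
  rw [e, mul_left_eq_self₀.1 h6 |>.resolve_right h5, one_smul]

theorem one_block (hM : IsPModular p M) (hz : ∀ z : G, orderOf z = p → ∃ y, IsConj z y ∧ Loc p ⊤ y)
    (hdz : ∀ χ : IrrCharacter G, ¬ DZ p χ) (χ ψ : IrrCharacter G) : SameBlock M χ.1 ψ.1 := by
  classical
  have key : ∀ χ : IrrCharacter G, ∃ y : G, orderOf y = p ∧ Loc p ⊤ y ∧
      trunc (centralizer {y}) (eB M (blockOf M χ.1)) = 1 := fun χ => by
    have hB := isPBlock_blockOf (M := M) χ
    obtain ⟨D, hD⟩ := exists_isDefectGroup hM hB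
    have h1 : D ≠ ⊥ := fun e => hdz χ ((defectGroup_eq_bot_iff_dz hM hB (self_mem_blockOf hM χ) hD).1 e)
    obtain ⟨n, hn⟩ := IsPGroup.iff_card.1 (isPGroup_of_isDefectGroup hD)
    have h2 : p ∣ Nat.card D := by
      rcases n with _ | n
      · exact absurd (card_eq_one.1 hn) h1
      · exact hn ▸ dvd_pow_self p n.succ_ne_zero
    obtain ⟨z, hz'⟩ := exists_prime_orderOf_dvd_card' p h2
    rw [← Subgroup.orderOf_coe] at hz'
    obtain ⟨y, hy, hl⟩ := hz z hz'
    obtain ⟨c, rfl⟩ := isConj_iff.1 hy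
    have ho : orderOf (c * z * c⁻¹ : G) = p := by
      rw [← hz']; exact (MulAut.conj c).orderOf_eq (z : G)
    refine ⟨_, ho, hl, trunc_eq_one hM hB ho hl ?_⟩
    have h3 := br_eB_ne_zero_of_le hM hB hD ((zpowers_le (g := (z : G))).2 z.2)
    rw [cent_zp] at h3
    obtain ⟨u, hu, hu'⟩ := trunc_ne_zero_iff.1 h3
    refine trunc_ne_zero_iff.2 ⟨c * u * c⁻¹, ?_, by rwa [mem_Z_iff_coeff.1 (eB_mem_Z _)]⟩
    rw [mem_centralizer_singleton_iff] at hu ⊢
    calc c * u * c⁻¹ * (c * z * c⁻¹) = c * (u * z) * c⁻¹ := by group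
      _ = _ := by rw [hu]; group
  obtain ⟨y, h1, h2, h3⟩ := key χ
  obtain ⟨y', -, -, h4⟩ := key ψ
  have h5 : trunc (centralizer {y}) (eB M (blockOf M ψ.1)) = 1 := by
    refine trunc_eq_one hM (isPBlock_blockOf ψ) h1 h2 (trunc_ne_zero_iff.2 ⟨1, one_mem _, ?_⟩)
    have := congrArg (fun a : (k M)[centralizer ({y'} : Set G)] => a.coeff 1) h4
    simp only [coeff_trunc, coeff_one', if_true, coe_one] at this
    rw [this]; exact one_ne_zero
  refine (blockOf_eq_iff hM).1 (by_contra fun hne => ?_)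
  have hP : IsPGroup p (zpowers y) := IsPGroup.of_card (n := 1) (by rw [Nat.card_zpowers, h1, pow_one])
  have := trunc_mul_of_fixed (p_eq_zero hM) hP (mem_fixed_of_mem_Z (eB_mem_Z (M := M) (blockOf M χ.1)) _)
    (mem_fixed_of_mem_Z (eB_mem_Z (M := M) (blockOf M ψ.1)) _)
  rw [eB_mul_eB_of_ne hM (isPBlock_blockOf χ) (isPBlock_blockOf ψ) hne, cent_zp, h3, h5, map_zero, mul_one] at this
  exact zero_ne_one this

omit hp in
theorem same_equiv {K : Type*} [Group K] [Finite K] (e : K ≃* G)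
    (h : ∀ χ ψ : IrrCharacter K, SameBlock M χ.1 ψ.1) (χ ψ : IrrCharacter G) : SameBlock M χ.1 ψ.1 := by
  intro g
  obtain ⟨x, rfl⟩ := e.surjective g
  have h1 : (centralizer ({e x} : Set G)).index = (centralizer ({x} : Set K)).index := by
    rw [← index_map_equiv _ e]
    congr 1
    ext y
    obtain ⟨y, rfl⟩ := e.surjective y
    refine Iff.trans ?_ (mem_map_iff_mem (f := (e : K →* G)) e.injective).symm
    rw [mem_centralizer_singleton_iff, mem_centralizer_singleton_iff, ← map_mul, ← map_mul, e.injective.eq_iff]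
  have := h (H11Tr.irrE e χ) (H11Tr.irrE e ψ) x
  simpa only [centralChar, H11Tr.irrE_apply, map_one, h1] using this

omit hp in
/-- valuations of the values of a character of defect zero -/
theorem dvd_of_dz (hM : IsPModular p M) {χ : IrrCharacter G} (h : DZ p χ) {y : G} {c : ℕ} {n : ℤ}
    (hn : c * χ.1 y = n) {i j : ℕ} (hi : p ^ i ∣ c) (hj : p ^ j ∣ Nat.card (centralizer ({y} : Set G))) :
    (p : ℤ) ^ (i + j) ∣ n := by
  refine pow_dvd_of_v_le hM ?_
  have h1 := v_char_le_of_vanish hM (char_of_irr χ.2) (fun g hg => h.apply_eq_zero hM.1 hg) y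
  have h2 : v M ((c : ℤ) : ℂ) ≤ v M (p : ℂ) ^ i := v_le_of_pow_dvd (by exact_mod_cast hi)
  have h3 : v M (((Nat.card (centralizer ({y} : Set G)) : ℕ) : ℤ) : ℂ) ≤ v M (p : ℂ) ^ j :=
    v_le_of_pow_dvd (by exact_mod_cast hj)
  rw [Int.cast_natCast] at h2 h3
  rw [← hn, map_mul, pow_add]
  exact mul_le_mul' h2 (h1.trans h3)

omit hp in
theorem sum_char [Fintype G] {θ : G → ℂ} (h : IsCharacter G θ) : ∃ m : ℕ, ∑ g, θ g = Nat.card G * m := by
  obtain ⟨m, hm⟩ := inner_char_char h (char_one (G := G))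
  refine ⟨m, ?_⟩
  have : (Nat.card G : ℂ) ≠ 0 := Nat.cast_ne_zero.2 Nat.card_pos.ne'
  rw [← hm, classInner]
  simp only [map_one, mul_one]
  field_simp

omit hp in
/-- restriction to a subgroup on which the character takes three values -/
theorem sum_three {θ : G → ℂ} (h : IsCharacter G θ) (P : G → Prop) {a b : ℂ} (ha : ∀ g, g ≠ 1 → P g → θ g = a)
    (hb : ∀ g, g ≠ 1 → ¬ P g → θ g = b) {n n' : ℕ} (hn : {g | g ≠ 1 ∧ P g}.ncard = n)
    (hn' : Nat.card G = 1 + n + n') : ∃ m : ℕ, θ 1 + n * a + n' * b = (1 + n + n' : ℕ) * m := by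
  classical
  have := Fintype.ofFinite G
  obtain ⟨m, hm⟩ := sum_char h
  refine ⟨m, ?_⟩
  rw [← hn', ← hm, ← Finset.add_sum_erase _ _ (Finset.mem_univ 1), ← Finset.sum_filter_add_sum_filter_not _ P,
    Finset.sum_congr rfl fun g hg => ha g (Finset.ne_of_mem_erase (Finset.mem_filter.1 hg).1) (Finset.mem_filter.1 hg).2,
    Finset.sum_congr (s₁ := Finset.filter (fun x => ¬ P x) _) rfl fun g hg =>
      hb g (Finset.ne_of_mem_erase (Finset.mem_filter.1 hg).1) (Finset.mem_filter.1 hg).2,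
    Finset.sum_const, Finset.sum_const, nsmul_eq_mul, nsmul_eq_mul, add_assoc]
  have h1 : ((Finset.univ.erase (1 : G)).filter P).card = n := by
    rw [← hn, ← Set.ncard_coe_finset]; congr 1; ext g; simp
  have h2 := Finset.card_filter_add_card_filter_not (s := Finset.univ.erase (1 : G)) P
  rw [Finset.card_erase_of_mem (Finset.mem_univ _), Finset.card_univ, ← Nat.card_eq_fintype_card, hn', h1] at h2
  rw [h1, show ((Finset.univ.erase (1 : G)).filter fun x => ¬ P x).card = n' by omega]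

omit hp in
theorem sum_two {θ : G → ℂ} (h : IsCharacter G θ) {a : ℂ} (ha : ∀ g, g ≠ 1 → θ g = a) {n : ℕ}
    (hn : Nat.card G = 1 + n) : ∃ m : ℕ, θ 1 + n * a = (1 + n : ℕ) * m := by
  obtain ⟨m, hm⟩ := sum_three h (fun _ => False) (a := 0) (fun _ _ h => h.elim) (fun g h _ => ha g h) (n := 0)
    (n' := n) (by simp) (by simpa using hn)
  exact ⟨m, by simpa using hm⟩

omit hp in
theorem norm_le (χ : IrrCharacter G) (s : Finset G) (hs : ∀ x ∈ s, ∀ y ∈ s, IsConj x y → x = y) :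
    ∑ x ∈ s, ((centralizer ({x} : Set G)).index : ℝ) * ‖χ.1 x‖ ^ 2 ≤ Nat.card G := by
  classical
  have := Fintype.ofFinite G
  have h1 := inner_self_re χ.1
  have h0 : (0 : ℝ) < Nat.card G := Nat.cast_pos.2 Nat.card_pos
  rw [inner_irr_self χ.2, Complex.one_re, eq_inv_mul_iff_mul_eq₀ h0.ne', mul_one] at h1
  have h2 : ∀ x ∈ s, ((centralizer ({x} : Set G)).index : ℝ) * ‖χ.1 x‖ ^ 2 =
      ∑ g ∈ Finset.univ.filter (IsConj x), ‖χ.1 g‖ ^ 2 := fun x _ => by
    rw [Finset.sum_congr rfl fun g hg => by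
      rw [← classFun_of_isConj (irr_classFun χ.2) (Finset.mem_filter.1 hg).2],
      Finset.sum_const, nsmul_eq_mul, card_class_eq_index]
  rw [Finset.sum_congr rfl h2, ← Finset.sum_biUnion, h1]
  · exact Finset.sum_le_sum_of_subset_of_nonneg (Finset.subset_univ _) fun _ _ _ => by positivity
  · intro x hx y hy hne
    refine Finset.disjoint_left.2 fun g h h' => hne (hs x hx y hy ?_)
    exact (Finset.mem_filter.1 h).2.trans (Finset.mem_filter.1 h').2.symm

end CA.BlkOne
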