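import Cfsg.Agent.Lib.Spor.Fis18

/-! Fixed-point-free elements on a component; an eigenvalue condition. -/

set_option autoImplicit false
set_option linter.style.haveILetI false
set_option linter.unusedVariables false
set_option linter.unusedSectionVars false
open Cfsg

namespace CA.Fis
open Tr3Basic Tr3Block Tr3Prim Tr3Rank Tr3Iso Tr3Ext Tr3Struct Equiv

variable {G G' : Type*} [Group G] [Group G'] {S D : Set G} {T : Set G'}

theorem trace_nat {ι : Type*} [Fintype ι] [DecidableEq ι] {M : Matrix ι ι ℂ} (h : M * M = M) : ∃ n : ℕ, M.trace = n :=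
  ⟨_, by
    rw [← Matrix.trace_toLin'_eq]
    exact (LinearMap.IsIdempotentElem.isProj_range _ (show Matrix.toLin' M * Matrix.toLin' M = _ by
      rw [Module.End.mul_eq_comp, ← Matrix.toLin'_mul, h])).trace⟩

theorem trace_int {ι : Type*} [Fintype ι] [DecidableEq ι] {E P : Matrix ι ι ℂ} (h : E * E = E) (c : Commute P E)
    (h3 : P ^ 3 = 1) (t : (P ^ 2 * E).trace = (P * E).trace) : ∃ n : ℤ, (P * E).trace = n := by
  have k : ∀ ω : ℂ, ω ^ 3 = 1 → ∃ n : ℕ, E.trace + (ω + ω ^ 2) * (P * E).trace = 3 * n := fun ω hω => by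
    have q : (ω • P) ^ 3 = 1 := by rw [smul_pow, hω, h3, one_smul]
    have c' : Commute (1 + ω • P + (ω • P) ^ 2) E := ((Commute.one_left E).add_left (c.smul_left ω)).add_left
      ((c.smul_left ω).pow_left 2)
    have e : (1 + ω • P + (ω • P) ^ 2) * (1 + ω • P + (ω • P) ^ 2) = (3 : ℂ) • (1 + ω • P + (ω • P) ^ 2) := by
      generalize ω • P = Q at q
      have : (1 + Q + Q ^ 2) * (1 + Q + Q ^ 2) = 1 + Q + Q + Q ^ 2 + Q ^ 2 + Q ^ 2 + Q ^ 3 + Q ^ 3 + Q * Q ^ 3 := by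
        noncomm_ring
      rw [this, q, mul_one]; module
    obtain ⟨n, hn⟩ := trace_nat (M := (1 / 3 : ℂ) • ((1 + ω • P + (ω • P) ^ 2) * E)) (by
      rw [smul_mul_smul_comm, c'.symm.mul_mul_mul_comm, e, h, smul_mul_assoc, smul_smul]; norm_num)
    refine ⟨n, ?_⟩
    simp only [add_mul, one_mul, smul_pow, smul_mul_assoc, Matrix.trace_smul, Matrix.trace_add, t, smul_eq_mul] at hn
    linear_combination 3 * hn
  obtain ⟨z, hz⟩ := IsAlgClosed.exists_pow_nat_eq (-3 : ℂ) two_pos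
  obtain ⟨a, ha⟩ := k 1 (one_pow _)
  obtain ⟨b, hb⟩ := k ((z - 1) / 2) (by linear_combination (z - 3) / 8 * hz)
  exact ⟨a - b, by push_cast; linear_combination (ha - hb) / 3 + (P * E).trace / 12 * hz⟩

theorem srg_w [Finite G] {w : G} (hw : ∀ a ∈ S, tw w a ∈ S) (w3 : w ^ 3 = 1) (nc : ∀ a ∈ S, ¬ Commute a (tw w a))
    {c k l m : ℕ} {r s : ℤ} (hc : S.ncard = c) (hk : ∀ a ∈ S, (Dd S a).ncard = k)
    (hl : ∀ a ∈ S, ∀ b ∈ Dd S a, (Mm S a b).ncard = l) (hm : ∀ a ∈ S, ∀ b ∈ Ad S a, (Mm S a b).ncard = m)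
    (e1 : r + s = l - m) (e2 : r * s = m - k) (e3 : (k - r) * (k - s) = c * m) (rs : r ≠ s) (c0 : c ≠ 0) :
    r - s ∣ k - s := by
  classical
  haveI := Fintype.ofFinite S
  have cnt : ∀ P : G → Prop, ∑ z : S, (if P z then 1 else 0 : ℂ) = {z ∈ S | P z}.ncard := fun P => by
    rw [Finset.sum_boole, ← Set.ncard_coe_finset, ← Set.ncard_image_of_injective _ Subtype.val_injective]
    congr 2; ext z; simp [and_comm]
  have sy : ∀ {a b : S}, (a : G) ∈ Dd S b ↔ (b : G) ∈ Dd S a := fun {a b} => ⟨Dd.symm b.2, Dd.symm a.2⟩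
  let A : Matrix S S ℂ := .of fun i j => if (j : G) ∈ Dd S i then 1 else 0
  let J : Matrix S S ℂ := .of fun _ _ => 1
  let σ : S → S := fun a => ⟨_, hw a a.2⟩
  let P : Matrix S S ℂ := .of fun i j => if j = σ i then 1 else 0
  have s3 : ∀ i, σ (σ (σ i)) = i := fun i => Subtype.ext (by
    change tw w (tw w (tw w i)) = i
    rw [← tw_mul, ← tw_mul, ← pow_three', w3]; simp [tw])
  have PM : ∀ (M : Matrix S S ℂ) i j, (P * M) i j = M (σ i) j := fun M i j => by simp [P, Matrix.mul_apply]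
  have MP : ∀ (M : Matrix S S ℂ) i j, (M * P) i (σ j) = M i j := fun M i j => by
    have : ∀ z, σ j = σ z ↔ j = z := fun z => ⟨fun e => by rw [← s3 j, e, s3], fun e => e ▸ rfl⟩
    simp [P, Matrix.mul_apply, this]
  have kk : ∀ a : S, ∑ z : S, (if (z : G) ∈ Dd S a then 1 else 0 : ℂ) = k := fun a => by
    rw [cnt (· ∈ Dd S a), ← hk a a.2]; congr 2; ext z; exact and_iff_right_of_imp And.left
  have AJ : A * J = (k : ℂ) • J := by ext i j; simp [A, J, Matrix.mul_apply, -Finset.sum_boole, kk]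
  have JA : J * A = (k : ℂ) • J := by
    ext i j; simp [A, J, Matrix.mul_apply, -Finset.sum_boole, sy (a := j), kk]
  have cS : Fintype.card S = c := by rw [← hc, ← Nat.card_coe_set_eq, Nat.card_eq_fintype_card]
  have JJ : J * J = (c : ℂ) • J := by ext i j; simp [J, Matrix.mul_apply, cS]
  have AA : A * A = (k : ℂ) • 1 + (l : ℂ) • A + (m : ℂ) • (J - 1 - A) := by
    ext i j
    have : (A * A) i j = (Mm S i j).ncard := by
      rw [show Mm S i j = {z ∈ S | z ∈ Mm S i j} from Set.ext fun z => (and_iff_right_of_imp fun a => a.1.1).symm,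
        ← cnt, Matrix.mul_apply]
      refine Finset.sum_congr rfl fun z _ => ?_
      simp only [A, Matrix.of_apply, sy (a := j), ite_zero_mul_ite_zero, mul_one]; congr
    rw [this]
    by_cases e : i = j
    · subst e
      have : (i : G) ∉ Dd S i := fun a => a.2.1 rfl
      simp [A, J, this, Mm, hk i i.2]
    by_cases a : (j : G) ∈ Dd S i
    · simp [A, J, a, e, hl i i.2 j a]
    · simp [A, J, a, e, hm i i.2 j ⟨j.2, fun c => a ⟨j.2, fun k => e (Subtype.ext k.symm), c⟩⟩]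
  have f1 : (r + s : ℂ) = l - m := by exact_mod_cast e1
  have f2 : (r * s : ℂ) = m - k := by exact_mod_cast e2
  have f3 : ((k - r) * (k - s) : ℂ) = c * m := by exact_mod_cast e3
  have n1 : (r - s : ℂ) ≠ 0 := by exact_mod_cast sub_ne_zero.2 rs
  have n2 : (c : ℂ) ≠ 0 := by exact_mod_cast c0
  set B : Matrix S S ℂ := (c : ℂ) • A - (c * s : ℂ) • 1 - (k - s : ℂ) • J with hB
  have BB : B * B = (c * (r - s) : ℂ) • B := by
    simp only [hB, mul_sub, sub_mul, smul_mul_assoc, mul_smul_comm, AA, AJ, JA, JJ, one_mul, mul_one]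
    linear_combination (norm := module) (-c * c * f1) • A + (c * c * f2) • (1 : Matrix S S ℂ) - (c * f3) • J
  have t : ∀ τ : S → S, (∀ i : S, ¬ Commute (i : G) (τ i)) → ∑ i, B (τ i) i = -(c * (k - s)) := fun τ hτ => by
    have : ∀ i, B (τ i) i = -(k - s) := fun i => by
      have a : (i : G) ∉ Dd S (τ i) := fun a => hτ i a.2.2.symm
      have b : τ i ≠ i := fun e => hτ i (e.symm ▸ .refl _)
      simp [hB, A, J, a, b]
    simp [this, cS]; ring
  obtain ⟨n, hn⟩ := trace_int (E := (c * (r - s) : ℂ)⁻¹ • B) (P := P)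
    (by rw [smul_mul_smul_comm, BB, smul_smul, mul_assoc, inv_mul_cancel₀ (mul_ne_zero n2 n1), mul_one])
    (Commute.smul_right (by
      ext i j
      rw [← s3 j, PM, MP]
      generalize σ (σ j) = j
      have a : ((σ j : S) : G) ∈ Dd S (σ i) ↔ (j : G) ∈ Dd S i :=
        ⟨fun a => ⟨j.2, fun e => a.2.1 (congrArg (tw w) e), cc.1 a.2.2⟩, fun a => ⟨(σ j).2, mt tw_inj.1 a.2.1, cc.2 a.2.2⟩⟩
      have b : σ i = σ j ↔ i = j := ⟨fun e => by rw [← s3 i, e, s3], fun e => e ▸ rfl⟩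
      simp [hB, A, J, a, b, Matrix.one_apply]) _)
    (by ext i j; rw [pow_three, PM, PM]; simp [P, s3, Matrix.one_apply, eq_comm])
    (by
      simp only [pow_two, mul_assoc, Matrix.trace, Matrix.diag, PM, Matrix.smul_apply, ← Finset.smul_sum]
      rw [t σ fun i => nc i i.2, t (fun i => σ (σ i)) fun i c => nc _ (σ (σ i)).2 (by
        rw [show tw w (σ (σ i)) = i from congrArg Subtype.val (s3 i)]; exact c.symm)])
  simp only [Matrix.trace, Matrix.diag, PM, Matrix.smul_apply, ← Finset.smul_sum, t σ fun i => nc i i.2] at hn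
  refine ⟨-n, ?_⟩
  have : (k - s : ℂ) = (r - s) * -n := by rw [← hn, smul_eq_mul]; field_simp
  exact_mod_cast this

theorem out_card {A B : Type*} [Group A] [Group B] (e : A ≃* B) : Nat.card (Out A) = Nat.card (Out B) :=
  Nat.card_congr (QuotientGroup.congr (Cfsg.Inn A) (Cfsg.Inn B) (MulAut.congr e) (by
    ext ψ
    constructor
    · rintro ⟨_, ⟨g, rfl⟩, rfl⟩
      exact ⟨e g, by ext x; simp [MulAut.congr]⟩
    · rintro ⟨g, rfl⟩
      exact ⟨_, ⟨e.symm g, rfl⟩, by ext x; simp [MulAut.congr]⟩)).toEquiv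

theorem card_of_surj {A B : Type*} [Group A] [Group B] {φ : A →* B} (h : Function.Surjective φ) :
    Nat.card A = Nat.card φ.ker * Nat.card B := by
  rw [← Subgroup.card_mul_index φ.ker, Subgroup.index_ker, MonoidHom.range_eq_top.2 h, Subgroup.card_top]

namespace Tri
variable [Finite G] {L : Subgroup G} [hL : L.Normal] (h : Tri D L) {x : G} (hx : x ∈ D)
include h hx

theorem ex_u : ∃ u ∈ L, u * u = 1 ∧ ∀ a ∈ Cmp D x, tw u a ≠ a ∧ Commute a (tw u a) := by
  obtain ⟨y, hy, n⟩ := h.out x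
  obtain ⟨z, hz⟩ := h.qr.fs.nb h.qr.cn h.qr.pair hy
  refine ⟨y * z, h.mul hy (.one hy hz.1 hz.2.2), by rw [← pow_two, hz.2.2.mul_pow]; simp [pow_two, h.qr.fs.sq, hy, hz.1],
    fun a ha => ?_⟩
  have n1 : ¬ Commute y a := fun c => n (Cmp.nb ha hy c.symm)
  rw [tw_mul]
  exact ⟨h.qr.fs.s4ne hy hz.1 ha.1 hz.2.1.symm n1, h.qr.fs.s4 hy hz.1 ha.1 hz.2.2 n1
    fun c => n (Cmp.nb (Cmp.nb ha hz.1 c.symm) hy hz.2.2.symm)⟩

theorem ex_w : ∃ w ∈ L, w ^ 3 = 1 ∧ ∀ a ∈ Cmp D x, ¬ Commute a (tw w a) := by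
  obtain ⟨y, hy, n⟩ := h.out x
  have fs := h.qr.fs
  obtain ⟨z, hz, c⟩ := (h.pr hy).cn.edge y (Cmp.self hy)
  have k : ∀ {t a}, t ∈ Cmp D y → a ∈ Cmp D x → ¬ Commute a t := fun ht ha c => n ⟨hy, (Cmp.nb ha ht.1 c).2.trans ht.2.symm⟩
  refine ⟨z * y, h.mul hz.1 hz.2.symm, (fs.set.2 z hz.1 y hy).resolve_left fun e =>
    c (commute_of_sq (fs.sq hz.1) (fs.sq hy) e).symm, fun a ha => ?_⟩
  rw [tw_mul]
  exact fs.aff_nc ha.1 hy hz.1 ⟨c, k (Cmp.self hy) ha, k hz ha, k ((fs.cmp y).cl (Cmp.self hy) hz) ha⟩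

theorem not_vl : ¬ VL (Cmp D x) := fun v => by
  obtain ⟨u, hu, u2, k⟩ := h.ex_u hx
  have p := h.pr hx
  have s := Cmp.self hx
  have uu : ∀ a, tw u (tw u a) = a := fun a => by rw [← tw_mul, u2]; simp [tw]
  have c : Cp (Cmp D x) x (tw u x) := ⟨s, h.fix' hu s, (k x s).1.symm, (k x s).2⟩
  have o := p.odd v c
  have := ncard_modEq (Set.toFinite (Ln (Cmp D x) x (tw u x))) 2 (φ := tw u) (fun r hr => by
    have := p.fs.ln_tw (h.le_cmp hx hu) c.l c.r hr
    rwa [uu, ln_comm] at this) fun r _ => uu r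
  rw [show {r ∈ Ln (Cmp D x) x (tw u x) | tw u r = r} = ∅ from
    Set.eq_empty_of_forall_notMem fun r hr => (k r hr.1.1).1 hr.2, Set.ncard_empty] at this
  unfold Nat.ModEq at this
  omega

theorem not_sym {n : ℕ} (hn : 3 ≤ n) {φ : Perm (Fin n) → G} (hφ : FIso (swaps (Fin n)) (Cmp D x) φ) : False := by
  obtain ⟨u, hu, u2, k⟩ := h.ex_u hx
  obtain ⟨b, -, hb⟩ := hφ.symm.exists_conj subset_rfl (h.le_cmp hx hu)
  have : ∀ i j, i ≠ j → i ≠ b i ∧ j ≠ b i := fun i j e => by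
    have m := hφ.mem (x := swap i j) ⟨i, j, e, rfl⟩
    have m' := h.fix' hu m
    have a := hb _ m
    rw [hφ.symm_apply ⟨i, j, e, rfl⟩, ← swap_apply_apply] at a
    have c := (hφ.symm.commute_iff m m').2 (k _ m).2
    have d : swap (b i) (b j) ≠ swap i j := fun e' => (k _ m).1 (hφ.symm.inj m' m
      (a.trans (e'.trans (hφ.symm_apply ⟨i, j, e, rfl⟩).symm)))
    rw [hφ.symm_apply ⟨i, j, e, rfl⟩, show tw u _ = _ * _ * _ from rfl, a, swap_c e (b.injective.ne e)] at c
    rcases c with (⟨c1, c2⟩ | ⟨c1, c2⟩) | c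
    · exact (d (by rw [← c1, ← c2])).elim
    · exact (d (by rw [← c1, ← c2, swap_comm])).elim
    · exact ⟨c.1, c.2.2.1⟩
  exact (this _ _ (this ⟨0, by omega⟩ ⟨1, by omega⟩ (by simp)).1).2 rfl

variable {F : Type} [Field F] [Fintype F] {hF : Fintype.card F = 2 ^ 2}

theorem not_fi : ¬ (T22 hF (Cmp D x) ∨ T23 hF (Cmp D x) ∨ T24 hF (Cmp D x)) := by
  obtain ⟨w, hw, w3, k⟩ := h.ex_w hx
  have key := @srg_w _ _ (Cmp D x) _ w (fun a => h.fix' hw) w3 k
  rintro (t | t | t)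
  · exact absurd (key (l := 180) (m := 126) (r := 63) (s := -9) t.card (fun a => t.k) (fun a ha b hb => by
      have := (t.loc a ha).ad hb
      have := ncard_split hb
      have : us 6 = 2079 := by decide
      have : us (6 - 2) = 135 := by decide
      have := t.k ha
      rw [← dd_dd]; omega) (fun a ha b hb => by
      have := (t.mm ha hb).1.card
      have : nq 6 1 = 252 := by decide
      omega) (by norm_num) (by norm_num) (by norm_num) (by norm_num) (by norm_num)) (by norm_num)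
  · exact absurd (key (m := 351) (r := 351) (s := -9) t.card (fun a ha => (t.loc a ha).card)
      (fun a ha b hb => dd_dd (S := Cmp D x) b a ▸ (t.loc a ha).k hb) (fun a ha b hb => by
      have := (t.mm ha hb).1.card
      have : nq 7 1 = 702 := by decide
      omega) (by norm_num) (by norm_num) (by norm_num) (by norm_num) (by norm_num)) (by norm_num)
  · exact absurd (key (r := 351) (s := -81) t.card (fun a ha => (t.loc a ha).card)
      (fun a ha b hb => dd_dd (S := Cmp D x) b a ▸ ((t.loc a ha).loc b hb).card) (fun a ha b hb => (t.mm ha hb).2.1)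
      (by norm_num) (by norm_num) (by norm_num) (by norm_num) (by norm_num)) (by norm_num)

end Tri

end CA.Fis
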