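import Cfsg.Agent.Lib.Spor.H12YTC

/-! The spider relation on `Y₅₃₂`: the end node of the long arm is the centre of `W(E₇)` (abstract part). -/

set_option autoImplicit false
set_option maxRecDepth 100000

namespace CA.H12Y
open CA.CNet CA.CWord CA.CTodd CA.CPres
open CA.H12YTC (r8)

noncomputable section

def R11 : List Word := [[0,0], [2,2], [4,4], [6,6], [8,8], [10,10], [12,12], [14,14], [16,16], [18,18], [20,20], [0,2,0,2,0,2], [0,4,0,4], [0,6,0,6], [0,8,0,8], [0,10,0,10], [0,12,0,12], [0,14,0,14], [0,16,0,16], [0,18,0,18], [0,20,0,20], [2,4,2,4,2,4], [2,6,2,6], [2,8,2,8], [2,10,2,10], [2,12,2,12], [2,14,2,14], [2,16,2,16], [2,18,2,18], [2,20,2,20], [4,6,4,6,4,6], [4,8,4,8], [4,10,4,10], [4,12,4,12], [4,14,4,14], [4,16,4,16], [4,18,4,18], [4,20,4,20], [6,8,6,8,6,8], [6,10,6,10], [6,12,6,12], [6,14,6,14,6,14], [6,16,6,16], [6,18,6,18], [6,20,6,20], [8,10,8,10,8,10], [8,12,8,12], [8,14,8,14], [8,16,8,16], [8,18,8,18], [8,20,8,20],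 [10,12,10,12,10,12], [10,14,10,14], [10,16,10,16], [10,18,10,18], [10,20,10,20], [12,14,12,14], [12,16,12,16], [12,18,12,18,12,18], [12,20,12,20], [14,16,14,16,14,16], [14,18,14,18], [14,20,14,20], [16,18,16,18], [16,20,16,20], [18,20,18,20,18,20], [6,4,2,6,8,10,6,14,16,6,4,2,6,8,10,6,14,16,6,4,2,6,8,10,6,14,16,6,4,2,6,8,10,6,14,16,6,4,2,6,8,10,6,14,16,6,4,2,6,8,10,6,14,16,6,4,2,6,8,10,6,14,16,6,4,2,6,8,10,6,14,16,6,4,2,6,8,10,6,14,16,6,4,2,6,8,10,6,14,16]]
def KS : List (ℕ × ℕ) := [(0, 0), (0, 0), (0, 0), (0, 0), (0, 0), (0, 0), (0, 0), (0, 0), (120, 0), (84, 0), (70, 0), (54, 0), (36, 0), (96, 0), (106, 0), (82, 0), (68, 0), (52, 0), (34, 0), (94, 0), (104, 0), (60, 0), (44, 0), (26, 0), (76, 1), (78, 1), (42, 0), (24, 0), (62, 1), (64, 1), (22, 0), (46, 1), (48, 1), (28, 1), (30, 1), (90, 1), (133, 3)]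
def x2 : Word := [12,10,8,6,14,16,10,12,8,10,6,8,4,6,14,2,4,6,8,10,12]
def x3 : Word := [12,10,8,6,14,4,6,8,10,12,18,16,12,10,8,2,4,6,14,8,10,4,6,8,2,4,6,14,16,12,10,8,6,14,4,6,8,10,12,18,4,6,8,10,12]
def x4 : Word := [8,10,12,6,8,10,4,6,8,2,4,6,14,16,14,6,8,4,6,14,2,4,6,8,10,12]
def x5 : Word := [18,12,10,4,6,8,2,4,6,14,16,6,8,4,6,14,2,4,6,8,10,12]
def subs : List Word := [[0], [2], [4], [6], [8], [10], [12], [14], [16]]
def g8 : List Word := [[2], [4], [6], [8], [10], [12], [14], [16]]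
def W1 : Word := wpow [6, 8, 14, 4, 10, 16, 12] 9
def W2 : Word := wpow [6, 8, 4, 14, 10, 2, 12] 9
def Z1 : Word := wpow [0, 2, 4, 6, 8, 10, 14] 9
def Z2 : Word := wpow [0, 2, 4, 6, 14, 16, 8] 9
def U : Word := lapp W1 [18]
def cm (w : Word) (i : ℕ) : Word := lapp w (2 * i :: lapp (winv w) [2 * i + 1])
def σ : List Word := [[], [16], [14], [6], [4], [2], [0], [8], [10]]
def ρ : List Word := [[10], [8], [6], [4], [12], [14], [], [2], [0]]
def LA : List Word := lapp Z1 Z1 :: lapp Z1 (winv Z2) :: [0, 1, 2, 3, 4, 5, 7, 8].map (cm Z1)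
def LB : List Word := lapp W1 W1 :: lapp W1 (winv W2) :: wpow U 3 :: [0, 1, 2, 3, 4, 5, 6, 7, 8].map (cm W1)
def PC : List (Word × Word) := [(x2, []), (x3, U), (lapp x3 U, lapp x2 U), (x4, []), (lapp x4 U, lapp x3 (lapp U U)),
  (x5, lapp U U), (lapp x5 U, lapp x2 (lapp U U)), (lapp x5 (lapp U U), lapp x4 (lapp U U))]

section
variable {P : Type} [Group P] {g : ℕ → P}

theorem der_zip {R S : List Word} (s : List Word) (K : List (ℕ × ℕ)) (hR : ∀ r ∈ R, ev g r = 1)
    (h1 : S = (S.zip K).map Prod.fst) (h2 : ∀ p ∈ S.zip K, triv R (subst s p.1) p.2.1 p.2.2 = true) :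
    ∀ r ∈ S, ev (fun i => ev g (nth s [] i)) r = 1 := fun r hr => by
  rw [h1] at hr
  obtain ⟨p, hp, rfl⟩ := List.mem_map.1 hr
  rw [← ev_subst]; exact ev_of_triv hR (h2 p hp)

theorem lv_odd (g : ℕ → P) (i : ℕ) : lv g (2 * i + 1) = (g i)⁻¹ := by
  unfold lv; rw [if_neg (by omega)]; congr 2; omega

theorem of_cm {w : Word} {i : ℕ} (h : ev g (cm w i) = 1) : Commute (ev g w) (g i) := by
  rw [cm, ev_lapp, ev_cons, ev_lapp, ev_winv, ev_cons, ev_nil, lv_even, lv_odd, mul_one] at h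
  rw [← commutatorElement_eq_one_iff_commute, commutatorElement_def, ← h]
  simp only [mul_assoc]

theorem comm_ev {x : P} {w : Word} (h : ∀ a ∈ w, Commute x (g (a / 2))) : Commute x (ev g w) := by
  induction w with
  | nil => simp
  | cons a w ih =>
    rw [ev_cons]
    refine Commute.mul_right ?_ (ih fun b hb => h b (by simp [hb]))
    have := h a (by simp)
    unfold lv; split_ifs
    exacts [this, this.inv_right]

theorem sq (h : ∀ r ∈ R11, ev g r = 1) (i : ℕ) (hi : i < 11) : g i * g i = 1 := by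
  have := h _ ((by decide +kernel : ∀ i < 11, [2 * i, 2 * i] ∈ R11) i hi)
  simpa [lv_even] using this

theorem comm (h : ∀ r ∈ R11, ev g r = 1) {i j : ℕ} (hi : i < 11) (hj : j < 11)
    (hr : [2 * i, 2 * j, 2 * i, 2 * j] ∈ R11) : Commute (g i) (g j) := by
  have h1 := h _ hr
  simp only [ev_cons, ev_nil, lv_even, mul_one] at h1
  have a := sq h i hi
  have b := sq h j hj
  calc g i * g j = (g j * g j) * (g i * g j) * (g i * g i) := by rw [a, b]; simp
    _ = g j * (g j * g i * g j * g i) * g i := by simp only [mul_assoc]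
    _ = g j * ((g j * g j) * (g j * g i * g j * g i)) * g i := by rw [b, one_mul]
    _ = g j * g i := by
      have : g j * g i * g j * g i = 1 := by
        calc g j * g i * g j * g i = (g i * g i) * (g j * g i * g j * g i) := by rw [a, one_mul]
          _ = g i * (g i * (g j * (g i * g j))) * g i := by simp only [mul_assoc]
          _ = 1 := by rw [h1, mul_one, a]
      rw [this, b]; simp

theorem plane {A B C D E F H : P} (a : A * A = 1) (b : B * B = 1) (c : C * C = 1) (d : D * D = 1) (e : E * E = 1)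
    (f : F * F = 1) (h : H * H = 1) (l1 : A * B * D = 1) (l2 : A * C * E = 1) (l3 : B * C * F = 1)
    (l4 : A * F * H = 1) (l5 : D * E * H = 1) : A = 1 := by
  have k : ∀ X Y Z : P, X * X = 1 → Y * Y = 1 → Z * Z = 1 → X * Y * Z = 1 → Z = X * Y ∧ Y * X = X * Y := by
    intro X Y Z x y z l
    have e1 : Z = X * Y := by
      calc Z = X * Y * Z * Z := by rw [l, one_mul]
        _ = X * Y := by rw [mul_assoc, z, mul_one]
    refine ⟨e1, ?_⟩
    rw [e1] at z
    calc Y * X = Y * X * (X * Y * (X * Y)) := by rw [z, mul_one]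
      _ = Y * (X * X) * Y * (X * Y) := by simp only [mul_assoc]
      _ = X * Y := by rw [x, mul_one, y, one_mul]
  obtain ⟨rfl, ab⟩ := k _ _ _ a b d l1
  obtain ⟨rfl, ac⟩ := k _ _ _ a c e l2
  obtain ⟨rfl, bc⟩ := k _ _ _ b c f l3
  obtain ⟨rfl, -⟩ := k _ _ _ a f h l4
  calc A = A * (B * B) * (C * C) := by rw [b, c]; simp
    _ = A * B * (B * C) * C := by simp only [mul_assoc]
    _ = A * B * (C * B) * C := by rw [bc]
    _ = A * B * ((A * A) * C) * B * C := by rw [a]; simp only [mul_assoc, one_mul]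
    _ = A * B * A * (A * C) * B * C := by simp only [mul_assoc]
    _ = A * B * A * (C * A) * B * C := by rw [ac]
    _ = 1 := by rw [← l5]; simp only [mul_assoc]

theorem line {x y u : P} (h1 : (y * u) ^ 3 = 1) (h2 : u ^ 3 = 1) :
    (x * y * x⁻¹) * ((x * u) * y * (x * u)⁻¹) * ((x * (u * u)) * y * (x * (u * u))⁻¹) = 1 := by
  have : (x * y * x⁻¹) * ((x * u) * y * (x * u)⁻¹) * ((x * (u * u)) * y * (x * (u * u))⁻¹) =
      x * ((y * u) ^ 3 * (u ^ 3)⁻¹) * x⁻¹ := by
    simp only [pow_succ, pow_zero]; group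
  rw [this, h1, h2]; simp

theorem stepB (h : ∀ r ∈ R11, ev g r = 1) (hB : ∀ w ∈ LB, ev g w = 1)
    (hC : ∀ p ∈ PC, ev g (lapp (winv p.2) p.1) ∈ grp g subs) : g 10 = ev g W1 ∧ g 10 = ev g W2 := by
  have z2 : ev g W1 * ev g W1 = 1 := by rw [← ev_lapp]; exact hB _ (by simp [LB])
  have z12 : ev g W1 = ev g W2 := by
    rw [← mul_inv_eq_one, ← ev_winv, ← ev_lapp]; exact hB _ (by simp [LB])
  have u3 : ev g U ^ 3 = 1 := by rw [← ev_wpow]; exact hB _ (by simp [LB])
  have zc : ∀ i < 9, Commute (ev g W1) (g i) := fun i hi => of_cm (hB _ (by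
    simp only [LB, List.mem_cons, List.mem_map]
    exact .inr (.inr (.inr ⟨i, by omega, rfl⟩))))
  have fc : ∀ i < 9, Commute (g 10) (g i) := fun i hi =>
    (comm h (by omega) (by omega) ((by decide +kernel : ∀ i < 9, [2 * i, 2 * 10, 2 * i, 2 * 10] ∈ R11) i hi)).symm
  have fz : Commute (g 10) (ev g W1) := comm_ev fun a ha => fc _ ((by decide +kernel : ∀ a ∈ W1, a / 2 < 9) a ha)
  have f2 := sq h 10 (by omega)
  set y := g 10 * ev g W1 with hy
  have y2 : y * y = 1 := by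
    calc y * y = g 10 * (ev g W1 * g 10) * ev g W1 := by simp only [hy, mul_assoc]
      _ = (g 10 * g 10) * (ev g W1 * ev g W1) := by rw [← fz.eq]; simp only [mul_assoc]
      _ = 1 := by rw [f2, z2, one_mul]
  have yu : (y * ev g U) ^ 3 = 1 := by
    have e : y * ev g U = g 10 * g 9 := by
      rw [U, ev_lapp, show ev g [18] = g 9 from ev_gen g 9, hy, mul_assoc, ← mul_assoc (ev g W1), z2, one_mul]
    have k := h [2 * 9, 2 * 10, 2 * 9, 2 * 10, 2 * 9, 2 * 10] (by decide +kernel)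
    simp only [ev_cons, ev_nil, lv_even, mul_one] at k
    rw [e]
    calc (g 10 * g 9) ^ 3 = (g 9)⁻¹ * (g 9 * (g 10 * (g 9 * (g 10 * (g 9 * g 10))))) * g 9 := by
          simp only [pow_succ, pow_zero]; group
      _ = 1 := by rw [k]; simp
  have cy : ∀ x ∈ grp g subs, Commute x y := fun x hx => by
    have : grp g subs ≤ Subgroup.centralizer {y} := (grp_le_iff g).2 fun w hw => by
      obtain ⟨i, hi, rfl⟩ := (by decide +kernel : ∀ w ∈ subs, ∃ i < 9, w = [2 * i]) w hw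
      rw [ev_gen, Subgroup.mem_centralizer_singleton_iff]
      exact ((fc i hi).symm.mul_right (zc i hi).symm).eq
    exact Subgroup.mem_centralizer_singleton_iff.1 (this hx)
  have Y : ∀ p ∈ PC, ev g p.1 * y * (ev g p.1)⁻¹ = ev g p.2 * y * (ev g p.2)⁻¹ := fun p hp => by
    have := (cy _ (hC p hp)).eq
    rw [ev_lapp, ev_winv] at this
    calc ev g p.1 * y * (ev g p.1)⁻¹ = ev g p.2 * ((ev g p.2)⁻¹ * ev g p.1 * y) * (ev g p.1)⁻¹ := by group
      _ = _ := by rw [this]; group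
  have s : ∀ x : P, (x * y * x⁻¹) * (x * y * x⁻¹) = 1 := fun x => by
    calc (x * y * x⁻¹) * (x * y * x⁻¹) = x * (y * y) * x⁻¹ := by group
      _ = 1 := by rw [y2]; simp
  simp only [PC, List.forall_mem_cons, ev_lapp, ev_nil] at Y
  obtain ⟨p1, p2, p3, p4, p5, p6, p7, p8, -⟩ := Y
  have l1 := line (x := 1) yu u3
  have l2 := line (x := ev g x2) yu u3
  have l3 := line (x := ev g x3) yu u3
  have l4 := line (x := ev g x4) yu u3
  have l5 := line (x := ev g x5) yu u3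
  rw [one_mul (ev g U), one_mul (ev g U * ev g U)] at l1
  rw [p1] at l2
  rw [p2, p3] at l3
  rw [p4, p5] at l4
  rw [p6, p7, p8] at l5
  have := plane (s _) (s _) (s _) (s _) (s _) (s _) (s _) l1 l2 l3 l4 l5
  have y1 : y = 1 := by simpa using this
  have : g 10 = ev g W1 := by
    calc g 10 = y * ev g W1 := by rw [hy, mul_assoc, z2, mul_one]
      _ = _ := by rw [y1, one_mul]
  exact ⟨this, this.trans z12⟩

theorem ev_tw {ζ : P} (h2 : ζ * ζ = 1) (hc : ∀ i < 11, Commute ζ (g i)) (w : Word) (hw : ∀ a ∈ w, a / 2 < 11) :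
    ev (fun i => g i * ζ) w = ev g w * ζ ^ w.length := by
  induction w with
  | nil => simp
  | cons a w ih =>
    have c : Commute ζ (ev g w) := comm_ev fun b hb => hc _ (hw b (by simp [hb]))
    have e : lv (fun i => g i * ζ) a = lv g a * ζ := by
      unfold lv; split_ifs
      · rfl
      · rw [mul_inv_rev, inv_eq_of_mul_eq_one_right h2]
        exact (hc _ (hw a (by simp))).inv_right.eq
    rw [ev_cons, ev_cons, ih fun b hb => hw b (by simp [hb]), e, List.length_cons, pow_succ', mul_assoc, mul_assoc,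
      ← mul_assoc ζ, c.eq, mul_assoc]

end

theorem key (HA : ∀ w ∈ LA, Der.{0} r8 (subst g8 (subst ρ w)))
    (HB : ∀ w ∈ LB, Der.{0} Fi23RelB.rels w)
    (HC : ∀ (P : Type) [Group P] (g : ℕ → P), (∀ r ∈ Fi23RelB.rels, ev g r = 1) →
      ∀ p ∈ PC, ev g (lapp (winv p.2) p.1) ∈ grp g subs)
    {P : Type} [Group P] {g : ℕ → P} (h : ∀ r ∈ R11, ev g r = 1) : g 10 = ev g W1 ∧ g 10 = ev g W2 := by
  have hA : ∀ w ∈ LA, ev g w = 1 := fun w hw => by
    have := HA w hw P _ (der_zip σ KS h (by decide +kernel) (by decide +kernel))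
    rwa [← ev_subst, (by decide +kernel : ∀ w ∈ LA, subst σ (subst g8 (subst ρ w)) = w) w hw] at this
  have z2 : ev g Z1 * ev g Z1 = 1 := by rw [← ev_lapp]; exact hA _ (by simp [LA])
  have z12 : ev g Z1 = ev g Z2 := by
    rw [← mul_inv_eq_one, ← ev_winv, ← ev_lapp]; exact hA _ (by simp [LA])
  have zc : ∀ i < 11, Commute (ev g Z1) (g i) := fun i hi => by
    by_cases e : i = 6 ∨ i = 9 ∨ i = 10
    · rw [z12]
      refine (comm_ev fun a ha => ?_).symm
      rcases (by decide +kernel : ∀ i < 11, (i = 6 ∨ i = 9 ∨ i = 10) → ∀ a ∈ Z2, a / 2 < 11 ∧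
        ([2 * i, 2 * (a / 2), 2 * i, 2 * (a / 2)] ∈ R11 ∨ [2 * (a / 2), 2 * i, 2 * (a / 2), 2 * i] ∈ R11)) i hi e a ha
        with ⟨b, c | c⟩
      exacts [comm h hi b c, (comm h b hi c).symm]
    · refine of_cm (hA _ ?_)
      simp only [LA, List.mem_cons, List.mem_map]
      exact .inr (.inr ⟨i, by omega, rfl⟩)
  have ev2 : ∀ n, ev g Z1 ^ (2 * n) = 1 := fun n => by rw [pow_mul, pow_two, z2, one_pow]
  have h' : ∀ r ∈ R11, ev (fun i => g i * ev g Z1) r = 1 := fun r hr => by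
    obtain ⟨a, b⟩ := (by decide +kernel : ∀ r ∈ R11, (∀ a ∈ r, a / 2 < 11) ∧ r.length = 2 * (r.length / 2)) r hr
    rw [ev_tw z2 zc r a, h r hr, b, ev2, one_mul]
  have hF : ∀ r ∈ Fi23RelB.rels, ev (fun i => g i * ev g Z1) r = 1 := fun r hr => by
    rcases (by decide +kernel : ∀ r ∈ Fi23RelB.rels, r ∈ R11 ∨ r = Z1) r hr with e | rfl
    · exact h' r e
    · rw [ev_tw z2 zc _ (by decide +kernel), (by decide +kernel : Z1.length = 2 * 31 + 1), pow_succ, ev2, one_mul, z2]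
  obtain ⟨a, b⟩ := stepB h' (fun w hw => HB w hw P _ hF) (HC P _ hF)
  rw [ev_tw z2 zc _ (by decide +kernel)] at a b
  rw [(by decide +kernel : W1.length = 2 * 31 + 1), pow_succ, ev2, one_mul] at a
  rw [(by decide +kernel : W2.length = 2 * 31 + 1), pow_succ, ev2, one_mul] at b
  exact ⟨mul_right_cancel a, mul_right_cancel b⟩

end
end CA.H12Y
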