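import Cfsg.Agent.Lib.Spor.H12Y1
import Cfsg.Agent.Lib.Spor.Fi23Pres

/-! The spider relation on `Y₅₃₂`: identities read off from `Fi₂₃`. -/

set_option autoImplicit false
set_option maxRecDepth 100000

namespace CA.H12Y
open CA.CNet CA.CWord CA.CTodd CA.CPres CA.CPoint CA.FiCover CA.FiSimple
open CA.H12YTC (r8)
open CA.Fi23RelB (gens)
open CA.Fi23Pres (C lk hlk hrel)

noncomputable section

theorem card8 : 9170703360 ≤ Nat.card (grp C.g g8) := by
  have h9 : ∀ r ∈ Fi23TC.rels9, ev C.g r = 1 := fun r hr =>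
    hrel r ((by decide +kernel : ∀ r ∈ Fi23TC.rels9, r ∈ Fi23RelB.rels) r hr)
  have h1 := (Fi23TCa.idx _ _ h9).2
  have h2 : Nat.card (grp C.g subs) = 129123503308800 := Fi23Pres.card_subs
  have hle : grp C.g g8 ≤ grp C.g subs := (grp_le_iff _).2 fun w hw =>
    mem_grp _ ((by decide : ∀ w ∈ g8, w ∈ subs) w hw)
  have h3 : Nat.card (grp C.g g8) * (grp C.g g8).relIndex (grp C.g subs) = Nat.card (grp C.g subs) := by
    rw [← Nat.card_congr (Subgroup.subgroupOfEquivOfLe hle).toEquiv]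
    exact Subgroup.card_mul_index _
  have h4 : (grp C.g g8).relIndex (grp C.g subs) ≤ 14080 := h1
  have h5 := Nat.mul_le_mul_left (Nat.card (grp C.g g8)) h4
  omega

theorem HA : ∀ w ∈ LA, Der.{0} r8 (subst g8 (subst ρ w)) := fun w hw =>
  Der.of_bound H12YTC.b_O7 (q := C.g)
    (fun r hr => hrel r ((by decide +kernel : ∀ r ∈ r8, r ∈ Fi23RelB.rels) r hr)) card8 _
    (rels_of_base hlk base23 (rels := LA.map fun w => subst g8 (subst ρ w)) (by decide +kernel) _
      (List.mem_map.2 ⟨w, hw, rfl⟩))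

theorem HB : ∀ w ∈ LB, Der.{0} Fi23RelB.rels w := fun w hw => by
  have e := (by decide +kernel : ∀ w ∈ LB, subst gens w = w) w hw
  have := Der.of_bound Fi23Pres.bound.{0} (q := C.g) hrel Fi23Pres.card.ge w
    (by rw [e]; exact rels_of_base hlk base23 (rels := LB) (by decide +kernel) w hw)
  rwa [e] at this

theorem sg {Q : Type} [Group Q] (q : ℕ → Q) {w : Word} (t : Word) (e : subst gens w = w) :
    ev q (subst gens (lapp w (winv (subst subs t)))) = ev q w * (ev q (subst subs t))⁻¹ := by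
  rw [ev_subst, ev_lapp, ← ev_subst, e, ev_winv, ev_subst, ev_subst]
  congr 3
  funext i
  rw [← ev_subst]
  by_cases hi : i < 9
  · rw [(by decide +kernel : ∀ i < 9, subst gens (nth subs [] i) = nth subs [] i) i hi]
  · obtain ⟨j, rfl⟩ : ∃ j, i = j + 9 := ⟨i - 9, by omega⟩
    rfl

theorem HC (P : Type) [Group P] (g : ℕ → P) (h : ∀ r ∈ Fi23RelB.rels, ev g r = 1) :
    ∀ p ∈ PC, ev g (lapp (winv p.2) p.1) ∈ grp g subs := fun p hp => by
  obtain ⟨e, hm⟩ := (by decide +kernel : ∀ p ∈ PC, subst gens (lapp (winv p.2) p.1) = lapp (winv p.2) p.1 ∧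
    mapsP C lk (lapp (winv p.2) p.1) 0 0 = true) p hp
  have h0 : C.ev (lapp (winv p.2) p.1) (⟨0, by decide⟩ : Fin C.n) = ⟨0, by decide⟩ := Fin.ext (mapsP_spec hlk hm)
  have h1 : C.ev (lapp (winv p.2) p.1) ∈ C.grp Fi23Pres.subs := by
    rw [← Fi23Pres.coset.2.2]
    exact ⟨e ▸ subst_mem_grp _ _ _, h0⟩
  obtain ⟨t, ht⟩ := exists_subst (g := C.g) (ws := subs) h1
  have := Der.of_bound Fi23Pres.bound.{0} (q := C.g) hrel Fi23Pres.card.ge (lapp (lapp (winv p.2) p.1) (winv (subst subs t)))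
    (by rw [sg _ t e, ht]; exact mul_inv_cancel _) P g h
  rw [sg _ t e, mul_inv_eq_one] at this
  exact this ▸ subst_mem_grp _ _ _

theorem main {P : Type} [Group P] {g : ℕ → P} (h : ∀ r ∈ R11, ev g r = 1) : g 10 = ev g W1 ∧ g 10 = ev g W2 :=
  key HA HB HC h

end
end CA.H12Y
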