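/-
Counting in Steiner systems: blocks through a set, intersection numbers.
-/
import Cfsg.Prelude.Def_Sporadic_a
import Cfsg.Agent.Lib.Eqn.E_Cfsg_pointBlockRel_eq_4

namespace CA.Steiner
open Cfsg Finset

variable {α : Type*} [Fintype α] [DecidableEq α] {t k : ℕ} {B : Set (Finset α)}

open Classical in
/-- the blocks containing `s` -/
noncomputable def bl (B : Set (Finset α)) (s : Finset α) : Finset (Finset α) := univ.filter fun b => b ∈ B ∧ s ⊆ b

theorem mem_bl {s b : Finset α} : b ∈ bl B s ↔ b ∈ B ∧ s ⊆ b := by simp [bl]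

omit [Fintype α] in
theorem eq_of_le (hB : IsSteinerSystem t k B) {b c : Finset α} (hb : b ∈ B) (hc : c ∈ B) (h : t ≤ (b ∩ c).card) :
    b = c := by
  obtain ⟨s, hs, hst⟩ := exists_subset_card_eq h
  exact (hB.2 s hst).unique ⟨hb, hs.trans inter_subset_left⟩ ⟨hc, hs.trans inter_subset_right⟩

theorem sum_choose (B : Set (Finset α)) {s Y : Finset α} (i : ℕ) :
    ∑ b ∈ bl B s, (b ∩ Y).card.choose i = ∑ u ∈ powersetCard i Y, (bl B (s ∪ u)).card := by
  have h1 : ∀ b : Finset α, (b ∩ Y).card.choose i = ∑ u ∈ powersetCard i Y, if u ⊆ b then 1 else 0 := fun b => by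
    rw [← card_filter, ← card_powersetCard]
    congr 1; ext u; simp only [mem_powersetCard, mem_filter, subset_inter_iff]; tauto
  simp only [h1]
  rw [sum_comm]
  refine sum_congr rfl fun u _ => ?_
  rw [← card_filter]
  congr 1; ext b; simp only [mem_filter, mem_bl, union_subset_iff]; tauto

theorem lam (hB : IsSteinerSystem t k B) {s : Finset α} (hs : s.card ≤ t) :
    (bl B s).card * (k - s.card).choose (t - s.card) = (Fintype.card α - s.card).choose (t - s.card) := by
  have h := sum_choose B (s := s) (Y := sᶜ) (t - s.card)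
  rw [sum_congr rfl (g := fun _ => (k - s.card).choose (t - s.card)),
    sum_congr rfl (s₁ := powersetCard _ _) (g := fun _ => 1)] at h
  · simpa [card_compl] using h
  · intro u hu
    obtain ⟨h1, h2⟩ := mem_powersetCard.1 hu
    have hd : Disjoint s u := disjoint_left.2 fun a ha hau => mem_compl.1 (h1 hau) ha
    obtain ⟨b, hb, hb'⟩ := hB.2 (s ∪ u) (by rw [card_union_of_disjoint hd, h2]; omega)
    exact card_eq_one.2 ⟨b, eq_singleton_iff_unique_mem.2 ⟨mem_bl.2 hb, fun c hc => hb' c (mem_bl.1 hc)⟩⟩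
  · intro b hb
    obtain ⟨h1, h2⟩ := mem_bl.1 hb
    rw [← sdiff_eq_inter_compl, card_sdiff_of_subset h2, hB.1 b h1]

theorem lam' (hB : IsSteinerSystem t k B) {v : ℕ} (hv : Fintype.card α = v) {s : Finset α} {j L : ℕ} (hs : s.card = j)
    (h : j ≤ t ∧ t ≤ k ∧ L * (k - j).choose (t - j) = (v - j).choose (t - j)) : (bl B s).card = L := by
  have := lam hB (s := s) (hs ▸ h.1)
  rw [hs, hv, ← h.2.2] at this
  exact Nat.eq_of_mul_eq_mul_right (Nat.choose_pos (by omega)) this

/-- the number of blocks containing `s` and meeting `Y` in `j` points -/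
noncomputable def N (B : Set (Finset α)) (s Y : Finset α) (j : ℕ) : ℕ :=
  ((bl B s).filter fun b => (b ∩ Y).card = j).card

theorem N_eq (s Y : Finset α) (j : ℕ) : N B s Y j = {b | b ∈ B ∧ s ⊆ b ∧ (b ∩ Y).card = j}.ncard := by
  rw [N, ← Set.ncard_coe_finset]; congr 1; ext b; simp [mem_bl, and_assoc]

theorem N_pos {s Y b : Finset α} (hb : b ∈ B) (hs : s ⊆ b) : 0 < N B s Y (b ∩ Y).card :=
  card_pos.2 ⟨b, mem_filter.2 ⟨mem_bl.2 ⟨hb, hs⟩, rfl⟩⟩

theorem N_zero {s Y : Finset α} {j : ℕ} (h : ∀ b ∈ B, s ⊆ b → (b ∩ Y).card ≠ j) : N B s Y j = 0 :=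
  card_eq_zero.2 (filter_eq_empty_iff.2 fun _ hb => h _ (mem_bl.1 hb).1 (mem_bl.1 hb).2)

theorem mom (hB : IsSteinerSystem t k B) {v : ℕ} (hv : Fintype.card α = v) {s Y : Finset α} (hd : Disjoint s Y)
    {a y : ℕ} (hs : s.card = a) (hY : Y.card = y) (i L : ℕ)
    (h : a + i ≤ t ∧ t ≤ k ∧ L * (k - (a + i)).choose (t - (a + i)) = (v - (a + i)).choose (t - (a + i))) :
    ∑ j ∈ range (y + 1), j.choose i * N B s Y j = y.choose i * L := by
  have h1 := sum_choose B (s := s) (Y := Y) i
  rw [sum_congr rfl (s₁ := powersetCard i Y) (g := fun _ => L)] at h1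
  · rw [sum_const, card_powersetCard, hY, smul_eq_mul] at h1
    rw [← h1, ← sum_fiberwise_of_maps_to (s := bl B s) (t := range (y + 1)) (g := fun b => (b ∩ Y).card)]
    · refine sum_congr rfl fun j _ => ?_
      rw [sum_congr rfl (g := fun _ => j.choose i) fun b hb => by rw [(mem_filter.1 hb).2], sum_const, smul_eq_mul,
        mul_comm, N]
    · intro b _
      exact mem_range.2 (Nat.lt_succ_of_le (hY ▸ card_le_card inter_subset_right))
  · intro u hu
    obtain ⟨h1, h2⟩ := mem_powersetCard.1 hu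
    exact lam' hB hv (by rw [card_union_of_disjoint (hd.mono_right h1), hs, h2]) h

theorem Nb (hB : IsSteinerSystem t k B) {b s : Finset α} (hb : b ∈ B) (hs : s ⊆ b) {a : ℕ} (ha : s.card = a) (j : ℕ)
    (h : t ≤ a + j ∧ a + j ≠ k) : N B s (b \ s) j = 0 := by
  refine N_zero fun c hc hsc e => h.2 ?_
  have e1 : (c ∩ b).card = a + j := by
    rw [← e, ← ha, ← card_union_of_disjoint (disjoint_sdiff.mono_right inter_subset_right)]
    congr 1; ext x; simp only [mem_inter, mem_union, mem_sdiff]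
    have := @hs x; have := @hsc x; tauto
  have := eq_of_le hB hc hb (by omega)
  rw [← e1, this, inter_self, hB.1 b hb]

theorem Nb0 (hB : IsSteinerSystem t k B) {b : Finset α} (hb : b ∈ B) (j : ℕ) (h : t ≤ j ∧ j ≠ k) : N B ∅ b j = 0 := by
  have := Nb hB hb (empty_subset b) card_empty j (by omega)
  rwa [sdiff_empty] at this

theorem N_exact {b s : Finset α} (hs : s ⊆ b) : N B s (b \ s) 0 = {c | c ∈ B ∧ b ∩ c = s}.ncard := by
  rw [N_eq]; congr 1; ext c
  simp only [Set.mem_ofPred_eq, card_eq_zero, and_congr_right_iff, Finset.ext_iff, mem_inter, mem_sdiff,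
    notMem_empty, subset_iff]
  intro _
  constructor
  · rintro ⟨h1, h2⟩ x; have := @hs x; have := @h1 x; have := h2 x; tauto
  · intro h; exact ⟨fun x hx => ((h x).2 hx).2, fun x => by have := h x; tauto⟩

theorem N_empty (Y : Finset α) (j : ℕ) : N B ∅ Y j = {b | b ∈ B ∧ (b ∩ Y).card = j}.ncard := by
  rw [N_eq]; simp

theorem ncard_eq (hB : IsSteinerSystem t k B) {v L : ℕ} (hv : Fintype.card α = v)
    (h : 0 ≤ t ∧ t ≤ k ∧ L * (k - 0).choose (t - 0) = (v - 0).choose (t - 0)) : B.ncard = L := by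
  rw [← lam' hB hv card_empty h, ← Set.ncard_coe_finset]; congr 1; ext b; simp [mem_bl]

theorem ncard_bl (s : Finset α) : {b | b ∈ B ∧ s ⊆ b}.ncard = (bl B s).card := by
  rw [← Set.ncard_coe_finset]; congr 1; ext b; simp [mem_bl]

/-! ### The Witt designs -/

theorem N24 (hv : Fintype.card α = 24) (hB : IsSteinerSystem 5 8 B) {b : Finset α} (hb : b ∈ B) :
    N B ∅ b 0 = 30 ∧ N B ∅ b 1 = 0 ∧ N B ∅ b 3 = 0 := by
  have m := fun i L => mom hB hv (disjoint_empty_left b) card_empty (hB.1 b hb) i L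
  have h0 := m 0 759 (by decide); have h1 := m 1 253 (by decide); have h2 := m 2 77 (by decide)
  have h3 := m 3 21 (by decide); have h4 := m 4 5 (by decide); have h5 := m 5 1 (by decide)
  have := Nb0 hB hb 5 (by decide); have := Nb0 hB hb 6 (by decide); have := Nb0 hB hb 7 (by decide)
  simp [sum_range_succ, Nat.choose] at h0 h1 h2 h3 h4 h5
  omega

theorem N23 (hv : Fintype.card α = 23) (hB : IsSteinerSystem 4 7 B) {b : Finset α} (hb : b ∈ B) :
    N B ∅ b 0 = 0 ∧ N B ∅ b 2 = 0 := by
  have m := fun i L => mom hB hv (disjoint_empty_left b) card_empty (hB.1 b hb) i L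
  have h0 := m 0 253 (by decide); have h1 := m 1 77 (by decide); have h2 := m 2 21 (by decide)
  have h3 := m 3 5 (by decide); have h4 := m 4 1 (by decide)
  have := Nb0 hB hb 4 (by decide); have := Nb0 hB hb 5 (by decide); have := Nb0 hB hb 6 (by decide)
  simp [sum_range_succ, Nat.choose] at h0 h1 h2 h3 h4
  omega

theorem N22 (hv : Fintype.card α = 22) (hB : IsSteinerSystem 3 6 B) {b : Finset α} (hb : b ∈ B) :
    N B ∅ b 0 = 16 ∧ N B ∅ b 1 = 0 := by
  have m := fun i L => mom hB hv (disjoint_empty_left b) card_empty (hB.1 b hb) i L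
  have h0 := m 0 77 (by decide); have h1 := m 1 21 (by decide); have h2 := m 2 5 (by decide)
  have h3 := m 3 1 (by decide)
  have := Nb0 hB hb 3 (by decide); have := Nb0 hB hb 4 (by decide); have := Nb0 hB hb 5 (by decide)
  simp [sum_range_succ, Nat.choose] at h0 h1 h2 h3
  omega

theorem N12 (hv : Fintype.card α = 12) (hB : IsSteinerSystem 5 6 B) {b : Finset α} (hb : b ∈ B) :
    N B ∅ b 0 = 1 ∧ N B ∅ b 1 = 0 := by
  have m := fun i L => mom hB hv (disjoint_empty_left b) card_empty (hB.1 b hb) i L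
  have h0 := m 0 132 (by decide); have h1 := m 1 66 (by decide); have h2 := m 2 30 (by decide)
  have h3 := m 3 12 (by decide); have h4 := m 4 4 (by decide); have h5 := m 5 1 (by decide)
  have := Nb0 hB hb 5 (by decide)
  simp [sum_range_succ, Nat.choose] at h0 h1 h2 h3 h4 h5
  omega

omit [Fintype α] in
theorem inter_lt (hB : IsSteinerSystem t k B) {b c : Finset α} (hb : b ∈ B) (hc : c ∈ B) (h : b ≠ c) :
    (b ∩ c).card < t := lt_of_not_ge fun h' => h (eq_of_le hB hb hc h')

theorem inter24 (hv : Fintype.card α = 24) (hB : IsSteinerSystem 5 8 B) {b c : Finset α} (hb : b ∈ B) (hc : c ∈ B)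
    (h : b ≠ c) : (b ∩ c).card = 0 ∨ (b ∩ c).card = 2 ∨ (b ∩ c).card = 4 := by
  have h1 := inter_lt hB hb hc h
  have h2 := N_pos (s := ∅) (Y := c) hb (empty_subset _)
  obtain ⟨-, h3, h4⟩ := N24 hv hB hc
  generalize (b ∩ c).card = n at *
  interval_cases n <;> simp_all

theorem inter23 (hv : Fintype.card α = 23) (hB : IsSteinerSystem 4 7 B) {b c : Finset α} (hb : b ∈ B) (hc : c ∈ B)
    (h : b ≠ c) : (b ∩ c).card = 1 ∨ (b ∩ c).card = 3 := by
  have h1 := inter_lt hB hb hc h
  have h2 := N_pos (s := ∅) (Y := c) hb (empty_subset _)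
  obtain ⟨h3, h4⟩ := N23 hv hB hc
  generalize (b ∩ c).card = n at *
  interval_cases n <;> simp_all

theorem inter22 (hv : Fintype.card α = 22) (hB : IsSteinerSystem 3 6 B) {b c : Finset α} (hb : b ∈ B) (hc : c ∈ B)
    (h : b ≠ c) : (b ∩ c).card = 0 ∨ (b ∩ c).card = 2 := by
  have h1 := inter_lt hB hb hc h
  have h2 := N_pos (s := ∅) (Y := c) hb (empty_subset _)
  obtain ⟨-, h4⟩ := N22 hv hB hc
  generalize (b ∩ c).card = n at *
  interval_cases n <;> simp_all

theorem inter12 (hv : Fintype.card α = 12) (hB : IsSteinerSystem 5 6 B) {b c : Finset α} (hb : b ∈ B) (hc : c ∈ B)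
    (h : b ≠ c) : (b ∩ c).card = 0 ∨ (b ∩ c).card = 2 ∨ (b ∩ c).card = 3 ∨ (b ∩ c).card = 4 := by
  have h1 := inter_lt hB hb hc h
  have h2 := N_pos (s := ∅) (Y := c) hb (empty_subset _)
  obtain ⟨-, h4⟩ := N12 hv hB hc
  generalize (b ∩ c).card = n at *
  interval_cases n <;> simp_all

theorem compl12 (hv : Fintype.card α = 12) (hB : IsSteinerSystem 5 6 B) {b : Finset α} (hb : b ∈ B) : bᶜ ∈ B := by
  have h := (N12 hv hB hb).1
  rw [N_empty] at h
  obtain ⟨c, hc⟩ := Set.ncard_eq_one.1 h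
  have : c ∈ {c | c ∈ B ∧ (c ∩ b).card = 0} := by rw [hc]; rfl
  obtain ⟨h1, h2⟩ := this
  have : c = bᶜ := eq_of_subset_of_card_le
    (fun x hx => mem_compl.2 fun hxb => by simpa [card_eq_zero.1 h2] using mem_inter.2 ⟨hx, hxb⟩)
    (by rw [card_compl, hv, hB.1 b hb, hB.1 c h1])
  exact this ▸ h1

theorem disj22 (hv : Fintype.card α = 22) (hB : IsSteinerSystem 3 6 B) {b : Finset α} (hb : b ∈ B) :
    {c | c ∈ B ∧ Disjoint c b}.ncard = 16 := by
  rw [← (N22 hv hB hb).1, N_empty]; simp only [card_eq_zero, disjoint_iff_inter_eq_empty]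

theorem pt22 (hv : Fintype.card α = 22) (hB : IsSteinerSystem 3 6 B) {b : Finset α} (hb : b ∈ B) {p : α}
    (hp : p ∉ b) : {c | c ∈ B ∧ p ∈ c ∧ Disjoint c b}.ncard = 6 := by
  have m := fun i L => mom hB hv (disjoint_singleton_left.2 hp) (card_singleton p) (hB.1 b hb) i L
  have h0 := m 0 21 (by decide); have h1 := m 1 5 (by decide)
  have z : ∀ j, j ≠ 0 → j ≠ 2 → N B {p} b j = 0 := fun j h0 h2 => N_zero fun c hc hpc e => by
    have := inter22 hv hB hc hb (fun e => hp (e ▸ hpc (mem_singleton_self p)))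
    omega
  simp [sum_range_succ, z] at h0 h1
  have : N B {p} b 0 = 6 := by omega
  rw [← this, N_eq]; simp only [card_eq_zero, disjoint_iff_inter_eq_empty, singleton_subset_iff]

theorem two22 (hv : Fintype.card α = 22) (hB : IsSteinerSystem 3 6 B) {b c : Finset α} (hb : b ∈ B) (hc : c ∈ B)
    (h : b ≠ c) : {d | d ∈ B ∧ Disjoint d b ∧ Disjoint d c}.ncard = 2 * (b ∩ c).card := by
  have e : {d | d ∈ B ∧ Disjoint d b ∧ Disjoint d c}.ncard = N B ∅ (b ∪ c) 0 := by
    rw [N_empty]; simp only [card_eq_zero, ← disjoint_iff_inter_eq_empty, disjoint_union_right]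
  have hu := card_union_add_card_inter b c
  rw [hB.1 b hb, hB.1 c hc] at hu
  have key : ∀ d ∈ B, (d ∩ (b ∪ c)).card + (d ∩ b ∩ (d ∩ c)).card = (d ∩ b).card + (d ∩ c).card ∧
      (d ∩ b ∩ (d ∩ c)).card ≤ (d ∩ b).card ∧ (d ∩ b ∩ (d ∩ c)).card ≤ (d ∩ c).card ∧
      (d ∩ b ∩ (d ∩ c)).card ≤ (b ∩ c).card ∧ (d ∩ (b ∪ c)).card ≤ 6 ∧
      ((d ∩ b).card = 0 ∨ (d ∩ b).card = 2 ∨ (d = b ∧ (d ∩ b).card = 6)) ∧
      ((d ∩ c).card = 0 ∨ (d ∩ c).card = 2 ∨ (d = c ∧ (d ∩ c).card = 6)) := fun d hd => by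
    refine ⟨by rw [inter_union_distrib_left, card_union_add_card_inter], card_le_card inter_subset_left,
      card_le_card inter_subset_right, card_le_card (inter_subset_inter inter_subset_right inter_subset_right),
      hB.1 d hd ▸ card_le_card inter_subset_left, ?_, ?_⟩
    · by_cases e : d = b
      · subst e; simp [hB.1 d hd]
      · have := inter22 hv hB hd hb e; tauto
    · by_cases e : d = c
      · subst e; simp [hB.1 d hd]
      · have := inter22 hv hB hd hc e; tauto
  have z : ∀ j, (j = 1 ∨ j = 5 ∨ 6 < j ∨ (j = 3 ∧ (b ∩ c).card = 0)) → N B ∅ (b ∪ c) j = 0 := fun j hj =>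
    N_zero fun d hd _ e => by have := key d hd; omega
  have n6 : N B ∅ (b ∪ c) 6 = 2 := by
    rw [N_empty, ← Set.ncard_pair h]; congr 1; ext d
    simp only [Set.mem_ofPred_eq, Set.mem_insert_iff, Set.mem_singleton_iff]
    constructor
    · rintro ⟨hd, e⟩
      have := key d hd
      by_contra hn
      rw [not_or] at hn
      simp only [hn.1, hn.2, false_and, or_false] at this
      omega
    · rintro (rfl | rfl)
      · exact ⟨hb, by rw [inter_eq_left.2 subset_union_left, hB.1 _ hb]⟩
      · exact ⟨hc, by rw [inter_eq_left.2 subset_union_right, hB.1 _ hc]⟩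
  rw [e]
  rcases inter22 hv hB hb hc h with h0 | h0
  · have m := fun i L => mom hB hv (disjoint_empty_left (b ∪ c)) card_empty (show (b ∪ c).card = 12 by omega) i L
    have h0' := m 0 77 (by decide); have h1 := m 1 21 (by decide); have h2 := m 2 5 (by decide)
    have h3 := m 3 1 (by decide)
    simp [sum_range_succ, Nat.choose, z, h0, n6] at h0' h1 h2 h3
    omega
  · have m := fun i L => mom hB hv (disjoint_empty_left (b ∪ c)) card_empty (show (b ∪ c).card = 10 by omega) i L
    have h0' := m 0 77 (by decide); have h1 := m 1 21 (by decide); have h2 := m 2 5 (by decide)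
    have h3 := m 3 1 (by decide)
    simp [sum_range_succ, Nat.choose, z, n6] at h0' h1 h2 h3
    omega

/-! ### The two strongly regular graphs of an `S(3, 6, 22)` -/

omit [Fintype α] [DecidableEq α] in
theorem ncard_sub (P : Finset α → Prop) : {b : B | P b}.ncard = {b | b ∈ B ∧ P b}.ncard := by
  rw [← Set.ncard_image_of_injective _ Subtype.val_injective]; congr 1; ext b; simp [and_comm]

omit [Fintype α] [DecidableEq α] in
theorem block_ne (hB : IsSteinerSystem 3 6 B) {b c : B} (h : Disjoint (b : Finset α) c) : b ≠ c := by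
  rintro rfl
  have := hB.1 _ b.2
  rw [disjoint_self.1 h] at this
  simp at this

omit [Fintype α] [DecidableEq α] in
theorem adj_block (hB : IsSteinerSystem 3 6 B) {b c : B} : (blockGraph B).Adj b c ↔ Disjoint (b : Finset α) c := by
  rw [blockGraph, SimpleGraph.fromRel_adj]
  exact ⟨fun h => h.2.elim id fun h => h.symm, fun h => ⟨block_ne hB h, Or.inl h⟩⟩

theorem srg_of {V : Type*} [Fintype V] {G : SimpleGraph V} [DecidableRel G.Adj] {n d l m : ℕ}
    (h0 : Nat.card V = n) (h1 : ∀ v, {w | G.Adj v w}.ncard = d)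
    (h2 : ∀ v w, v ≠ w → {x | G.Adj v x ∧ G.Adj w x}.ncard = if G.Adj v w then l else m) : G.IsSRGWith n d l m := by
  have e : ∀ v w, Fintype.card (G.commonNeighbors v w) = {x | G.Adj v x ∧ G.Adj w x}.ncard := fun v w => by
    rw [← Nat.card_eq_fintype_card]; rfl
  refine ⟨by rw [← h0, Nat.card_eq_fintype_card], fun v => ?_, fun v w h => ?_, fun v w hne h => ?_⟩
  · rw [← h1 v, ← SimpleGraph.card_neighborSet_eq_degree, ← Nat.card_eq_fintype_card]; rfl
  · rw [e, h2 v w h.ne, if_pos h]
  · rw [e, h2 v w hne, if_neg h]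

theorem srg_ncard {V : Type*} [Fintype V] {G : SimpleGraph V} [DecidableRel G.Adj] {n d l m : ℕ}
    (h : G.IsSRGWith n d l m) : (∀ v, {w | G.Adj v w}.ncard = d) ∧
      (∀ v w, G.Adj v w → {x | G.Adj v x ∧ G.Adj w x}.ncard = l) ∧
      ∀ v w, v ≠ w → ¬ G.Adj v w → {x | G.Adj v x ∧ G.Adj w x}.ncard = m := by
  have e : ∀ v w, Fintype.card (G.commonNeighbors v w) = {x | G.Adj v x ∧ G.Adj w x}.ncard := fun v w => by
    rw [← Nat.card_eq_fintype_card]; rfl
  refine ⟨fun v => ?_, fun v w hvw => e v w ▸ h.of_adj v w hvw, fun v w hne hvw => e v w ▸ h.of_not_adj hne hvw⟩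
  rw [← h.regular v, ← SimpleGraph.card_neighborSet_eq_degree, ← Nat.card_eq_fintype_card]; rfl

theorem ncard22 (hv : Fintype.card α = 22) (hB : IsSteinerSystem 3 6 B) : B.ncard = 77 := ncard_eq hB hv (by decide)

theorem srg77 (hv : Fintype.card α = 22) (hB : IsSteinerSystem 3 6 B) [Fintype B] [DecidableRel (blockGraph B).Adj] :
    (blockGraph B).IsSRGWith 77 16 0 4 := by
  refine srg_of (ncard22 hv hB) (fun b => ?_) fun b c h => ?_
  · simp only [adj_block hB, disjoint_comm (a := (b : Finset α))]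
    rw [ncard_sub fun c => Disjoint c (b : Finset α), disj22 hv hB b.2]
  · have hne : (b : Finset α) ≠ c := fun e => h (Subtype.ext e)
    have e : ∀ x y : B, (blockGraph B).Adj x y ↔ Disjoint (y : Finset α) x := fun x y =>
      (adj_block hB).trans disjoint_comm
    simp only [e]
    rw [ncard_sub fun d => Disjoint d (b : Finset α) ∧ Disjoint d (c : Finset α), two22 hv hB b.2 c.2 hne]
    have := inter22 hv hB b.2 c.2 hne
    split_ifs with h' <;> rw [disjoint_iff_inter_eq_empty, inter_comm, ← card_eq_zero] at h' <;> omega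

omit [Fintype α] [DecidableEq α] in
theorem ncard_opt [Finite α] (S : Set (Option (α ⊕ B))) [Decidable (none ∈ S)] : S.ncard =
    (if none ∈ S then 1 else 0) + {a | some (Sum.inl a) ∈ S}.ncard + {b | some (Sum.inr b) ∈ S}.ncard := by
  classical
  have := Fintype.ofFinite α
  have := Fintype.ofFinite B
  have e : ∀ {β : Type _} [Fintype β] (T : Set β), T.ncard = ∑ x, if x ∈ T then 1 else 0 := fun T => by
    rw [← card_filter, ← Set.ncard_coe_finset]; congr 1; ext; simp
  rw [e, e, e, Fintype.sum_option, Fintype.sum_sum_type, add_assoc]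
  congr

section
omit [Fintype α]
variable (hB : IsSteinerSystem 3 6 B)

omit [DecidableEq α] in
theorem adj_np (a : α) : (pointBlockGraph B).Adj none (some (Sum.inl a)) := by
  simp [pointBlockGraph, SimpleGraph.fromRel_adj, pointBlockRel]
omit [DecidableEq α] in
theorem adj_pn (a : α) : (pointBlockGraph B).Adj (some (Sum.inl a)) none := (adj_np a).symm
omit [DecidableEq α] in
theorem adj_nb (b : B) : ¬ (pointBlockGraph B).Adj none (some (Sum.inr b)) := by
  simp [pointBlockGraph, SimpleGraph.fromRel_adj, pointBlockRel]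
omit [DecidableEq α] in
theorem adj_bn (b : B) : ¬ (pointBlockGraph B).Adj (some (Sum.inr b)) none := fun h => adj_nb b h.symm
omit [DecidableEq α] in
theorem adj_pp (a a' : α) : ¬ (pointBlockGraph B).Adj (some (Sum.inl a)) (some (Sum.inl a')) := by
  simp [pointBlockGraph, SimpleGraph.fromRel_adj, pointBlockRel]
omit [DecidableEq α] in
theorem adj_pb (a : α) (b : B) :
    (pointBlockGraph B).Adj (some (Sum.inl a)) (some (Sum.inr b)) ↔ a ∈ (b : Finset α) := by
  simp [pointBlockGraph, SimpleGraph.fromRel_adj, pointBlockRel]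
omit [DecidableEq α] in
theorem adj_bp (a : α) (b : B) :
    (pointBlockGraph B).Adj (some (Sum.inr b)) (some (Sum.inl a)) ↔ a ∈ (b : Finset α) := by
  rw [SimpleGraph.adj_comm, adj_pb]
omit [DecidableEq α] in
include hB in
theorem adj_bb (b c : B) :
    (pointBlockGraph B).Adj (some (Sum.inr b)) (some (Sum.inr c)) ↔ Disjoint (c : Finset α) b := by
  rw [pointBlockGraph, SimpleGraph.fromRel_adj]
  exact ⟨fun h => h.2.elim (fun h => Disjoint.symm h) id, fun h => ⟨by simpa using (block_ne hB h).symm, Or.inr h⟩⟩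
end

theorem card100 (hv : Fintype.card α = 22) (hB : IsSteinerSystem 3 6 B) : Nat.card (Option (α ⊕ B)) = 100 := by
  rw [Finite.card_option, Nat.card_sum, Nat.card_eq_fintype_card, hv]
  exact congrArg (22 + · + 1) (ncard22 hv hB)

theorem srg100 (hv : Fintype.card α = 22) (hB : IsSteinerSystem 3 6 B) [Fintype B]
    [DecidableRel (pointBlockGraph B).Adj] : (pointBlockGraph B).IsSRGWith 100 22 0 6 := by
  classical
  have c6 : ∀ b : B, {a | a ∈ (b : Finset α)}.ncard = 6 := fun b => (Set.ncard_coe_finset _).trans (hB.1 _ b.2)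
  have key : ∀ v w, v ≠ w → (v = none ∨ (v ≠ none ∧ w ≠ none ∧ ((∃ a, v = some (Sum.inl a)) ∨
      ∃ b c, v = some (Sum.inr b) ∧ w = some (Sum.inr c)))) →
      {x | (pointBlockGraph B).Adj v x ∧ (pointBlockGraph B).Adj w x}.ncard =
        if (pointBlockGraph B).Adj v w then 0 else 6 := by
    rintro v w hne (rfl | ⟨-, hw, ⟨a, rfl⟩ | ⟨b, c, rfl, rfl⟩⟩)
    · rw [ncard_opt]
      rcases w with _ | a | b
      · exact absurd rfl hne
      · simp [adj_np, adj_nb, adj_pp]
      · simp [adj_np, adj_nb, adj_bp, hB.1 _ b.2]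
    · rw [ncard_opt]
      rcases w with _ | a' | b
      · exact absurd rfl hw
      · have h2 : a ≠ a' := by simpa using hne
        simp only [Set.mem_ofPred_eq, adj_pn, adj_pp, adj_pb, and_self, if_true, if_false, Set.ofPred_false,
          Set.ncard_empty]
        rw [ncard_sub fun b => a ∈ b ∧ a' ∈ b, show 6 = 1 + 0 + 5 from rfl, ← show (bl B {a, a'}).card = 5 from
          lam' hB hv (card_pair h2) (by decide), ← ncard_bl]
        simp [insert_subset_iff]
      · simp only [Set.mem_ofPred_eq, adj_pn, adj_bn, adj_pp, adj_pb, adj_bb hB, and_false, false_and, if_false,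
          Set.ofPred_false, Set.ncard_empty]
        rw [ncard_sub fun c => a ∈ c ∧ Disjoint c (b : Finset α)]
        split_ifs with h
        · simp only [zero_add, Set.ncard_eq_zero (Set.toFinite _), Set.eq_empty_iff_forall_notMem]
          exact fun c hc => disjoint_left.1 hc.2.2 hc.2.1 h
        · rw [pt22 hv hB b.2 h]
    · rw [ncard_opt]
      have h2 : (b : Finset α) ≠ c := fun e => hne (by rw [Subtype.ext e])
      simp only [Set.mem_ofPred_eq, adj_bn, adj_bp, adj_bb hB, and_false, if_false]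
      rw [ncard_sub fun d => Disjoint d (b : Finset α) ∧ Disjoint d (c : Finset α), two22 hv hB b.2 c.2 h2,
        show {a | a ∈ (b : Finset α) ∧ a ∈ (c : Finset α)} = ((b ∩ c : Finset α) : Set α) by ext; simp,
        Set.ncard_coe_finset]
      have := inter22 hv hB b.2 c.2 h2
      split_ifs with h' <;> rw [disjoint_iff_inter_eq_empty, inter_comm, ← card_eq_zero] at h' <;> omega
  refine srg_of (card100 hv hB) (fun v => ?_) fun v w h => ?_
  · rw [ncard_opt]
    rcases v with _ | a | b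
    · simp [adj_np, adj_nb, hv]
    · simp only [Set.mem_ofPred_eq, adj_pn, adj_pp, adj_pb, if_true, Set.ofPred_false, Set.ncard_empty]
      rw [ncard_sub fun b => a ∈ b, show 22 = 1 + 0 + 21 from rfl, ← show (bl B {a}).card = 21 from
        lam' hB hv (card_singleton a) (by decide), ← ncard_bl]
      simp
    · simp only [Set.mem_ofPred_eq, adj_bn, adj_bp, adj_bb hB, if_false, c6]
      rw [ncard_sub fun c => Disjoint c (b : Finset α), disj22 hv hB b.2]
  · have sy : {x | (pointBlockGraph B).Adj w x ∧ (pointBlockGraph B).Adj v x}.ncard =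
        (if (pointBlockGraph B).Adj w v then 0 else 6) → {x | (pointBlockGraph B).Adj v x ∧
          (pointBlockGraph B).Adj w x}.ncard = if (pointBlockGraph B).Adj v w then 0 else 6 := by
      simp only [and_comm, (pointBlockGraph B).adj_comm w v]; exact id
    rcases v with _ | a | b
    · exact key _ _ h (Or.inl rfl)
    · rcases w with _ | w
      · exact sy (key _ _ h.symm (Or.inl rfl))
      · exact key _ _ h (Or.inr ⟨by simp, by simp, Or.inl ⟨a, rfl⟩⟩)
    · rcases w with _ | a | c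
      · exact sy (key _ _ h.symm (Or.inl rfl))
      · exact sy (key _ _ h.symm (Or.inr ⟨by simp, by simp, Or.inl ⟨a, rfl⟩⟩))
      · exact key _ _ h (Or.inr ⟨by simp, by simp, Or.inr ⟨b, c, rfl, rfl⟩⟩)

end CA.Steiner
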