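/-
The strongly regular graph with parameters (100, 22, 0, 6): uniqueness and automorphism group.
-/
import Cfsg.Agent.Lib.Spor.Steiner
import Cfsg.Agent.Lib.Spor.StModel
import Cfsg.Agent.S0414
import Cfsg.Agent.Lib.Perm.PermBasic
import Cfsg.Agent.Lib.Spor.LeechI

set_option linter.unusedSectionVars false

namespace CA.H17Srg
open Cfsg Finset CA.Steiner

section A
variable {V : Type*} [Fintype V] [DecidableEq V] {G : SimpleGraph V} [DecidableRel G.Adj]

/-- vertices at distance two -/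
def D (G : SimpleGraph V) [DecidableRel G.Adj] (v : V) : Finset V := univ.filter fun x => x ≠ v ∧ ¬ G.Adj v x

/-- the block of a vertex -/
def blk (G : SimpleGraph V) [DecidableRel G.Adj] (v x : V) : Finset (G.neighborSet v) :=
  univ.filter fun p => G.Adj x p

theorem mem_D {v x : V} : x ∈ D G v ↔ x ≠ v ∧ ¬ G.Adj v x := by simp [D]

theorem mem_blk {v x : V} {p : G.neighborSet v} : p ∈ blk G v x ↔ G.Adj x p := by simp [blk]

theorem card_filter_ncard (P : V → Prop) [DecidablePred P] : (univ.filter P).card = {x | P x}.ncard := by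
  rw [← Set.ncard_coe_finset]; congr 1; ext; simp

variable (hG : G.IsSRGWith 100 22 0 6)
include hG

theorem no_tri {x y z : V} (h1 : G.Adj x y) (h2 : G.Adj x z) : ¬ G.Adj y z := fun h3 => by
  have := (srg_ncard hG).2.1 x y h1
  rw [Set.ncard_eq_zero] at this
  exact (this ▸ (⟨h2, h3⟩ : z ∈ {w | G.Adj x w ∧ G.Adj y w}) : z ∈ (∅ : Set V))

theorem card_nb (v : V) : Fintype.card (G.neighborSet v) = 22 := by
  rw [G.card_neighborSet_eq_degree]; exact hG.regular v

theorem card_D (v : V) : (D G v).card = 77 := by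
  have h1 : (univ.filter fun x => G.Adj v x).card = 22 := by
    rw [card_filter_ncard]; exact (srg_ncard hG).1 v
  have h2 : D G v = (univ \ univ.filter fun x => G.Adj v x).erase v := by ext x; simp [mem_D]
  rw [h2, card_erase_of_mem (by simp), card_sdiff_of_subset (subset_univ _), h1, card_univ, hG.card]

theorem card_blk {v x : V} (hx : x ∈ D G v) : (blk G v x).card = 6 := by
  obtain ⟨h1, h2⟩ := mem_D.1 hx
  rw [← (srg_ncard hG).2.2 v x h1.symm h2, ← card_filter_ncard, ← card_map (Function.Embedding.subtype _)]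
  congr 1; ext y; simp [mem_blk, and_comm]

theorem card_two {v : V} (p q : G.neighborSet v) :
    ((D G v).filter fun y => G.Adj y p ∧ G.Adj y q).card = if p = q then 21 else 5 := by
  have h : (D G v).filter (fun y => G.Adj y p ∧ G.Adj y q) =
      (univ.filter fun y => G.Adj p y ∧ G.Adj q y).erase v := by
    ext y
    simp only [mem_filter, mem_D, mem_erase, mem_univ, true_and, G.adj_comm y]
    exact ⟨fun h => ⟨h.1.1, h.2⟩, fun h => ⟨⟨h.1, fun h' => no_tri hG p.2 h' h.2.1⟩, h.2⟩⟩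
  rw [h, card_erase_of_mem (by simpa using ⟨p.2.symm, q.2.symm⟩), card_filter_ncard]
  split_ifs with e
  · subst e; simp only [and_self]; rw [(srg_ncard hG).1]
  · rw [(srg_ncard hG).2.2 _ _ (fun h => e (Subtype.ext h)) (no_tri hG p.2 q.2)]

theorem card_adj_D {v x : V} (hx : x ∈ D G v) : ((D G v).filter fun y => G.Adj x y).card = 16 := by
  have h1 : (univ.filter fun y => G.Adj x y).card = 22 := by
    rw [card_filter_ncard]; exact (srg_ncard hG).1 x
  have h2 : univ.filter (fun y => G.Adj x y) =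
      (D G v).filter (fun y => G.Adj x y) ∪ (blk G v x).map (Function.Embedding.subtype _) := by
    ext y
    simp only [mem_filter, mem_univ, true_and, mem_union, mem_D, mem_map, mem_blk, Function.Embedding.coe_subtype,
      Subtype.exists, SimpleGraph.mem_neighborSet, exists_and_left, exists_prop, exists_eq_right_right]
    refine ⟨fun h => ?_, fun h => h.elim (·.2) (·.1)⟩
    by_cases h' : G.Adj v y
    · exact Or.inr ⟨h, h'⟩
    · exact Or.inl ⟨⟨by rintro rfl; exact (mem_D.1 hx).2 h.symm, h'⟩, h⟩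
  rw [h2, card_union_of_disjoint, card_map, card_blk hG hx] at h1
  · omega
  · rw [disjoint_left]
    intro y hy hy'
    obtain ⟨p, -, rfl⟩ := mem_map.1 hy'
    exact (mem_D.1 (mem_filter.1 hy).1).2 p.2

theorem inter_adj {v x y : V} (h : G.Adj x y) : Disjoint (blk G v x) (blk G v y) :=
  disjoint_left.2 fun _ h1 h2 => no_tri hG h (mem_blk.1 h1) (mem_blk.1 h2)

theorem inter_two {v x y : V} (hx : x ∈ D G v) (hy : y ∈ D G v) (h1 : y ≠ x) (h2 : ¬ G.Adj x y) :
    (blk G v x ∩ blk G v y).card = 2 := by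
  have e1 : ∀ y, ((blk G v x ∩ blk G v y).card : ℤ) = ∑ p ∈ blk G v x, if G.Adj y p then 1 else 0 := fun y => by
    rw [sum_boole]; congr 2; ext p; simp [mem_blk]
  have c : ∀ p q : G.neighborSet v, (∑ y ∈ D G v, if G.Adj y p ∧ G.Adj y q then (1 : ℤ) else 0) =
      if p = q then 21 else 5 := fun p q => by
    rw [sum_boole, card_two hG]; split_ifs <;> rfl
  have s1 : ∑ y ∈ D G v, ((blk G v x ∩ blk G v y).card : ℤ) = 126 := by
    simp only [e1]
    rw [sum_comm, sum_congr rfl (g := fun _ => 21) fun p _ => by simpa using c p p]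
    simp [card_blk hG hx]
  have s2 : ∑ y ∈ D G v, ((blk G v x ∩ blk G v y).card : ℤ) ^ 2 = 276 := by
    simp only [e1, sq, sum_mul_sum, ite_zero_mul_ite_zero, one_mul]
    rw [sum_comm]
    rw [sum_congr rfl (g := fun _ => 46) fun p hp => ?_]
    · simp [card_blk hG hx]
    · rw [sum_comm]
      simp only [c]
      rw [← add_sum_erase _ _ hp, if_pos rfl, sum_congr rfl (g := fun _ => 5) fun q hq =>
        if_neg (ne_of_mem_erase hq).symm]
      simp [card_erase_of_mem hp, card_blk hG hx]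
  have s3 : ∑ y ∈ D G v, (((blk G v x ∩ blk G v y).card : ℤ) - 2) ^ 2 = 80 := by
    simp only [sub_sq, sum_add_distrib, sum_sub_distrib, s2, ← sum_mul, ← mul_sum, s1, sum_const, card_D hG]
    norm_num
  have s4 : ∑ y ∈ D G v, (if y = x then 16 else if G.Adj x y then 4 else 0 : ℤ) = 80 := by
    rw [← add_sum_erase _ _ hx, if_pos rfl, sum_congr rfl (g := fun y => if G.Adj x y then 4 else 0) fun q hq =>
      if_neg (ne_of_mem_erase hq), sum_erase _ (by simp), ← sum_filter, sum_const, card_adj_D hG hx]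
    norm_num
  have s5 := (sum_eq_sum_iff_of_le (s := D G v) (f := fun y => (if y = x then 16 else if G.Adj x y then 4 else 0 : ℤ))
    (g := fun y => (((blk G v x ∩ blk G v y).card : ℤ) - 2) ^ 2) fun y _ => by
      split_ifs with a b
      · subst a; simp [card_blk hG hx]
      · rw [disjoint_iff_inter_eq_empty.1 (inter_adj hG b)]; simp
      · positivity).1 (s4.trans s3.symm) y hy
  rw [if_neg h1, if_neg h2] at s5
  have := pow_eq_zero_iff (two_ne_zero) |>.1 s5.symm
  omega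

theorem inter_le {v x y : V} (hx : x ∈ D G v) (hy : y ∈ D G v) (h1 : y ≠ x) : (blk G v x ∩ blk G v y).card ≤ 2 := by
  by_cases h : G.Adj x y
  · rw [disjoint_iff_inter_eq_empty.1 (inter_adj hG h)]; simp
  · exact (inter_two hG hx hy h1 h).le

theorem blk_inj {v x y : V} (hx : x ∈ D G v) (hy : y ∈ D G v) (h : blk G v x = blk G v y) : y = x := by
  by_contra h1
  have := inter_le hG hx hy h1
  rw [← h, inter_self, card_blk hG hx] at this
  omega

theorem disj_iff {v x y : V} (hx : x ∈ D G v) (hy : y ∈ D G v) : Disjoint (blk G v x) (blk G v y) ↔ G.Adj x y := by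
  refine ⟨fun h => ?_, inter_adj hG⟩
  rw [disjoint_iff_inter_eq_empty] at h
  by_contra h2
  by_cases h1 : y = x
  · subst h1
    have := card_blk hG hx
    rw [inter_self] at h
    simp [h] at this
  · have := inter_two hG hx hy h1 h2
    simp [h] at this

theorem steiner (v : V) : IsSteinerSystem 3 6 {b | ∃ x ∈ D G v, blk G v x = b} := by
  refine ⟨by rintro _ ⟨x, hx, rfl⟩; exact card_blk hG hx, fun s hs => ?_⟩
  have u : ∀ s : Finset (G.neighborSet v), s.card = 3 → ∀ x ∈ D G v, ∀ y ∈ D G v, s ⊆ blk G v x → s ⊆ blk G v y →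
      y = x := fun s hs x hx y hy h1 h2 => by
    by_contra h
    have := (card_le_card (subset_inter h1 h2)).trans (inter_le hG hx hy h)
    omega
  have e : (D G v).biUnion (fun x => powersetCard 3 (blk G v x)) = powersetCard 3 univ := by
    refine eq_of_subset_of_card_le (fun s hs => ?_) ?_
    · obtain ⟨x, -, hx⟩ := mem_biUnion.1 hs
      exact mem_powersetCard.2 ⟨subset_univ _, (mem_powersetCard.1 hx).2⟩
    · rw [card_biUnion fun x hx y hy h => disjoint_left.2 fun s h1 h2 => h (u s (mem_powersetCard.1 h1).2 x hx y hy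
        (mem_powersetCard.1 h1).1 (mem_powersetCard.1 h2).1).symm, card_powersetCard, card_univ, card_nb hG,
        sum_congr rfl (g := fun _ => 20) fun x hx => by rw [card_powersetCard, card_blk hG hx]; rfl]
      simp [card_D hG, Nat.choose]
  obtain ⟨x, hx, h⟩ := mem_biUnion.1 (e ▸ mem_powersetCard.2 ⟨subset_univ s, hs⟩)
  refine ⟨blk G v x, ⟨⟨x, hx, rfl⟩, (mem_powersetCard.1 h).1⟩, ?_⟩
  rintro _ ⟨⟨y, hy, rfl⟩, h'⟩
  rw [u s hs x hx y hy (mem_powersetCard.1 h).1 h']

theorem pointed (v : V) : ∃ B : Set (Finset (G.neighborSet v)), IsSteinerSystem 3 6 B ∧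
    ∃ φ : pointBlockGraph B ≃g G, φ none = v := by
  have hB := steiner hG v
  refine ⟨_, hB, ?_⟩
  have hc : ∀ b : {b | ∃ x ∈ D G v, blk G v x = b}, ∃ x ∈ D G v, blk G v x = b := fun b => b.2
  choose c c1 c2 using hc
  let ψ : Option (G.neighborSet v ⊕ {b | ∃ x ∈ D G v, blk G v x = b}) → V := fun o =>
    o.elim v (Sum.elim Subtype.val c)
  have hs : Function.Surjective ψ := fun x => by
    by_cases h1 : x = v
    · exact ⟨none, h1.symm⟩
    by_cases h2 : G.Adj v x
    · exact ⟨some (.inl ⟨x, h2⟩), rfl⟩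
    · have hx := mem_D.2 ⟨h1, h2⟩
      exact ⟨some (.inr ⟨_, x, hx, rfl⟩), blk_inj hG hx (c1 _) (c2 ⟨_, x, hx, rfl⟩).symm⟩
  have hb : Function.Bijective ψ := by
    refine (Nat.bijective_iff_surjective_and_card ψ).2 ⟨hs, ?_⟩
    rw [card100 (card_nb hG v) hB, Nat.card_eq_fintype_card, hG.card]
  refine ⟨⟨Equiv.ofBijective ψ hb, ?_⟩, rfl⟩
  rintro (_ | p | b) (_ | q | d)
  · simp
  · exact iff_of_true q.2 (adj_np q)
  · exact iff_of_false (mem_D.1 (c1 d)).2 (adj_nb d)
  · exact iff_of_true p.2.symm (adj_pn p)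
  · exact iff_of_false (no_tri hG p.2 q.2) (adj_pp p q)
  · rw [adj_pb, ← c2, mem_blk]; exact G.adj_comm _ _
  · exact iff_of_false (fun h => (mem_D.1 (c1 b)).2 h.symm) (adj_bn b)
  · rw [adj_bp, ← c2, mem_blk]; rfl
  · rw [adj_bb hB, ← c2 b, ← c2 d, disj_iff hG (c1 d) (c1 b)]; exact G.adj_comm _ _

end A

section B
variable {α β : Type*} [DecidableEq α] [DecidableEq β] {B : Set (Finset α)} {B' : Set (Finset β)}

theorem exists_lift (hB : IsSteinerSystem 3 6 B) (hB' : IsSteinerSystem 3 6 B') (e : α ≃ β)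
    (he : (fun b => b.image e) '' B = B') : ∃ φ : pointBlockGraph B ≃g pointBlockGraph B',
      φ none = none ∧ ∀ a, φ (some (.inl a)) = some (.inl (e a)) := by
  let f : B → B' := fun b => ⟨b.1.image e, he ▸ Set.mem_image_of_mem _ b.2⟩
  have hf : Function.Bijective f := ⟨fun b c h => Subtype.ext (image_injective e.injective (congrArg Subtype.val h)),
    fun c => by
      obtain ⟨b, hb, h⟩ : c.1 ∈ (fun b => b.image e) '' B := he ▸ c.2
      exact ⟨⟨b, hb⟩, Subtype.ext h⟩⟩
  refine ⟨⟨Equiv.optionCongr (Equiv.sumCongr e (Equiv.ofBijective f hf)), ?_⟩, rfl, fun _ => rfl⟩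
  rintro (_ | p | b) (_ | q | d)
  · simp
  · exact iff_of_true (adj_np _) (adj_np q)
  · exact iff_of_false (adj_nb _) (adj_nb d)
  · exact iff_of_true (adj_pn _) (adj_pn p)
  · exact iff_of_false (adj_pp _ _) (adj_pp p q)
  · exact (adj_pb (e p) (f d)).trans ((e.injective.mem_finset_image).trans (adj_pb p d).symm)
  · exact iff_of_false (adj_bn _) (adj_bn b)
  · exact (adj_bp (e q) (f b)).trans ((e.injective.mem_finset_image).trans (adj_bp q b).symm)
  · exact (adj_bb hB' (f b) (f d)).trans ((disjoint_image e.injective).trans (adj_bb hB b d).symm)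

theorem blk_img (φ : pointBlockGraph B ≃g pointBlockGraph B') (h0 : φ none = none) (τ : α ≃ β)
    (h : ∀ a, φ (some (.inl a)) = some (.inl (τ a))) (b : B) :
    ∃ c : B', φ (some (.inr b)) = some (.inr c) ∧ c.1 = b.1.image τ := by
  rcases e : φ (some (.inr b)) with _ | q | c
  · exact absurd (φ.injective (e.trans h0.symm)) (by simp)
  · exact absurd (φ.map_rel_iff.1 (by rw [h0, e]; exact adj_np q)) (adj_nb b)
  · refine ⟨c, rfl, ?_⟩
    ext y
    obtain ⟨x, rfl⟩ := τ.surjective y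
    rw [τ.injective.mem_finset_image, ← adj_pb, ← adj_pb, ← h, ← e]
    exact φ.map_rel_iff

theorem card_stab [Fintype α] (hB : IsSteinerSystem 3 6 B) :
    Nat.card (MulAction.stabilizer (pointBlockGraph B ≃g pointBlockGraph B) (none : Option (α ⊕ B))) =
      Nat.card (setSystemAut B) := by
  have h : ∀ τ : setSystemAut B,
      ∃ φ : MulAction.stabilizer (pointBlockGraph B ≃g pointBlockGraph B) (none : Option (α ⊕ B)),
      ∀ a, φ.1 (some (.inl a)) = some (.inl (τ.1 a)) := fun τ =>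
    let ⟨φ, h1, h2⟩ := exists_lift hB hB τ.1 τ.2
    ⟨⟨φ, h1⟩, h2⟩
  choose F hF using h
  refine (Nat.card_congr (Equiv.ofBijective F ⟨fun τ σ e => Subtype.ext (Equiv.ext fun a => ?_), fun φ => ?_⟩)).symm
  · exact Sum.inl_injective (Option.some_injective _ ((hF τ a).symm.trans (e ▸ hF σ a)))
  · have h0 : φ.1 none = none := φ.2
    have h1 : ∀ a, ∃ b, φ.1 (some (.inl a)) = some (.inl b) := fun a => by
      rcases e : φ.1 (some (.inl a)) with _ | q | c
      · exact absurd (φ.1.injective (e.trans h0.symm)) (by simp)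
      · exact ⟨q, rfl⟩
      · exact absurd (by rw [← h0, ← e]; exact φ.1.map_rel_iff.2 (adj_np a)) (adj_nb c)
    choose f hf using h1
    have hi : Function.Injective f := fun a b e =>
      Sum.inl_injective (Option.some_injective _ (φ.1.injective ((hf a).trans (e ▸ (hf b).symm))))
    let τ : Equiv.Perm α := Equiv.ofBijective f hi.bijective_of_finite
    have hτ : τ ∈ setSystemAut B := CA.M24Core.mem_stab_of fun s hs => by
      obtain ⟨c, -, e⟩ := blk_img φ.1 h0 τ hf ⟨s, hs⟩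
      exact (e ▸ c.2 : s.image τ ∈ B)
    refine ⟨⟨τ, hτ⟩, Subtype.ext (RelIso.ext ?_)⟩
    have h0' : (F ⟨τ, hτ⟩).1 none = none := (F ⟨τ, hτ⟩).2
    rintro (_ | a | b)
    · exact h0'.trans h0.symm
    · exact (hF _ a).trans (hf a).symm
    · obtain ⟨c, c1, c2⟩ := blk_img φ.1 h0 τ hf b
      obtain ⟨d, d1, d2⟩ := blk_img _ h0' τ (hF ⟨τ, hτ⟩) b
      rw [c1, d1, Subtype.ext (d2.trans c2.symm)]

end B

theorem pointed_iso {V W : Type*} [Fintype V] [Fintype W] {G : SimpleGraph V} {H : SimpleGraph W}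
    [DecidableRel G.Adj] [DecidableRel H.Adj] (hG : G.IsSRGWith 100 22 0 6) (hH : H.IsSRGWith 100 22 0 6)
    (v : V) (w : W) : ∃ φ : G ≃g H, φ v = w := by
  classical
  obtain ⟨B, hB, φ, hφ⟩ := pointed hG v
  obtain ⟨B', hB', ψ, hψ⟩ := pointed hH w
  obtain ⟨e, he⟩ := CA.StModel.mod22 (card_nb hG v) hB
  obtain ⟨e', he'⟩ := CA.StModel.mod22 (card_nb hH w) hB'
  obtain ⟨τ, hτ⟩ := he.iso he'
  obtain ⟨χ, h1, -⟩ := exists_lift hB hB' τ hτ
  exact ⟨(φ.symm.trans χ).trans ψ, by simp [← hφ, h1, hψ]⟩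

theorem card_aut0 {α : Type*} [Fintype α] [DecidableEq α] (hα : Fintype.card α = 22) {B : Set (Finset α)}
    (hB : IsSteinerSystem 3 6 B) : Nat.card (pointBlockGraph B ≃g pointBlockGraph B) = 88704000 := by
  classical
  have := srg100 hα hB
  have : MulAction.IsPretransitive (pointBlockGraph B ≃g pointBlockGraph B) (Option (α ⊕ B)) :=
    ⟨fun x y => pointed_iso this this x y⟩
  rw [CA.PermBasic.card_eq_card_mul_card_stabilizer (X := Option (α ⊕ B)) none, card_stab hB, card100 hα hB,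
    (Cfsg.Agent.S0414.result hα hB).1]

/-- conjugating automorphism groups along an isomorphism -/
def autCongr {V W : Type*} {G : SimpleGraph V} {H : SimpleGraph W} (φ : G ≃g H) : (G ≃g G) ≃* (H ≃g H) where
  toFun g := (φ.symm.trans g).trans φ
  invFun g := (φ.trans g).trans φ.symm
  left_inv g := RelIso.ext fun x => by simp
  right_inv g := RelIso.ext fun x => by simp
  map_mul' g h := RelIso.ext fun x => by simp

theorem card_aut {V : Type*} [Fintype V] {G : SimpleGraph V} [DecidableRel G.Adj] (hG : G.IsSRGWith 100 22 0 6) :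
    Nat.card (G ≃g G) = 88704000 := by
  classical
  obtain ⟨v⟩ : Nonempty V := Fintype.card_pos_iff.1 (by rw [hG.card]; norm_num)
  obtain ⟨B, hB, φ, -⟩ := pointed hG v
  rw [← Nat.card_congr (autCongr φ).toEquiv, card_aut0 (card_nb hG v) hB]

theorem srg_dvd {V : Type*} [Fintype V] {G : SimpleGraph V} [DecidableRel G.Adj] {n k l m : ℕ}
    (h : G.IsSRGWith n k l m) (p : ℕ) [Fact p.Prime] (h1 : p ∣ k + 1) (h2 : p ∣ l + 2) (h3 : p ∣ m) : p ∣ n := by
  classical
  have e := h.matrix_eq (α := ZMod p)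
  have z : ∀ (c : ℕ) (M : Matrix V V (ZMod p)), p ∣ c → c • M = 0 := fun c M hc => by
    rw [← Nat.cast_smul_eq_nsmul (ZMod p), (ZMod.natCast_eq_zero_iff c p).2 hc, zero_smul]
  have n1 : IsNilpotent (G.adjMatrix (ZMod p) + 1) := ⟨2, by
    have a1 := z _ 1 h1
    have a2 := z _ (G.adjMatrix _) h2
    rw [(Commute.one_right _).add_sq, e, z m _ h3]
    refine Eq.trans ?_ ((congrArg₂ (· + ·) a1 a2).trans (add_zero 0))
    simp only [add_smul, one_smul, mul_one, one_pow, two_smul, two_mul]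
    abel⟩
  have := (Matrix.isNilpotent_trace_of_isNilpotent n1).eq_zero
  rw [Matrix.trace_add, SimpleGraph.trace_adjMatrix, zero_add, Matrix.trace_one, h.card] at this
  exact (ZMod.natCast_eq_zero_iff n p).1 this

theorem srg_params {V : Type*} [Fintype V] {G : SimpleGraph V} [DecidableRel G.Adj] {l m : ℕ}
    (h : G.IsSRGWith 100 22 l m) {a b : V} (hab : G.Adj a b) : l = 0 ∧ m = 6 := by
  classical
  obtain ⟨h1, h2, h3⟩ := srg_ncard h
  have hl : l ≤ 21 := by
    have := Set.ncard_lt_ncard (s := {x | G.Adj a x ∧ G.Adj b x}) (t := {x | G.Adj a x})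
      ⟨fun _ h => h.1, fun h => G.irrefl (h hab).2⟩
    rw [h1, h2 a b hab] at this
    omega
  have hp := h.param_eq G (by norm_num)
  have : (l = 0 ∧ m = 6) ∨ (l = 7 ∧ m = 4) ∨ (l = 14 ∧ m = 2) ∨ (l = 21 ∧ m = 0) := by omega
  rcases this with c | ⟨rfl, rfl⟩ | ⟨rfl, rfl⟩ | ⟨rfl, rfl⟩
  · exact c
  · have : Fact (Nat.Prime 3) := ⟨by norm_num⟩
    exact absurd (srg_dvd h.compl 3 (by norm_num) (by norm_num) (by norm_num)) (by norm_num)
  · exfalso
    obtain ⟨c, hc, hc'⟩ : ∃ c ∈ {x | G.Adj a x}, c ∉ insert b {x | G.Adj a x ∧ G.Adj b x} :=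
      Set.exists_mem_notMem_of_ncard_lt_ncard ((Set.ncard_insert_le _ _).trans_lt (by rw [h1, h2 a b hab]; norm_num))
    simp only [Set.mem_insert_iff, Set.mem_ofPred_eq, not_or, not_and] at hc hc'
    have e1 := Set.ncard_union_add_ncard_inter {x | G.Adj a x ∧ G.Adj b x} {x | G.Adj a x ∧ G.Adj c x}
    have e2 := Set.ncard_le_ncard (s := {x | G.Adj a x ∧ G.Adj b x} ∪ {x | G.Adj a x ∧ G.Adj c x})
      (t := {x | G.Adj a x}) fun _ h => h.elim (·.1) (·.1)
    have e3 := Set.ncard_le_ncard (s := {x | G.Adj a x ∧ G.Adj b x} ∩ {x | G.Adj a x ∧ G.Adj c x})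
      (t := {x | G.Adj b x ∧ G.Adj c x}) fun _ h => ⟨h.1.2, h.2.2⟩
    rw [h2 a b hab, h2 a c hc] at e1
    rw [h1] at e2
    rw [h3 b c (Ne.symm hc'.1) (hc'.2 hc)] at e3
    omega
  · have : Fact (Nat.Prime 23) := ⟨by norm_num⟩
    exact absurd (srg_dvd h 23 (by norm_num) (by norm_num) (by norm_num)) (by norm_num)

section E
variable {K Ω : Type*} [Group K] [MulAction K Ω]

/-- the orbital of a pair -/
def R (K : Type*) [Group K] [MulAction K Ω] (a b x y : Ω) : Prop := ∃ g : K, g • a = x ∧ g • b = y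

theorem R.smul {a b x y : Ω} (h : R K a b x y) (g : K) : R K a b (g • x) (g • y) :=
  let ⟨k, h1, h2⟩ := h
  ⟨g * k, by rw [mul_smul, h1], by rw [mul_smul, h2]⟩

theorem R_smul {a b x y : Ω} (g : K) : R K a b (g • x) (g • y) ↔ R K a b x y :=
  ⟨fun h => by simpa using h.smul g⁻¹, fun h => h.smul g⟩

theorem R.iff {a b c d x y : Ω} (h : R K a b c d) : R K a b x y ↔ R K c d x y := by
  obtain ⟨k, rfl, rfl⟩ := h
  exact ⟨fun ⟨g, h1, h2⟩ => ⟨g * k⁻¹, by simpa [mul_smul], by simpa [mul_smul]⟩,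
    fun ⟨g, h1, h2⟩ => ⟨g * k, by rwa [mul_smul], by rwa [mul_smul]⟩⟩

theorem ncard_inv (g : K) {S T : Set Ω} (h : ∀ y, g • y ∈ T ↔ y ∈ S) : T.ncard = S.ncard := by
  open scoped Pointwise in
  rw [← Set.ncard_smul_set g S]
  congr 1; ext y
  rw [Set.mem_smul_set_iff_inv_smul_mem, ← h, smul_inv_smul]

theorem rank3 [Fintype Ω] [MulAction.IsPretransitive K Ω] {n k j : ℕ} (hΩ : Fintype.card Ω = n) (hn : n = k + j + 1)
    (hk : k ≠ 1) (hj : j ≠ 1) (hkj : k ≠ j) {a b c : Ω}
    (hb : {y | R K a b a y}.ncard = k) (hc : {y | R K a c a y}.ncard = j) :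
    ∃ (G : SimpleGraph Ω) (_ : DecidableRel G.Adj) (l m : ℕ), G.IsSRGWith n k l m ∧ G.Adj a b ∧
      ∀ (g : K) x y, G.Adj (g • x) (g • y) ↔ G.Adj x y := by
  classical
  have na : ∀ d : Ω, {y | R K a d a y}.ncard ≠ 1 → ∀ x, ¬ R K a d x x := fun d hd x h => hd (by
    have : d = a := by
      obtain ⟨g, h1, h2⟩ := h
      exact MulAction.injective g (h2.trans h1.symm)
    subst this
    rw [Set.ncard_eq_one]
    exact ⟨d, Set.ext fun y => ⟨fun ⟨g, h1, h2⟩ => h2.symm.trans h1, fun h => ⟨1, by simp, by simpa using h.symm⟩⟩⟩)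
  have deg : ∀ d x : Ω, {y | R K a d x y}.ncard = {y | R K a d a y}.ncard := fun d x => by
    obtain ⟨g, rfl⟩ := MulAction.exists_smul_eq K a x
    exact ncard_inv g fun y => R_smul g
  have dj : ∀ x y, R K a b x y → ¬ R K a c x y := fun x y h1 h2 => hkj (by
    rw [← hb, ← hc]; congr 1; ext z; exact h1.iff.trans h2.iff.symm)
  have cov0 : ∀ y, y ≠ a → R K a b a y ∨ R K a c a y := by
    have : insert a ({y | R K a b a y} ∪ {y | R K a c a y}) = Set.univ := by
      refine Set.eq_of_subset_of_ncard_le (Set.subset_univ _) ?_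
      rw [Set.ncard_insert_of_notMem (fun h => h.elim (na b (hb ▸ hk) a) (na c (hc ▸ hj) a)),
        Set.ncard_union_eq (s := {y | R K a b a y}) (t := {y | R K a c a y}) (Set.disjoint_left.2 fun y => dj a y), hb,
        hc, Set.ncard_univ, Nat.card_eq_fintype_card]
      omega
    intro y hy
    exact (this ▸ Set.mem_univ y : y ∈ insert a ({y | R K a b a y} ∪ {y | R K a c a y})).resolve_left hy
  have cov : ∀ x y, x ≠ y → R K a b x y ∨ R K a c x y := fun x y h => by
    obtain ⟨g, rfl⟩ := MulAction.exists_smul_eq K a x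
    obtain ⟨z, rfl⟩ := MulAction.surjective g y
    rw [R_smul, R_smul]
    exact cov0 z (by rintro rfl; exact h rfl)
  have hab : R K a b a b := ⟨1, by simp, by simp⟩
  have sy : R K a b b a := by
    refine (cov b a (by rintro rfl; exact na _ (hb ▸ hk) _ hab)).resolve_right fun h => hkj ?_
    have e : ∀ x y, R K a b x y ↔ R K a c y x := fun x y =>
      Iff.trans ⟨fun ⟨g, h1, h2⟩ => ⟨g, h2, h1⟩, fun ⟨g, h1, h2⟩ => ⟨g, h2, h1⟩⟩ h.iff.symm
    have := card_mul_eq_card_mul (R K a b) (s := univ) (t := univ) (m := k) (n := j)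
      (fun x _ => by rw [bipartiteAbove, card_filter_ncard, deg, hb])
      (fun y _ => by rw [bipartiteBelow, card_filter_ncard]; simp only [e]; rw [deg, hc])
    rw [card_univ, hΩ, hn] at this
    exact Nat.eq_of_mul_eq_mul_left (Nat.succ_pos _) this
  let G : SimpleGraph Ω := ⟨R K a b, ⟨fun x y ⟨g, h1, h2⟩ => h1 ▸ h2 ▸ sy.smul g⟩, ⟨na b (hb ▸ hk)⟩⟩
  refine ⟨G, inferInstance, {z | R K a b a z ∧ R K a b b z}.ncard, {z | R K a b a z ∧ R K a b c z}.ncard,
    srg_of (by rw [Nat.card_eq_fintype_card, hΩ]) (fun v => (deg b v).trans hb) fun v w h => ?_, hab,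
    fun g x y => R_smul g⟩
  split_ifs with h'
  · obtain ⟨g, rfl, rfl⟩ := h'
    exact ncard_inv g fun y => and_congr (R_smul g) (R_smul g)
  · obtain ⟨g, rfl, rfl⟩ := (cov v w h).resolve_left h'
    exact ncard_inv g fun y => and_congr (R_smul g) (R_smul g)

/-- the action on an invariant graph -/
def toAut (G : SimpleGraph Ω) (h : ∀ (g : K) x y, G.Adj (g • x) (g • y) ↔ G.Adj x y) : K →* (G ≃g G) :=
  MonoidHom.mk' (fun g => ⟨MulAction.toPerm g, h g _ _⟩) fun g k => RelIso.ext fun x => mul_smul g k x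

theorem toAut_apply (G : SimpleGraph Ω) (h : ∀ (g : K) x y, G.Adj (g • x) (g • y) ↔ G.Adj x y) (g : K) (x : Ω) :
    toAut G h g x = g • x := rfl

theorem R_orbit (a b : Ω) : MulAction.orbit (MulAction.stabilizer K a) b = {y | R K a b a y} :=
  Set.ext fun _ => ⟨fun ⟨g, h⟩ => ⟨g, g.2, h⟩, fun ⟨g, h1, h2⟩ => ⟨⟨g, h1⟩, h2⟩⟩

theorem rank3_hs [Fintype Ω] [MulAction.IsPretransitive K Ω] (hΩ : Fintype.card Ω = 100) {a b c : Ω}
    (hb : {y | R K a b a y}.ncard = 22) (hc : {y | R K a c a y}.ncard = 77) :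
    ∃ (G : SimpleGraph Ω) (_ : DecidableRel G.Adj), G.IsSRGWith 100 22 0 6 ∧
      ∃ ρ : K →* (G ≃g G), ∀ g x, ρ g x = g • x := by
  obtain ⟨G, i, l, m, h1, h2, h3⟩ := rank3 hΩ rfl (by norm_num) (by norm_num) (by norm_num) hb hc
  obtain ⟨rfl, rfl⟩ := srg_params h1 h2
  exact ⟨G, i, h1, toAut G h3, fun _ _ => rfl⟩

end E

open CA.Leech in
theorem ncard_R {vs : List LL} {x y : LL} {ks : List ℤ} {n : ℕ} (h : Tr (vs ++ [x]) ks n) (hy : y ∈ Cl (vs ++ [x]) ks)
    (hy' : y ∈ MulAction.orbit (St vs) x) :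
    {z : MulAction.orbit (St vs) x | R (St vs) ⟨x, MulAction.mem_orbit_self x⟩ ⟨y, hy'⟩
      ⟨x, MulAction.mem_orbit_self x⟩ z}.ncard = n := by
  rw [← h.card, ← h.orbit_eq hy, ← Set.ncard_image_of_injective _ Subtype.val_injective]
  congr 1; ext z
  constructor
  · rintro ⟨z, ⟨g, h1, h2⟩, rfl⟩
    exact ⟨⟨g.1, by rw [St_append]; exact ⟨g.2, congrArg Subtype.val h1⟩⟩, congrArg Subtype.val h2⟩
  · rintro ⟨⟨g, hg⟩, rfl⟩
    rw [St_append] at hg
    exact ⟨(⟨g, hg.1⟩ : St vs) • ⟨y, hy'⟩, ⟨⟨g, hg.1⟩, Subtype.ext hg.2, rfl⟩, rfl⟩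

open CA.Leech in
theorem hs_sub {V : Type*} [Fintype V] {G : SimpleGraph V} [DecidableRel G.Adj] (hG : G.IsSRGWith 100 22 0 6) :
    ∃ H : Subgroup (G ≃g G), Nonempty (St [vV, vU2] ≃* H) := by
  have o := T100.orbit_eq mX3
  have h1 := spT.1 (sT_8, 8, 22) (by simp [sT])
  have h2 := spT.1 (sT_16, 16, 77) (by simp [sT])
  have : Finite (MulAction.orbit (St [vV, vU2]) (vec cX3)) := o ▸ (Cl_finite _ _).to_subtype
  let := Fintype.ofFinite (MulAction.orbit (St [vV, vU2]) (vec cX3))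
  have hc : Fintype.card (MulAction.orbit (St [vV, vU2]) (vec cX3)) = 100 := by
    rw [← Nat.card_eq_fintype_card, Nat.card_coe_set_eq, o, T100.card]
  obtain ⟨Γ, i, g1, ρ, hρ⟩ := rank3_hs hc (ncard_R h1.2 h1.1 (o ▸ (mem_Cl_append.1 h1.1).1))
    (ncard_R h2.2 h2.1 (o ▸ (mem_Cl_append.1 h2.1).1))
  obtain ⟨v⟩ : Nonempty V := Fintype.card_pos_iff.1 (by rw [hG.card]; norm_num)
  obtain ⟨φ, -⟩ := pointed_iso g1 hG ⟨_, MulAction.mem_orbit_self _⟩ v
  have := simple_HS
  have hi : Function.Injective ρ := by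
    rw [← MonoidHom.ker_eq_bot_iff]
    refine (Subgroup.Normal.eq_bot_or_eq_top inferInstance).resolve_right fun h => ?_
    have : Subsingleton (MulAction.orbit (St [vV, vU2]) (vec cX3)) := ⟨fun x y => by
      obtain ⟨g, rfl⟩ := MulAction.exists_smul_eq (St [vV, vU2]) x y
      rw [← hρ, (h ▸ Subgroup.mem_top g : g ∈ ρ.ker)]; rfl⟩
    have := Fintype.card_le_one_iff_subsingleton.2 this
    omega
  exact ⟨_, ⟨MonoidHom.ofInjective (f := (autCongr φ).toMonoidHom.comp ρ) ((autCongr φ).injective.comp hi)⟩⟩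

theorem eq_of_index_two {A : Type*} [Group A] [Finite A] {H L : Subgroup A} [IsSimpleGroup H] (h2 : 2 < Nat.card H)
    (hL : L.index = 2) (hc : Nat.card L = Nat.card H) : H = L := by
  have := Subgroup.normal_of_index_eq_two hL
  refine Subgroup.eq_of_le_of_card_ge ?_ hc.le
  rw [← Subgroup.subgroupOf_eq_top]
  refine (Subgroup.Normal.eq_bot_or_eq_top inferInstance).resolve_left fun h => ?_
  have := Nat.le_of_dvd two_pos (hL ▸ Subgroup.relIndex_dvd_index_of_normal L H)
  rw [Subgroup.relIndex, h, Subgroup.index_bot] at this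
  omega

end CA.H17Srg
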