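import Mathlib
import Cfsg.Prelude.Def_FischerSpaces
import Cfsg.Agent.Lib.Spor.Tr3Basic

/-!
Line systems with three-point lines described by a binary operation (`IsOp`), the two planes of Fischer spaces.
-/

set_option autoImplicit false

namespace CA.H19Fis

open Cfsg Cfsg.LineSystem

/-- `op a b` is the third point on the line through `a, b` (or `b` if there is no such line) -/
structure IsOp {X : Type*} (L : Set (Set X)) (op : X → X → X) : Prop where
  mem : ∀ a b c, ({a, b, c} : Set X) ∈ L ↔ op a b ≠ b ∧ op a b = c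
  tri : ∀ l ∈ L, ∃ a b c, l = {a, b, c}

section Gen
variable {X Y : Type*} {L : Set (Set X)} {op : X → X → X} {M : Set (Set Y)} {oq : Y → Y → Y}

theorem IsOp.ne (h : IsOp L op) {a b c : X} (hl : ({a, b, c} : Set X) ∈ L) : a ≠ b ∧ a ≠ c ∧ b ≠ c := by
  have h3 : ∀ x y z : X, ({x, y, z} : Set X) ∈ L → y ≠ z := fun x y z hh e =>
    ((h.mem x y z).1 hh).1 (((h.mem x y z).1 hh).2.trans e.symm)
  refine ⟨h3 c a b ?_, h3 b a c ?_, h3 a b c hl⟩
  · convert hl using 1; ext; simp; tauto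
  · convert hl using 1; ext; simp; tauto

theorem IsOp.self (h : IsOp L op) (a : X) : op a a = a := by
  by_contra hne
  exact (h.ne ((h.mem a a _).2 ⟨hne, rfl⟩)).1 rfl

theorem IsOp.line (h : IsOp L op) {l : Set X} (hl : l ∈ L) {x y : X} (hxy : x ≠ y) (hx : x ∈ l) (hy : y ∈ l) :
    op x y ≠ y ∧ l = {x, y, op x y} := by
  obtain ⟨a, b, c, rfl⟩ := h.tri l hl
  have key : ∀ z, ({a, b, c} : Set X) = {x, y, z} → op x y ≠ y ∧ ({a, b, c} : Set X) = {x, y, op x y} := by
    intro z e
    have := (h.mem x y z).1 (e ▸ hl)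
    exact ⟨this.1, by rw [this.2]; exact e⟩
  simp only [Set.mem_insert_iff, Set.mem_singleton_iff] at hx hy
  rcases hx with rfl | rfl | rfl <;> rcases hy with rfl | rfl | rfl <;> first
    | exact absurd rfl hxy
    | exact key a (by ext; simp; tauto)
    | exact key b (by ext; simp; tauto)
    | exact key c (by ext; simp; try tauto)

theorem IsOp.exists_line (h : IsOp L op) {l : Set X} (hl : l ∈ L) {x : X} (hx : x ∈ l) :
    ∃ y, op x y ≠ y ∧ l = {x, y, op x y} := by
  obtain ⟨a, b, c, rfl⟩ := h.tri l hl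
  have hne := h.ne hl
  by_cases hxa : x = a
  · exact ⟨b, h.line hl (hxa ▸ hne.1) hx (by simp)⟩
  · exact ⟨a, h.line hl hxa hx (by simp)⟩

theorem IsOp.invol (h : IsOp L op) (a b : X) : op a (op a b) = b := by
  by_cases hab : op a b = b
  · rw [hab, hab]
  · have h1 := (h.mem a b _).2 ⟨hab, rfl⟩
    exact ((h.mem a (op a b) b).1 (by convert h1 using 1; ext; simp; tauto)).2

theorem IsOp.comm (h : IsOp L op) {a b : X} (hab : op a b ≠ b) : op b a ≠ a ∧ op b a = op a b :=
  (h.mem b a _).1 (by convert (h.mem a b _).2 ⟨hab, rfl⟩ using 1; ext; simp; tauto)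

theorem IsOp.partial (h : IsOp L op) : IsPartialLinear L := fun _ hl _ hm _ _ hxy hxl hyl hxm hym =>
  (h.line hl hxy hxl hyl).2.trans (h.line hm hxy hxm hym).2.symm

theorem IsOp.ncard (h : IsOp L op) {l : Set X} (hl : l ∈ L) : l.ncard = 3 := by
  obtain ⟨a, b, c, rfl⟩ := h.tri l hl
  have := h.ne hl
  exact Set.ncard_eq_three.2 ⟨a, b, c, this.1, this.2.1, this.2.2, rfl⟩

theorem IsOp.subspace_iff (h : IsOp L op) {S : Set X} : IsSubspace L S ↔ ∀ a ∈ S, ∀ b ∈ S, op a b ∈ S := by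
  constructor
  · intro hS a ha b hb
    by_cases hab : op a b = b
    · rw [hab]; exact hb
    · have h1 := (h.mem a b _).2 ⟨hab, rfl⟩
      exact hS _ h1 a ha b hb (h.ne h1).1 (by simp) (by simp) (by simp)
  · intro hS l hl x hx y hy hxy hxl hyl
    rw [(h.line hl hxy hxl hyl).2]
    intro z hz
    rcases hz with rfl | rfl | rfl
    exacts [hx, hy, hS _ hx _ hy]

theorem span_subspace (L : Set (Set X)) (A : Set X) : IsSubspace L (span L A) := by
  intro l hl x hx y hy hxy hxl hyl z hz T hT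
  exact hT.2 l hl x (hx T hT) y (hy T hT) hxy hxl hyl hz

theorem subset_span (L : Set (Set X)) (A : Set X) : A ⊆ span L A := fun _ hx _ hT => hT.1 hx

theorem lineMap_isOp (hp : IsPartialLinear L) (h3 : ∀ l ∈ L, l.ncard = 3) : IsOp L (lineMap L) := by
  have tri : ∀ l ∈ L, ∃ a b c, l = {a, b, c} := fun l hl => by
    obtain ⟨a, b, c, -, -, -, e⟩ := Set.ncard_eq_three.1 (h3 l hl)
    exact ⟨a, b, c, e⟩
  have hne : ∀ a b c : X, ({a, b, c} : Set X) ∈ L → b ≠ c := by
    rintro a b c hl rfl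
    have h1 := h3 _ hl
    rw [show ({a, b, b} : Set X) = {a, b} by simp] at h1
    have := Set.ncard_insert_le a ({b} : Set X)
    simp at this
    omega
  refine ⟨fun a b c => ⟨fun hl => ?_, fun hl => ?_⟩, tri⟩
  · have hab : a ≠ b := hne c a b (by convert hl using 1; ext; simp; tauto)
    have hac : a ≠ c := hne b a c (by convert hl using 1; ext; simp; tauto)
    have hex : ∃ z : X, z ≠ a ∧ z ≠ b ∧ a ≠ b ∧ ({a, b, z} : Set X) ∈ L :=
      ⟨c, hac.symm, (hne a b c hl).symm, hab, hl⟩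
    have e : lineMap L a b = hex.choose := by unfold lineMap; rw [dif_pos hex]
    have hs := hex.choose_spec
    rw [e]
    refine ⟨hs.2.1, ?_⟩
    have h2 := hp _ hl _ hs.2.2.2 a b hab (by simp) (by simp) (by simp) (by simp)
    have : hex.choose ∈ ({a, b, c} : Set X) := by rw [h2]; simp
    rcases this with h | h | h
    exacts [absurd h hs.1, absurd h hs.2.1, h]
  · by_cases hex : ∃ z : X, z ≠ a ∧ z ≠ b ∧ a ≠ b ∧ ({a, b, z} : Set X) ∈ L
    · have e : lineMap L a b = hex.choose := by unfold lineMap; rw [dif_pos hex]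
      rw [← hl.2, e]; exact hex.choose_spec.2.2.2
    · exact absurd (by unfold lineMap; rw [dif_neg hex]) hl.1

/-- an injective homomorphism of the operations identifies `M` with a subspace -/
theorem plane_iso (h : IsOp L op) (k : IsOp M oq) (f : Y → X) (hf : Function.Injective f)
    (hop : ∀ u v, op (f u) (f v) = f (oq u v)) (A : Set X) (hA : A ⊆ Set.range f)
    (hgen : ∀ P : Y → Prop, (∀ u, f u ∈ A → P u) → (∀ u v, P u → P v → P (oq u v)) → ∀ u, P u) :
    Isomorphic (restrict L (span L A)) M := by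
  have hsp : span L A = Set.range f := by
    apply Set.Subset.antisymm
    · intro x hx
      refine hx _ ⟨hA, h.subspace_iff.2 ?_⟩
      rintro _ ⟨u, rfl⟩ _ ⟨v, rfl⟩
      exact ⟨_, (hop u v).symm⟩
    · rintro _ ⟨u, rfl⟩
      refine hgen (fun u => f u ∈ span L A) (fun u hu => subset_span L A hu) (fun u v hu hv => ?_) u
      show f _ ∈ _
      rw [← hop]; exact h.subspace_iff.1 (span_subspace L A) _ hu _ hv
  rw [hsp]
  have hm : ∀ a b c, ({f a, f b, f c} : Set X) ∈ L ↔ ({a, b, c} : Set Y) ∈ M := by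
    intro a b c
    rw [h.mem, k.mem, hop, hf.ne_iff, hf.eq_iff]
  refine ⟨(Equiv.ofInjective f hf).symm, fun l => ⟨?_, fun hl => ?_⟩⟩
  · rintro ⟨l', hl', hs, rfl⟩
    obtain ⟨a, b, c, rfl⟩ := h.tri l' hl'
    obtain ⟨a, rfl⟩ := hs (show a ∈ _ by simp)
    obtain ⟨b, rfl⟩ := hs (show b ∈ _ by simp)
    obtain ⟨c, rfl⟩ := hs (show c ∈ _ by simp)
    convert (hm a b c).1 hl' using 1
    ext y
    rw [Equiv.image_eq_preimage_symm]
    simp [hf.eq_iff]
  · obtain ⟨a, b, c, e⟩ := k.tri _ hl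
    refine ⟨{f a, f b, f c}, (hm a b c).2 (e ▸ hl), ?_, ?_⟩
    · intro z hz
      rcases hz with rfl | rfl | rfl <;> exact ⟨_, rfl⟩
    · ext ⟨_, y, rfl⟩
      have : y ∈ (Equiv.ofInjective f hf).symm '' l ↔ y ∈ ({a, b, c} : Set Y) := by rw [e]
      rw [Equiv.image_eq_preimage_symm] at this
      simp only [Equiv.symm_symm, Set.mem_preimage, Equiv.ofInjective_apply] at this
      rw [this]
      simp [hf.eq_iff]

/-- an isomorphism of a subspace with `M` gives a homomorphism of the operations -/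
theorem hom_of_iso (h : IsOp L op) (k : IsOp M oq) {S : Set X} (hS : IsSubspace L S)
    (hi : Isomorphic (restrict L S) M) :
    ∃ f : Y → X, Set.range f = S ∧ ∀ u v, op (f u) (f v) = f (oq u v) := by
  obtain ⟨e, he⟩ := hi
  have hm : ∀ a b c : S, ({a.1, b.1, c.1} : Set X) ∈ L ↔ ({e a, e b, e c} : Set Y) ∈ M := by
    intro a b c
    have h1 := he {a, b, c}
    rw [Set.image_insert_eq, Set.image_pair] at h1
    rw [← h1]
    constructor
    · intro hl
      refine ⟨_, hl, ?_, ?_⟩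
      · intro z hz
        rcases hz with rfl | rfl | rfl
        exacts [a.2, b.2, c.2]
      · ext x; simp [Subtype.ext_iff]
    · rintro ⟨l, hl, hs, e2⟩
      convert hl using 1
      ext x
      constructor
      · intro hx
        rcases hx with rfl | rfl | rfl
        · exact (show a ∈ {x : S | (x : X) ∈ l} from e2 ▸ by simp)
        · exact (show b ∈ {x : S | (x : X) ∈ l} from e2 ▸ by simp)
        · exact (show c ∈ {x : S | (x : X) ∈ l} from e2 ▸ by simp)
      · intro hx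
        have : (⟨x, hs hx⟩ : S) ∈ ({a, b, c} : Set S) := by rw [e2]; exact hx
        simpa [Subtype.ext_iff] using this
  refine ⟨fun u => (e.symm u).1, ?_, fun u v => ?_⟩
  · ext x
    exact ⟨by rintro ⟨u, rfl⟩; exact (e.symm u).2, fun hx => ⟨e ⟨x, hx⟩, by simp⟩⟩
  · by_cases huv : oq u v = v
    · rw [huv]
      by_contra hne
      have hz := h.subspace_iff.1 hS _ (e.symm u).2 _ (e.symm v).2
      have h1 := (hm (e.symm u) (e.symm v) ⟨_, hz⟩).1 ((h.mem _ _ _).2 ⟨hne, rfl⟩)
      simp only [Equiv.apply_symm_apply] at h1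
      exact ((k.mem _ _ _).1 h1).1 huv
    · have h1 := (k.mem _ _ _).2 ⟨huv, rfl⟩
      have h2 := (hm (e.symm u) (e.symm v) (e.symm (oq u v))).2 (by simpa using h1)
      exact ((h.mem _ _ _).1 h2).2

end Gen

/-! ### the two planes -/

def opA (a b : Fin 2 → ZMod 3) : Fin 2 → ZMod 3 := -a - b

theorem isOp_aff : IsOp affinePlaneThree opA := by
  have h3 : ∀ x : Fin 2 → ZMod 3, x + x + x = 0 := by decide +kernel
  have hz : ∀ t : ZMod 3, t = 0 ∨ t = 1 ∨ t = 2 := by decide
  refine ⟨fun a b c => ⟨?_, ?_⟩, ?_⟩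
  · rintro ⟨v, w, hw, e⟩
    obtain ⟨α, rfl⟩ : a ∈ {x | ∃ c : ZMod 3, x = v + c • w} := e ▸ by simp
    obtain ⟨β, rfl⟩ : b ∈ {x | ∃ c : ZMod 3, x = v + c • w} := e ▸ by simp
    obtain ⟨γ, rfl⟩ : c ∈ {x | ∃ c : ZMod 3, x = v + c • w} := e ▸ by simp
    have hi : ∀ s t : ZMod 3, v + s • w = v + t • w → s = t := fun s t h =>
      smul_left_injective (ZMod 3) hw (add_left_cancel h)
    have hall : ∀ t : ZMod 3, t = α ∨ t = β ∨ t = γ := by
      intro t
      have : v + t • w ∈ ({v + α • w, v + β • w, v + γ • w} : Set _) := by rw [e]; exact ⟨t, rfl⟩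
      rcases this with h | h | h
      exacts [Or.inl (hi _ _ h), Or.inr (Or.inl (hi _ _ h)), Or.inr (Or.inr (hi _ _ h))]
    have key : ∀ α β γ : ZMod 3, (∀ t : ZMod 3, t = α ∨ t = β ∨ t = γ) → -α - β = γ ∧ γ ≠ β := by decide
    obtain ⟨k1, k2⟩ := key _ _ _ hall
    have e2 : opA (v + α • w) (v + β • w) = v + γ • w := by
      rw [← k1, opA, sub_smul, neg_smul]
      linear_combination (exp := 1) -(h3 v)
    rw [e2]
    exact ⟨fun h => k2 (hi _ _ h), rfl⟩
  · rintro ⟨h1, rfl⟩
    refine ⟨a, b - a, ?_, ?_⟩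
    · intro h
      apply h1
      rw [← sub_eq_zero.1 h, opA]
      linear_combination (exp := 1) -(h3 b)
    · have e2 : opA a b = a + (2 : ZMod 3) • (b - a) := by
        rw [opA, two_smul]
        linear_combination (exp := 1) -(h3 b)
      ext x
      constructor
      · rintro (rfl | rfl | rfl)
        exacts [⟨0, by simp⟩, ⟨1, by simp⟩, ⟨2, e2⟩]
      · rintro ⟨t, rfl⟩
        rcases hz t with rfl | rfl | rfl
        · simp
        · simp
        · rw [← e2]; simp
  · rintro l ⟨v, w, -, rfl⟩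
    refine ⟨v + (0 : ZMod 3) • w, v + (1 : ZMod 3) • w, v + (2 : ZMod 3) • w, ?_⟩
    ext x
    constructor
    · rintro ⟨t, rfl⟩
      rcases hz t with rfl | rfl | rfl <;> simp
    · rintro (rfl | rfl | rfl) <;> exact ⟨_, rfl⟩

def opD (a b : DualAffinePoint) : DualAffinePoint :=
  if h : ((a.1 \ b.1) ∪ (b.1 \ a.1)).card = 2 then ⟨_, h⟩ else b

set_option synthInstance.maxSize 4000 in
theorem isOp_dual : IsOp dualAffinePlaneTwo opD := by
  refine ⟨fun a b c => ?_, ?_⟩
  · have key : ∀ a b c : DualAffinePoint, (∃ i : Fin 4, ∀ s : DualAffinePoint, (s = a ∨ s = b ∨ s = c ↔ i ∉ s.1)) ↔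
        opD a b ≠ b ∧ opD a b = c := by decide +kernel
    rw [← key]
    exact exists_congr fun i => by rw [Set.ext_iff]; rfl
  · rintro l ⟨i, rfl⟩
    have key : ∀ i : Fin 4, ∃ a b c : DualAffinePoint, ∀ s : DualAffinePoint,
        (i ∉ s.1 ↔ s = a ∨ s = b ∨ s = c) := by decide +kernel
    obtain ⟨a, b, c, h⟩ := key i
    exact ⟨a, b, c, Set.ext h⟩

theorem distA (x a b : Fin 2 → ZMod 3) : opA x (opA a b) = opA (opA x a) (opA x b) := by
  have h3 : ∀ x : Fin 2 → ZMod 3, x + x + x = 0 := by decide +kernel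
  unfold opA
  linear_combination (exp := 1) -(h3 x)

theorem distD : ∀ x a b : DualAffinePoint, opD x (opD a b) = opD (opD x a) (opD x b) := by decide +kernel

end CA.H19Fis
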