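import Cfsg.Prelude.Def_AxialAlgebras

/-! Majorana pairs: eigenvector decomposition, fusion rules, transport. -/

set_option autoImplicit false

namespace CA.Maj

open Cfsg.Axial

variable {V : Type*} [AddCommGroup V] [Module ℝ V] {m : V →ₗ[ℝ] V →ₗ[ℝ] V} {B : LinearMap.BilinForm ℝ V}
  {μ ν g : V ≃ₗ[ℝ] V} {a u v w : V} {c d : ℝ}

theorem mem_eigen : v ∈ eigen m a c ↔ m a v = c • v := Module.End.mem_eigenspace_iff

theorem le_sum {S : Set ℝ} (hc : c ∈ S) : eigen m a c ≤ eigenSum m a S := le_iSup₂_of_le c hc le_rfl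

theorem sum_le {S : Set ℝ} {W : Submodule ℝ V} (h : ∀ c ∈ S, ∀ v, m a v = c • v → v ∈ W) : eigenSum m a S ≤ W :=
  iSup₂_le fun c hc v hv => h c hc v (mem_eigen.1 hv)

section
variable (h : IsMajoranaPair m B μ a)
include h

theorem idem : m a a = a := h.2.2.1.1.2.1

theorem fix (hc : c = 1 ∨ c = 0 ∨ c = 1 / 4) (hv : m a v = c • v) : μ v = v :=
  h.2.2.2.1 v (le_sum (by simpa using hc) (mem_eigen.2 hv))

theorem neg (hv : m a v = (1 / 32 : ℝ) • v) : μ v = -v := h.2.2.2.2 v (mem_eigen.2 hv)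

theorem fix_a : μ a = a := fix h (.inl rfl) (by rw [idem h, one_smul])

theorem dec0 (v : V) : ∃ (c : ℝ) (x y z : V), m a x = 0 ∧ m a y = (1 / 4 : ℝ) • y ∧ m a z = (1 / 32 : ℝ) • z ∧
    v = c • a + x + y + z := by
  have h1 : v ∈ eigenSum m a majoranaSpectrum := h.2.2.1.1.2.2.1 ▸ Submodule.mem_top
  simp only [eigenSum, majoranaSpectrum, iSup_insert, iSup_singleton, Submodule.mem_sup] at h1
  obtain ⟨w, hw, _, ⟨x, hx, _, ⟨y, hy, z, hz, rfl⟩, rfl⟩, rfl⟩ := h1
  rw [h.2.2.1.2, Submodule.mem_span_singleton] at hw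
  obtain ⟨c, rfl⟩ := hw
  exact ⟨c, x, y, z, by simpa using mem_eigen.1 hx, mem_eigen.1 hy, mem_eigen.1 hz, by abel⟩

theorem sq (v : V) : μ (μ v) = v := by
  obtain ⟨c, x, y, z, hx, hy, hz, rfl⟩ := dec0 h v
  simp [fix_a h, fix h (.inr (.inl rfl)) (hx.trans (zero_smul _ _).symm), fix h (.inr (.inr rfl)) hy, neg h hz]

theorem uniq (h' : IsMajoranaPair m B ν a) : μ = ν := LinearEquiv.ext fun v => by
  obtain ⟨c, x, y, z, hx, hy, hz, rfl⟩ := dec0 h v
  simp [fix_a h, fix h (.inr (.inl rfl)) (hx.trans (zero_smul _ _).symm), fix h (.inr (.inr rfl)) hy, neg h hz,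
    fix_a h', fix h' (.inr (.inl rfl)) (hx.trans (zero_smul _ _).symm), fix h' (.inr (.inr rfl)) hy, neg h' hz]

theorem fus (hc : c ∈ majoranaSpectrum) (hd : d ∈ majoranaSpectrum) (hu : m a u = c • u) (hv : m a v = d • v) :
    m u v ∈ eigenSum m a (monsterLaw (1 / 4) (1 / 32) c d) :=
  h.2.2.1.1.2.2.2 c hc d hd u (mem_eigen.2 hu) v (mem_eigen.2 hv)

theorem f00 (hu : m a u = 0) (hv : m a v = 0) : m a (m u v) = 0 := by
  have := fus h (c := 0) (d := 0) (by simp [majoranaSpectrum]) (by simp [majoranaSpectrum])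
    (hu.trans (zero_smul _ _).symm) (hv.trans (zero_smul _ _).symm)
  refine sum_le (W := LinearMap.ker (m a)) (fun c hc v hv => ?_) this
  norm_num [monsterLaw] at hc
  simp [hv, hc]

theorem f04 (hu : m a u = 0) (hv : m a v = (1 / 4 : ℝ) • v) : m a (m u v) = (1 / 4 : ℝ) • m u v := by
  have := fus h (c := 0) (d := 1 / 4) (by simp [majoranaSpectrum]) (by simp [majoranaSpectrum])
    (hu.trans (zero_smul _ _).symm) hv
  refine mem_eigen.1 (sum_le (fun c hc v hv => ?_) this)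
  norm_num [monsterLaw] at hc
  exact mem_eigen.2 (hc ▸ hv)

theorem f44 (hu : m a u = (1 / 4 : ℝ) • u) (hv : m a v = (1 / 4 : ℝ) • v) : m a (m a (m u v)) = m a (m u v) := by
  have := fus h (c := 1 / 4) (d := 1 / 4) (by simp [majoranaSpectrum]) (by simp [majoranaSpectrum]) hu hv
  refine sum_le (W := LinearMap.eqLocus (m a ∘ₗ m a) (m a)) (fun c hc v hv => ?_) this
  norm_num [monsterLaw] at hc
  rcases hc with rfl | rfl <;> simp [hv]

theorem one (hv : m a v = v) : ∃ c : ℝ, v = c • a := by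
  have : v ∈ eigen m a 1 := mem_eigen.2 (by rw [hv, one_smul])
  rw [h.2.2.1.2, Submodule.mem_span_singleton] at this
  exact this.imp fun c e => e.symm

/-- transport along an automorphism -/
theorem map (h1 : ∀ u v, g (m u v) = m (g u) (g v)) (h2 : ∀ u v, B (g u) (g v) = B u v) :
    IsMajoranaPair m B (g * μ * g⁻¹) (g a) := by
  have e0 : ∀ v, (g * μ * g⁻¹) (g v) = g (μ v) := fun v => by
    show g (μ (g.symm (g v))) = _
    rw [g.symm_apply_apply]
  have e1 : ∀ c v, g v ∈ eigen m (g a) c ↔ v ∈ eigen m a c := fun c v => by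
    rw [mem_eigen, mem_eigen, ← h1, ← map_smul, g.injective.eq_iff]
  have e2 : ∀ c, eigen m (g a) c = (eigen m a c).map (g : V →ₗ[ℝ] V) := fun c => Submodule.ext fun v => by
    obtain ⟨v, rfl⟩ := g.surjective v
    rw [e1]
    exact ⟨fun h => ⟨v, h, rfl⟩, fun ⟨w, h, e⟩ => g.injective e ▸ h⟩
  have e3 : ∀ S, eigenSum m (g a) S = (eigenSum m a S).map (g : V →ₗ[ℝ] V) := fun S => by
    simp only [eigenSum, e2, Submodule.map_iSup]
  obtain ⟨p1, p2, ⟨⟨p3, p4, p5, p6⟩, p7⟩, p8, p9⟩ := h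
  refine ⟨fun u v => ?_, fun u v => ?_, ⟨⟨fun e => p3 (g.map_eq_zero_iff.1 e), by rw [← h1, p4], ?_,
    fun c hc d hd u hu v hv => ?_⟩, ?_⟩, fun v hv => ?_, fun v hv => ?_⟩
  · obtain ⟨u, rfl⟩ := g.surjective u
    obtain ⟨v, rfl⟩ := g.surjective v
    rw [← h1, e0, e0, e0, p1, h1]
  · obtain ⟨u, rfl⟩ := g.surjective u
    obtain ⟨v, rfl⟩ := g.surjective v
    rw [e0, e0, h2, h2, p2]
  · rw [e3, p5, Submodule.map_top, LinearMap.range_eq_top.2 g.surjective]
  · obtain ⟨u, rfl⟩ := g.surjective u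
    obtain ⟨v, rfl⟩ := g.surjective v
    rw [← h1, e3]
    exact ⟨_, p6 c hc d hd u ((e1 _ _).1 hu) v ((e1 _ _).1 hv), rfl⟩
  · rw [e2, p7, Submodule.map_span, Set.image_singleton]; rfl
  · rw [e3] at hv
    obtain ⟨v, hv, rfl⟩ := hv
    exact (e0 v).trans (congrArg g (p8 v hv))
  · obtain ⟨v, rfl⟩ := g.surjective v
    exact (e0 v).trans ((congrArg g (p9 v ((e1 _ _).1 hv))).trans (map_neg g v))

variable (hV : IsMajoranaAmbient m B) (hn : B a a = 1)
include hV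

theorem orth (hc : c ≠ 1) (hv : m a v = c • v) : B a v = 0 := by
  have := hV.2.2.2.1 a a v
  rw [idem h, hv, map_smul, smul_eq_mul] at this
  exact (mul_eq_zero.1 (by linear_combination this : (c - 1) * B a v = 0)).resolve_left (sub_ne_zero.2 hc)

include hn

theorem dec (v : V) : ∃ x y z : V, m a x = 0 ∧ m a y = (1 / 4 : ℝ) • y ∧ m a z = (1 / 32 : ℝ) • z ∧
    v = B a v • a + x + y + z ∧ μ v = B a v • a + x + y - z := by
  obtain ⟨c, x, y, z, hx, hy, hz, rfl⟩ := dec0 h v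
  have hx' := hx.trans (zero_smul ℝ x).symm
  have : B a (c • a + x + y + z) = c := by
    simp [hn, orth h hV zero_ne_one hx', orth h hV (by norm_num) hy, orth h hV (by norm_num) hz]
  refine ⟨x, y, z, hx, hy, hz, by rw [this], ?_⟩
  rw [this]
  simp [fix_a h, fix h (.inr (.inl rfl)) hx', fix h (.inr (.inr rfl)) hy, neg h hz, sub_eq_add_neg]

theorem f44' (hu : m a u = (1 / 4 : ℝ) • u) (hv : m a v = (1 / 4 : ℝ) • v) : m a (m u v) = B a (m u v) • a := by
  obtain ⟨c, hc⟩ := one h (f44 h hu hv)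
  have := hV.2.2.2.1 a a (m u v)
  rw [idem h, hc, map_smul, hn, smul_eq_mul, mul_one] at this
  rw [← this, hc]

end

end CA.Maj
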