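import Cfsg.Agent.Lib.Spor.H19Maj

/-! Sakuma's theorem: the products in the subalgebra generated by two Majorana axes. -/

set_option autoImplicit false

namespace CA.Maj

open Cfsg.Axial

variable {V : Type*} [AddCommGroup V] [Module ℝ V] {m : V →ₗ[ℝ] V →ₗ[ℝ] V} {B : LinearMap.BilinForm ℝ V}
  {μ μ0 μ1 : V ≃ₗ[ℝ] V} {a v v' σ a0 a1 am a2 an a3 s t u : V} {l e o : ℝ}

theorem ab (hV : IsMajoranaAmbient m B) (h : IsMajoranaPair m B μ a) (hn : B a a = 1) (hv : μ v = v')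
    (hσ : m a v = σ + (1 / 32 : ℝ) • (a + v)) (hl : B a v = l) :
    m a v' = σ + (1 / 32 : ℝ) • (a + v') ∧ μ σ = σ ∧
    m a σ = (1 / 4 : ℝ) • ((3 * l - 1 / 8) • a + (7 / 16 : ℝ) • ((2 : ℝ) • σ + (1 / 32 : ℝ) • ((2 : ℝ) • a + v + v'))) ∧
    m a ((-4 : ℝ) • σ + (3 * l - 1 / 8) • a + (7 / 16 : ℝ) • (v + v')) = 0 ∧
    m a ((4 : ℝ) • σ - (4 * l - 1 / 8) • a + (1 / 16 : ℝ) • (v + v')) =
      (1 / 4 : ℝ) • ((4 : ℝ) • σ - (4 * l - 1 / 8) • a + (1 / 16 : ℝ) • (v + v')) := by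
  obtain ⟨x, y, z, hx, hy, hz, e1, e2⟩ := dec h hV hn v
  rw [hl] at e1 e2
  rw [hv] at e2
  have ha := idem h
  have e3 : σ = (31 / 32 * l - 1 / 32) • a - (1 / 32 : ℝ) • x + (7 / 32 : ℝ) • y := by
    rw [e1] at hσ
    simp only [map_add, map_smul, ha, hx, hy, hz] at hσ
    linear_combination (norm := module) (-1 : ℝ) • hσ
  have fx := fix h (.inr (.inl rfl)) (hx.trans (zero_smul _ _).symm)
  have fy := fix h (.inr (.inr rfl)) hy
  have fa := fix_a h
  have e4 : (-4 : ℝ) • σ + (3 * l - 1 / 8) • a + (7 / 16 : ℝ) • (v + v') = x := by rw [e3, e2, e1]; module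
  have e5 : (4 : ℝ) • σ - (4 * l - 1 / 8) • a + (1 / 16 : ℝ) • (v + v') = y := by rw [e3, e2, e1]; module
  refine ⟨?_, ?_, ?_, by rw [e4, hx], by rw [e5, hy]⟩
  · rw [e2, e3]
    simp only [map_add, map_sub, map_smul, ha, hx, hy, hz]
    module
  · rw [e3]
    simp only [map_add, map_sub, map_smul, fa, fx, fy]
  · rw [e2, e1, e3]
    simp only [map_add, map_sub, map_smul, ha, hx, hy, hz]
    module

theorem core (hV : IsMajoranaAmbient m B) (h0 : IsMajoranaPair m B μ0 a0) (h1 : IsMajoranaPair m B μ1 a1)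
    (n0 : B a0 a0 = 1) (n1 : B a1 a1 = 1) (ham : μ0 a1 = am) (ha2 : μ1 a0 = a2) (han : μ0 a2 = an)
    (hs : m a0 a1 = s + (1 / 32 : ℝ) • (a0 + a1)) (ht : m a0 a2 = t + (1 / 32 : ℝ) • (a0 + a2))
    (hu : m a1 am = u + (1 / 32 : ℝ) • (a1 + am)) (hl : B a0 a1 = l) (he : B a0 a2 = e) (ho : B a1 am = o) :
    m a0 u = (1 / 6 * l - 19 / 3072) • (am + a1) + (7 / 6144 : ℝ) • (an + a2) +
      (-32 / 3 * l ^ 2 + 5 / 3 * l - 1 / 24 * o - 127 / 3072) • a0 + (32 / 3 * l - 19 / 48) • s + (7 / 96 : ℝ) • t ∧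
    m s s = (49 / 768 * l - 245 / 196608) • (am + a1) + (49 / 196608 : ℝ) • (an + a2) +
      (7 / 6 * l ^ 2 - 7 / 384 * l + 7 / 1536 * o - 7 / 98304) • a0 + (-5 / 12 * l - 13 / 1536) • s -
      (7 / 1536 : ℝ) • t + (7 / 2048 : ℝ) • u := by
  have cm : ∀ x y, m x y = m y x := hV.1
  obtain ⟨p0m, s0, p0s, hα, hβ⟩ := ab hV h0 n0 ham hs hl
  obtain ⟨-, -, p1s, -, -⟩ := ab hV h1 n1 ha2 (σ := s) (by rw [cm, hs, add_comm a0]) ((hV.2.1 _ _).trans hl)
  obtain ⟨p0n, -, p0t, -, -⟩ := ab hV h0 n0 han ht he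
  have p00 := idem h0
  have p11 := idem h1
  have pmm : m am am = am := by rw [← ham, ← h0.1, p11]
  have pms := congrArg μ0 p1s
  simp only [h0.1, map_add, map_smul, ham, s0, fix_a h0, han] at pms
  have b0m : B a0 am = l := by rw [← ham, ← fix_a h0, h0.2.1, hl]
  have bmm : B am am = 1 := by rw [← ham, h0.2.1, n1]
  have b0s : B a0 s = l - (1 + l) / 32 := by
    have := hV.2.2.2.1 a0 a0 a1
    rw [p00, hs, hl] at this
    simp only [map_add, map_smul, n0, hl, smul_eq_mul] at this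
    linear_combination this
  have b1s : B a1 s = l - (1 + l) / 32 := by
    have := hV.2.2.2.1 a1 a1 a0
    rw [p11, cm, hs, hV.2.1 a1 a0, hl] at this
    simp only [map_add, map_smul, n1, hV.2.1 a1 a0, hl, smul_eq_mul] at this
    linear_combination this
  set α := (-4 : ℝ) • s + (3 * l - 1 / 8) • a0 + (7 / 16 : ℝ) • (a1 + am) with eα
  set β := (4 : ℝ) • s - (4 * l - 1 / 8) • a0 + (1 / 16 : ℝ) • (a1 + am) with eβ
  have ew : α + β = (-l) • a0 + (1 / 2 : ℝ) • (a1 + am) := by rw [eα, eβ]; module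
  have Pα : m α (α + β) = (-93 / 64 * l + 143 / 512) • (am + a1) - (7 / 1024 : ℝ) • (an + a2) +
      (3 / 32 * l - 9 / 512) • a0 + (3 * l - 1) • s + (7 / 16 : ℝ) • u := by
    rw [ew, eα]
    simp only [map_add, map_smul, LinearMap.add_apply, LinearMap.smul_apply, cm s a0, cm s a1, cm s am, cm a1 a0,
      cm am a0, cm am a1, p00, p11, pmm, hs, p0m, hu, p0s, p1s, pms]
    module
  have Pβ : m β (α + β) = (91 / 64 * l - 7 / 512) • (am + a1) + (7 / 1024 : ℝ) • (an + a2) +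
      (l ^ 2 - 5 / 32 * l + 9 / 512) • a0 + (-5 * l + 1) • s + (1 / 16 : ℝ) • u := by
    rw [ew, eβ]
    simp only [map_add, map_sub, map_smul, LinearMap.add_apply, LinearMap.sub_apply, LinearMap.smul_apply, cm s a0,
      cm s a1, cm s am, cm a1 a0, cm am a0, cm am a1, p00, p11, pmm, hs, p0m, hu, p0s, p1s, pms]
    module
  have Pαβ : m α β = (75 / 64 * l - 39 / 4096) • (am + a1) + (21 / 4096 : ℝ) • (an + a2) +
      (9 * l ^ 2 - 21 / 32 * l + 45 / 2048) • a0 - (16 : ℝ) • m s s + (3 * l + 17 / 32) • s + (7 / 128 : ℝ) • u := by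
    rw [eα, eβ]
    simp only [map_add, map_sub, map_smul, LinearMap.add_apply, LinearMap.smul_apply, cm s a0,
      cm s a1, cm s am, cm a1 a0, cm am a0, cm am a1, p00, p11, pmm, hs, p0m, hu, p0s, p1s, pms]
    module
  have F1 := f00 h0 hα hα
  have F2 := f44' h0 hV n0 hβ hβ
  have F3 := f04 h0 hα hβ
  have oα : B a0 α = 0 := orth h0 hV zero_ne_one (hα.trans (zero_smul _ _).symm)
  have oβ : B a0 β = 0 := orth h0 hV (by norm_num) hβ
  have oαβ : B β α = 0 := by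
    have := hV.2.2.2.1 β a0 α
    rw [hα, cm, hβ] at this
    simp only [map_zero, map_smul, LinearMap.smul_apply, smul_eq_mul] at this
    linear_combination -4 * this
  have bβ : B a0 (m β β) = (4 * (l - (1 + l) / 32) - (4 * l - 1 / 8) * l + (1 + o) / 16) / 4 := by
    have e1 : B (α + β) β = B β β := by rw [map_add B, LinearMap.add_apply, hV.2.1 α, oαβ, zero_add]
    have e2 : B am β = B a1 β := by rw [← ham, ← fix h0 (.inr (.inr rfl)) hβ, h0.2.1, fix h0 (.inr (.inr rfl)) hβ]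
    rw [hV.2.2.2.1, hβ, map_smul, LinearMap.smul_apply, ← e1, ew]
    simp only [map_add, map_smul, LinearMap.add_apply, LinearMap.smul_apply, oβ, e2]
    rw [eβ]
    simp only [map_add, map_sub, map_smul, b1s, n1, ho, hV.2.1 a1 a0, hl, smul_eq_mul]
    ring
  rw [bβ] at F2
  have Aα := congrArg (m a0) Pα
  have Aβ := congrArg (m a0) Pβ
  rw [map_add (m α), map_add, F1, F3] at Aα
  rw [map_add (m β), map_add, cm β α, F2, F3] at Aβ
  simp only [map_add, map_sub, map_smul, p00, hs, p0m, ht, p0n, p0s] at Aα Aβ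
  have r1 : m a0 u = (1 / 6 * l - 19 / 3072) • (am + a1) + (7 / 6144 : ℝ) • (an + a2) +
      (-32 / 3 * l ^ 2 + 5 / 3 * l - 1 / 24 * o - 127 / 3072) • a0 + (32 / 3 * l - 19 / 48) • s +
      (7 / 96 : ℝ) • t := by
    linear_combination (norm := module) (8 / 3 : ℝ) • Aβ - (8 / 3 : ℝ) • Aα
  refine ⟨r1, ?_⟩
  rw [r1, Pαβ] at Aα
  linear_combination (norm := module) (-1 / 4 : ℝ) • Aα

end CA.Maj
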