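import Cfsg.Agent.Lib.Grp.SchurLow
import Cfsg.Agent.Lib.Spor.LeechI

/-! Multiplier certificates for subgroups of the Conway group given by matrix codes. -/

set_option autoImplicit false

namespace CA.H22Co

open Cfsg CA.SchurPc CA.SchurCG CA.CWord CA.CGroup CA.CGCert CA.Leech CA.NatBits

/-- compare two products up to the factor `z` -/
noncomputable def chkZ (mul : ℕ → ℕ → ℕ) (one z : ℕ) (xs u v : List ℕ) : Bool :=
  force (prodL mul one (lmap (CA.CWord.nth xs one) u)) fun a =>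
    force (prodL mul one (lmap (CA.CWord.nth xs one) v)) fun b => Nat.beq a b || Nat.beq a (mul z b)

section

variable {D E : Type*} [Group D] [Group E] {G : CG D} (f : D →* E) {z : ℕ} {ζ : D} (hz : G.R z ζ) (hζ : f ζ = 1)
include hz hζ

theorem chkZ_spec {xs : List ℕ} {X : ℕ → D} (hX : ∀ i, G.R (CA.CWord.nth xs G.one i) (X i)) {u v : List ℕ}
    (h : chkZ G.mul G.one z xs u v = true) : pv (fun i => f (X i)) u = pv (fun i => f (X i)) v := by
  have hp : ∀ u, G.R (prodL G.mul G.one (lmap (CA.CWord.nth xs G.one) u)) (pv X u) := fun u => by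
    induction u with
    | nil => exact G.R_one
    | cons a u ih => rw [pv_cons]; exact G.R_mul (hX a) ih
  have hq : ∀ u, pv (fun i => f (X i)) u = f (pv X u) := fun u => by
    induction u with
    | nil => exact (map_one _).symm
    | cons a u ih => rw [pv_cons, pv_cons, map_mul, ih]
  rw [chkZ, force_eq, force_eq, Bool.or_eq_true] at h
  rw [hq, hq]
  rcases h with h | h
  · rw [G.R_fun (hp u) (Nat.eq_of_beq_eq_true h ▸ hp v)]
  · rw [G.R_fun (hp u) (Nat.eq_of_beq_eq_true h ▸ G.R_mul hz (hp v)), map_mul, hζ, one_mul]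

theorem grp_quot [Finite D] (hf : Function.Surjective f) {m n : ℕ} (hD : Nat.card D = m * n) (hE : Nat.card E = n)
    (hm : 0 < m) {xs : List ℕ} {C : PC} (hl : C.l.Prime) (h0 : G.Ok xs)
    (h1 : ∀ i < C.K, C.rowOK (chkZ G.mul G.one z xs) i = true)
    (h2 : lall C.F (C.fusOK (chkZ G.mul G.one z xs)) = true) (hd : ¬ C.l ^ (C.K + 1) ∣ n)
    (h3 : ∀ K : Subgroup D, G.In (z :: xs.take C.K) K → m * C.l ^ C.K ≤ Nat.card K) : Grp C E := by
  have hX : ∀ i, ∃ g : D, G.R (CA.CWord.nth xs G.one i) g := fun i => by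
    rcases nth_mem_or xs G.one i with e | e
    · exact h0 _ e
    · exact ⟨1, e.symm ▸ G.R_one⟩
  choose X hX using hX
  refine ⟨hl, hE ▸ hd, _, _, fun u v h => chkZ_spec f hz hζ hX h, h1, h2, ?_⟩
  generalize hQ : Subgroup.closure ((fun i => f (X i)) '' Set.Iio C.K) = Q
  have h4 := h3 (Q.comap f) fun c hc => by
    rcases List.mem_cons.1 hc with rfl | hc
    · exact ⟨ζ, by rw [Subgroup.mem_comap, hζ]; exact one_mem _, hz⟩
    · obtain ⟨i, hi, rfl⟩ := nth_take xs G.one hc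
      exact ⟨X i, hQ ▸ Subgroup.subset_closure ⟨i, hi, rfl⟩, hX i⟩
  have h5 := (Q.comap f).card_mul_index
  rw [Subgroup.index_comap_of_surjective _ hf, hD, ← hE, ← Q.card_mul_index, ← mul_assoc] at h5
  haveI : Finite E := Finite.of_surjective f hf
  rw [Nat.eq_of_mul_eq_mul_right (Nat.pos_of_ne_zero Q.index_ne_zero_of_finite) h5] at h4
  exact Nat.le_of_mul_le_mul_left h4 hm

end

theorem grpL {ps xs : List ℕ} {C : PC} {n : ℕ} (hn : Nat.card (St (ps.map vec)) = n) (hl : C.l.Prime)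
    {L : List (ℕ × List (List ℕ))} (h0 : allL xs okC = true) (hf : fixOK ps xs = true)
    (h1 : ∀ i < C.K, C.rowOK (chkG cG.mul cG.one xs) i = true)
    (h2 : lall C.F (C.fusOK (chkG cG.mul cG.one xs)) = true) (hd : ¬ C.l ^ (C.K + 1) ∣ n)
    (h3 : lowP L (xs.take C.K) (C.l ^ C.K) = true) : Grp C (St (ps.map vec)) := by
  rw [lowP, Bool.and_eq_true] at h3
  refine grp_of_cg cA (in_St (cG_ok h0) hf) hn hl _ (fun c hc => ?_) h1 h2 hd h3.2
  obtain ⟨q', hq', e⟩ := List.mem_map.1 hc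
  obtain ⟨q, hq, e'⟩ := List.mem_map.1 hq'
  have e2 : sc q.1 = c := (congrArg Prod.fst e').trans e
  exact ⟨_, e2 ▸ ok_S (allL_iff.1 h3.1 _ (List.mem_map_of_mem hq))⟩

theorem grpQ {xs : List ℕ} {C : PC} (hl : C.l.Prime)
    {L : List (ℕ × List (List ℕ))} (h0 : allL xs okC = true)
    (h1 : ∀ i < C.K, C.rowOK (chkZ cG.mul cG.one cNg xs) i = true)
    (h2 : lall C.F (C.fusOK (chkZ cG.mul cG.one cNg xs)) = true) (hd : ¬ C.l ^ (C.K + 1) ∣ 4157776806543360000)
    (h3 : lowP L (cNg :: xs.take C.K) (2 * C.l ^ C.K) = true) : Grp C Spor.Co1 :=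
  grp_quot (QuotientGroup.mk' (Subgroup.center Co0)) R_ng
    ((QuotientGroup.eq_one_iff _).2 (mem_center.2 (Or.inr rfl))) (QuotientGroup.mk'_surjective _)
    (card_Co0.trans (by norm_num)) card_Co1 two_pos hl (cG_ok h0) h1 h2 hd fun _ hK => lowP_le h3 hK

end CA.H22Co
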