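import Cfsg.Agent.Lib.Spor.J4Dc

/-! Counting lemmas for the centraliser of an involution. -/

set_option autoImplicit false

namespace CA.H28J4
open Subgroup MulAction CA.J4Dc

variable {G : Type*} [Group G] [Finite G]

theorem cls {H : Subgroup G} {z : G} (I : Set G) : ∃ ρ : G → G, ∀ h ∈ H, ρ (h⁻¹ * z * h) ∈ H ∧
    h * (ρ (h⁻¹ * z * h))⁻¹ ∈ centralizer {z} ⊓ H := by
  have : ∀ v : G, ∃ r, ∀ h ∈ H, h⁻¹ * z * h = v → r ∈ H ∧ h * r⁻¹ ∈ centralizer {z} ⊓ H := fun v => by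
    by_cases e : ∃ r ∈ H, r⁻¹ * z * r = v
    · obtain ⟨r, h1, h2⟩ := e
      refine ⟨r, fun h hh e => ⟨h1, mem_inf.2 ⟨mem_centralizer_singleton_iff.2 ?_, mul_mem hh (inv_mem h1)⟩⟩⟩
      calc _ = h * (r⁻¹ * z * r) * r⁻¹ := by group
        _ = _ := by rw [h2, ← e]; group
    · exact ⟨1, fun h hh e' => absurd ⟨h, hh, e'⟩ e⟩
  choose ρ hρ using this
  exact ⟨ρ, fun h hh => hρ _ h hh rfl⟩

theorem cls_le {H : Subgroup G} {z : G} (K : Set G) (hK : ∀ v ∈ K, ∃ h ∈ H, h⁻¹ * z * h = v) :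
    K.ncard * Nat.card ↥(centralizer {z} ⊓ H) ≤ Nat.card H := by
  choose! r h1 h2 using hK
  rw [← Nat.card_coe_set_eq, ← Nat.card_prod]
  refine Nat.card_le_card_of_injective (fun p => ⟨p.2.1 * r p.1, mul_mem p.2.2.2 (h1 _ p.1.2)⟩) ?_
  rintro ⟨v, c⟩ ⟨w, d⟩ e
  have e' : c.1 * r v = d.1 * r w := congrArg Subtype.val e
  have k : ∀ (c : ↥(centralizer {z} ⊓ H)) (v : K), (c.1 * r v)⁻¹ * z * (c.1 * r v) = v := fun c v => by
    rw [← h2 v v.2, mul_assoc, ← mul_assoc z, ← mem_centralizer_singleton_iff.1 c.2.1, h2 v v.2, ← h2 v v.2, h2 v v.2]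
    nth_rw 3 [← h2 v v.2]; group
  obtain rfl : v = w := Subtype.ext (by rw [← k c v, e', k])
  rw [Subtype.ext (mul_right_cancel e')]

theorem cent_le {ι : Type*} [Fintype ι] {H V : Subgroup G} (hV : H ≤ normalizer (V : Set G)) {z : G} (hz : z ∈ V) (h1 : z ≠ 1)
    {g : ι → G} {A : ι → Subgroup G} (hc : ∀ x, ∃ j, x ∈ DC H (g j)) (hle : ∀ j, A j ≤ H)
    (hA : ∀ j, ∀ a ∈ A j, (g j)⁻¹ * a * g j ∈ H) {m : ℕ} (hm : Nat.card ↥(centralizer {z} ⊓ H) ≤ m) (y : ι → ℕ)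
    (hy : ∀ j, (g j = 1 ∧ y j = 1) ∨ ({v | v ∈ V ∧ (g j)⁻¹ * v * g j ∈ V}.ncard - 1) * m < (y j + 1) * Nat.card (A j)) :
    Nat.card (centralizer {z}) ≤ (∑ j, y j) * m := by
  classical
  have nV : ∀ h ∈ H, ∀ v ∈ V, h * v * h⁻¹ ∈ V := fun h hh v hv => (mem_normalizer_iff.1 (hV hh) v).1 hv
  let Y : ι → Set (G ⧸ H) := fun j => {x | ∃ h ∈ H, x = ((h * g j : G) : G ⧸ H) ∧ (g j)⁻¹ * (h⁻¹ * z * h) * g j ∈ V}
  have hY : ∀ j, (Y j).ncard ≤ y j := fun j => by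
    rcases hy j with ⟨a, b⟩ | a
    · rw [b]
      refine (Set.ncard_le_one (Set.toFinite _)).2 ?_
      rintro _ ⟨h, hh, rfl, -⟩ _ ⟨k, hk, rfl, -⟩
      rw [QuotientGroup.eq, a, mul_one, mul_one]
      exact mul_mem (inv_mem hh) hk
    refine Nat.le_of_lt_succ (Nat.lt_of_mul_lt_mul_right (lt_of_le_of_lt ?_ a))
    rw [← Set.ncard_sdiff_singleton_of_mem (a := 1) (by simp [one_mem])]
    refine le_trans ?_ (Nat.mul_le_mul_left _ hm)
    obtain ⟨ρ, hρ⟩ := cls (H := H) (z := z) ∅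
    choose! r r1 r2 r3 using fun x (h : x ∈ Y j) => h
    rw [← Nat.card_coe_set_eq, ← Nat.card_coe_set_eq, ← Nat.card_prod, ← Nat.card_prod]
    have m1 : ∀ p : Y j × A j, r p.1 * p.2 ∈ H := fun p => mul_mem (r1 _ p.1.2) (hle j p.2.2)
    refine Nat.card_le_card_of_injective (fun p => (⟨(r p.1 * p.2)⁻¹ * z * (r p.1 * p.2), ⟨?_, ?_⟩, fun e => h1 ?_⟩,
      ⟨_, (hρ _ (m1 p)).2⟩)) ?_
    · simpa using nV _ (inv_mem (m1 p)) z hz
    · have := nV _ (inv_mem (hA j _ p.2.2)) _ (r3 _ p.1.2)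
      convert this using 1; group
    · rw [← mul_inv_cancel_right z (r p.1 * p.2), ← mul_inv_cancel_left (r p.1 * p.2) (z * _), ← mul_assoc _ z,
        Set.mem_singleton_iff.1 e, mul_one, mul_inv_cancel]
    · rintro ⟨x, a⟩ ⟨w, b⟩ e
      have e1 := congrArg (fun p => p.1.1) e
      have e2 := congrArg (fun p => p.2.1) e
      dsimp only at e1 e2
      rw [e1, mul_left_inj] at e2
      have k : ∀ (x : Y j) (a : A j), ((r x * a * g j : G) : G ⧸ H) = x := fun x a => by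
        rw [r2 _ x.2, eq_comm, QuotientGroup.eq, ← r2 _ x.2]
        convert hA j _ a.2 using 1; group
      obtain rfl : x = w := Subtype.ext (by rw [← k x a, e2, k])
      rw [Subtype.ext (mul_left_cancel e2)]
  have h2 := Nat.card_congr (orbitProdStabilizerEquivGroup (centralizer {z}) ((1 : G) : G ⧸ H))
  rw [Nat.card_prod] at h2
  rw [← h2]
  refine Nat.mul_le_mul ?_ (le_trans (Nat.card_le_card_of_injective (fun c => ⟨c.1.1, c.1.2, by
    have := QuotientGroup.eq.1 (show ((c.1.1 * 1 : G) : G ⧸ H) = (1 : G) from c.2)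
    simpa using this⟩) fun c d e => Subtype.ext (Subtype.ext (congrArg (·.1) e))) hm)
  refine le_trans ?_ (Finset.sum_le_sum fun j _ => hY j)
  rw [Nat.card_coe_set_eq]
  refine le_trans (Set.ncard_le_ncard (t := ⋃ j, Y j) ?_) (Set.ncard_iUnion_le_of_fintype _)
  rintro _ ⟨c, rfl⟩
  obtain ⟨j, a, ha, b, hb, e⟩ := hc c.1
  refine Set.mem_iUnion.2 ⟨j, a, ha, ?_, ?_⟩
  · show ((c.1 * 1 : G) : G ⧸ H) = _
    rw [QuotientGroup.eq, e]
    simpa [mul_assoc] using hb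
  · have := mem_centralizer_singleton_iff.1 c.2
    rw [e] at this
    convert nV b hb z hz using 1
    calc _ = b * (a * g j * b)⁻¹ * (z * (a * g j * b)) * b⁻¹ := by group
      _ = _ := by rw [← this]; group

/-- products of sublists -/
def P (γ : ℕ → G) : List ℕ → G → Set G
  | [], x => {x}
  | q :: l, x => P γ l x ∪ P γ l (x * γ q)

omit [Finite G] in
theorem P_mul {γ : ℕ → G} {c : G} : ∀ {l : List ℕ}, (∀ q ∈ l, γ q * c = c * γ q) → ∀ {x e}, e ∈ P γ l x → e * c ∈ P γ l (x * c)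
  | [], _, _, _, h => congrArg (· * c) h
  | q :: l, h, x, e, he => he.imp (P_mul fun q hq => h q (.tail _ hq)) fun he => by
    rw [mul_assoc, ← h q (.head _), ← mul_assoc]; exact P_mul (fun q hq => h q (.tail _ hq)) he

omit [Finite G] in
theorem P_cl {γ : ℕ → G} : ∀ {l : List ℕ}, (∀ q ∈ l, ∀ r ∈ l, γ q * γ r = γ r * γ q) → (∀ q ∈ l, γ q * γ q = 1) →
    ∀ x, x ∈ P γ l x ∧ ∀ q ∈ l, ∀ e ∈ P γ l x, e * γ q ∈ P γ l x
  | [], _, _, _ => ⟨rfl, by simp⟩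
  | p :: l, h, h', x => by
    have ih := P_cl (l := l) (fun q a r b => h q (.tail _ a) r (.tail _ b)) fun q a => h' q (.tail _ a)
    refine ⟨.inl (ih x).1, fun q hq e he => ?_⟩
    rcases List.mem_cons.1 hq with rfl | hq
    · have c : ∀ r ∈ l, γ r * γ q = γ q * γ r := fun r a => h r (.tail _ a) q (.head _)
      rcases he with he | he
      · exact .inr (P_mul c he)
      · have := P_mul c he
        rw [mul_assoc x, h' q (.head _), mul_one] at this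
        exact .inl this
    · exact he.imp ((ih _).2 q hq e) ((ih _).2 q hq e)

end CA.H28J4
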