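import Cfsg.Agent.Lib.Spor.H28J4D
import Cfsg.Agent.Lib.Spor.H28J4A

/-! The centraliser of a 2-central involution of `J4`: correctness of the checks. -/

set_option autoImplicit false
set_option maxRecDepth 100000

namespace CA.H28J4
open Subgroup CA.CNet CA.CWord CA.BM CA.BitW CA.CMat CA.J4H CA.J4D CA.J4Dc CA.J4Mod CA.J4Mat CA.J4Ord Matrix

abbrev Vc := Fin 112 → ZMod 2
abbrev Mt := Matrix (Fin 112) (Fin 112) (ZMod 2)

theorem ex_gl {F : ℕ → ℕ} {k : ℕ} (h : invB F k = true) (h0 : ∀ a, 2 * k ≤ a → F a = eI) :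
    ∃ g : ℕ → GL (Fin 112) (ZMod 2), (∀ i, k ≤ i → g i = 1) ∧ ∀ w, (ev g w).1 = vl (evl (E 112) eI F w) := by
  have h1 : vl eI = 1 := val_one rfl num rfl
  have h2 : ∀ i, vl (F (2 * i)) * vl (F (2 * i + 1)) = 1 := fun i => by
    by_cases hi : i < k
    · have := CMat.allR_spec h hi
      rw [eqM_eq] at this
      have := congrArg vl (Nat.eq_of_beq_eq_true this)
      simpa [vl_evl] using this
    · rw [h0 _ (by omega), h0 _ (by omega), h1, one_mul]
  let g : ℕ → GL (Fin 112) (ZMod 2) := fun i => ⟨vl (F (2 * i)), vl (F (2 * i + 1)), h2 i, mul_eq_one_comm.1 (h2 i)⟩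
  have h3 : ∀ a, (lv g a).1 = vl (F a) := fun a => by
    unfold lv
    split_ifs with h
    · show vl (F (2 * (a / 2))) = _
      rw [show 2 * (a / 2) = a by omega]
    · show vl (F (2 * (a / 2) + 1)) = _
      rw [show 2 * (a / 2) + 1 = a by omega]
  refine ⟨g, fun i hi => Units.ext ?_, fun w => ?_⟩
  · show vl (F (2 * i)) = 1
    rw [h0 _ (by omega), h1]
  · rw [vl_evl]
    induction w with
    | nil => rfl
    | cons a w ih => rw [ev_cons, Units.val_mul, h3, ih, List.map_cons, List.prod_cons]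

theorem F_eq {a : ℕ} (h : a < 62) : F' a = F a := by rw [F', Nat.blt_eq.mpr h, cond_true]

structure Su {G : Type} [Group G] (γ γ' : ℕ → G) (μ : G →* Mt) : Prop where
  inj : Function.Injective μ
  b : ∀ w, μ (ev γ w) = vl (evl (E 112) eI F w)
  b' : ∀ w, μ (ev γ' w) = vl (evl (E 112) eI F' w)
  top : grp γ [[0], [2], [32]] = ⊤

theorem eq_of {G : Type} [Group G] {γ : ℕ → G} {μ : G →* Mt} (hi : Function.Injective μ) {F : ℕ → ℕ}
    (b : ∀ w, μ (ev γ w) = vl (evl (E 112) eI F w)) (u v : Word) (h : eqM F u v = true) : ev γ u = ev γ v :=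
  hi (by rw [eqM_eq] at h; rw [b, b, Nat.eq_of_beq_eq_true h])

theorem ne_of {G : Type} [Group G] {γ : ℕ → G} {μ : G →* Mt} {F : ℕ → ℕ}
    (b : ∀ w, μ (ev γ w) = vl (evl (E 112) eI F w)) (e : Word × Word × ℕ × ℕ) (h : neM F e = true) :
    ev γ e.1 ≠ ev γ e.2.1 := fun h' => by
  obtain ⟨h1, h2⟩ := band_iff.1 h
  have h3 := congrFun (congrFun (((b e.1).symm.trans (congrArg μ h')).trans (b e.2.1))
    ⟨_, Nat.blt_eq.mp (band_iff.1 h1).1⟩) ⟨_, Nat.blt_eq.mp (band_iff.1 h1).2⟩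
  rw [tb_eq, tb_eq] at h2
  simp only [val, bt, Matrix.of_apply] at h3
  revert h2 h3
  cases Nat.testBit _ _ <;> cases Nat.testBit _ _ <;> simp

theorem evl_eq (w : Word) (h : ∀ a ∈ w, a < 62) : vl (evl (E 112) eI F' w) = vl (evl (E 112) eI F w) := by
  rw [vl_evl, vl_evl, List.map_congr_left fun a ha => by rw [F_eq (h a ha)]]

theorem setup : ∃ (G : Type) (_ : Group G) (_ : Finite G) (γ γ' : ℕ → G) (μ : G →* Mt), Su γ γ' μ := by
  obtain ⟨g, h0, b⟩ := ex_gl J4Mat.hI fun a ha => by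
    unfold F
    rw [nth_eq_getD]
    exact List.getD_eq_default _ _ (le_trans (le_of_eq rfl) ha)
  obtain ⟨g', h0', b'⟩ := ex_gl hI fun a ha => by
    rw [F', show Nat.blt a 62 = false from Bool.eq_false_iff.2 fun h => by have := Nat.blt_eq.mp h; omega, cond_false, nth_eq_getD]
    exact List.getD_eq_default _ _ (show 40 ≤ a - 62 by omega)
  have hE := eq_of (μ := Units.coeHom Mt) Units.val_injective b
  have hE' := eq_of (μ := Units.coeHom Mt) Units.val_injective b'
  have gm : ∀ i, g i ∈ grp g [[0], [2], [32]] := fun i => by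
    induction i using Nat.strong_induction_on with
    | _ i ih =>
      by_cases hi : i < 31
      · rcases (by decide +kernel : ∀ i < 31, [2 * i] ∈ [[0], [2], [32]] ∨ ∀ a ∈ D.getD i [], a / 2 < i ∨
          [2 * (a / 2)] ∈ [[0], [2], [32]]) i hi with h | h
        · exact ev_gen g i ▸ mem_grp g h
        · have := hE _ _ (CMat.allR_spec J4Mat.hD hi)
          rw [ev_gen, nth_eq_getD] at this
          rw [this]
          exact ev_mem' fun a ha => (h a ha).elim (ih _) fun h => ev_gen g _ ▸ mem_grp g h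
      · rw [h0 i (not_lt.1 hi)]; exact one_mem _
  have gm' : ∀ i, g' i ∈ grp g [[0], [2], [32]] := fun i => by
    induction i using Nat.strong_induction_on with
    | _ i ih =>
      by_cases hi : i < 31
      · rw [← ev_gen g', Units.ext ((b' _).trans ((evl_eq _ (by simp; omega)).trans (b _).symm))]
        exact ev_mem gm _
      by_cases hi' : i < 51
      · obtain ⟨j, rfl⟩ := Nat.exists_eq_add_of_le (not_lt.1 hi)
        have := hE' _ _ (CMat.allR_spec hD (show j < 20 by omega))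
        rw [ev_gen, nth_eq_getD] at this
        rw [this]
        exact ev_mem' fun a ha => ih _ (hD' j (by omega) a ha)
      · rw [h0' i (not_lt.1 hi')]; exact one_mem _
  let γ : ℕ → grp g [[0], [2], [32]] := fun i => ⟨g i, gm i⟩
  let γ' : ℕ → grp g [[0], [2], [32]] := fun i => ⟨g' i, gm' i⟩
  refine ⟨_, inferInstance, inferInstance, γ, γ', (Units.coeHom Mt).comp (grp g [[0], [2], [32]]).subtype,
    Units.val_injective.comp Subtype.val_injective,
    fun w => (congrArg Units.val (map_ev (grp g [[0], [2], [32]]).subtype γ w)).trans (b w),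
    fun w => (congrArg Units.val (map_ev (grp g [[0], [2], [32]]).subtype γ' w)).trans (b' w), ?_⟩
  refine (card_eq_iff_eq_top _).1 ?_
  rw [← card_subtype, map_grp]
  rfl

theorem core {G : Type} [Group G] [Finite G] {γ : ℕ → G} (hE : ∀ u v, eqM F u v = true → ev γ u = ev γ v)
    (hN : ∀ e, neM F e = true → ev γ e.1 ≠ ev γ e.2.1) (hT : grp γ [[0], [2], [32]] = ⊤) :
    ∃ (H : Subgroup G) (A : Fin 7 → Subgroup G), (∀ w : Word, (∀ a ∈ w, a < 32) → ev γ w ∈ H) ∧ Nat.card H = 501397585920 ∧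
      H ≤ normalizer (grp γ qs : Set G) ∧ (∀ x, ∃ j : Fin 7, x ∈ DC H (ev γ (gl j))) ∧ (∀ j, A j ≤ H) ∧
      (∀ j : Fin 7, ∀ a ∈ A j, (ev γ (gl j))⁻¹ * a * ev γ (gl j) ∈ H) ∧ ∀ j : Fin 7, lo j ≤ Nat.card (A j) := by
  have eq : ∀ u v, (u, v) ∈ eqs → ev γ u = ev γ v := fun u v h => hE u v (lall_iff.1 heq _ h)
  have ne : ∀ u v, (∃ e ∈ nes, e.1 = u ∧ e.2.1 = v) → ev γ u ≠ ev γ v := by
    rintro _ _ ⟨e, he, rfl, rfl⟩
    exact hN e (lall_iff.1 hne _ he)
  have hγ : ∀ r ∈ relsH, ev γ r = 1 := fun r hr => hE r [] (lall_iff.1 J4Mat.hrel r hr)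
  obtain ⟨P, _, _, δ, hδ, ht, hc, hq, hlo, hdec⟩ := model
  obtain ⟨φ, hφ⟩ := hom hδ hγ ht hc
  have n1 : ∀ u v, (∀ a ∈ u, a < 32) → (∀ a ∈ v, a < 32) → ev γ u ≠ ev γ v → ev δ u ≠ ev δ v := fun u v hu hv h e =>
    h (by rw [← hφ u hu, ← hφ v hv, e])
  have hx : ev γ [0] ≠ 1 := ne [0] [] (by decide +kernel)
  have st := struct hδ ht hc hq (n1 [0] [] (by decide) (by decide) hx)
    (n1 _ _ (by decide) (by decide) (ne _ _ (by decide +kernel)))
  have inj : Function.Injective φ := by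
    rcases st φ.ker with h | ⟨-, h | h⟩
    · exact absurd ((hφ [0] (by decide)).symm.trans (h (mem_grp δ (by decide)))) hx
    · exact (MonoidHom.ker_eq_bot_iff φ).1 h
    · exact absurd ((hφ [4] (by decide)).symm.trans (h.ge (mem_grp δ (by decide)))) (ne [4] [] (by decide +kernel))
  let H := φ.range
  have mH : ∀ w : Word, (∀ a ∈ w, a < 32) → ev γ w ∈ H := fun w hw => ⟨_, hφ w hw⟩
  have cH : Nat.card H = 501397585920 := (Nat.card_congr (MonoidHom.ofInjective inj).toEquiv).symm.trans hc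
  let A : Fin 7 → Subgroup G := fun i => (grp δ (W i)).map φ
  let g : Fin 7 → G := fun i => ev γ (gl i)
  let t := ev γ [32]
  have tt : t * t = 1 := (ev_append γ [32] [32]).symm.trans (eq _ [] (by decide +kernel))
  have ti : t⁻¹ = t := inv_eq_of_mul_eq_one_right tt
  have hA : ∀ i, ∀ a ∈ A i, (g i)⁻¹ * a * g i ∈ H := fun i => by
    have : grp δ (W i) ≤ (H.comap (MulAut.conj (g i)⁻¹).toMonoidHom).comap φ := (grp_le_iff δ).2 fun w hw => by
      obtain ⟨e, he, rfl, h2⟩ := smallS i i.2 w hw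
      have h3 := hE _ _ (lall_iff.1 (hSR i i.2).1 e he)
      rw [ev_lapp, ev_lapp] at h3
      show (g i)⁻¹ * φ (ev δ e.1) * (g i)⁻¹⁻¹ ∈ H
      rw [hφ _ (small i i.2 _ hw), inv_inv, mul_assoc, h3, inv_mul_cancel_left]
      exact mH _ h2
    rintro _ ⟨a, ha, rfl⟩
    have := this ha
    rwa [mem_comap, mem_comap, MulEquiv.coe_toMonoidHom, MulAut.conj_apply, inv_inv] at this
  have g1 : g 1 = t := eq [34] [32] (by decide +kernel)
  have hcov : ∀ x, ∃ j, x ∈ DC H (g j) := by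
    refine cover (K := A 1) (A := A) (t := t) 0 rfl tt (fun k hk => ?_) hA ?_ ?_ hT
    · have := hA 1 k hk
      rwa [g1, ti] at this
    · rintro i _ ⟨π, rfl⟩
      obtain ⟨κ, hκ, α, hα, r, hr, rfl⟩ := hdec i i.2 π
      obtain ⟨a1, a2, a3, a4⟩ := smallR i i.2 r hr
      refine ⟨φ κ, ⟨κ, hκ, rfl⟩, φ α, ⟨α, hα, rfl⟩, (ev γ r.2.1)⁻¹, by rw [map_mul, map_mul, map_inv, hφ _ a2],
        ⟨_, a1⟩, _, mH _ a3, _, mH _ a4, ?_⟩
      have h3 := hE _ _ (lall_iff.1 (hSR i i.2).2 r hr)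
      rw [show 32 :: lapp (winv r.2.1) (gl i) = [32] ++ lapp (winv r.2.1) (gl i) from rfl, ev_append, ev_lapp, ev_lapp,
        ev_lapp, ev_winv] at h3
      rw [mul_assoc, mul_assoc]
      exact h3
    · rintro _ ⟨w, hw, rfl⟩
      rcases (by decide : ∀ w ∈ [[0], [2], [32]], (∀ a ∈ w, a < 32) ∨ w = [32]) w hw with h | rfl
      · exact Or.inl (mH w h)
      · exact Or.inr rfl
  have gq : ∀ w : Word, (∀ b ∈ w, 4 ≤ b ∧ b < 26) → ev γ w ∈ grp γ qs := fun w h => ev_mem' fun a ha =>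
    ev_gen γ _ ▸ mem_grp γ ((by decide : ∀ b < 26, 4 ≤ b → [2 * (b / 2)] ∈ qs) a (h a ha).2 (h a ha).1)
  have m1 : ∀ i < 13, γ i ∈ normalizer (grp γ qs : Set G) := fun i hi => by
    by_cases h2 : i < 2
    · refine mem_norm ?_
      rintro _ ⟨q, hq, rfl⟩
      obtain ⟨r, hr, h3, h4⟩ := (by decide +kernel : ∀ i < 2, ∀ q ∈ qs, ∃ r ∈ relsH,
        r = [2 * i] ++ q ++ winv [2 * i] ++ r.drop 3 ∧ ∀ b ∈ r.drop 3, 4 ≤ b ∧ b < 26) i h2 q hq
      have h5 := hγ r hr
      rw [h3, ev_append, ev_append, ev_append, ev_winv, ev_gen] at h5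
      rw [eq_inv_of_mul_eq_one_left h5]
      exact inv_mem (gq _ h4)
    · exact le_normalizer (ev_gen γ i ▸ gq [2 * i] (by simp; omega))
  have m2 : ∀ i < 16, γ i ∈ normalizer (grp γ qs : Set G) := fun i hi => by
    by_cases h2 : i < 13
    · exact m1 i h2
    · obtain ⟨r, hr, h3, h4⟩ := (by decide +kernel : ∀ i < 16, ¬ i < 13 → ∃ r ∈ relsH,
        r = winv [2 * i] ++ r.drop 1 ∧ ∀ b ∈ r.drop 1, b < 26) i hi h2
      have h5 := hγ r hr
      rw [h3, ev_append, ev_winv, ev_gen, inv_mul_eq_one] at h5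
      rw [h5]
      exact ev_mem' fun a ha => m1 _ (by have := h4 a ha; omega)
  refine ⟨H, A, mH, cH, ?_, hcov, fun j => map_le_range _ _, hA, fun j => by
    rw [card_map_of_injective inj]; exact hlo j j.2⟩
  rintro _ ⟨x, rfl⟩
  refine (show ⊤ ≤ (normalizer (grp γ qs : Set G)).comap φ from ht.ge.trans ((grp_le_iff δ).2 fun w hw => ?_)) (mem_top x)
  have := small 0 (by decide) w hw
  rw [mem_comap, hφ w this]
  exact ev_mem' fun a ha => m2 _ (by have := this a ha; omega)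

def rw (S i : ℕ) : Vc := fun c => bt (ZMod 2) S (128 * i + c)

theorem rw_mul {N i : ℕ} (hi : i < N) (S A : ℕ) : rw (mul (E N) 112 S A) i = rw S i ᵥ* vl A := funext fun c =>
  (bt_mul rfl hi (c.2.trans (by decide)) S A 112).trans
    (Fin.sum_univ_eq_sum_range (fun j => bt (ZMod 2) S (128 * i + j) * bt (ZMod 2) A (128 * j + c)) 112).symm

theorem bt_inj {x y p q : ℕ} : bt (ZMod 2) x p = bt (ZMod 2) y q ↔ x.testBit p = y.testBit q := by
  unfold bt; cases x.testBit p <;> cases y.testBit q <;> simp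

theorem md_iff {x y : ℕ} : md x = md y ↔ rw x 0 = rw y 0 := by
  have e : ∀ x p, (md x).testBit p = (decide (p < 112) && x.testBit p) := fun x p => Nat.testBit_mod_two_pow x 112 p
  refine ⟨fun h => funext fun c => bt_inj.2 ?_, fun h => Nat.eq_of_testBit_eq fun p => ?_⟩
  · have := congrArg (·.testBit c) h
    simpa [e] using this
  · rw [e, e]
    by_cases hp : p < 112
    · have := bt_inj.1 (congrFun h ⟨p, hp⟩)
      simpa [hp] using this
    · simp [hp]

theorem rw_shift (R i : ℕ) : rw (Nat.shiftRight R 128) i = rw R (i + 1) := funext fun c => bt_inj.2 (by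
  rw [show Nat.shiftRight R 128 = R >>> 128 from rfl, Nat.testBit_shiftRight]; congr 1; omega)

theorem okS_iff (S : ℕ) : ∀ (As : List ℕ) (R : ℕ), okS As S R = true ↔ ∀ i < As.length, rw S 0 ᵥ* vl (As.getD i 0) = rw R i
  | [], _ => by simp [okS]
  | A :: As, R => by
    refine band_iff.trans ?_
    rw [show List.rec (motive := fun _ => ℕ → Bool) _ _ As _ = okS As S (Nat.shiftRight R 128) from rfl, okS_iff,
      Nat.beq_eq, md_iff, show mul 1 112 S A = mul (E 1) 112 S A from rfl, rw_mul one_pos, List.length_cons,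
      Nat.forall_lt_succ_left]
    simp only [rw_shift, List.getD_cons_succ, List.getD_cons_zero]

variable {G : Type} [Group G] [Finite G] {γ γ' : ℕ → G} {μ : G →* Mt} (U : Su γ γ' μ)
include U

theorem Su.one (a : ℕ) : μ (ev γ' [a]) = vl (F' a) := by rw [U.b', vl_evl]; simp

theorem cnt_le {good : G → Prop} {us : ℕ → Vc} {ok : ℕ → Bool}
    (hok : ∀ S e, (∀ i < 3, rw S i = us i ᵥ* μ e) → good e → ok S = true) : ∀ (l : List ℕ) (S : ℕ) (x : G),
    (∀ i < 3, rw S i = us i ᵥ* μ x) → {e | e ∈ P (fun q => ev γ' [q]) l x ∧ good e}.ncard ≤ cntV (E 3) ok l S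
  | [], S, x, h => by
    show _ ≤ cond (ok S) 1 0
    by_cases e : good x
    · rw [hok S x h e]
      exact (Set.ncard_le_ncard (t := {x}) fun _ h => h.1).trans (Set.ncard_singleton x).le
    · rw [Set.eq_empty_of_forall_notMem (s := {e | e ∈ P (fun q => ev γ' [q]) [] x ∧ good e}) fun y hy => e (hy.1 ▸ hy.2)]
      simp
  | q :: l, S, x, h => by
    show _ ≤ cntV (E 3) ok l S + force (mul (E 3) 112 S (F' q)) (cntV (E 3) ok l)
    rw [force_eq]
    refine le_trans ?_ (Nat.add_le_add (cnt_le hok l S x h) (cnt_le hok l _ (x * ev γ' [q]) fun i hi => by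
      rw [rw_mul hi, h i hi, map_mul, U.one, vecMul_vecMul]))
    exact le_trans (Set.ncard_le_ncard fun e he => he.1.imp (⟨·, he.2⟩) (⟨·, he.2⟩)) (Set.ncard_union_le _ _)

theorem wk_le {O : Set G} : ∀ (l : List ℕ) (M acc : ℕ) (e : G) (K : Finset G),
    (∀ s ∈ l, ∀ x ∈ O, (ev γ' [s])⁻¹ * x * ev γ' [s] ∈ O) → wk (E 112) l M acc = true → μ e = vl M → e ∈ O → (K : Set G) ⊆ O →
    (∀ x ∈ K, ∃ M, μ x = vl M ∧ acc.testBit (md M % 179047) = true) → K.card + l.length ≤ O.ncard
  | [], _, _, _, K, _, _, _, _, h, _ => by simpa using Set.ncard_le_ncard h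
  | s :: l, M, acc, e, K, h1, h2, h3, h4, h5, h6 => by
    classical
    have h2' : force (Nat.mod (md M) 179047) (fun k => band (!tb acc k) (force (Nat.lor acc (bit k)) fun acc' =>
      force (mulf (E 112) 112 (F' (Nat.xor s 1)) (mulf (E 112) 112 M (F' s))) fun M' => wk (E 112) l M' acc')) = true := h2
    rw [force_eq, force_eq, force_eq, band_iff, tb_eq] at h2'
    have t : ∀ p, (Nat.lor acc (bit (Nat.mod (md M) 179047))).testBit p = (acc.testBit p || decide (md M % 179047 = p)) := fun p => by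
      rw [← testBit_bit]; exact Nat.testBit_or ..
    have := wk_le l _ _ ((ev γ' [s])⁻¹ * e * ev γ' [s]) (insert e K) (fun s hs => h1 s (.tail _ hs)) h2'.2 (by
      rw [show ∀ A B, vl (mulf (E 112) 112 A B) = vl A * vl B from val_mul rfl num rfl,
        show ∀ A B, vl (mulf (E 112) 112 A B) = vl A * vl B from val_mul rfl num rfl, ← U.one, ← U.one, ← h3, mul_assoc,
        map_mul, map_mul, ev_cons, ev_cons γ' (Nat.xor s 1), lv_xor, ev_nil, mul_one, mul_one]) (h1 s (.head _) e h4)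
      (by rw [Finset.coe_insert]; exact Set.insert_subset h4 h5) fun x hx => by
        rcases Finset.mem_insert.1 hx with rfl | hx
        · exact ⟨M, h3, by rw [t]; simp⟩
        · obtain ⟨N, a, b⟩ := h6 x hx
          exact ⟨N, a, by rw [t, b]; rfl⟩
    rw [Finset.card_insert_of_notMem fun h => by
      obtain ⟨N, a, b⟩ := h6 e h
      have c : md N = md M := md_iff.2 (congrFun (a.symm.trans h3) 0)
      rw [c] at b
      exact absurd h2'.1 (by rw [show Nat.mod (md M) 179047 = md M % 179047 from rfl, b]; decide)] at this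
    rw [List.length_cons]; omega

end CA.H28J4
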