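import Cfsg.Agent.Lib.Spor.H28McD
import Cfsg.Agent.Lib.Spor.H17Srg

/-! The rank 3 characterisation of the McLaughlin graph. -/

set_option autoImplicit false
set_option maxRecDepth 100000

namespace CA.H28Mc
open CA.NatBits MulAction Subgroup Equiv Function CA.Steiner

abbrev X := Fin 275

theorem nc (p : ℕ → Bool) : {i : X | p i = true}.ncard = cnt p := by
  rw [← Set.ncard_image_of_injective _ Fin.val_injective, cnt,
    ← List.toFinset_card_of_nodup (List.nodup_range.filter _), ← Set.ncard_coe_finset]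
  congr 1; ext j
  simp only [Set.mem_image, Set.mem_ofPred_eq, Finset.mem_coe, List.mem_toFinset, List.mem_filter, List.mem_range]
  exact ⟨fun ⟨i, a, b⟩ => b ▸ ⟨i.2, a⟩, fun h => ⟨⟨j, h.1⟩, h.2, rfl⟩⟩

theorem irr (i : X) : adj i i = false := by
  simpa using (Bool.and_eq_true_iff.1 (allLt_iff.1 k_sym i i.2)).1
theorem sym (i j : X) : adj i j = adj j i := by
  have h : ∀ i j : X, j.1 < i → adj i j = adj j i := fun i j h => by
    simpa using allLt_iff.1 (Bool.and_eq_true_iff.1 (allLt_iff.1 k_sym i i.2)).2 j h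
  rcases lt_trichotomy j.1 i.1 with a | a | a
  exacts [h i j a, by rw [a], (h j i a).symm]
theorem N0 (i : X) : adj 0 i = true ↔ 0 < i.1 ∧ i.1 < 113 := by
  have := allLt_iff.1 k_N i i.2
  simp only [beq_iff_eq] at this
  simp [this]
theorem det {d e : X} (hd : 113 ≤ d.1) (he : 113 ≤ e.1) (h : ∀ i : X, i.1 < 113 → adj d i = adj e i) : d = e := by
  have a : ∀ d i, (msk d).testBit i = (adj d i && decide (i < 113)) := fun d i => by
    rw [msk, show ∀ a b, Nat.land a b = a &&& b from fun _ _ => rfl, Nat.testBit_and, Nat.testBit_two_pow_sub_one,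
      show ∀ a b, Nat.shiftRight a b = a >>> b from fun _ _ => rfl, Nat.testBit_shiftRight, adj, Nat.testBit, Nat.and_comm]
    congr 1
    show _ = Nat.beq (A >>> (275 * d + i) &&& 1) 1
    show (A >>> (275 * d + i) &&& 1 != 0) = _
    rw [Nat.and_one_is_mod]
    generalize A >>> _ = n
    rcases Nat.mod_two_eq_zero_or_one n with h | h <;> rw [h] <;> rfl
  have b : msk d = msk e := Nat.eq_of_testBit_eq fun i => by
    rw [a, a]
    by_cases hi : i < 113
    · rw [h ⟨i, by omega⟩ hi]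
    · simp [hi]
  have c : ∀ d e : X, 113 ≤ d.1 → 113 ≤ e.1 → e.1 < d → msk d ≠ msk e := fun d e h1 h2 h3 => by
    have := allLt_iff.1 k_msk d d.2
    rw [Bool.or_eq_true, allLt_iff] at this
    simpa [h2.not_gt] using this.resolve_left (by simpa) e h3
  exact Fin.ext (le_antisymm (not_lt.1 fun h => c d e hd he h b) (not_lt.1 fun h => c e d he hd h b.symm))

theorem chain {H : Subgroup (Perm X)} (hH : ∀ g ∈ H, ∀ i j : X, adj (g i) (g j) = adj i j) (l : List (ℕ × ℕ))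
    (pre : List ℕ) (n : ℕ) (h : chn l pre n = true) (S : Subgroup (Perm X)) (h1 : S ≤ H)
    (h2 : ∀ g ∈ S, ∀ i : X, i.1 ∈ pre → g i = i) (h3 : ∀ p ∈ pre, p < 275)
    (h4 : ∀ p ∈ l, p.1 ∉ pre) (h5 : (l.map Prod.fst).Nodup) : n * Nat.card S ≤ 1796256000 := by
  have c : ∀ (S : Subgroup (Perm X)) (pre : List ℕ), S ≤ H → (∀ g ∈ S, ∀ i : X, i.1 ∈ pre → g i = i) → (∀ p ∈ pre, p < 275) →
      ∀ b : X, b.1 ∉ pre → orbit S b ⊆ {j : X | cel pre b j = true} := fun S pre h1 h2 h3 b hb => by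
    rintro _ ⟨g, rfl⟩
    refine List.all_eq_true.2 fun p hp => ?_
    have e := h2 g g.2 ⟨p, h3 p hp⟩ hp
    have := hH g (h1 g.2) ⟨p, h3 p hp⟩ b
    rw [e] at this
    simp only [Bool.and_eq_true, beq_iff_eq, bne_iff_ne]
    exact ⟨this, fun h => hb ((congrArg Fin.val (g.1.injective ((Fin.ext h).trans e.symm))).symm ▸ hp)⟩
  induction l generalizing pre n S with
  | nil =>
    obtain ⟨a, b⟩ := Bool.and_eq_true_iff.1 h
    rw [(eq_bot_iff_forall S).2 fun g hg => Equiv.ext fun i => ?_, card_bot, mul_one]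
    · exact ble_iff.1 b
    by_cases hi : i.1 ∈ pre
    · exact h2 g hg i hi
    have := (nc _).trans (beq_iff.1 ((Bool.or_eq_true_iff.1 (allLt_iff.1 a i i.2)).resolve_left (by simpa)))
    exact (Set.ncard_le_one (Set.toFinite _)).1 this.le _ (c S pre h1 h2 h3 i hi ⟨⟨g, hg⟩, rfl⟩) _
      (c S pre h1 h2 h3 i hi (mem_orbit_self i))
  | cons p l ih =>
    obtain ⟨a, b⟩ := Bool.and_eq_true_iff.1 h
    obtain ⟨a, a'⟩ := Bool.and_eq_true_iff.1 a
    have hp : p.1 < 275 := of_decide_eq_true a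
    have e := ih (p.1 :: pre) _ b (S ⊓ stabilizer _ (⟨p.1, hp⟩ : X)) (inf_le_left.trans h1) (fun g hg i hi => by
      rcases List.mem_cons.1 hi with h | h
      exacts [(Fin.ext h : i = ⟨p.1, hp⟩) ▸ hg.2, h2 g hg.1 i h]) (List.forall_mem_cons.2 ⟨hp, h3⟩)
      (fun q hq h => (List.mem_cons.1 h).elim (fun h => (List.nodup_cons.1 h5).1 (List.mem_map.2 ⟨q, hq, h⟩))
        (h4 q (List.mem_cons_of_mem _ hq))) (List.nodup_cons.1 h5).2
    refine le_trans ?_ e
    rw [CA.CGroup.card_eq_orbit_mul_inf S (⟨p.1, hp⟩ : X), ← mul_assoc]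
    refine Nat.mul_le_mul_right _ (Nat.mul_le_mul_left n ?_)
    rw [← beq_iff.1 a', ← nc]
    exact Set.ncard_le_ncard (c S pre h1 h2 h3 ⟨p.1, hp⟩ (h4 p List.mem_cons_self))

theorem bound {H : Subgroup (Perm X)} (hH : ∀ g ∈ H, ∀ i j : X, adj (g i) (g j) = adj i j) : Nat.card H ≤ 1796256000 :=
  (one_mul _).ge.trans (chain hH B [] 1 k_B H le_rfl (by simp) (by simp) (by simp) (by decide))

theorem fixp {K Y : Type*} [Group K] [MulAction K Y] {p : ℕ} [Fact p.Prime] {S : Subgroup K} (hS : IsPGroup p S) (y : Y)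
    (h : ¬ p ∣ (orbit K y).ncard) : ∃ x ∈ orbit K y, ∀ s ∈ S, s • x = x :=
  let ⟨x, hx⟩ := hS.nonempty_fixed_point_of_prime_not_dvd_card (orbit K y) h
  ⟨x, x.2, fun s hs => congrArg Subtype.val (hx ⟨s, hs⟩)⟩

theorem eqv {K Y Z : Type*} [Group K] [MulAction K Y] [MulAction K Z] {b : Y} {y : Z} (h : ∀ k : K, k • b = b → k • y = y) :
    ∃ f : Y → Z, ∀ k : K, f (k • b) = k • y := by
  classical
  refine ⟨fun x => if e : ∃ k : K, k • b = x then e.choose • y else y, fun k => ?_⟩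
  have e : ∃ k' : K, k' • b = k • b := ⟨k, rfl⟩
  simp only [dif_pos e]
  rw [eq_comm, ← inv_smul_eq_iff, eq_comm, smul_smul, eq_comm]
  exact h _ (by rw [mul_smul, inv_smul_eq_iff, e.choose_spec])

section
variable {Ω : Type*} [Fintype Ω] [DecidableEq Ω] {Γ : SimpleGraph Ω} [DecidableRel Γ.Adj] (hG : Γ.IsSRGWith 275 112 30 56)
include hG

theorem null (l : List (Ω × ℤ)) (h : (l.map fun p => (l.map fun q => p.2 * q.2 *
    (56 + 60 * (if p.1 = q.1 then 1 else 0) - 30 * if Γ.Adj p.1 q.1 then 1 else 0)).sum).sum = 0) (z : Ω) :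
    (l.map fun p => p.2 * ((if Γ.Adj p.1 z then 1 else 0) - 2 * if p.1 = z then 1 else 0)).sum = 0 := by
  let u : Ω → Ω → ℤ := fun x z => (if Γ.Adj x z then 1 else 0) - 2 * if x = z then 1 else 0
  have g : ∀ x y, ∑ z, u x z * u y z = 56 + 60 * (if x = y then 1 else 0) - 30 * if Γ.Adj x y then 1 else 0 := fun x y => by
    have e : ∑ z, (if Γ.Adj x z then 1 else 0 : ℤ) * (if Γ.Adj y z then 1 else 0) = {z | Γ.Adj x z ∧ Γ.Adj y z}.ncard := by
      simp only [ite_zero_mul_ite_zero, one_mul, Finset.sum_boole, CA.H17Srg.card_filter_ncard]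
    simp only [u, mul_sub, sub_mul, Finset.sum_sub_distrib, e]
    have e1 : ∀ (x : Ω) (F : Ω → ℤ), ∑ z, F z * (2 * if x = z then 1 else 0) = 2 * F x := fun x F => by
      simp [mul_comm]
    have e2 : ∀ (x : Ω) (F : Ω → ℤ), ∑ z, (2 * if x = z then 1 else 0) * F z = 2 * F x := fun x F => by
      simp
    rw [e1, e2, e2]
    simp only [Γ.adj_comm y x, eq_comm (a := y)]
    by_cases a : x = y
    · subst a; simp [(srg_ncard hG).1]
    by_cases b : Γ.Adj x y
    · simp [a, b, (srg_ncard hG).2.1 x y b]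
    · simp [a, b, (srg_ncard hG).2.2 x y a b]
  have s : ∀ (l : List (Ω × ℤ)) (F : Ω → Ω × ℤ → ℤ), ∑ z, (l.map (F z)).sum = (l.map fun p => ∑ z, F z p).sum := fun l F => by
    induction l with
    | nil => simp
    | cons p l ih => simp [Finset.sum_add_distrib, ih]
  have e : ∑ z, (l.map fun p => p.2 * u p.1 z).sum * (l.map fun p => p.2 * u p.1 z).sum = 0 := by
    simp only [← List.sum_map_mul_right, ← List.sum_map_mul_left, s, ← g, Finset.mul_sum] at h ⊢
    rw [← h]; congr 2; ext p; congr 2; ext q; congr 1; ext z; ring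
  exact mul_self_eq_zero.1 ((Finset.sum_eq_zero_iff_of_nonneg fun _ _ => mul_self_nonneg _).1 e z (Finset.mem_univ z))
end

structure Md (K : Subgroup (Perm X)) (p : ℕ → K) : Prop where
  inv : ∀ k : K, ∀ i j : X, adj (k • i).1 (k • j).1 = adj i j
  fix : ∀ k : K, k • (0 : X) = 0
  card : Nat.card K = 3265920
  tab : ∀ a < 2, ∀ i : X, (p a • i).1 = tb (Ts.getD a 0) i
  ind : ∀ P : K → Prop, P 1 → (∀ a < 2, ∀ k, P k → P (p a * k)) → ∀ k, P k

namespace Md
variable {K : Subgroup (Perm X)} {p : ℕ → K} (M : Md K p)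
include M

theorem word (w : List ℕ) : ∃ k : K, ∀ i : X, (k • i).1 = wp w i := by
  have h : ∀ w : List ℕ, (∀ a ∈ w, ∃ k : K, ∀ i : X, (k • i).1 = tb (Ts.getD (a % 7) 0) i) →
      ∃ k : K, ∀ i : X, (k • i).1 = wp w i := fun w h => by
    induction w with
    | nil => exact ⟨1, fun i => by rw [one_smul]; rfl⟩
    | cons a w ih =>
      obtain ⟨k, e⟩ := h a List.mem_cons_self
      obtain ⟨k', e'⟩ := ih fun b hb => h b (List.mem_cons_of_mem _ hb)
      exact ⟨k * k', fun i => by rw [mul_smul, e, e']; rfl⟩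
  refine h w fun a _ => ?_
  obtain ⟨h1, h2⟩ := k_Ws (a % 7) (Nat.mod_lt _ (by decide))
  obtain ⟨k, e⟩ := h _ fun c hc => ⟨p c, by rw [Nat.mod_eq_of_lt ((h1 c hc).trans (by decide))]; exact M.tab c (h1 c hc)⟩
  exact ⟨k, fun i => (e i).trans (h2 i i.2)⟩

theorem nb (k : K) (i : X) : adj 0 (k • i).1 = adj 0 i := by
  have := M.inv k 0 i
  rwa [M.fix] at this
theorem ne (k : K) {i : X} (h : i ≠ 0) : k • i ≠ 0 := fun e => h (by rw [← M.fix k⁻¹, ← e, inv_smul_smul])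
theorem tN {j : X} (h : adj 0 j = true) : ∃ k : K, k • (1 : X) = j := by
  obtain ⟨k, e⟩ := M.word (W1.getD j [])
  have := k_W1 j j.2 ((N0 j).1 h).1.ne'
  rw [if_pos ((N0 j).1 h).2] at this
  exact ⟨k, Fin.ext ((e 1).trans this)⟩
theorem tD {j : X} (h : 113 ≤ j.1) : ∃ k : K, k • (152 : X) = j := by
  obtain ⟨k, e⟩ := M.word (W1.getD j [])
  have := k_W1 j j.2 (by omega)
  rw [if_neg h.not_gt] at this
  exact ⟨k, Fin.ext ((e 152).trans this)⟩
theorem t1 {i j : X} (hi : adj 0 i = true) (hj : adj 0 j = true) (i1 : i ≠ 1) (j1 : j ≠ 1) (h : adj 1 i = adj 1 j) :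
    ∃ k : K, k • (1 : X) = 1 ∧ k • i = j := by
  obtain ⟨k, e⟩ := M.word (W2.getD i [])
  obtain ⟨k', e'⟩ := M.word (W2.getD j [])
  obtain ⟨a, b⟩ := k_W2 i ((N0 i).1 hi).2 ((N0 i).1 hi).1.ne' (Fin.val_ne_of_ne i1)
  obtain ⟨c, d⟩ := k_W2 j ((N0 j).1 hj).2 ((N0 j).1 hj).1.ne' (Fin.val_ne_of_ne j1)
  have f : (if adj 1 j then 5 else 2 : ℕ) = (if adj 1 j then 5 else 2 : X).1 := by split <;> rfl
  rw [h, f, ← e] at b
  rw [f, ← e'] at d
  have b' : k • (if adj 1 j then 5 else 2 : X) = i := Fin.ext b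
  have a' : k • (1 : X) = 1 := Fin.ext ((e 1).trans a)
  refine ⟨k' * k⁻¹, ?_, by rw [mul_smul, ← b', inv_smul_smul]; exact Fin.ext d⟩
  rw [mul_smul, inv_smul_eq_iff.2 a'.symm]; exact Fin.ext ((e' 1).trans c)
theorem t2 {i j : X} (hi : 113 ≤ i.1) (hj : 113 ≤ j.1) (i1 : i ≠ 152) (j1 : j ≠ 152) (h : adj 152 i = false)
    (h' : adj 152 j = false) : ∃ k : K, k • (152 : X) = 152 ∧ k • i = j := by
  obtain ⟨k, e⟩ := M.word (W2.getD i [])
  obtain ⟨k', e'⟩ := M.word (W2.getD j [])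
  obtain ⟨a, b⟩ := k_W3 i i.2 hi (Fin.val_ne_of_ne i1) h
  obtain ⟨c, d⟩ := k_W3 j j.2 hj (Fin.val_ne_of_ne j1) h'
  have b' : k • (114 : X) = i := Fin.ext ((e 114).trans b)
  have a' : k • (152 : X) = 152 := Fin.ext ((e 152).trans a)
  refine ⟨k' * k⁻¹, ?_, by rw [mul_smul, ← b', inv_smul_smul]; exact Fin.ext ((e' 114).trans d)⟩
  rw [mul_smul, inv_smul_eq_iff.2 a'.symm]; exact Fin.ext ((e' 152).trans c)
theorem ge (k : K) {i : X} (h : 113 ≤ i.1) : 113 ≤ (k • i).1 := by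
  have a := N0 (k • i)
  rw [M.nb, N0] at a
  have := Fin.val_ne_of_ne (M.ne k (i := i) (by rintro rfl; simp at h))
  simp at this; omega
theorem faith {k : K} (h : ∀ i : X, adj 0 i = true → k • i = i) : k = 1 := by
  refine Subtype.ext (Equiv.ext fun i => ?_)
  have h' : ∀ i : X, i.1 < 113 → k • i = i := fun i hi => by
    by_cases e : i = 0
    exacts [e ▸ M.fix k, h i ((N0 i).2 ⟨Fin.pos_iff_ne_zero.2 e, hi⟩)]
  by_cases hi : i.1 < 113
  · exact h' i hi
  · exact det (M.ge k (not_lt.1 hi)) (not_lt.1 hi) fun j hj => by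
      have := M.inv k i j
      rwa [h' j hj] at this

theorem card1 : Nat.card (stabilizer K (1 : X)) = 29160 := by
  have h := CA.CGroup.card_eq_orbit_mul_inf (⊤ : Subgroup K) (1 : X)
  have e : orbit (⊤ : Subgroup K) (1 : X) = {j : X | adj 0 j = true} := Set.ext fun j =>
    ⟨fun ⟨k, e⟩ => e ▸ (M.nb k.1 1).trans (by decide +kernel), fun h => let ⟨k, e⟩ := M.tN h; ⟨⟨k, trivial⟩, e⟩⟩
  rw [card_top, M.card, top_inf_eq, e, nc, k_cnt.1] at h
  omega

theorem card2 {w : X} (h0 : adj 0 w = true) (h1 : w ≠ 1) :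
    Nat.card ↥(stabilizer K (1 : X) ⊓ stabilizer K w) = if adj 1 w then 972 else 360 := by
  have h := CA.CGroup.card_eq_orbit_mul_inf (stabilizer K (1 : X)) w
  have e : orbit (stabilizer K (1 : X)) w = {j : X | adj 0 j = true ∧ j ≠ 1 ∧ adj 1 j = adj 1 w} := Set.ext fun j =>
    ⟨fun ⟨k, e⟩ => e ▸ ⟨(M.nb k.1 w).trans h0, fun e => h1 (MulAction.injective k.1 (e.trans k.2.symm)), by
      have := M.inv k.1 1 w
      rwa [k.2] at this⟩, fun h => let ⟨k, a, e⟩ := M.t1 h0 h.1 h1 h.2.1 h.2.2.symm; ⟨⟨k, a⟩, e⟩⟩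
  rw [M.card1, e] at h
  split_ifs with a
  · rw [show {j : X | adj 0 j = true ∧ j ≠ 1 ∧ adj 1 j = adj 1 w} = {j : X | (adj 0 j && adj 1 j) = true} from Set.ext fun j => by
      simp only [a, Set.mem_ofPred_eq, Bool.and_eq_true]
      exact ⟨fun h => ⟨h.1, h.2.2⟩, fun h => ⟨h.1, by rintro rfl; exact absurd h.2 (by decide +kernel), h.2⟩⟩,
      nc fun j => adj 0 j && adj 1 j, k_cnt.2.1] at h
    omega
  · rw [show {j : X | adj 0 j = true ∧ j ≠ 1 ∧ adj 1 j = adj 1 w} = {j : X | (adj 0 j && !adj 1 j && j.1 != 1) = true} from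
      Set.ext fun j => by simp [a, Fin.ext_iff]; tauto, nc fun j => adj 0 j && !adj 1 j && j != 1, k_cnt.2.2.1] at h
    omega

theorem stab {P : Subgroup K} (hP : Nat.card P = 29160) {S : Subgroup K} (hS : Nat.card S = 3 ^ 6) (h1 : S ≤ P)
    (h2 : S ≤ stabilizer K (1 : X)) : P ≤ stabilizer K (1 : X) := by
  intro g hg
  by_contra hw
  have c := CA.CGroup.card_eq_orbit_mul_inf P (1 : X)
  obtain ⟨d, hd⟩ := card_dvd_of_le (le_inf h1 h2)
  have n0 : ∀ u ∈ orbit P (1 : X), adj 0 u = true := by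
    rintro _ ⟨k, rfl⟩; exact (M.nb k.1 1).trans (by decide +kernel)
  have b : (orbit P (1 : X)).ncard ≤ 40 := by
    rw [hP, hd, hS] at c
    rcases d with _ | d
    · omega
    · nlinarith
  have A : ∀ u ∈ orbit P (1 : X), u ≠ 1 → adj 1 u = true := fun u hu h => by
    by_contra a
    have c := CA.CGroup.card_eq_orbit_mul_inf S u
    have e := M.card2 (n0 u hu) h
    rw [if_neg a] at e
    have f : Nat.card ↥(S ⊓ stabilizer K u) ≤ 9 := Nat.le_of_dvd (by decide) (Nat.dvd_gcd (m := 729) (n := 360)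
      ((card_dvd_of_le inf_le_left).trans hS.dvd) (e ▸ card_dvd_of_le (inf_le_inf_right _ h2)))
    have : (orbit S u).ncard ≤ 40 := le_trans (Set.ncard_le_ncard (by
      rintro _ ⟨s, rfl⟩; exact mem_orbit_of_mem_orbit (⟨s.1, h1 s.2⟩ : P) hu)) b
    rw [hS] at c
    nlinarith
  have hg' : g • (1 : X) ∈ orbit P (1 : X) := ⟨⟨g, hg⟩, rfl⟩
  have f : (orbit P (1 : X)).ncard ≤ 4 := by
    rw [← k_cnt.2.2.2.2.2 _ (g • (1 : X)).2 (n0 _ hg') (A _ hg' hw), ← nc]
    refine Set.ncard_le_ncard fun u hu => ?_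
    by_cases a : u = 1
    · simp [a]
    by_cases a' : u = g • 1
    · simp [a']
    have := A (g⁻¹ • u) (mem_orbit_of_mem_orbit (⟨g, hg⟩ : P)⁻¹ hu) fun e => a' (inv_smul_eq_iff.1 e)
    have e := M.inv g 1 (g⁻¹ • u)
    rw [smul_inv_smul] at e
    simp [n0 u hu, A u hu a, e.trans this]
  have c' := CA.CGroup.card_eq_orbit_mul_inf (P ⊓ stabilizer K (1 : X)) (g • (1 : X))
  have e := M.card2 (n0 _ hg') hw
  rw [if_pos (A _ hg' hw)] at e
  have f1 : Nat.card ↥(P ⊓ stabilizer K (1 : X) ⊓ stabilizer K (g • (1 : X))) ≤ 972 :=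
    e ▸ card_le_of_le (inf_le_inf_right _ inf_le_right)
  have f2 : (orbit ↥(P ⊓ stabilizer K (1 : X)) (g • (1 : X))).ncard ≤ 4 := le_trans (Set.ncard_le_ncard (by
      rintro _ ⟨s, rfl⟩; exact mem_orbit_of_mem_orbit (⟨s.1, s.2.1⟩ : P) hg')) f
  have := Nat.mul_le_mul f (c'.le.trans (Nat.mul_le_mul f2 f1))
  omega
end Md

end CA.H28Mc
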