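import Cfsg.Agent.Lib.Spor.H28Mc

/-! The rank 3 characterisation of the McLaughlin graph: the graph isomorphism. -/

set_option autoImplicit false
set_option maxRecDepth 100000

namespace CA.H28Mc
open CA.NatBits MulAction Subgroup Equiv Function CA.Steiner

variable {Ω : Type*} [Fintype Ω] [DecidableEq Ω] {Γ : SimpleGraph Ω} [DecidableRel Γ.Adj]
  {K : Subgroup (Perm X)} {p : ℕ → K} {a : Ω} {σ : K →* Perm Ω}

structure Hy (Γ : SimpleGraph Ω) (a : Ω) (σ : K →* Perm Ω) : Prop where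
  inv : ∀ k x y, Γ.Adj (σ k x) (σ k y) ↔ Γ.Adj x y
  fix : ∀ k, σ k a = a
  tN : ∀ x y, Γ.Adj a x → Γ.Adj a y → ∃ k, σ k x = y
  tD : ∀ x y, x ≠ a → ¬ Γ.Adj a x → y ≠ a → ¬ Γ.Adj a y → ∃ k, σ k x = y

structure Eq1 (Γ : SimpleGraph Ω) (a : Ω) (σ : K →* Perm Ω) (f : Ω → X) : Prop where
  eq : ∀ k x, Γ.Adj a x → f (σ k x) = k • f x
  mem : ∀ x, Γ.Adj a x → adj 0 (f x) = true

theorem Hy.nb (H : Hy Γ a σ) (k : K) (x : Ω) : Γ.Adj a (σ k x) ↔ Γ.Adj a x := by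
  have := H.inv k a x
  rwa [H.fix] at this
theorem Hy.ne (H : Hy Γ a σ) (k : K) {x : Ω} (h : x ≠ a) : σ k x ≠ a := fun e => h ((σ k).injective (e.trans (H.fix k).symm))
theorem sm (k l : K) (x : Ω) : σ (k * l) x = σ k (σ l x) := by rw [map_mul]; rfl
theorem si (k : K) (x : Ω) : σ k⁻¹ (σ k x) = x := by rw [← sm, inv_mul_cancel, map_one]; rfl
theorem si' (k : K) (x : Ω) : σ k (σ k⁻¹ x) = x := by rw [← sm, mul_inv_cancel, map_one]; rfl

variable (hG : Γ.IsSRGWith 275 112 30 56) (M : Md K p) (H : Hy Γ a σ)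
include hG M H

theorem Eq1.gd {f : Ω → X} (F : Eq1 Γ a σ f) : Set.InjOn f {x | Γ.Adj a x} ∧ (∀ i : X, adj 0 i = true → ∃ x, Γ.Adj a x ∧ f x = i) ∧
    ∀ x y, Γ.Adj a x → Γ.Adj a y → (Γ.Adj x y ↔ adj (f x) (f y) = true) := by
  obtain ⟨n1, n2, -⟩ := srg_ncard hG
  obtain ⟨x0, h0⟩ := Set.nonempty_of_ncard_ne_zero (s := {x | Γ.Adj a x}) (by rw [n1]; decide)
  have su : ∀ i : X, adj 0 i = true → ∃ x, Γ.Adj a x ∧ f x = i := fun i hi => by
    obtain ⟨k, e⟩ := M.tN (F.mem x0 h0)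
    obtain ⟨l, e'⟩ := M.tN hi
    exact ⟨σ (l * k⁻¹) x0, (H.nb _ _).2 h0, by rw [F.eq _ _ h0, ← e, mul_smul, inv_smul_smul, e']⟩
  have ij : Set.InjOn f {x | Γ.Adj a x} := Set.injOn_of_ncard_image_eq (by
    rw [n1, ← k_cnt.1, ← nc]; congr 1; ext i
    exact ⟨fun ⟨x, h, e⟩ => e ▸ F.mem x h, su i⟩)
  refine ⟨ij, su, fun x y hx hy => ?_⟩
  obtain ⟨b, hb, eb⟩ := su 1 (by decide +kernel)
  have c : (f '' {y | Γ.Adj a y ∧ Γ.Adj b y}).ncard = 30 := by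
    rw [(ij.mono fun _ h => h.1).ncard_image, n2 a b hb]
  have d : f '' {y | Γ.Adj a y ∧ Γ.Adj b y} = {j : X | (adj 0 j && adj 1 j) = true} := by
    refine Set.eq_of_subset_of_ncard_le ?_ (by rw [c, nc fun j => adj 0 j && adj 1 j, k_cnt.2.1])
    rintro _ ⟨y, ⟨h1, h2⟩, rfl⟩
    refine Bool.and_eq_true_iff.2 ⟨F.mem y h1, ?_⟩
    by_contra e
    have := Set.ncard_le_ncard (s := {j : X | (adj 0 j && !adj 1 j && j.1 != 1) = true})
      (t := f '' {y | Γ.Adj a y ∧ Γ.Adj b y}) fun j hj => by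
        simp only [Set.mem_ofPred_eq, Bool.and_eq_true, Bool.not_eq_true', bne_iff_ne] at hj
        obtain ⟨k, e1, e2⟩ := M.t1 (F.mem y h1) hj.1.1 (fun e => Γ.irrefl (ij h1 hb (e.trans eb.symm) ▸ h2))
          (fun e => hj.2 (e ▸ rfl)) (by rw [hj.1.2]; simpa using e)
        have e3 : σ k b = b := ij ((H.nb _ _).2 hb) hb (by rw [F.eq _ _ hb, eb, e1])
        exact ⟨σ k y, ⟨(H.nb _ _).2 h1, e3 ▸ (H.inv k b y).2 h2⟩, (F.eq _ _ h1).trans e2⟩
    rw [c, nc fun j => adj 0 j && !adj 1 j && j != 1, k_cnt.2.2.1] at this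
    omega
  obtain ⟨k, rfl⟩ := H.tN b x hb hx
  obtain ⟨y, rfl⟩ := (σ k).surjective y
  have hy' := (H.nb _ _).1 hy
  rw [H.inv, F.eq _ _ hb, F.eq _ _ hy', M.inv, eb]
  refine ⟨fun h => (Bool.and_eq_true_iff.1 (d.le ⟨y, ⟨hy', h⟩, rfl⟩)).2, fun h => ?_⟩
  obtain ⟨z, hz, e⟩ := d.ge (Bool.and_eq_true_iff.2 ⟨F.mem y hy', h⟩)
  exact ij hz.1 hy' e ▸ hz.2

theorem ex1 : ∃ f, Eq1 Γ a σ f := by
  letI := MulAction.compHom Ω σ
  have : Fact (Nat.Prime 3) := ⟨by norm_num⟩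
  obtain ⟨n1, n2, -⟩ := srg_ncard hG
  obtain ⟨x0, h0⟩ := Set.nonempty_of_ncard_ne_zero (s := {x | Γ.Adj a x}) (by rw [n1]; decide)
  have o : ∀ x, Γ.Adj a x → orbit K x = {y | Γ.Adj a y} := fun x h => Set.ext fun y =>
    ⟨fun ⟨k, e⟩ => e ▸ (H.nb k x).2 h, H.tN x y h⟩
  obtain ⟨S, hS⟩ := Sylow.exists_subgroup_card_pow_prime (G := stabilizer K (1 : X)) 3 (n := 6) (by rw [M.card1]; norm_num)
  have cS := (card_map_of_injective (K := S) (stabilizer K (1 : X)).subtype_injective).trans hS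
  obtain ⟨b, hb, e⟩ := fixp (IsPGroup.of_card cS) x0 (by rw [o x0 h0, n1]; norm_num)
  rw [o x0 h0] at hb
  have c := CA.CGroup.card_eq_orbit_mul_inf (⊤ : Subgroup K) b
  rw [card_top, M.card, top_inf_eq, show orbit (⊤ : Subgroup K) b = orbit K b from Set.ext fun j =>
    ⟨fun ⟨k, e⟩ => ⟨k.1, e⟩, fun ⟨k, e⟩ => ⟨⟨k, trivial⟩, e⟩⟩, o b hb, n1] at c
  obtain ⟨f, hf⟩ := eqv (K := K) (b := b) (y := (1 : X)) fun k hk =>
    M.stab (P := stabilizer K b) (by omega) cS e (map_subtype_le _) hk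
  refine ⟨f, fun k x hx => ?_, fun x hx => ?_⟩ <;> obtain ⟨l, rfl⟩ := H.tN b x hb hx
  · rw [← sm]; exact (hf _).trans ((mul_smul _ _ _).trans (congrArg _ (hf l).symm))
  · exact (congrArg (fun i : X => adj 0 i) (hf l)).trans ((M.nb l 1).trans (by decide +kernel))

theorem fin {f : Ω → X} (F : Eq1 Γ a σ f) {z : Ω} (z1 : z ≠ a) (z2 : ¬ Γ.Adj a z)
    (hz : ∀ x, Γ.Adj a x → (Γ.Adj z x ↔ adj 152 (f x) = true)) :
    ∃ Ψ : Ω ≃ X, ∀ x y, Γ.Adj x y ↔ adj (Ψ x) (Ψ y) = true := by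
  letI := MulAction.compHom Ω σ
  obtain ⟨ij, su, ad⟩ := F.gd hG M H
  have n0 : ∀ k : K, adj 0 (k • (152 : X)).1 = false := fun k => (M.nb k 152).trans (by decide +kernel)
  obtain ⟨f2, h2⟩ := eqv (K := K) (b := z) (y := (152 : X)) fun k hk => det (M.ge k (by decide)) (by decide) fun i hi => by
    by_cases e : i = 0
    · subst e; rw [sym]; exact (n0 k).trans (by decide +kernel)
    obtain ⟨x, hx, rfl⟩ := su i ((N0 i).2 ⟨Fin.pos_iff_ne_zero.2 e, hi⟩)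
    have := M.inv k⁻¹ (k • 152) (f x)
    rw [inv_smul_smul, ← F.eq _ _ hx] at this
    rw [← this, Bool.eq_iff_iff]
    refine (hz _ ((H.nb _ _).2 hx)).symm.trans (Iff.trans ?_ (hz x hx))
    rw [← H.inv k, si', show σ k z = z from hk]
  let Ψ : Ω → X := fun x => if x = a then 0 else if Γ.Adj a x then f x else f2 x
  have p0 : Ψ a = 0 := if_pos rfl
  have p1 : ∀ x, Γ.Adj a x → Ψ x = f x := fun x h => (if_neg h.ne').trans (if_pos h)
  have p2 : ∀ k, Ψ (σ k z) = k • 152 := fun k => (if_neg (H.ne k z1)).trans ((if_neg (mt (H.nb k z).1 z2)).trans (h2 k))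
  have tri : ∀ x, x = a ∨ Γ.Adj a x ∨ ∃ k, σ k z = x := fun x => by
    by_cases e : x = a
    · exact .inl e
    by_cases e' : Γ.Adj a x
    exacts [.inr (.inl e'), .inr (.inr (H.tD z x z1 z2 e e'))]
  have eq : ∀ k x, Ψ (σ k x) = k • Ψ x := fun k x => by
    rcases tri x with rfl | h | ⟨l, rfl⟩
    · rw [H.fix, p0, M.fix]
    · rw [p1 x h, p1 _ ((H.nb k x).2 h), F.eq k x h]
    · rw [← sm, p2, p2, mul_smul]
  have bj : Bijective Ψ := (Fintype.bijective_iff_surjective_and_card Ψ).2 ⟨fun i => by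
    by_cases e : i = 0
    · exact ⟨a, p0.trans e.symm⟩
    by_cases e' : i.1 < 113
    · obtain ⟨x, hx, rfl⟩ := su i ((N0 i).2 ⟨Fin.pos_iff_ne_zero.2 e, e'⟩)
      exact ⟨x, p1 x hx⟩
    · obtain ⟨k, rfl⟩ := M.tD (not_lt.1 e')
      exact ⟨_, p2 k⟩, by rw [hG.card, Fintype.card_fin]⟩
  have pz : Ψ z = 152 := by simpa using p2 1
  have r0 : ∀ y, Γ.Adj a y ↔ adj 0 (Ψ y) = true := fun y => by
    rcases tri y with rfl | h | ⟨l, rfl⟩
    · rw [p0]; exact iff_of_false Γ.irrefl (by decide +kernel)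
    · rw [p1 y h]; exact iff_of_true h (F.mem y h)
    · rw [p2, n0]; exact iff_of_false (mt (H.nb l z).1 z2) (by decide)
  have c : (Ψ '' {y | Γ.Adj z y}).ncard = 112 := by rw [Set.ncard_image_of_injective _ bj.1, (srg_ncard hG).1]
  have d : Ψ '' {y | Γ.Adj z y} = {j : X | adj 152 j = true} := by
    refine Set.eq_of_subset_of_ncard_le ?_ (by rw [c, nc, k_cnt.2.2.2.1])
    rintro _ ⟨y, h1, rfl⟩
    rcases tri y with rfl | h | ⟨l, rfl⟩
    · exact absurd h1.symm z2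
    · rw [p1 y h]; exact (hz y h).1 h1
    by_contra e
    have := Set.ncard_le_ncard
      (s := {j : X | (adj 0 j && adj 152 j || !adj 0 j && !adj 152 j && j.1 != 0 && j.1 != 152) = true})
      (t := Ψ '' {y | Γ.Adj z y}) fun j hj => by
        simp only [Set.mem_ofPred_eq, Bool.and_eq_true, Bool.or_eq_true, Bool.not_eq_true', bne_iff_ne] at hj
        rcases hj with hj | ⟨⟨⟨j1, j2⟩, j3⟩, j4⟩
        · obtain ⟨x, hx, rfl⟩ := su j hj.1
          exact ⟨x, (hz x hx).2 hj.2, p1 x hx⟩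
        have j5 := N0 j
        rw [j1] at j5
        obtain ⟨k, e1, e2⟩ := M.t2 (i := Ψ (σ l z)) (j := j) (p2 l ▸ M.ge l (by decide)) (by simp at j5; omega)
          (fun e => Γ.irrefl (bj.1 (e.trans pz.symm) ▸ h1)) (fun e => j4 (e ▸ rfl)) (by simpa using e) j2
        have e3 : σ k z = z := bj.1 (by rw [eq, pz, e1])
        have e4 := (H.inv k z _).2 h1
        rw [e3] at e4
        exact ⟨σ k (σ l z), e4, (eq _ _).trans e2⟩
    rw [c, nc fun j => adj 0 j && adj 152 j || !adj 0 j && !adj 152 j && j != 0 && j != 152, k_cnt.2.2.2.2.1] at this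
    omega
  have r2 : ∀ k y, Γ.Adj (σ k z) y ↔ adj (Ψ (σ k z)) (Ψ y) = true := fun k y => by
    obtain ⟨y, rfl⟩ := (σ k).surjective y
    rw [H.inv, eq, eq, M.inv, pz]
    exact ⟨fun h => d.le ⟨y, h, rfl⟩, fun h => let ⟨x, hx, e⟩ := d.ge h; bj.1 e ▸ hx⟩
  refine ⟨Equiv.ofBijective Ψ bj, fun x y => ?_⟩
  show _ ↔ adj (Ψ x) (Ψ y) = true
  rcases tri x with rfl | h | ⟨l, rfl⟩
  · rw [p0]; exact r0 y
  · rcases tri y with rfl | h' | ⟨l, rfl⟩
    · rw [sym, p0, Γ.adj_comm]; exact r0 x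
    · rw [p1 x h, p1 y h']; exact ad x y h h'
    · rw [sym, Γ.adj_comm]; exact r2 l x
  · exact r2 l y

omit hG H in
theorem pw (n : ℕ) (i : X) : (p 0 ^ n • i).1 = wp (List.replicate n 0) i := by
  induction n with
  | zero => rw [pow_zero, one_smul]; rfl
  | succ n ih => rw [pow_succ', mul_smul, M.tab 0 (by decide), ih]; rfl

omit hG H M in
theorem cn_eq (m : ℕ) (l : List ℕ) : (cn m l : ℤ) = (l.map fun o => if m.testBit o then 1 else 0).sum := by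
  induction l with
  | nil => rfl
  | cons o l ih =>
    rw [List.map_cons, List.sum_cons, ← ih, Nat.testBit, Nat.and_comm]
    show (((m >>> o &&& 1) + cn m l : ℕ) : ℤ) = _
    rw [Nat.and_one_is_mod]
    rcases Nat.mod_two_eq_zero_or_one (m >>> o) with h | h <;> simp [h]

theorem mask {f : Ω → X} (F : Eq1 Γ a σ f) : ∃ z, z ≠ a ∧ ¬ Γ.Adj a z ∧ ∃ t ∈ tau, ∀ x, Γ.Adj a x →
    (Γ.Adj z x ↔ t.1.testBit (tb O (f x)) = true) := by
  letI := MulAction.compHom Ω σ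
  have : Fact (Nat.Prime 7) := ⟨by norm_num⟩
  obtain ⟨ij, su, ad⟩ := F.gd hG M H
  obtain ⟨n1, -, n3⟩ := srg_ncard hG
  have cD : {y | y ≠ a ∧ ¬ Γ.Adj a y}.ncard = 162 := by
    have e : {y | y ≠ a ∧ ¬ Γ.Adj a y} = (insert a {y | Γ.Adj a y})ᶜ := by ext; simp
    have := Set.ncard_add_ncard_compl (insert a {y | Γ.Adj a y})
    rw [Set.ncard_insert_of_notMem (by simp), n1, Nat.card_eq_fintype_card, hG.card, ← e] at this
    omega
  obtain ⟨y, y1, y2⟩ := Set.nonempty_of_ncard_ne_zero (s := {y | y ≠ a ∧ ¬ Γ.Adj a y}) (by rw [cD]; decide)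
  have o : orbit K y = {y | y ≠ a ∧ ¬ Γ.Adj a y} := Set.ext fun x =>
    ⟨fun ⟨k, e⟩ => e ▸ ⟨H.ne k y1, mt (H.nb k y).1 y2⟩, fun h => H.tD y x y1 y2 h.1 h.2⟩
  have p7 : p 0 ^ 7 = 1 := Subtype.ext (Equiv.ext fun i => Fin.ext ((pw M 7 i).trans (k_7 i i.2).1))
  obtain ⟨z, hz, e⟩ := fixp (p := 7) (S := zpowers (p 0)) (fun ⟨_, n, rfl⟩ => ⟨1, Subtype.ext (by
    show (p 0 ^ n) ^ 7 ^ 1 = 1
    rw [pow_one, ← zpow_natCast, ← zpow_mul, mul_comm, zpow_mul, zpow_natCast, p7, one_zpow])⟩) y (by rw [o, cD]; norm_num)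
  rw [o] at hz
  have : ∀ i : ℕ, ∃ x, 0 < i ∧ i < 113 → Γ.Adj a x ∧ (f x).1 = i := fun i => by
    by_cases h : 0 < i ∧ i < 113
    · obtain ⟨x, h1, h2⟩ := su ⟨i, by omega⟩ ((N0 _).2 h)
      exact ⟨x, fun _ => ⟨h1, h2 ▸ rfl⟩⟩
    · exact ⟨a, fun h' => absurd h' h⟩
  choose g hg using this
  let μ := Nat.ofBits fun k : Fin 16 => decide (Γ.Adj z (g (R.getD k 0)))
  have hμ : ∀ x, Γ.Adj a x → (Γ.Adj z x ↔ μ.testBit (tb O (f x)) = true) := fun x hx => by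
    have h := (N0 _).1 (F.mem x hx)
    obtain ⟨h1, h2⟩ := (k_7 _ (f x).2).2 h.1 h.2
    obtain ⟨h3, h4⟩ := hg _ (k_R _ h1)
    rw [Nat.testBit_ofBits_lt _ _ h1, decide_eq_true_iff, ← H.inv (p 0 ^ tb E (f x)) z (g _),
      show σ _ z = z from e _ (npow_mem_zpowers _ _), ij ((H.nb _ _).2 h3) hx (Fin.ext (by rw [F.eq _ _ h3, pw M, h4, h2]))]
  have hl : ∀ l ∈ Ls, cn μ (l.map (tb O)) = cn μ (L0.map (tb O)) := fun l hl => by
    obtain ⟨h1, h2⟩ := k_L l hl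
    have := null hG ((sg l).map fun q => (g q.1, q.2)) (by
      refine Eq.trans ?_ h2
      rw [List.map_map]
      refine congrArg _ (List.map_congr_left fun q hq => ?_)
      simp only [Function.comp, List.map_map]
      refine congrArg _ (List.map_congr_left fun r hr => ?_)
      obtain ⟨a1, a2⟩ := hg _ (h1 q hq)
      obtain ⟨b1, b2⟩ := hg _ (h1 r hr)
      simp only [Function.comp, ad _ _ a1 b1, a2, b2,
        show g q.1 = g r.1 ↔ q.1 = r.1 from ⟨fun h => by rw [← a2, h, b2], fun h => by rw [h]⟩]) z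
    rw [List.map_map, List.map_congr_left (g := fun q => q.2 * if μ.testBit (tb O q.1) then 1 else 0) fun q hq => by
      obtain ⟨a1, a2⟩ := hg _ (h1 q hq)
      simp only [Function.comp, Γ.adj_comm _ z, hμ _ a1, a2]
      rw [if_neg (show g q.1 ≠ z from fun h => hz.2 (h ▸ a1)), mul_zero, sub_zero]] at this
    simp only [sg, List.map_append, List.map_map, List.sum_append, Function.comp_def, one_mul, List.sum_map_mul_left] at this
    have e1 := cn_eq μ (l.map (tb O))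
    have e2 := cn_eq μ (L0.map (tb O))
    simp only [List.map_map, Function.comp_def] at e1 e2
    omega
  have lt : μ < 2 ^ 16 := Nat.ofBits_lt_two_pow _
  have en := allLt_iff.1 (allLt_iff.1 k_en (μ / 256) (by omega)) (μ % 256) (by omega)
  rw [force_eq, force_eq, show Nat.add (Nat.mul 256 (μ / 256)) (μ % 256) = μ from Nat.div_add_mod μ 256, ← k_lo.1, ← k_lo.2,
    show allL (Ls.map (List.map (tb O))) (fun l => (cn μ l).beq (cn μ (L0.map (tb O)))) = true from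
      allL_iff.2 (List.forall_mem_map.2 fun l h => beq_iff.2 (hl l h))] at en
  have c := n3 a z hz.1.symm hz.2
  simp only [Bool.not_true, Bool.false_or, List.contains_iff_mem, List.mem_cons, List.mem_map] at en
  rcases en with h | h | ⟨t, ht, h⟩
  · rw [show {x | Γ.Adj a x ∧ Γ.Adj z x} = ∅ from Set.eq_empty_of_forall_notMem fun x hx => by
      simpa [h] using (hμ x hx.1).1 hx.2] at c
    simp at c
  · rw [show {x | Γ.Adj a x ∧ Γ.Adj z x} = {x | Γ.Adj a x} from Set.ext fun x => ⟨(·.1), fun hx => ⟨hx, (hμ x hx).2 (by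
      have h' := (N0 _).1 (F.mem x hx)
      rw [h, show 65535 = 2 ^ 16 - 1 from rfl, Nat.testBit_two_pow_sub_one]
      exact decide_eq_true ((k_7 _ (f x).2).2 h'.1 h'.2).1)⟩⟩, n1] at c
    omega
  · exact ⟨z, hz.1, hz.2, t, ht, h ▸ hμ⟩

theorem iso : ∃ Ψ : Ω ≃ X, ∀ x y, Γ.Adj x y ↔ adj (Ψ x) (Ψ y) = true := by
  obtain ⟨f, F⟩ := ex1 hG M H
  obtain ⟨z, z1, z2, t, ht, hz⟩ := mask hG M H F
  obtain ⟨h1, h2⟩ := k_tau t ht
  let τ : X → X := fun i => ⟨tb t.2.1 i, h2 i i.2⟩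
  have h3 := fun (i : X) (h : adj 0 i = true) => h1 i ((N0 i).1 h).2 ((N0 i).1 h).1
  have ti : ∀ i j : X, adj 0 i = true → adj 0 j = true → τ i = τ j → i = j := fun i j a b e =>
    Fin.ext ((h3 i a).2.2.2.1.symm.trans ((congrArg (fun i : X => tb t.2.2.1 i) e).trans (h3 j b).2.2.2.1))
  have ex : ∀ h : K, ∃ k : K, ∀ i : X, adj 0 i = true → τ (k • i) = h • τ i := by
    refine M.ind _ ⟨1, fun i _ => by rw [one_smul, one_smul]⟩ fun c hc h ⟨k, e⟩ => ?_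
    obtain ⟨w, hw⟩ := M.word (t.2.2.2.getD c [])
    refine ⟨w * k, fun i hi => Fin.ext ?_⟩
    rw [mul_smul, mul_smul, ← e i hi, M.tab c hc]
    exact (congrArg _ (hw _)).trans ((h3 _ ((M.nb k i).trans hi)).2.2.2.2.2 c hc)
  choose β hβ using ex
  let γ : K →* K := MonoidHom.mk' β fun g h => by
    rw [← inv_mul_eq_one]
    refine M.faith fun i hi => ?_
    rw [mul_smul, inv_smul_eq_iff]
    refine ti _ _ ((M.nb _ i).trans hi) ((M.nb _ i).trans hi) ?_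
    rw [hβ _ _ hi, mul_smul, mul_smul, hβ _ _ ((M.nb _ i).trans hi), hβ _ _ hi]
  have sj : Surjective γ := Finite.surjective_of_injective ((injective_iff_map_eq_one γ).2 fun h e => M.faith fun i hi => by
    let j : X := ⟨tb t.2.2.1 i, (h3 i hi).2.1.2.trans (by decide)⟩
    have := hβ h j ((N0 j).2 (h3 i hi).2.1)
    rw [show β h = 1 from e, one_smul, show τ j = i from Fin.ext (h3 i hi).2.2.1] at this
    exact this.symm)
  refine fin hG M (σ := σ.comp γ) ⟨fun k => H.inv _, fun k => H.fix _, fun x y a b => ?_, fun x y a b c d => ?_⟩ (f := τ ∘ f)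
    ⟨fun k x hx => (congrArg τ (F.eq _ x hx)).trans (hβ k _ (F.mem x hx)), fun x hx => (N0 _).2 (h3 _ (F.mem x hx)).1⟩ z1 z2
    fun x hx => (hz x hx).trans (by rw [← (h3 _ (F.mem x hx)).2.2.2.2.1]; rfl)
  · obtain ⟨k, e⟩ := H.tN x y a b
    obtain ⟨k, rfl⟩ := sj k
    exact ⟨k, e⟩
  · obtain ⟨k, e⟩ := H.tD x y a b c d
    obtain ⟨k, rfl⟩ := sj k
    exact ⟨k, e⟩

end CA.H28Mc
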