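import Cfsg.Agent.Lib.Spor.H28Mc2

/-! The McLaughlin group acting on the model graph. -/

set_option autoImplicit false
set_option maxRecDepth 100000

namespace CA.H28Mc
open CA.NatBits MulAction Subgroup Equiv Function CA.Leech CA.CGroup Cfsg Cfsg.Agent.S1582

theorem k_x2 : (xs.map sc).Nodup ∧ xs.length = 275 ∧ (∀ c ∈ gM, ∃ T ∈ TM, (c, T) ∈ gM.zip TM) ∧
    (∀ c ∈ lT, ∃ a < 2, lT.getD a 0 = c) ∧ (∀ a < 2, lT.getD a 0 ∈ lT ∧ Ts.getD a 0 ∈ Ts ∧ (lT.getD a 0, Ts.getD a 0) ∈ lT.zip Ts) ∧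
    ∃ i < 275, tb (Ts.getD 0 0) i ≠ i := by decide +kernel

noncomputable def ev (i : X) : LL := vec (xs.getD i 0)
theorem eS (i : X) : cA.S (sc (xs.getD i 0)) (ev i) :=
  ok_S (allL_iff.1 k_xs.2.1 _ (by rw [List.getD_eq_getElem _ _ (i.2.trans_eq k_x2.2.1.symm)]; exact List.getElem_mem _))
theorem ev_inj : Injective ev := fun i j h => by
  have e := cA.S_inj (eS i) (h ▸ eS j)
  rw [List.getD_eq_getElem _ _ (i.2.trans_eq k_x2.2.1.symm), List.getD_eq_getElem _ _ (j.2.trans_eq k_x2.2.1.symm)] at e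
  exact Fin.ext ((List.Nodup.getElem_inj_iff k_x2.1 (hi := by rw [List.length_map, k_x2.2.1]; exact i.2)
    (hj := by rw [List.length_map, k_x2.2.1]; exact j.2)).1 (by rw [List.getElem_map, List.getElem_map]; exact e))
theorem tlt {T : ℕ} (h : T ∈ TM ++ Ts) (i : X) : tb T i < 275 := of_decide_eq_true (allLt_iff.1 (allL_iff.1 k_lt T h) i i.2)
theorem gact {c T : ℕ} (h : (c, T) ∈ gM.zip TM ++ lT.zip Ts) (hT : T ∈ TM ++ Ts) {g : Co0} (hg : cG.R c g) (i : X) :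
    g • ev i = ev ⟨tb T i, tlt hT i⟩ := by
  have e := cA.S_act hg (eS i)
  rw [beq_iff.1 (allLt_iff.1 (allL_iff.1 k_act _ h) i i.2)] at e
  exact cA.S_fun e (eS ⟨tb T i, tlt hT i⟩)

theorem rho : ∃ ρ : St [vU, vY] →* Perm X, (∀ g i, g.1 • ev i = ev (ρ g i)) ∧ ∀ g i j, adj (ρ g i) (ρ g j) = adj i j := by
  have h : ∀ g ∈ cG.gen gM, ∃ f : X → X, (∀ i, g • ev i = ev (f i)) ∧ ∀ i j, adj (f i) (f j) = adj i j := fun g hg => by
    refine CG.gen_induction (p := fun g => ∃ f : X → X, (∀ i, g • ev i = ev (f i)) ∧ ∀ i j, adj (f i) (f j) = adj i j)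
      ⟨id, fun i => one_smul _ _, fun _ _ => rfl⟩ (fun c hc a g ha ⟨f, f1, f2⟩ => ?_) hg
    obtain ⟨T, hT, e⟩ := k_x2.2.2.1 c hc
    have hT' := List.mem_append_left Ts hT
    refine ⟨fun i => ⟨tb T (f i), tlt hT' _⟩, fun i => by rw [mul_smul, f1, gact (List.mem_append_left _ e) hT' ha], fun i j => ?_⟩
    have : ∀ i j : X, j.1 < i → adj (tb T i) (tb T j) = adj i j := fun i j h => by
      simpa using allLt_iff.1 (allLt_iff.1 (allL_iff.1 k_M T hT) i i.2) j h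
    rw [← f2 i j]
    beta_reduce
    rcases lt_trichotomy (f j).1 (f i).1 with b | b | b
    · exact this _ _ b
    · rw [Fin.ext b, irr, irr]
    · rw [sym, sym (f i)]; exact this _ _ b
  have h' : ∀ g : St [vU, vY], ∃ f : Perm X, (∀ i, g.1 • ev i = ev (f i)) ∧ ∀ i j, adj (f i) (f j) = adj i j := fun g =>
    let ⟨f, f1, f2⟩ := h g (gen_gM.ge g.2)
    ⟨Equiv.ofBijective f (Finite.injective_iff_bijective.1 fun i j e => ev_inj (smul_left_cancel g.1 (by rw [f1, f1, e]))), f1, f2⟩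
  choose f f1 f2 using h'
  exact ⟨MonoidHom.mk' f fun g k => Equiv.ext fun i => ev_inj (by
    rw [← f1, Perm.mul_apply, ← f1, ← f1, coe_mul, mul_smul]), f1, f2⟩

theorem model : ∃ ρ : St [vU, vY] →* Perm X, Injective ρ ∧ (∀ g i j, adj (ρ g i) (ρ g j) = adj i j) ∧
    ∃ (K : Subgroup (Perm X)) (p : ℕ → K), Md K p ∧ Nonempty (St [vU, vY, vec cX1] ≃* K) := by
  obtain ⟨ρ, r1, r2⟩ := rho
  have le : St [vU, vY, vec cX1] ≤ St [vU, vY] := fun g h => mem_St2.2 ⟨(mem_St3.1 h).1, (mem_St3.1 h).2.1⟩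
  let ι := ρ.comp (inclusion le)
  have : ∀ a : ℕ, ∃ g : St [vU, vY, vec cX1], a < 2 → cG.R (lT.getD a 0) g := fun a => by
    by_cases h : a < 2
    · obtain ⟨g, h1, h2⟩ := inT _ (k_x2.2.2.2.2.1 a h).1
      exact ⟨⟨g, h1⟩, fun _ => h2⟩
    · exact ⟨1, fun h' => absurd h' h⟩
  choose g hg using this
  have tab : ∀ a < 2, ∀ i : X, (ι (g a) i).1 = tb (Ts.getD a 0) i := fun a h i => by
    obtain ⟨-, h1, h2⟩ := k_x2.2.2.2.2.1 a h
    exact congrArg Fin.val (ev_inj ((r1 (inclusion le (g a)) i).symm.trans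
      (gact (List.mem_append_right _ h2) (List.mem_append_right _ h1) (hg a h) i)))
  have := simple_McL
  have hi : Injective ρ := by
    rw [← MonoidHom.ker_eq_bot_iff]
    refine (Subgroup.Normal.eq_bot_or_eq_top inferInstance).resolve_right fun h => ?_
    obtain ⟨i, h1, h2⟩ := k_x2.2.2.2.2.2
    have := tab 0 (by decide) ⟨i, h1⟩
    rw [show ι (g 0) = 1 from (h ▸ mem_top _ : inclusion le (g 0) ∈ ρ.ker)] at this
    exact h2 this.symm
  have hι : Injective ι := hi.comp (inclusion_injective le)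
  refine ⟨ρ, hi, r2, ι.range, fun a => ⟨ι (g a), _, rfl⟩, ⟨?_, ?_, ?_, tab, fun P h1 hm => ?_⟩, ⟨MonoidHom.ofInjective hι⟩⟩
  · rintro ⟨_, k, rfl⟩; exact r2 _
  · rintro ⟨_, k, rfl⟩
    refine ev_inj ((r1 (inclusion le k) 0).symm.trans ?_)
    rw [show ev 0 = vec cX1 from congrArg vec k_xs.2.2]
    exact (mem_St3.1 k.2).2.2
  · rw [← Nat.card_congr (MonoidHom.ofInjective hι).toEquiv, cd]
  · rintro ⟨_, k, rfl⟩
    refine CG.gen_induction (l := lT) (p := fun k => ∀ h : k ∈ St [vU, vY, vec cX1], P ⟨ι ⟨k, h⟩, _, rfl⟩)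
      (fun h => ?_) (fun c hc a k ha ih h => ?_) ((lowP_spec low inT cd.le).1.ge k.2) k.2
    · exact (Subtype.ext (map_one ι).symm : (1 : ι.range) = ⟨ι ⟨1, h⟩, _, rfl⟩) ▸ h1
    · obtain ⟨b, hb, rfl⟩ := k_x2.2.2.2.1 c hc
      obtain rfl := cG.R_fun ha (hg b hb)
      have hk : k ∈ St [vU, vY, vec cX1] := (mul_mem_cancel_left (g b).2).1 h
      exact (Subtype.ext (map_mul ι (g b) ⟨k, hk⟩).symm : (⟨ι (g b), _, rfl⟩ * ⟨ι ⟨k, hk⟩, _, rfl⟩ : ι.range) =
        ⟨ι ⟨_, h⟩, _, rfl⟩) ▸ hm b hb _ (ih hk)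

theorem params {V : Type*} [Fintype V] {G : SimpleGraph V} [DecidableRel G.Adj] {l m : ℕ}
    (h : G.IsSRGWith 275 112 l m) {a b : V} (hab : G.Adj a b) : l = 30 ∧ m = 56 := by
  classical
  obtain ⟨h1, h2, h3⟩ := CA.Steiner.srg_ncard h
  have hl : l ≤ 111 := by
    have := Set.ncard_lt_ncard (s := {x | G.Adj a x ∧ G.Adj b x}) (t := {x | G.Adj a x})
      ⟨fun _ h => h.1, fun h => G.irrefl (h hab).2⟩
    rw [h1, h2 a b hab] at this
    omega
  have hp := h.param_eq G (by norm_num)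
  have : (l = 30 ∧ m = 56) ∨ (l = 111 ∧ m = 0) := by omega
  rcases this with c | ⟨rfl, rfl⟩
  · exact c
  · have : Fact (Nat.Prime 113) := ⟨by norm_num⟩
    exact absurd (CA.H17Srg.srg_dvd h 113 (by norm_num) (by norm_num) (by norm_num)) (by norm_num)

theorem uniq {G : Subgroup (Perm X)} (hG : ∀ g ∈ G, ∀ i j : X, adj (g i) (g j) = adj i j) (c : Nat.card G = 898128000) :
    Nonempty (G ≃* Spor.McL) := by
  obtain ⟨ρ, hi, r, -⟩ := model
  let A : Subgroup (Perm X) := ⟨⟨⟨{g | ∀ i j : X, adj (g i) (g j) = adj i j}, fun {g h} a b i j => (a _ _).trans (b i j)⟩,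
    fun _ _ => rfl⟩, fun {g} a i j => by rw [← a]; simp⟩
  have cA : Nat.card A ≤ 1796256000 := bound fun _ h => h
  have l1 : G ≤ A := hG
  have l2 : ρ.range ≤ A := by rintro _ ⟨g, rfl⟩; exact r g
  have f := (MonoidHom.ofInjective hi).trans (subgroupOfEquivOfLe l2).symm
  have c1 := (Nat.card_congr (subgroupOfEquivOfLe l1).toEquiv).trans c
  have c2 := (Nat.card_congr f.toEquiv).symm.trans card_McL
  have := simple_McL
  have := f.symm.isSimpleGroup
  have h := (G.subgroupOf A).card_mul_index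
  have h0 := (G.subgroupOf A).index_ne_zero_of_finite
  have e : ρ.range.subgroupOf A = G.subgroupOf A := by
    by_cases h2 : (G.subgroupOf A).index = 2
    · exact CA.H17Srg.eq_of_index_two (by omega) h2 (c1.trans c2.symm)
    · rw [c1] at h
      rw [eq_top_of_card_eq (G.subgroupOf A) (by omega), eq_top_of_card_eq (ρ.range.subgroupOf A) (by omega)]
  exact ⟨(((subgroupOfEquivOfLe l1).symm.trans (MulEquiv.subgroupCongr e.symm)).trans f.symm).trans
    ((equivMapOfInjective _ _ Co0.subtype_injective).trans (MulEquiv.subgroupCongr McL_eq))⟩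

end CA.H28Mc
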