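import Cfsg.Agent.Lib.Spor.J112a
import Cfsg.Agent.Lib.Spor.J112b
import Cfsg.Agent.Lib.Spor.J112c
import Cfsg.Agent.Lib.Spor.J112d

/-! The presented fourth Janko group has a representation of degree 112 that is not trivial on `x`. -/

set_option autoImplicit false
set_option linter.all false
set_option maxRecDepth 100000
set_option Elab.async false

namespace CA.J112

open CA.CNet CA.CWord CA.CMat CA.PkM CA.PkW

theorem eqr : J4Rel.rels = [r0, r1, r2, r3, r4, r5, r6, r7, r8, r9, r10, r11] := by decide +kernel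
theorem rels : ∀ r ∈ J4Rel.rels, chk 2 112 F 3 σ r = true := by
  rw [eqr]; simp only [List.forall_mem_cons]
  exact ⟨h0, h1, h2, h3, h4, h5, h6, h7, h8, h9, h10, h11, by simp⟩
theorem main : ∃ g : ℕ → GL (Fin 112) (ZMod 2), (∀ r ∈ J4Rel.rels, ev g r = 1) ∧ g 0 ≠ 1 := by
  obtain ⟨g, h1, h2⟩ := exists_gl (p := 2) (n := 112) (by decide) (by decide) hF hI
  refine ⟨_, fun r hr => h2 σ r (rels r hr), fun h => ne ?_⟩
  rw [← h1 0 (by decide), ← ev_gen g 0]
  exact congrArg Units.val h

end CA.J112
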