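import Cfsg.Agent.Lib.Spor.J112D

set_option autoImplicit false
set_option linter.all false
set_option maxRecDepth 100000
set_option Elab.async false

namespace CA.J112

open CA.CNet CA.CWord CA.CMat CA.PkM CA.PkW

theorem hI : allR 3 (fun i => relOK 2 112 F [4 * i, 4 * i + 2]) = true := by decide +kernel
theorem h3 : chk 2 112 F 3 σ r3 = true := by decide +kernel
theorem h6 : chk 2 112 F 3 σ r6 = true := by decide +kernel
theorem h9 : chk 2 112 F 3 σ r9 = true := by decide +kernel
theorem h7 : chk 2 112 F 3 σ r7 = true := by decide +kernel

end CA.J112
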