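import Cfsg.Agent.Lib.Spor.J4Perm
import Cfsg.Agent.Lib.Comp.CBack
import Cfsg.Agent.Lib.Comp.CLow
import Cfsg.Agent.Lib.Comp.CLink

/-! Automorphisms of `2¹¹:M₂₄` acting trivially on the quotient, in the permutation model. -/

set_option autoImplicit false
set_option maxRecDepth 100000
set_option Elab.async false

namespace CA.J4A
open Subgroup CA.CNet CA.CWord CA.CLevel CA.CSimple CA.CPoint CA.CLow CA.J4Perm

def gH : List Word := [[0], [2], [4], [6], [8], [10], [12], [14], [16], [18], [20], [22], [24], [26], [28], [30]]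
def qs : List Word := [[4], [6], [8], [10], [12], [14], [16], [18], [20], [22], [24]]
noncomputable abbrev P := C.grp gH

theorem gm (i : ℕ) : C.g i ∈ P := by
  by_cases hi : i < 16
  · exact ev_gen C.g i ▸ mem_grp C.g ((by decide : ∀ i < 16, [2 * i] ∈ gH) i hi)
  · have : C.g i = 1 := by
      show toPerm _ (nth C.T [] i) = 1
      rw [nth_eq_getD, List.getD_eq_default _ _ (show C.T.length ≤ i from not_lt.1 hi)]
      rfl
    rw [this]; exact one_mem _

noncomputable def δ : ℕ → P := fun i => ⟨C.g i, gm i⟩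
theorem e1 (w : Word) : (ev δ w).1 = C.ev w := map_ev P.subtype δ w
noncomputable abbrev V : Subgroup P := grp δ qs
theorem e2 (ws : List Word) : (grp δ ws).map P.subtype = C.grp ws := map_grp _ δ ws
theorem vm {v : P} (h : v ∈ V) : v.1 ∈ C.grp qs := e2 qs ▸ mem_map_of_mem _ h
theorem gq {w : Word} (h : ∀ b ∈ w, 4 ≤ b ∧ b < 26) : ev δ w ∈ V := by
  induction w with
  | nil => exact one_mem _
  | cons a w ih =>
    rw [ev_cons]
    refine mul_mem ?_ (ih fun b hb => h b (List.mem_cons_of_mem _ hb))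
    have := ev_gen δ _ ▸ mem_grp δ ((by decide : ∀ b < 26, 4 ≤ b → [2 * (b / 2)] ∈ qs) a
      (h a List.mem_cons_self).2 (h a List.mem_cons_self).1)
    unfold lv
    split_ifs
    · exact this
    · exact inv_mem this

def B : List ℕ := [0, 1, 2, 3, 4, 5, 6, 24]
def o : Fin C.n := ⟨156, by decide⟩
def A : ℕ := Nat.shiftLeft (full 2048) 24
theorem hA : C.inv qs A = true := by decide +kernel
theorem mv {w : Word} {q : ℕ} (h : mapsP C lk w 156 q = true) : ((ev δ w).1 o : ℕ) = q := by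
  rw [e1]; exact mapsP_spec (p := o) hlk h
theorem ne1 {w : Word} {q : ℕ} (h : mapsP C lk w 156 q = true) (hq : q ≠ 156) : ev δ w ≠ 1 := fun e =>
  hq ((mv h).symm.trans (by rw [e]; rfl))

def pw : Word := [0, 2]
def rw' : Word := [2,0,2,0,3,0,3,0,3,0,3,0,3,0,3,0,2,0,2,0,3,0,2,0,3,0,2,0,2,0,2,0,2,0,2,0,2,0,2,0,3,0,3,0,3,0,3,0,2,0,3,0,2,0,2]
def jw : Word := [0,2,0,2,0,3,0,3,0,2,0,3,0,3,0,3,0,2,0,2,0,2,0,2,0,2,0,3,0,3,0,3,0,3,0,3,0,2,0,2,0,2,0,3,0,2,0,2,0,3,0,3,0]
def kw : Word := [0,2,0,2,0,2,0,2,0,2,0,2,0,3,0,3,0,3,0,2,0,3,0,2,0,2,0,2,0,3,0,2,0,3,0,3,0,2,0,2,0,3,0,3,0,2,0,3,0,2,0]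
def sw : Word := [0,2,0,3,0,3,0,3,0,3,0,3,0,2,0,2,0,2,0,2,0,2,0,3,0,2]
def xw : Word := [2,4,0,5,1,5,0,2,2,0,4,6,0,4]
def a1 : Word := [24,22,16,10,8]
def a2 : Word := [18,14,12,8,6,4]

theorem fxs : Nat.land (CBack.fixM C sw) A = Nat.lor (bit 156) (bit 789) := by decide +kernel
theorem fxp : Nat.land (CBack.fixM C pw) A = Nat.lor (bit 156) (bit 156) := by decide +kernel
theorem fxr : Nat.land (CBack.fixM C rw') A = Nat.lor (bit 156) (bit 28) := by decide +kernel

theorem cz {G : Type*} [Group G] (θ : MulAut G) {g s s' : G} (h : θ s = s) (h' : θ s' = s') (e : g * s = s' * g) :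
    s * (g⁻¹ * θ g) = g⁻¹ * θ g * s := by
  have := congrArg θ e
  rw [map_mul, map_mul, h, h'] at this
  rw [mul_assoc, this, ← mul_assoc, ← mul_assoc, mul_inv_eq_iff_eq_mul.2 (eq_inv_mul_iff_mul_eq.2 e |>.trans (mul_assoc _ _ _).symm)]

section
variable (base : IsBase P B) (baseQ : IsBase (C.grp qs) [24])
include base

theorem eqL {u v : Word} (h : eqQ lk B (u, v) = true) : ev δ u = ev δ v :=
  Subtype.ext (by rw [e1, e1]; exact eq_of_eqQ hlk base (e1 u ▸ (ev δ u).2) (e1 v ▸ (ev δ v).2) h)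

theorem comm {u v : P} (hu : u ∈ V) (hv : v ∈ V) : u * v = v * u := by
  have h1 : ∀ a ∈ qs, V ≤ centralizer {ev δ a} := fun a ha => (grp_le_iff δ).2 fun b hb =>
    mem_centralizer_singleton_iff.2 (by
      rw [← ev_append, ← ev_append]
      exact eqL base ((by decide +kernel : ∀ a ∈ qs, ∀ b ∈ qs, eqQ lk B (b ++ a, a ++ b) = true) a ha b hb))
  have h2 : V ≤ centralizer {v} := (grp_le_iff δ).2 fun a ha =>
    mem_centralizer_singleton_iff.2 (mem_centralizer_singleton_iff.1 (h1 a ha hv)).symm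
  exact mem_centralizer_singleton_iff.1 (h2 hu)

include baseQ

theorem reg {v : P} (hv : v ∈ V) (h : v.1 o = o) : v = 1 := by
  refine Subtype.ext (baseQ _ (vm hv) fun i hi => ?_)
  have e : (ev δ [22, 20, 14, 8, 6]).1 o = i := Fin.ext ((mv (by decide +kernel)).trans (List.mem_singleton.1 hi).symm)
  have := congrArg (fun x : P => x.1 o) (comm base hv (gq (w := [22, 20, 14, 8, 6]) (by decide)))
  simp only [coe_mul, Equiv.Perm.mul_apply, e, h] at this
  exact this

theorem cenV {s u : Word} {b : ℕ} (h : Nat.land (CBack.fixM C s) A = Nat.lor (bit 156) (bit b))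
    (hs : mapsP C lk s 156 156 = true) (hu : mapsP C lk u 156 b = true) (hu' : ∀ b ∈ u, 4 ≤ b ∧ b < 26)
    {z : P} (hz : z ∈ V) (e : ev δ s * z = z * ev δ s) : z = 1 ∨ z = ev δ u := by
  have h1 := congrArg (fun x : P => x.1 o) e
  have h0 : (ev δ s).1 o = o := Fin.ext (mv hs)
  simp only [coe_mul, Equiv.Perm.mul_apply, h0] at h1
  rw [e1] at h1
  have h2 : A.testBit (z.1 o) = true := (Ctx.inv_spec hC hA (vm hz) o).trans (show A.testBit 156 = true by decide +kernel)
  have h3 : (CBack.fixM C s &&& A).testBit (z.1 o) = true := by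
    rw [Nat.testBit_and, (CBack.testBit_fixM hC s _).2 h1, h2]; rfl
  rw [show CBack.fixM C s &&& A = bit 156 ||| bit b from h, Nat.testBit_or, testBit_bit, testBit_bit, Bool.or_eq_true,
    decide_eq_true_iff, decide_eq_true_iff] at h3
  rcases h3 with h3 | h3
  · exact .inl (reg base baseQ hz (Fin.ext h3.symm))
  · refine .inr (inv_mul_eq_one.1 (reg base baseQ (mul_mem (inv_mem (gq hu')) hz) ?_)).symm
    show ((ev δ u).1)⁻¹ (z.1 o) = o
    rw [Equiv.Perm.inv_eq_iff_eq]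
    exact Fin.ext (h3.symm.trans (mv hu).symm)

theorem cenp {z : P} (hz : z ∈ V) (e : ev δ pw * z = z * ev δ pw) : z = 1 :=
  (cenV base baseQ (u := []) fxp (by decide +kernel) (by decide +kernel) (by decide) hz e).elim id id

theorem step3 (θ : MulAut P) (h : ∀ g, g⁻¹ * θ g ∈ V) {v : P} (hv : v ∈ V) : θ v = v := by
  have h1 : ∀ v ∈ V, θ v ∈ V := fun v hv => by simpa using mul_mem hv (h v)
  have h2 : ∀ g, ∀ v ∈ V, ∀ v', v' * g = g * v → θ v' * g = g * θ v := fun g v hv v' e => by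
    have a := congrArg θ e
    rw [map_mul, map_mul, ← mul_inv_cancel_left g (θ g), mul_assoc g, comm base (h g) (h1 v hv)] at a
    exact mul_right_cancel ((mul_assoc _ _ _).trans (a.trans (mul_assoc _ _ _).symm))
  have q1 : ev δ [4] ∈ V := gq (by decide)
  have h3 : θ (ev δ [4]) = ev δ [4] := by
    refine (cenV base baseQ fxs (by decide +kernel) (by decide +kernel) (by decide) (h1 _ q1)
      (h2 _ _ q1 _ ?_).symm).resolve_left fun e => ne1 (w := [4]) (q := 789) (by decide +kernel) (by decide)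
      ((MulEquiv.map_eq_one_iff θ).1 e)
    rw [← ev_append, ← ev_append]; exact eqL base (by decide +kernel)
  have h4 : ∀ i, i < 11 → θ (ev δ [2 * i + 4]) = ev δ [2 * i + 4] := fun i => by
    induction i with
    | zero => exact fun _ => h3
    | succ i ih =>
      intro hi
      have e : ev δ [2 * (i + 1) + 4] * ev δ pw = ev δ pw * ev δ [2 * i + 4] := by
        rw [← ev_append, ← ev_append]
        exact eqL base ((by decide +kernel : ∀ i < 10, eqQ lk B ([2 * (i + 1) + 4] ++ pw, pw ++ [2 * i + 4]) = true)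
          i (by omega))
      have := h2 _ _ (gq (by simp; omega)) _ e
      rw [ih (by omega), ← e] at this
      exact mul_right_cancel this
  have h5 : V ≤ θ.toMonoidHom.eqLocus (MonoidHom.id P) := (grp_le_iff δ).2 fun w hw => by
    obtain ⟨i, hi, rfl⟩ := (by decide : ∀ w ∈ qs, ∃ i < 11, w = [2 * i + 4]) w hw
    exact h4 i hi
  exact h5 hv

theorem step4 [V.Normal] {u : P} (hu : u ∈ V) : ∃ v ∈ V, v * (ev δ pw * u) * v⁻¹ = ev δ pw := by
  let F : V → V := fun v => ⟨(ev δ pw)⁻¹ * v.1⁻¹ * ev δ pw * v, mul_mem (Normal.conj_mem' ‹_› _ (inv_mem v.2) _) v.2⟩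
  have hF : Function.Injective F := fun v w e => by
    have e : (ev δ pw)⁻¹ * v.1⁻¹ * ev δ pw * v = (ev δ pw)⁻¹ * w.1⁻¹ * ev δ pw * w := congrArg Subtype.val e
    have := cenp base baseQ (mul_mem w.2 (inv_mem v.2)) (by
      calc ev δ pw * (w.1 * v.1⁻¹) = w * ev δ pw * ((ev δ pw)⁻¹ * w.1⁻¹ * ev δ pw * w) * v.1⁻¹ := by group
        _ = _ := by rw [← e]; group)
    exact Subtype.ext (mul_inv_eq_one.1 this).symm
  obtain ⟨v, hv⟩ := Finite.surjective_of_injective hF ⟨u, hu⟩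
  refine ⟨v, v.2, ?_⟩
  rw [← show (ev δ pw)⁻¹ * v.1⁻¹ * ev δ pw * v = u from congrArg Subtype.val hv]; group

theorem step5 (θ : MulAut P) (h : ∀ g, g⁻¹ * θ g ∈ V) (hp : θ (ev δ pw) = ev δ pw) :
    θ (ev δ [0]) = ev δ [0] ∨ θ (ev δ [0]) = ev δ (a2 ++ [0]) := by
  have pw' : ∀ {w : Word} (k : ℕ), θ (ev δ w) = ev δ w → θ (ev δ (wpow w k)) = ev δ (wpow w k) := fun k e => by
    rw [ev_wpow, map_pow, e]
  have hr : θ (ev δ rw') = ev δ rw' := (inv_mul_eq_one.1 (cenp base baseQ (h _) (cz θ hp (pw' 2 hp) (by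
    rw [← ev_append, ← ev_append]; exact eqL base (by decide +kernel))))).symm
  have cr : ∀ (w : Word) (k : ℕ), eqQ lk B (w ++ rw', wpow rw' k ++ w) = true →
      θ (ev δ w) = ev δ w ∨ θ (ev δ w) = ev δ (w ++ a1) := fun w k e =>
    (cenV base baseQ (u := a1) fxr (by decide +kernel) (by decide +kernel) (by decide) (h _) (cz θ hr (pw' k hr) (by
      rw [← ev_append, ← ev_append]; exact eqL base e))).imp (fun e => (inv_mul_eq_one.1 e).symm)
      fun e => by rw [ev_append, ← e, mul_inv_cancel_left]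
  have hk : θ (ev δ kw) = ev δ kw := (cr kw 3 (by decide +kernel)).resolve_right fun e =>
    ne1 (w := wpow (kw ++ a1) 5) (q := 28) (by decide +kernel) (by decide) (by
      rw [ev_wpow, ← e, ← map_pow, ← ev_wpow, eqL base (v := []) (by decide +kernel), ev_nil, map_one])
  have fin : ∀ w : Word, θ (ev δ jw) = ev δ w → θ (ev δ [0]) = ev δ (subst [pw, rw', kw, w] xw) := fun w e => by
    rw [eqL base (u := [0]) (v := subst [pw, rw', kw, jw] xw) (by decide +kernel), ev_subst, ev_subst]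
    refine (map_ev θ.toMonoidHom _ _).trans (congrArg (ev · xw) (funext fun i => ?_))
    rcases i with _ | _ | _ | _ | i
    exacts [hp, hr, hk, e, map_one θ]
  exact (cr jw 10 (by decide +kernel)).imp (fun e => (fin _ e).trans (eqL base (by decide +kernel)))
    fun e => (fin _ e).trans (eqL base (by decide +kernel))

theorem aut [V.Normal] (θ : MulAut P) (c : P) (h : ∀ g, g⁻¹ * (c * θ g * c⁻¹) ∈ V) :
    ∃ c : P, (∀ v ∈ V, c * θ v * c⁻¹ = v) ∧ c * θ (ev δ [0, 2]) * c⁻¹ = ev δ [0, 2] ∧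
      (c * θ (ev δ [0]) * c⁻¹ = ev δ [0] ∨ c * θ (ev δ [0]) * c⁻¹ = ev δ (a2 ++ [0])) := by
  obtain ⟨v, hv, e⟩ := step4 base baseQ (h (ev δ pw))
  have h' : ∀ g, g⁻¹ * (MulAut.conj (v * c) * θ) g ∈ V := fun g => by
    have := mul_mem (mul_mem (Normal.conj_mem' ‹_› _ hv g) (h g)) (inv_mem hv)
    rw [MulAut.mul_apply, MulAut.conj_apply]
    convert this using 1; group
  have hp : (MulAut.conj (v * c) * θ) (ev δ pw) = ev δ pw := by
    rw [MulAut.mul_apply, MulAut.conj_apply]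
    refine Eq.trans ?_ e; group
  exact ⟨v * c, fun u hu => step3 base baseQ _ h' hu, hp, step5 base baseQ _ h' hp⟩

end

end CA.J4A
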