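import Cfsg.Agent.Lib.Spor.J4A
import Cfsg.Agent.Lib.Spor.J4Dc
import Cfsg.Prelude.Def_KGroupFacts

/-! Automorphisms of `2¹¹:M₂₄`: the action on the quotient. -/

set_option autoImplicit false
set_option maxRecDepth 100000
set_option Elab.async false

namespace CA.J4A
open Subgroup CA.CNet CA.CWord CA.CLevel CA.CSimple CA.CPoint CA.CLow CA.J4Perm

theorem quot {G Q : Type} [Group G] [Finite G] [Group Q] {V M : Subgroup G} [V.Normal]
    (hQ : Nat.card (Cfsg.Out Q) = 1) (e : M ≃* Q) (hd : V ⊓ M = ⊥) (hc : Nat.card G = Nat.card M * Nat.card V)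
    (st : ∀ Y : Subgroup G, Y.Normal → M ≤ Y ∨ Y = ⊥ ∨ Y = V) (hne : Nat.card V < Nat.card M) (θ : MulAut G) :
    ∃ c, ∀ g, g⁻¹ * (c * θ g * c⁻¹) ∈ V := by
  have c1 : Nat.card (V.map θ.toMonoidHom) = Nat.card V := card_map_of_injective θ.injective
  have h1 : V.map θ.toMonoidHom = V := by
    rcases st _ (Normal.map ‹_› θ.toMonoidHom θ.surjective) with h | h | h
    · exact absurd (card_le_of_le h) (by omega)
    · rw [h, card_bot] at c1
      rw [h, card_eq_one.1 c1.symm]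
    · exact h
  let f : M →* G ⧸ V := (QuotientGroup.mk' V).comp M.subtype
  have hf : Function.Injective f := (injective_iff_map_eq_one _).2 fun x hx =>
    Subtype.ext (mem_bot.1 (hd ▸ ⟨(QuotientGroup.eq_one_iff _).1 hx, x.2⟩))
  have c2 : Nat.card M = Nat.card (G ⧸ V) :=
    Nat.eq_of_mul_eq_mul_right Nat.card_pos (hc.symm.trans (card_eq_card_quotient_mul_card_subgroup V))
  let e' : (G ⧸ V) ≃* Q := (MulEquiv.ofBijective f ((Nat.bijective_iff_injective_and_card f).2 ⟨hf, c2⟩)).symm.trans e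
  let β : MulAut (G ⧸ V) := QuotientGroup.congr V V θ h1
  haveI := (Nat.card_eq_one_iff_unique.1 hQ).1
  obtain ⟨y, hy⟩ : (e'.symm.trans (β.trans e') : MulAut Q) ∈ Cfsg.Inn Q :=
    (QuotientGroup.eq_one_iff _).1 (Subsingleton.elim _ _)
  obtain ⟨c, hc'⟩ := QuotientGroup.mk_surjective (e'.symm y)
  refine ⟨c⁻¹, fun g => ?_⟩
  have h2 : y * e' g * y⁻¹ = e' (β (e'.symm (e' g))) := DFunLike.congr_fun hy (e' g)
  rw [e'.symm_apply_apply, ← e'.apply_symm_apply y, ← hc', ← map_inv, ← map_mul, ← map_mul] at h2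
  have h3 : ((c * g * c⁻¹ : G) : G ⧸ V) = (θ g : G) := e'.injective h2
  have := Normal.conj_mem' ‹_› _ (QuotientGroup.eq.1 h3) c
  convert this using 1; group

def nx : List Word := [[6],[4],[24,22,20,14,12,6,4],[24,22,20,18,16,14,8,6],[24,22,10,6],[24,10,4],[24,18,14,12,6,4],[24,20,18,8],[24,20,18,16,14,12,6,4],[14,12,6,4],[24,22,20,18,16,8]]
def ny : List Word := [[4],[24,20,16,14,12,4],[24,22,18,16,14,10],[22,20,18,16,14,12,6,4],[22,20,8,4],[24,22,20,16,14,12,8,4],[24,22,20,14,10],[22,18,16,6],[24,22,20,18,10],[24,20,16,14,10],[22,20,18,16,14,6]]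
def ex : List Word := [[22,20,16,10,0,3,0,3,0,3,0,2,0,2], [6,0,3,0,2,0,2,0,3,0,3], [24,22,18,12,10,6,0,2,0,2,0,3,0,3,0,2]]

theorem e3 (ws : List Word) : Nat.card (grp δ ws) = Nat.card (C.grp ws) := by rw [← e2 ws, card_subtype]
theorem ht : grp δ gH = ⊤ := (card_eq_iff_eq_top _).1 (e3 _)

theorem normal (base : IsBase P B) : V.Normal := by
  have n1 : ∀ i < 13, δ i ∈ normalizer (V : Set P) := fun i hi => by
    by_cases h2 : i < 2
    · refine (inv_mem_iff).1 (J4Dc.mem_norm ?_)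
      rintro _ ⟨q, hq, rfl⟩
      obtain ⟨j, -, h3, h4⟩ := (by decide +kernel : ∀ i < 2, ∀ q ∈ qs, ∃ j < 11, q = [2 * j + 4] ∧
        (eqQ lk B (winv [2 * i] ++ [2 * j + 4] ++ [2 * i], nth (nth [nx, ny] [] i) [] j) = true ∧
        ∀ b ∈ nth (nth [nx, ny] [] i) [] j, 4 ≤ b ∧ b < 26)) i h2 q hq
      have h5 := eqL base h4.1
      rw [ev_append, ev_append, ev_winv, ev_gen, ← h3] at h5
      rw [inv_inv, h5]
      exact gq h4.2
    · exact le_normalizer (ev_gen δ i ▸ gq (w := [2 * i]) (by simp; omega))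
  have n2 : ∀ w : Word, (∀ a ∈ w, a < 26) → ev δ w ∈ normalizer (V : Set P) := fun w h => by
    induction w with
    | nil => exact one_mem _
    | cons a w ih =>
      rw [ev_cons]
      refine mul_mem ?_ (ih fun b hb => h b (List.mem_cons_of_mem _ hb))
      have := n1 (a / 2) (by have := h a List.mem_cons_self; omega)
      unfold lv
      split_ifs
      · exact this
      · exact inv_mem this
  refine normalizer_eq_top_iff.1 (top_unique (ht.ge.trans ((grp_le_iff δ).2 fun w hw => ?_)))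
  obtain ⟨u, -, h1, h2⟩ := (by decide +kernel : ∀ w ∈ gH, ∃ u ∈ w :: ex, (∀ a ∈ u, a < 26) ∧ eqQ lk B (w, u) = true) w hw
  exact eqL base h2 ▸ n2 u h1

end CA.J4A
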