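import Cfsg.Agent.Lib.Grp.SchurHopf
import Cfsg.Agent.Lib.Comp.CPres

/-! Central extensions of `2¹¹ : M₂₄`: the algebra behind the splitting. -/

set_option autoImplicit false
set_option linter.all false

namespace CA.J4S
open Cfsg CA.CWord
open scoped commutatorElement

section defs
variable {A A' : Type*} [Group A] [Group A']

def th (r : MulAut A) : List ℕ → A → A
  | [], _ => 1
  | k :: L, a => (r ^ k) a * th r L a

def wd (x r : A) : List ℕ → A
  | [] => 1
  | k :: L => x * r ^ k * wd x r L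

def fx (x r : MulAut A) : List ℕ → A → A
  | [], _ => 1
  | k :: L, a => (r ^ k * wd x r L) a * fx x r L a

theorem map_wd (f : A →* A') (x r : A) (L : List ℕ) : f (wd x r L) = wd (f x) (f r) L := by
  induction L with
  | nil => exact map_one f
  | cons k L ih => simp only [wd, map_mul, map_pow, ih]

theorem pow_cmp {f : A →* A'} {r : MulAut A} {r' : MulAut A'} (h : ∀ a, f (r a) = r' (f a)) (k : ℕ) (a : A) :
    f ((r ^ k) a) = (r' ^ k) (f a) := by
  induction k with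
  | zero => rfl
  | succ k ih => rw [pow_succ', pow_succ', MulAut.mul_apply, MulAut.mul_apply, h, ih]

theorem th_cmp {f : A →* A'} {r : MulAut A} {r' : MulAut A'} (h : ∀ a, f (r a) = r' (f a)) (L : List ℕ) (a : A) :
    f (th r L a) = th r' L (f a) := by
  induction L with
  | nil => exact map_one f
  | cons k L ih => simp only [th, map_mul, ih, pow_cmp h]

theorem wd_cmp {f : A →* A'} {x r : MulAut A} {x' r' : MulAut A'} (hx : ∀ a, f (x a) = x' (f a))
    (h : ∀ a, f (r a) = r' (f a)) (L : List ℕ) (a : A) : f (wd x r L a) = wd x' r' L (f a) := by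
  induction L with
  | nil => rfl
  | cons k L ih => simp only [wd, MulAut.mul_apply, hx, ih, pow_cmp h]

theorem fx_cmp {f : A →* A'} {x r : MulAut A} {x' r' : MulAut A'} (hx : ∀ a, f (x a) = x' (f a))
    (h : ∀ a, f (r a) = r' (f a)) (L : List ℕ) (a : A) : f (fx x r L a) = fx x' r' L (f a) := by
  induction L with
  | nil => exact map_one f
  | cons k L ih => simp only [fx, map_mul, MulAut.mul_apply, ih, pow_cmp h, wd_cmp hx h]

theorem th_pow {j : A →* A'} {r : MulAut A} {a : A} (h : ∀ k : ℕ, j ((r ^ k) a) = j a) (L : List ℕ) :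
    j (th r L a) = j a ^ L.length := by
  induction L with
  | nil => simp [th]
  | cons k L ih => simp only [th, map_mul, ih, h, List.length_cons, pow_succ']

theorem th_comm (r : MulAut A) (L : List ℕ) (i : ℕ) (a : A) : th r L ((r ^ i) a) = (r ^ i) (th r L a) :=
  (th_cmp (f := (r ^ i).toMonoidHom) (r := r) (r' := r) (fun a => by
    show (r ^ i * r) a = (r * r ^ i) a
    rw [← pow_succ, ← pow_succ']) L a).symm

noncomputable def thw : List ℕ → Word → Word
  | [], _ => []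
  | k :: L, w => wpow [0, 2] k ++ w ++ winv (wpow [0, 2] k) ++ thw L w

noncomputable def wdw : List ℕ → Word
  | [] => []
  | k :: L => [0] ++ wpow [0, 2] k ++ wdw L

noncomputable def fxw : List ℕ → Word → Word
  | [], _ => []
  | k :: L, w => (wpow [0, 2] k ++ wdw L) ++ w ++ winv (wpow [0, 2] k ++ wdw L) ++ fxw L w

theorem ev_thw (g : ℕ → A) (L : List ℕ) (w : Word) :
    ev g (thw L w) = th (MulAut.conj (ev g [0, 2])) L (ev g w) := by
  induction L with
  | nil => rfl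
  | cons k L ih => simp only [thw, th, ev_append, ev_winv, ev_wpow, ih, ← map_pow, MulAut.conj_apply]

theorem ev_wdw (g : ℕ → A) (L : List ℕ) : ev g (wdw L) = wd (ev g [0]) (ev g [0, 2]) L := by
  induction L with
  | nil => rfl
  | cons k L ih => simp only [wdw, wd, ev_append, ev_wpow, ih]

theorem ev_fxw (g : ℕ → A) (L : List ℕ) (w : Word) :
    ev g (fxw L w) = fx (MulAut.conj (ev g [0])) (MulAut.conj (ev g [0, 2])) L (ev g w) := by
  induction L with
  | nil => rfl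
  | cons k L ih =>
    simp only [fxw, fx, ev_append, ev_winv, ev_wpow, ih, ← map_pow, ← map_wd, ← map_mul, MulAut.conj_apply, ev_wdw]

theorem odd_one {a : A} (h2 : a ^ 2 = 1) {n : ℕ} (h : a ^ (2 * n + 1) = 1) : a = 1 := by
  rwa [pow_succ, pow_mul, h2, one_pow, one_mul] at h

end defs

theorem th_mul {A : Type*} [CommGroup A] (r : MulAut A) (L : List ℕ) (a b : A) :
    th r L (a * b) = th r L a * th r L b := by
  induction L with
  | nil => simp [th]
  | cons k L ih => simp only [th, map_mul, ih, mul_mul_mul_comm]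

theorem core {A : Type*} [CommGroup A] (Z : Subgroup A) (x r : MulAut A) (hx : ∀ z ∈ Z, x z = z)
    (hr : ∀ z ∈ Z, r z = z) (h2 : ∀ a, a ^ 2 ∈ Z) {L : List ℕ} (hL : L.length = 2 * 5 + 1) (hθ : ∀ a, th r L a ∈ Z)
    (hF : ∀ U : Subgroup A, Z ≤ U → (∀ ks a, wd x r ks = 1 → fx x r ks a ∈ U) → U = ⊤) :
    ∃ W : Subgroup A, W ⊓ Z = ⊥ ∧ W ⊔ Z = ⊤ ∧ (∀ a, x a ∈ W ↔ a ∈ W) ∧ ∀ a, r a ∈ W ↔ a ∈ W := by
  let δ : A →* A := MonoidHom.mk' (fun a => a⁻¹ * r a) fun a b => by
    rw [map_mul, mul_inv, mul_mul_mul_comm]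
  have key : ∀ (U : Subgroup A) (a : A), Z ≤ U → (∀ k : ℕ, QuotientGroup.mk' U ((r ^ k) a) = QuotientGroup.mk' U a) →
      a ∈ U := fun U a hU h => by
    have h1 := th_pow h L
    rw [hL, show QuotientGroup.mk' U (th r L a) = 1 from (QuotientGroup.eq_one_iff _).2 (hU (hθ a))] at h1
    exact (QuotientGroup.eq_one_iff _).1 (odd_one (by
      rw [← QuotientGroup.mk_pow]; exact (QuotientGroup.eq_one_iff _).2 (hU (h2 a))) h1.symm)
  have hj : ∀ (U : Subgroup A), δ.range ≤ U → ∀ a, QuotientGroup.mk' U (r a) = QuotientGroup.mk' U a := fun U hU a =>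
    (QuotientGroup.eq.2 (hU ⟨a, rfl⟩)).symm
  have hjk : ∀ (U : Subgroup A), δ.range ≤ U → ∀ (k : ℕ) a, QuotientGroup.mk' U ((r ^ k) a) = QuotientGroup.mk' U a :=
    fun U hU k a => by
      simpa using pow_cmp (f := QuotientGroup.mk' U) (r' := 1) (hj U hU) k a
  have hiff : ∀ y : MulAut A, (∀ a, QuotientGroup.mk' δ.range (y a) = QuotientGroup.mk' δ.range a) →
      ∀ a, y a ∈ δ.range ↔ a ∈ δ.range := fun y h a => by
    rw [← QuotientGroup.eq_one_iff, ← QuotientGroup.eq_one_iff a]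
    exact Eq.congr_left (h a)
  refine ⟨δ.range, eq_bot_iff.2 ?_, eq_top_iff.2 fun a _ => key _ a le_sup_right (hjk _ le_sup_left · a),
    hiff x ?_, hiff r (hj _ le_rfl)⟩
  · rintro _ ⟨⟨a, rfl⟩, h⟩
    have h1 : a ∈ Z := key Z a le_rfl fun k => by
      induction k with
      | zero => rfl
      | succ k ih =>
        have e : r a = a * δ a := (mul_inv_cancel_left _ _).symm
        have e2 : (r ^ k) (δ a) = δ a := by
          clear ih
          induction k with
          | zero => rfl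
          | succ k ih => rw [pow_succ', MulAut.mul_apply, ih, hr _ h]
        rw [pow_succ, MulAut.mul_apply, e, map_mul, map_mul, ih, e2,
          show QuotientGroup.mk' Z (δ a) = 1 from (QuotientGroup.eq_one_iff _).2 h, mul_one]
    show a⁻¹ * r a = 1
    rw [hr a h1, inv_mul_cancel]
  · let j := QuotientGroup.mk' δ.range
    let D : A →* A ⧸ δ.range := MonoidHom.mk' (fun a => j (x a) * (j a)⁻¹) fun a b => by
      rw [map_mul, map_mul, map_mul, mul_inv, mul_mul_mul_comm]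
    have hD : ∀ a, j (x a) = D a * j a := fun a => (inv_mul_cancel_right _ _).symm
    have h1 : ∀ ks a, j (wd x r ks a) = D (fx x r ks a) * j a := fun ks a => by
      induction ks with
      | nil => simp [wd, fx]
      | cons k ks ih =>
        simp only [wd, fx, MulAut.mul_apply, map_mul]
        rw [hD, hjk _ le_rfl, ih, mul_assoc]
    have h3 := hF D.ker (fun z hz => by
      show j (x z) * (j z)⁻¹ = 1
      rw [hx z hz, mul_inv_cancel]) fun ks a h => by
        have := h1 ks a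
        rw [h] at this
        exact (mul_eq_right.1 this.symm)
    intro a
    rw [hD, show D a = 1 from h3.ge (Subgroup.mem_top a), one_mul]

variable {Γ : Type*} [Group Γ]

theorem cm_l {u v c : Γ} (h : ⁅v, c⁆ ∈ Subgroup.center Γ) : ⁅u * v, c⁆ = ⁅u, c⁆ * ⁅v, c⁆ := by
  have := Subgroup.mem_center_iff.1 h
  calc _ = u * ⁅v, c⁆ * (c * u⁻¹ * c⁻¹) := by simp only [commutatorElement_def]; group
    _ = _ := by rw [mul_assoc, ← this, ← mul_assoc]; simp only [commutatorElement_def]; group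

theorem cm_r {u v c : Γ} (h : ⁅c, v⁆ ∈ Subgroup.center Γ) : ⁅c, u * v⁆ = ⁅c, u⁆ * ⁅c, v⁆ := by
  have := Subgroup.mem_center_iff.1 h
  calc _ = (c * u * c⁻¹) * (⁅c, v⁆ * u⁻¹) := by simp only [commutatorElement_def]; group
    _ = _ := by rw [← this, ← mul_assoc]; simp only [commutatorElement_def]

theorem cen_fix {z : Γ} (h : z ∈ Subgroup.center Γ) (g : Γ) : g * z * g⁻¹ = z := by
  rw [Subgroup.mem_center_iff.1 h, mul_inv_cancel_right]

theorem th_mem {A : Subgroup Γ} {r : MulAut Γ} (hR : ∀ a ∈ A, r a ∈ A) :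
    (∀ (k : ℕ), ∀ a ∈ A, (r ^ k) a ∈ A) ∧ ∀ L, ∀ a ∈ A, th r L a ∈ A := by
  have h : ∀ (k : ℕ), ∀ a ∈ A, (r ^ k) a ∈ A := fun k a ha => by
    induction k with
    | zero => exact ha
    | succ k ih => rw [pow_succ', MulAut.mul_apply]; exact hR _ ih
  refine ⟨h, fun L a ha => ?_⟩
  induction L with
  | nil => exact one_mem _
  | cons k L ih => exact mul_mem (h k a ha) ih

theorem bil {A : Subgroup Γ} {R : Γ} (hA : ∀ a ∈ A, ∀ c ∈ A, ⁅a, c⁆ ∈ Subgroup.center Γ)
    (hR : ∀ a ∈ A, MulAut.conj R a ∈ A) (h23 : R ^ 23 = 1) {a c : Γ} (ha : a ∈ A) (hc : c ∈ A) (L : List ℕ)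
    (hL : ∀ k ∈ L, k ≤ 23) : ⁅th (MulAut.conj R) L a, c⁆ = ⁅a, th (MulAut.conj R) (L.map (23 - ·)) c⁆ := by
  obtain ⟨h1, h2⟩ := th_mem hR
  induction L with
  | nil => simp [th]
  | cons k L ih =>
    simp only [th, List.map_cons]
    rw [cm_l (hA _ (h2 L a ha) c hc), cm_r (hA a ha _ (h2 _ c hc)), ih fun k hk => hL k (List.mem_cons_of_mem _ hk)]
    congr 1
    have e : R ^ (23 - k) * R ^ k = 1 := by rw [← pow_add, Nat.sub_add_cancel (hL k List.mem_cons_self), h23]
    rw [← cen_fix (hA _ (h1 k a ha) c hc) (R ^ (23 - k)), ← MulAut.conj_apply, map_commutatorElement, ← map_pow,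
      ← MulAut.mul_apply, ← map_mul, e, map_one, map_pow]
    rfl

theorem sym {E k T : Γ} {n : ℕ} (hc : E ^ n ∈ Subgroup.center Γ) (h : k * E * k⁻¹ = (T * E * T⁻¹)⁻¹) :
    (E ^ n) ^ 2 = 1 := by
  have := cen_fix hc k
  rw [← conj_pow, h, inv_pow, conj_pow, cen_fix hc] at this
  rw [pow_two]; nth_rw 1 [← this]; exact inv_mul_cancel _

theorem comm_of {Z : Subgroup Γ} (hc : Z ≤ Subgroup.center Γ) (h1 : ∀ z ∈ Z, z ^ 2 = 1 → z = 1) {T k : Γ}
    (hT : T ^ 2 = 1) (h : T⁻¹ * k⁻¹ * T * k ∈ Z) : T⁻¹ * k⁻¹ * T * k = 1 := by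
  refine h1 _ h ?_
  have e : k⁻¹ * T * k⁻¹⁻¹ = T * (T⁻¹ * k⁻¹ * T * k) := by group
  have c : Commute T (T⁻¹ * k⁻¹ * T * k) := Subgroup.mem_center_iff.1 (hc h) T
  have := congrArg (· ^ 2) e
  simp only [conj_pow, c.mul_pow, hT] at this
  rw [one_mul] at this
  rw [← this]; group

theorem rel3 {Z : Subgroup Γ} (hc : Z ≤ Subgroup.center Γ) (h1 : ∀ z ∈ Z, z ^ 2 = 1 → z = 1) {T k y w : Γ}
    (hT : T ^ 2 = 1) (hk : k * T = T * k) (hP : k * (w * y * w⁻¹) * k⁻¹ * (w * y * w⁻¹) = 1)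
    (h : (y * w⁻¹ * T * w) ^ 3 ∈ Z) : (y * w⁻¹ * T * w) ^ 3 = 1 := by
  have hT' : T⁻¹ = T := inv_eq_of_mul_eq_one_left (by rw [← pow_two, hT])
  refine h1 _ h (sym (k := w⁻¹ * k * w) (T := w⁻¹ * T * w) (hc h) ?_)
  calc _ = w⁻¹ * (k * (w * y * w⁻¹) * k⁻¹) * (k * T) * k⁻¹ * w := by group
    _ = w⁻¹ * (w * y * w⁻¹)⁻¹ * T⁻¹ * w := by rw [eq_inv_of_mul_eq_one_left hP, hk, hT']; group
    _ = _ := by group

theorem rel2 {Z : Subgroup Γ} (hc : Z ≤ Subgroup.center Γ) (h1 : ∀ z ∈ Z, z ^ 2 = 1 → z = 1) {T k l u v : Γ}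
    (hT : T ^ 2 = 1) (hk : k * T = T * k) (hl : l * T = T * l) (ha : k * v⁻¹ * l⁻¹ * (v * u) = 1)
    (hb : l * (v * u) * k⁻¹ * v⁻¹ = 1) (h : (u * T * v⁻¹ * T * v) ^ 2 ∈ Z) : (u * T * v⁻¹ * T * v) ^ 2 = 1 := by
  have hT' : T⁻¹ = T := inv_eq_of_mul_eq_one_left (by rw [← pow_two, hT])
  refine h1 _ h (sym (k := u * k * u⁻¹) (T := u * T⁻¹ * u⁻¹) (hc h) ?_)
  calc _ = u * (k * T) * v⁻¹ * l⁻¹ * (l * T) * (v * u) * k⁻¹ * u⁻¹ := by group
    _ = u * T * (k * v⁻¹ * l⁻¹) * T * (l * (v * u) * k⁻¹) * u⁻¹ := by rw [hk, hl]; group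
    _ = u * T⁻¹ * (v * u)⁻¹ * T⁻¹ * v⁻¹⁻¹ * u⁻¹ := by
      rw [eq_inv_of_mul_eq_one_left ha, eq_inv_of_mul_eq_one_left hb, hT']
    _ = _ := by group

/-- a central extension splits over a perfect subgroup with trivial multiplier (as `LyS.exists_sec`) -/
theorem sec {Q : Type*} [Group Q] {σ : Γ →* Q} (hs : Function.Surjective σ)
    (hc : σ.ker ≤ Subgroup.center Γ) (H : Subgroup Q) (hH : HasCyclicSchurMultiplier H 1)
    (hp : commutator H = ⊤) : ∃ s : H →* Γ, ∀ x, σ (s x) = x := by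
  let ψ : H.comap σ →* H := σ.subgroupComap H
  have h1 : Function.Surjective ψ := σ.subgroupComap_surjective_of_surjective H hs
  have h2 : ψ.ker ≤ Subgroup.center _ := fun x hx => Subgroup.mem_center_iff.2 fun y =>
    Subtype.ext (Subgroup.mem_center_iff.1 (hc (congrArg Subtype.val hx)) y.1)
  have h3 := SchurHopf.mult_eq_bot hH ψ h1 h2
  let χ := ψ.comp (commutator (H.comap σ)).subtype
  have h4 : Function.Bijective χ := ⟨(injective_iff_map_eq_one _).2 fun x hx => Subtype.ext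
    (Subgroup.mem_bot.1 (h3 ▸ SchurHopf.mem_mult.2 ⟨hx, x.2⟩)), fun y => by
      have : y ∈ (commutator (H.comap σ)).map ψ := by
        rw [map_commutator_eq, MonoidHom.range_eq_top.2 h1, ← commutator_def, hp]; trivial
      obtain ⟨x, hx, e⟩ := this
      exact ⟨⟨x, hx⟩, e⟩⟩
  let e := MulEquiv.ofBijective χ h4
  exact ⟨(H.comap σ).subtype.comp ((commutator (H.comap σ)).subtype.comp e.symm.toMonoidHom),
    fun x => congrArg Subtype.val (e.apply_symm_apply x)⟩

end CA.J4S
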