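import Cfsg.Agent.Lib.Spor.J4S1
import Cfsg.Agent.Lib.Spor.J4Rel

/-! A central extension of `J₄` splits over `2¹¹ : M₂₄`; lifting the relators. -/

set_option autoImplicit false
set_option linter.all false
set_option maxRecDepth 100000

namespace CA.J4S
open Cfsg CA.CWord CA.CPres Subgroup
open scoped commutatorElement Pointwise

def qw : List Word := [[4], [6], [8], [10], [12], [14], [16], [18], [20], [22], [24]]
def mw : List Word := [[0], [2]]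
def AW : List (List Word) := [[[6], [4], [4, 6, 12, 14, 20, 22, 24], [6, 8, 14, 16, 18, 20, 22, 24], [6, 10, 22, 24], [4, 10, 24], [4, 6, 12, 14, 18, 24], [8, 18, 20, 24], [4, 6, 12, 14, 16, 18, 20, 24], [4, 6, 12, 14], [8, 16, 18, 20, 22, 24]], [[4], [4, 6, 12, 14, 20, 22, 24], [6, 8, 14, 16, 18, 20, 22, 24], [6, 10, 22, 24], [4, 10, 24], [4, 6, 12, 14, 18, 24], [8, 18, 20, 24], [4, 6, 12, 14, 16, 18, 20, 24], [4, 6, 12, 14], [8, 16, 18, 20, 22, 24], [6, 8, 10, 20, 24]]]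
def L0 : List ℕ := [1, 2, 3, 4, 6, 8, 9, 12, 13, 16, 18]
def KS : List (List ℕ) := [[0, 0], [1, 1, 1], [10, 10, 10, 10, 10, 10]]
def FX : List (List (List ℕ × ℕ)) := [[([0, 0], 0), ([1, 1, 1], 0)], [([1, 1, 1], 0)], [([0, 0], 0), ([0, 0], 3), ([0, 0], 4), ([0, 0], 5), ([1, 1, 1], 3), ([1, 1, 1], 4)], [([0, 0], 0), ([0, 0], 2), ([0, 0], 5), ([1, 1, 1], 2), ([1, 1, 1], 3)], [([0, 0], 0), ([0, 0], 4), ([0, 0], 5), ([1, 1, 1], 0), ([1, 1, 1], 3), ([1, 1, 1], 4), ([10, 10, 10, 10, 10, 10], 0)], [([0, 0], 3), ([1, 1, 1], 2), ([1, 1, 1], 3), ([1, 1, 1], 4)], [([0, 0], 0), ([0, 0], 2), ([0, 0], 4), ([1, 1, 1], 0), ([1, 1, 1], 1), ([1, 1, 1], 2), ([10, 10, 10, 10, 10, 10], 0)], [([0, 0], 2), ([0, 0], 3), ([1, 1, 1], 0), ([1, 1, 1], 1), ([1, 1, 1], 4)], [([0, 0], 0), ([1, 1, 1], 0), ([1, 1, 1], 3)], [([0, 0], 3), ([1, 1, 1], 0), ([1, 1, 1], 2), ([10, 10, 10, 10, 10, 10], 0)], [([0, 0], 2), ([0, 0],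 3), ([1, 1, 1], 0), ([1, 1, 1], 4)]]
noncomputable def catw : List (List ℕ × ℕ) → Word
  | [] => []
  | e :: l => fxw e.1 [2 * (e.2 + 2)] ++ catw l
def kw : Word := [2, 0, 2, 0, 3, 0, 3, 0, 2, 0, 2, 0, 2]
def w3 : Word := [2, 0, 3, 0, 2, 0, 3, 0]
def u2 : Word := [2, 0, 2, 0, 2, 0, 2, 2, 0, 2, 0, 2, 0, 2, 2, 0, 2, 0, 2, 0, 2]
def v2 : Word := [0, 2, 0, 2, 0, 2, 2, 0, 2, 0, 2, 0, 2, 0, 2, 0, 2, 0, 2, 2]
noncomputable def k0 : Word := subst [[0], kw] [2, 2]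
noncomputable def k1 : Word := subst [[0], kw] [0, 3, 0, 2, 0, 2, 2, 0, 3, 0, 2, 0, 2]
noncomputable def k2 : Word := subst [[0], kw] [2, 0, 2, 0, 3, 0, 2, 0, 2, 0, 3, 0, 2, 0, 3, 0, 3]
noncomputable def mrel : List Word := J4Rel.rels.take 7 ++ [k0 ++ (w3 ++ [2] ++ winv w3) ++ winv k0 ++ (w3 ++ [2] ++ winv w3),
  k1 ++ winv v2 ++ winv k2 ++ (v2 ++ u2), k2 ++ (v2 ++ u2) ++ winv k1 ++ winv v2] ++ KS.map wdw

structure Ok (E : Word → Word → Prop) : Prop where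
  comm : ∀ u ∈ qw, ∀ v ∈ qw, E (u ++ v) (v ++ u)
  sq : ∀ i < 11, E ([2 * (i + 2)] ++ [2 * (i + 2)]) []
  act : ∀ i < 2, ∀ j < 11, E ([2 * i] ++ [2 * (j + 2)] ++ winv [2 * i]) (nth (nth AW [] i) [] j)
  bas : ∀ i < 11, E (thw [i] [4]) [2 * (i + 2)]
  th0 : E (thw L0 [4]) []
  th1 : E (thw (L0.map (23 - ·)) [4]) [4]
  fox : ∀ i < 11, E (catw (nth FX [] i)) [2 * (i + 2)]
  mr : ∀ r ∈ mrel, E r []

theorem ev_mem2 {A : Type*} [Group A] {g : ℕ → A} {H : Subgroup A} {w : Word} (h : ∀ a ∈ w, g (a / 2) ∈ H) :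
    ev g w ∈ H := by
  induction w with
  | nil => exact H.one_mem
  | cons a w ih =>
    rw [ev_cons]
    refine H.mul_mem ?_ (ih fun b hb => h b (List.mem_cons_of_mem _ hb))
    have := h a (List.mem_cons_self ..)
    unfold lv
    split_ifs
    · exact this
    · exact H.inv_mem this

theorem memM {A : Type*} [Group A] (g : ℕ → A) {w : Word} (h : ∀ a ∈ w, a < 4) : ev g w ∈ grp g mw :=
  ev_mem2 fun a ha => ev_gen g _ ▸ mem_grp g ((by decide : ∀ a < 4, [2 * (a / 2)] ∈ mw) a (h a ha))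

theorem memQ {A : Type*} [Group A] (g : ℕ → A) {w : Word} (h : ∀ a ∈ w, 4 ≤ a ∧ a < 26) : ev g w ∈ grp g qw :=
  ev_mem2 fun a ha => ev_gen g _ ▸ mem_grp g ((by decide : ∀ a < 26, 4 ≤ a → [2 * (a / 2)] ∈ qw) a (h a ha).2 (h a ha).1)

variable {G : Type} [Group G] [Finite G] {γ : ℕ → G} (ok : Ok fun u v => ev γ u = ev γ v)
include ok

theorem Vcomm {a c : G} (ha : a ∈ grp γ qw) (hc : c ∈ grp γ qw) : a * c = c * a := by
  have h1 : ∀ v ∈ qw, grp γ qw ≤ centralizer {ev γ v} := fun v hv => (grp_le_iff γ).2 fun u hu =>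
    mem_centralizer_singleton_iff.2 (by rw [← ev_append, ← ev_append]; exact ok.comm u hu v hv)
  have h2 : grp γ qw ≤ centralizer {a} := (grp_le_iff γ).2 fun v hv =>
    mem_centralizer_singleton_iff.2 (mem_centralizer_singleton_iff.1 (h1 v hv ha)).symm
  exact (mem_centralizer_singleton_iff.1 (h2 hc)).symm

theorem Vnorm : grp γ mw ≤ normalizer (grp γ qw : Set G) := (grp_le_iff γ).2 fun w hw => by
  obtain ⟨i, hi, rfl⟩ := (by decide : ∀ w ∈ mw, ∃ i < 2, [2 * i] = w) w hw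
  refine mem_normalizer_fintype fun n hn => ?_
  have : grp γ qw ≤ (grp γ qw).comap (MulAut.conj (ev γ [2 * i])).toMonoidHom := (grp_le_iff γ).2 fun u hu => by
    obtain ⟨j, hj, rfl⟩ := (by decide : ∀ u ∈ qw, ∃ j < 11, [2 * (j + 2)] = u) u hu
    show ev γ [2 * i] * ev γ [2 * (j + 2)] * (ev γ [2 * i])⁻¹ ∈ grp γ qw
    rw [← ev_winv, ← ev_append, ← ev_append, ok.act i hi j hj]
    exact memQ γ ((by decide +kernel : ∀ i < 2, ∀ j < 11, ∀ a ∈ nth (nth AW [] i) [] j, 4 ≤ a ∧ a < 26) i hi j hj)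
  exact this hn

variable {Γ : Type} [Group Γ] {σ : Γ →* G} {g : ℕ → Γ} (hs : Function.Surjective σ) (hc : σ.ker ≤ center Γ)
  (hg : ∀ i, σ (g i) = γ i) (hM : ∀ m ∈ grp g mw, σ m = 1 → m = 1)
include hs hc hg hM

omit ok hs hc hM in
theorem σ_ev (w : Word) : σ (ev g w) = ev γ w := by rw [map_ev, funext hg]

omit hs hc in
theorem mrel_one : ∀ r ∈ mrel, ev g r = 1 := fun r hr =>
  hM _ (memM g ((by decide +kernel : ∀ r ∈ mrel, ∀ a ∈ r, a < 4) r hr)) ((σ_ev hg r).trans (ok.mr r hr))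

omit ok hs hc hg hM in
theorem ind (U : Subgroup Γ) (h1 : σ.ker ≤ U) (h2 : ∀ i < 11, ∃ a ∈ U, σ a = ev γ [2 * (i + 2)]) :
    (grp γ qw).comap σ ≤ U := by
  have : grp γ qw ≤ U.map σ := (grp_le_iff γ).2 fun u hu => by
    obtain ⟨j, hj, rfl⟩ := (by decide : ∀ u ∈ qw, ∃ j < 11, [2 * (j + 2)] = u) u hu
    exact h2 j hj
  exact (comap_mono this).trans (by rw [comap_map_eq]; exact sup_le le_rfl h1)

omit hc hM in
theorem Anorm : grp g mw ≤ normalizer ((grp γ qw).comap σ : Set Γ) := by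
  rw [← comap_normalizer_eq_of_surjective _ hs, grp_le_iff]
  intro w hw
  rw [mem_comap, σ_ev hg]
  exact Vnorm ok (mem_grp γ hw)

omit ok hs hc hM in
theorem cmpR (w : Word) (a : Γ) : σ (MulAut.conj (ev g w) a) = MulAut.conj (ev γ w) (σ a) := by
  simp only [MulAut.conj_apply, map_mul, map_inv, σ_ev hg]

theorem Acomm {a c : Γ} (ha : a ∈ (grp γ qw).comap σ) (hc' : c ∈ (grp γ qw).comap σ) : a * c = c * a := by
  let r := MulAut.conj (ev g [0, 2])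
  have hR : ∀ a ∈ (grp γ qw).comap σ, r a ∈ (grp γ qw).comap σ := fun a ha =>
    (mem_normalizer_iff.1 (Anorm ok hs hg (memM g (by decide))) a).1 ha
  have hA : ∀ a ∈ (grp γ qw).comap σ, ∀ c ∈ (grp γ qw).comap σ, ⁅a, c⁆ ∈ center Γ := fun a ha c hc' => hc (by
    rw [MonoidHom.mem_ker, map_commutatorElement, commutatorElement_eq_one_iff_mul_comm]
    exact Vcomm ok ha hc')
  have hS : ev g [4] ∈ (grp γ qw).comap σ := by rw [mem_comap, σ_ev hg]; exact mem_grp γ (by decide)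
  have h23 : ev g [0, 2] ^ 23 = 1 := ev_wpow g _ _ ▸ mrel_one ok hg hM _ (by decide +kernel)
  have e : ∀ L (i : ℕ), σ (th r L ((r ^ i) (ev g [4]))) = (MulAut.conj (ev γ [0, 2]) ^ i) (ev γ (thw L [4])) :=
    fun L i => by rw [th_comm, pow_cmp (cmpR hg _), th_cmp (cmpR hg _), σ_ev hg, ev_thw]
  have h1 : ∀ i j : ℕ, (r ^ i) (ev g [4]) * (r ^ j) (ev g [4]) = (r ^ j) (ev g [4]) * (r ^ i) (ev g [4]) := fun i j => by
    have := bil hA hR h23 ((th_mem hR).1 i _ hS) ((th_mem hR).1 j _ hS) L0 (by decide)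
    rw [SchurHopf.comm_eq_of_map_eq hc (a' := 1) ((e L0 i).trans (by rw [ok.th0]; simp)) rfl,
      SchurHopf.comm_eq_of_map_eq hc rfl (b' := (r ^ j) (ev g [4])) ((e _ j).trans (by
        rw [ok.th1, pow_cmp (cmpR hg _), σ_ev hg])), commutatorElement_one_left] at this
    exact commutatorElement_eq_one_iff_mul_comm.1 this.symm
  have hb : ∀ i < 11, σ ((r ^ i) (ev g [4])) = ev γ [2 * (i + 2)] := fun i hi => by
    rw [← ok.bas i hi, ev_thw, pow_cmp (cmpR hg _), σ_ev hg]; exact (mul_one _).symm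
  have hk : ∀ x : Γ, σ.ker ≤ centralizer {x} := fun x z hz =>
    mem_centralizer_singleton_iff.2 (mem_center_iff.1 (hc hz) x).symm
  have h2 : ∀ j : ℕ, (grp γ qw).comap σ ≤ centralizer {(r ^ j) (ev g [4])} := fun j => ind _ (hk _) fun i hi =>
    ⟨_, mem_centralizer_singleton_iff.2 (h1 i j), hb i hi⟩
  have h3 : (grp γ qw).comap σ ≤ centralizer {c} := ind _ (hk _) fun i hi =>
    ⟨_, mem_centralizer_singleton_iff.2 (mem_centralizer_singleton_iff.1 (h2 i hc')).symm, hb i hi⟩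
  exact mem_centralizer_singleton_iff.1 (h3 ha)

theorem compl : ∃ W : Subgroup Γ, W ≤ (grp γ qw).comap σ ∧ (∀ a ∈ W, σ a = 1 → a = 1) ∧ ev γ [4] ∈ W.map σ ∧
    grp g mw ≤ normalizer (W : Set Γ) := by
  let A := (grp γ qw).comap σ
  letI : CommGroup A := { (inferInstance : Group A) with mul_comm := fun a c => Subtype.ext (Acomm ok hs hc hg hM a.2 c.2) }
  let X : normalizer (A : Set Γ) := ⟨ev g [0], Anorm ok hs hg (memM g (by decide))⟩
  let R : normalizer (A : Set Γ) := ⟨ev g [0, 2], Anorm ok hs hg (memM g (by decide))⟩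
  let κ := A.normalizerMonoidHom
  let f : A →* G := σ.comp A.subtype
  have cx : ∀ a, f (κ X a) = MulAut.conj (ev γ [0]) (f a) := fun a => cmpR hg _ a.1
  have cr : ∀ a, f (κ R a) = MulAut.conj (ev γ [0, 2]) (f a) := fun a => cmpR hg _ a.1
  have hz : ∀ y : normalizer (A : Set Γ), ∀ z ∈ f.ker, κ y z = z := fun y z hz => Subtype.ext (cen_fix (hc hz) y.1)
  have ind' : ∀ U : Subgroup A, f.ker ≤ U → (∀ i < 11, ∃ a ∈ U, f a = ev γ [2 * (i + 2)]) → U = ⊤ := fun U h1 h2 => by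
    have := ind (σ := σ) (γ := γ) (U.map A.subtype)
      (fun z hz => ⟨⟨z, by rw [mem_comap, show σ z = 1 from hz]; exact one_mem _⟩, h1 hz, rfl⟩) fun i hi => by
        obtain ⟨a, ha, e⟩ := h2 i hi
        exact ⟨_, ⟨a, ha, rfl⟩, e⟩
    refine eq_top_iff.2 fun a _ => ?_
    obtain ⟨b, hb, e⟩ := this a.2
    exact (Subtype.ext e : b = a) ▸ hb
  have hq : ∀ i < 11, ev g [2 * (i + 2)] ∈ A := fun i hi => by
    rw [mem_comap, σ_ev hg]; exact memQ γ (by simp; omega)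
  let S : A := ⟨_, hq 0 (by decide)⟩
  have fS : f S = ev γ [4] := σ_ev hg _
  obtain ⟨W, h1, h2, h3, h4⟩ := core f.ker (κ X) (κ R) (hz X) (hz R) (fun a => by
      have := ind' (f.ker.comap (powMonoidHom 2)) (fun z hz => pow_mem hz 2) fun i hi => ⟨⟨_, hq i hi⟩, by
        show σ (ev g _ ^ 2) = 1
        rw [map_pow, σ_ev hg, pow_two, ← ev_append, ok.sq i hi, ev_nil], σ_ev hg _⟩
      exact this.ge (mem_top a)) (L := L0) rfl (fun a => by
      have := ind' (f.ker.comap (MonoidHom.mk' (th (κ R) L0) (th_mul _ _)))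
        (fun z hz' => (th_mem (A := f.ker) fun z h => (hz R z h).symm ▸ h).2 _ z hz') fun i hi => ⟨(κ R ^ i) S, by
          show f (th (κ R) L0 _) = 1
          rw [th_comm, pow_cmp cr, th_cmp cr, fS, ← ev_thw, ok.th0]; simp, by
          rw [← ok.bas i hi, ev_thw, pow_cmp cr, fS]; exact (mul_one _).symm⟩
      exact this.ge (mem_top a)) fun U hU hF => ind' U hU fun i hi => by
    have key : ∀ l : List (List ℕ × ℕ), (∀ e ∈ l, e.1 ∈ KS ∧ e.2 < 11) → ∃ a ∈ U, f a = ev γ (catw l) := fun l hl => by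
      induction l with
      | nil => exact ⟨1, one_mem _, map_one f⟩
      | cons e l ih =>
        obtain ⟨a, ha, h⟩ := ih fun e he => hl e (List.mem_cons_of_mem _ he)
        obtain ⟨a1, a2⟩ := hl e List.mem_cons_self
        refine ⟨_, mul_mem (hF e.1 ⟨_, hq e.2 a2⟩ ?_) ha, ?_⟩
        · rw [← map_wd, show wd X R e.1 = 1 from Subtype.ext ((map_wd (Subgroup.subtype _) X R e.1).trans
            ((ev_wdw g e.1).symm.trans (mrel_one ok hg hM _ (List.mem_append_right _ (List.mem_map_of_mem a1))))), map_one]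
        · rw [map_mul, h, fx_cmp cx cr, catw, ev_append, ev_fxw]
          congr 2
          exact σ_ev hg _
    rw [← ok.fox i hi]
    exact key _ ((by decide +kernel : ∀ i < 11, ∀ e ∈ nth FX [] i, e.1 ∈ KS ∧ e.2 < 11) i hi)
  have hn : ∀ y : normalizer (A : Set Γ), (∀ a, κ y a ∈ W ↔ a ∈ W) → y.1 ∈ normalizer (W.map A.subtype : Set Γ) :=
    fun y hy => mem_normalizer_iff.2 fun a => ⟨by
      rintro ⟨b, hb, rfl⟩
      exact ⟨_, (hy b).2 hb, rfl⟩, by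
      rintro ⟨b, hb, e⟩
      have ha : a ∈ A := (mem_normalizer_iff.1 y.2 a).2 (e ▸ b.2)
      exact ⟨⟨a, ha⟩, (hy _).1 ((Subtype.ext e : b = κ y ⟨a, ha⟩) ▸ hb), rfl⟩⟩
  refine ⟨W.map A.subtype, map_subtype_le W, ?_, ?_, (grp_le_iff g).2 fun w hw => ?_⟩
  · rintro _ ⟨a, ha, rfl⟩ h
    exact congrArg Subtype.val (mem_bot.1 (h1.le ⟨ha, h⟩))
  · obtain ⟨a, ha, z, hz, e⟩ := mem_sup.1 (h2.ge (mem_top S))
    refine ⟨_, ⟨a, ha, rfl⟩, ?_⟩
    rw [← fS, ← e, map_mul, show f z = 1 from hz, mul_one]; rfl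
  · rcases (by decide : ∀ w ∈ mw, w = [0] ∨ w = [2]) w hw with rfl | rfl
    · exact hn X h3
    · have := mul_mem (inv_mem (hn X h3)) (hn R h4)
      rwa [show (X.1⁻¹ * R.1) = ev g [2] by
        show (ev g [0])⁻¹ * ev g ([0] ++ [2]) = _
        rw [ev_append, inv_mul_cancel_left]] at this

theorem pow_one' (hk : σ.ker ≤ commutator Γ) (hV : ∀ x ∈ grp γ mw, x ∈ grp γ qw → x = 1)
    [(grp γ [[0], [2], [4]]).FiniteIndex] {z : Γ} (hz : z ∈ σ.ker) : z ^ (grp γ [[0], [2], [4]]).index = 1 := by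
  obtain ⟨W, h1, h2, h3, h4⟩ := compl ok hs hc hg hM
  have hi := index_comap_of_surjective (grp γ [[0], [2], [4]]) hs
  haveI : ((grp γ [[0], [2], [4]]).comap σ).FiniteIndex := ⟨hi ▸ FiniteIndex.index_ne_zero⟩
  have h5 := SchurHopf.pow_index_mem (H := (grp γ [[0], [2], [4]]).comap σ) (hc hz) (hk hz)
  rw [hi] at h5
  have h6 : grp γ [[0], [2], [4]] ≤ (W ⊔ grp g mw).map σ := (grp_le_iff γ).2 fun w hw => by
    rcases (by decide : ∀ w ∈ [[0], [2], [4]], w ∈ mw ∨ w = [4]) w hw with h | rfl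
    · exact ⟨_, mem_sup_right (mem_grp g h), σ_ev hg w⟩
    · exact map_mono le_sup_left h3
  have h7 : ⁅(grp γ [[0], [2], [4]]).comap σ, (grp γ [[0], [2], [4]]).comap σ⁆ ≤ W ⊔ grp g mw :=
    commutator_le.2 fun p hp q hq => by
      obtain ⟨p', a1, a2⟩ := h6 hp
      obtain ⟨q', b1, b2⟩ := h6 hq
      rw [← SchurHopf.comm_eq_of_map_eq hc a2 b2]
      exact mul_mem (mul_mem (mul_mem a1 b1) (inv_mem a1)) (inv_mem b1)
  have h8 : _ ∈ ((W ⊔ grp g mw : Subgroup Γ) : Set Γ) := h7 h5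
  rw [coe_mul_of_right_le_normalizer_left _ _ h4] at h8
  obtain ⟨w, hw, m, hm, e⟩ := h8
  have e1 : σ w * σ m = 1 := by rw [← map_mul, show w * m = _ from e]; exact pow_mem hz _
  have e2 : σ m = 1 := hV _ (by rw [← funext hg, ← map_grp]; exact mem_map_of_mem σ hm)
    (eq_inv_of_mul_eq_one_right e1 ▸ inv_mem (h1 hw))
  rw [e2, mul_one] at e1
  rw [← e, hM m hm e2, h2 w hw e1]; exact mul_one 1

omit hs hg hM ok in
theorem lift_rels (h1 : ∀ z ∈ σ.ker, z ^ 2 = 1 → z = 1) (hm : ∀ r ∈ mrel, ev g r = 1) (hT : g 2 ^ 2 = 1)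
    (hr : ∀ r ∈ J4Rel.rels, ev g r ∈ σ.ker) : ∀ r ∈ J4Rel.rels, ev g r = 1 := by
  have sh : J4Rel.rels = J4Rel.rels.take 7 ++ [wpow [2 * 2] 2, winv [2 * 2] ++ winv kw ++ [2 * 2] ++ kw,
      winv [2 * 2] ++ winv [0] ++ [2 * 2] ++ [0], wpow ([2] ++ winv w3 ++ [2 * 2] ++ w3) 3,
      wpow (u2 ++ [2 * 2] ++ winv v2 ++ [2 * 2] ++ v2) 2] := by decide +kernel
  rw [sh, List.forall_mem_append] at hr ⊢
  rw [mrel, List.forall_mem_append, List.forall_mem_append] at hm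
  obtain ⟨⟨m0, m1⟩, -⟩ := hm
  simp only [List.forall_mem_cons, ev_wpow, ev_append, ev_winv, ev_gen] at hr m1 ⊢
  obtain ⟨-, -, r1, r2, r3, r4, -⟩ := hr
  have c1 := comm_of hc h1 hT r1
  have c2 := comm_of hc h1 hT r2
  have hK : grp g [[0], kw] ≤ centralizer {g 2} := (grp_le_iff g).2 fun w hw => mem_centralizer_singleton_iff.2 (by
    have : (g 2)⁻¹ * (ev g w)⁻¹ * g 2 * ev g w = 1 := by
      rcases (by simpa using hw : w = [0] ∨ w = kw) with rfl | rfl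
      exacts [c2, c1]
    calc _ = ev g w * g 2 * ((g 2)⁻¹ * (ev g w)⁻¹ * g 2 * ev g w) := by rw [this, mul_one]
      _ = _ := by group)
  have hk := fun v => mem_centralizer_singleton_iff.1 (hK (subst_mem_grp g _ v))
  exact ⟨m0, hT, c1, c2, rel3 hc h1 hT (hk _) m1.1 r3, rel2 hc h1 hT (hk _) (hk _) m1.2.1 m1.2.2.1 r4, by simp⟩

end CA.J4S
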