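import Cfsg.Agent.Lib.Spor.J4S2
import Cfsg.Agent.Lib.Spor.J4T
import Cfsg.Agent.Lib.Spor.J4N

/-! The Schur multiplier of the fourth Janko group is trivial. -/

set_option autoImplicit false
set_option linter.all false
set_option maxRecDepth 100000

namespace CA.J4S
open Cfsg CA.CWord CA.CPres CA.CNet CA.BitW Subgroup Cfsg.Spor

theorem c_comm : lall qw (fun u => lall qw fun v => eqM J4Mat.F (u ++ v) (v ++ u)) = true := by decide +kernel
theorem c_sq : CMat.allR 11 (fun i => eqM J4Mat.F ([2 * (i + 2)] ++ [2 * (i + 2)]) []) = true := by decide +kernel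
theorem c_act : CMat.allR 2 (fun i => CMat.allR 11 fun j =>
  eqM J4Mat.F ([2 * i] ++ [2 * (j + 2)] ++ winv [2 * i]) (nth (nth AW [] i) [] j)) = true := by decide +kernel
theorem c_bas : CMat.allR 11 (fun i => eqM J4Mat.F (thw [i] [4]) [2 * (i + 2)]) = true := by decide +kernel
theorem c_th0 : eqM J4Mat.F (thw L0 [4]) [] = true := by decide +kernel
theorem c_th1 : eqM J4Mat.F (thw (L0.map (23 - ·)) [4]) [4] = true := by decide +kernel
theorem c_fox : CMat.allR 11 (fun i => eqM J4Mat.F (catw (nth FX [] i)) [2 * (i + 2)]) = true := by decide +kernel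
theorem c_mr : lall mrel (fun r => eqM J4Mat.F r []) = true := by decide +kernel

theorem ok_of {G : Type} [Group G] {γ : ℕ → G} (hE : ∀ u v, eqM J4Mat.F u v = true → ev γ u = ev γ v) :
    Ok fun u v => ev γ u = ev γ v :=
  ⟨fun u hu v hv => hE _ _ (lall_iff.1 (lall_iff.1 c_comm u hu) v hv), fun i hi => hE _ _ (CMat.allR_spec c_sq hi),
    fun i hi j hj => hE _ _ (CMat.allR_spec (CMat.allR_spec c_act hi) hj), fun i hi => hE _ _ (CMat.allR_spec c_bas hi),
    hE _ _ c_th0, hE _ _ c_th1, fun i hi => hE _ _ (CMat.allR_spec c_fox hi), fun r hr => hE _ _ (lall_iff.1 c_mr r hr)⟩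

theorem mult_J4 : HasCyclicSchurMultiplier J4 1 := by
  obtain ⟨G, _, _, γ, hE, hN, hT⟩ := J4T.data
  obtain ⟨-, hG⟩ := J4Ord.main hE hN hT
  have ok := ok_of hE
  let β : ℕ → G := fun i => ev γ (nth J4T.σ [] i)
  have e : ∀ w, ev β w = ev γ (subst J4T.σ w) := fun w => (ev_subst γ J4T.σ w).symm
  have hβ : ∀ r ∈ J4Rel.rels, ev β r = 1 := fun r hr => (e r).trans (hE _ [] (lall_iff.1 J4T.hrels r hr))
  have ht : grp β [[0], [2], [4]] = ⊤ := top_unique (hT.ge.trans ((grp_le_iff γ).2 fun w hw => by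
    obtain ⟨i, hi, rfl⟩ := exists_nth_of_mem [] (show w ∈ J4T.σ from hw)
    show β i ∈ _
    exact ev_gen β i ▸ mem_grp β ((by decide : ∀ i < 3, [2 * i] ∈ [[0], [2], [4]]) i hi)))
  obtain ⟨ψ, h5, h6⟩ := J4Rel.enc.hom' hβ
  let P := pg J4.edges J4.extra J4Rel.gen
  have hh : J4O.hs = [[0], [2], J4T.sw] := by decide +kernel
  have tP : grp P [[0], [2], [4]] = ⊤ := J4Rel.enc.top _ (by decide)
  have iP := J4O.index J4Rel.enc.hold (hh ▸ J4T.t_not) tP
  obtain ⟨fP, bP⟩ := J4N.bound J4Rel.enc.hold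
  have cP := (grp P J4O.hs).card_mul_index
  rw [iP] at cP
  haveI : Finite J4 := Nat.finite_of_card_ne_zero (cP ▸ mul_ne_zero Nat.card_pos.ne' (by decide))
  have sψ : Function.Surjective ψ := fun y => by
    obtain ⟨x, -, h⟩ := (h6 [[0], [2], [4]] (by decide)).ge (ht.ge (mem_top y))
    exact ⟨x, h⟩
  have bψ : Function.Bijective ψ := sψ.bijective_of_nat_card_le (by
    rw [hG, ← cP]; exact (Nat.mul_le_mul_right _ bP).trans (by decide))
  have iβ : (grp β J4O.hs).index = 173067389 := J4O.index hβ (fun h => by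
    rw [← h6 _ (by decide +kernel), ← ev_gen β 2, ← h5 _ (by decide), ev_gen] at h
    obtain ⟨x, hx, h'⟩ := h
    exact J4T.t_not (hh ▸ bψ.1 h' ▸ hx)) ht
  have eH : grp β J4O.hs = grp γ [[0], [2], [4]] := by
    rw [hh]
    have a0 : ev β [0] = ev γ [0] := e _
    have a1 : ev β [2] = ev γ [2] := e _
    have a2 : ev β J4T.sw = ev γ [4] := (e _).trans (hE _ _ J4T.hs)
    simp only [grp, List.mem_cons, List.not_mem_nil, or_false, exists_eq_or_imp, exists_eq_left, a0, a1, a2]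
  rw [eH] at iβ
  have h7 : ∀ r ∈ J4TC.r7, ev γ r = 1 := fun r hr => ok.mr r ((by decide +kernel : ∀ r ∈ J4TC.r7, r ∈ mrel) r hr)
  have hx : ev γ [0] ≠ 1 := hN ([0], [], 0, 111) (lall_iff.1 J4Mat.hne _ (by decide +kernel))
  obtain ⟨α, hα, hα'⟩ := J4M24.model
  obtain ⟨E⟩ := PkW.equiv_of_bound J4M24.bound hα h7 hα' M24Core.card_top.ge M24Sub.simple_top
    (fun h => hx (mem_bot.1 (h ▸ mem_grp γ (by decide))))
  have hS : IsSimpleGroup (grp γ mw) := haveI := M24Sub.simple_top; E.isSimpleGroup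
  have hV : ∀ x ∈ grp γ mw, x ∈ grp γ qw → x = 1 := fun x h1 h2 => by
    rcases hS.eq_bot_or_eq_top_of_normal _ (normal_subgroupOf_of_le_normalizer (Vnorm ok)) with h | h
    · exact congrArg Subtype.val (mem_bot.1 (h.le (show (⟨x, h1⟩ : grp γ mw) ∈ (grp γ qw).subgroupOf _ from h2)))
    · have a : ∀ w, (∀ a ∈ w, a < 4) → ev γ w ∈ grp γ qw := fun w hw => h.ge (mem_top (⟨_, memM γ hw⟩ : grp γ mw))
      have c : Commute (ev γ [0]) (ev γ [2]) := Vcomm ok (a _ (by decide)) (a _ (by decide))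
      have b1 : ev γ [0] ^ 2 = 1 := ev_wpow γ _ _ ▸ ok.mr _ (by decide +kernel)
      have b2 : ev γ [2] ^ 3 = 1 := ev_wpow γ _ _ ▸ ok.mr _ (by decide +kernel)
      have b3 : (ev γ [0] * ev γ [2]) ^ 23 = 1 := by
        rw [← ev_append, ← ev_wpow]; exact ok.mr _ (by decide +kernel)
      have b4 : (ev γ [0] * ev γ [2]) ^ (23 * 3) = 1 := by rw [pow_mul, b3, one_pow]
      rw [c.mul_pow, pow_mul' (ev γ [2]), b2, one_pow, mul_one] at b4
      exact absurd (odd_one b1 (n := 34) b4) hx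
  refine SchurHopf.congr_left (SchurHopf.has_one fun Γ _ _ σ hσ => ?_) (MulEquiv.ofBijective ψ bψ).symm
  obtain ⟨s, hs⟩ := sec hσ.1 hσ.2.1 (grp γ mw)
    (SchurHopf.congr_left Cfsg.Agent.S2038.result (E.trans topEquiv).symm) (J4M24.perfect h7)
  let g : ℕ → Γ := fun i => if h : i < 2 then s ⟨ev γ [2 * i], memM γ (by simp; omega)⟩ else (hσ.1 (γ i)).choose
  have hg : ∀ i, σ (g i) = γ i := fun i => by
    simp only [g]; split
    · exact (hs _).trans (ev_gen γ i)
    · exact (hσ.1 (γ i)).choose_spec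
  have hM : ∀ m ∈ grp g mw, σ m = 1 → m = 1 := fun m hm h => by
    have : grp g mw ≤ s.range := (grp_le_iff g).2 fun w hw => by
      obtain ⟨i, hi, rfl⟩ := (by decide : ∀ w ∈ mw, ∃ i < 2, [2 * i] = w) w hw
      rw [ev_gen]; simp only [g, dif_pos hi]; exact ⟨_, rfl⟩
    obtain ⟨μ, rfl⟩ := this hm
    rw [show μ = 1 from Subtype.ext ((hs μ).symm.trans h), map_one]
  haveI : (grp γ [[0], [2], [4]]).FiniteIndex := ⟨iβ.trans_ne (by decide)⟩
  have hz : ∀ z ∈ σ.ker, z ^ (2 * 86533694 + 1) = 1 := fun z hz => by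
    have := pow_one' ok hσ.1 hσ.2.1 hg hM hσ.2.2 hV hz
    rwa [iβ] at this
  have h16 : γ 16 ^ 2 = 1 := by
    have := hβ (wpow [2 * 2] 2) (by decide +kernel)
    rw [ev_wpow, ev_gen] at this
    exact ev_gen γ 16 ▸ this
  have hc0 : g 16 ^ 2 ∈ σ.ker := by rw [MonoidHom.mem_ker, map_pow, hg, h16]
  let g' : ℕ → Γ := fun i => if i = 2 then g 16 * (g 16 ^ 2) ^ 86533694 else g i
  have hg' : ∀ i < 3, σ (g' i) = β i := fun i hi => by
    interval_cases i
    · exact (hg 0).trans (ev_gen γ 0).symm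
    · exact (hg 1).trans (ev_gen γ 1).symm
    · show σ (g 16 * (g 16 ^ 2) ^ 86533694) = ev γ [2 * 16]
      rw [map_mul, map_pow, show σ (g 16 ^ 2) = 1 from hc0, one_pow, mul_one, hg, ev_gen]
  have hrel := lift_rels hσ.2.1 (g := g') (fun z h h2 => odd_one h2 (hz z h))
    (fun r hr => (ev_congr (k := 2) (fun i hi => if_neg (by omega))
      ((by decide +kernel : ∀ r ∈ mrel, ∀ a ∈ r, a < 2 * 2) r hr)).trans (mrel_one ok hg hM r hr))
    (by
      show (g 16 * (g 16 ^ 2) ^ 86533694) ^ 2 = 1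
      rw [((Commute.self_pow _ 2).pow_right _).mul_pow, ← pow_mul' (g 16 ^ 2), ← pow_succ']
      exact hz _ hc0)
    fun r hr => by
      rw [MonoidHom.mem_ker, map_ev, ← hβ r hr]
      exact ev_congr hg' ((by decide +kernel : ∀ r ∈ J4Rel.rels, ∀ a ∈ r, a < 2 * 3) r hr)
  obtain ⟨φ, hφ, -⟩ := J4Rel.enc.hom' hrel
  have hid : ∀ x, σ (φ x) = ψ x := fun x => by
    have : grp P [[0], [2], [4]] ≤ (σ.comp φ).eqLocus ψ := (grp_le_iff _).2 fun w hw => by
      have hl := (by decide : ∀ w ∈ [[0], [2], [4]], ∀ a ∈ w, a < 2 * 3) w hw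
      show σ (φ _) = ψ _
      rw [hφ w hl, h5 w hl, map_ev]
      exact ev_congr hg' hl
    exact this (tP.ge (mem_top x))
  have hsurj := SchurHopf.surj_of_stem hσ φ fun y => (sψ y).imp fun x h => (hid x).trans h
  refine eq_bot_iff.2 fun a ha => ?_
  obtain ⟨x, rfl⟩ := hsurj a
  rw [show x = 1 from bψ.1 (((hid x).symm.trans ha).trans (map_one ψ).symm), map_one]
  exact one_mem _

end CA.J4S
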