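/-
The monomial group of the Leech lattice: the map onto the Mathieu group, the sign group, stabilizers of classes modulo 2.
-/
import Cfsg.Agent.Lib.Spor.LeechI
import Cfsg.Agent.Lib.Spor.M24Sub

set_option autoImplicit false

namespace CA.Leech

open Cfsg CA.Golay CA.M24Core MulAction
open scoped Pointwise

theorem mono_mul (σ τ : M24) (c d : Cw) :
    mono σ c * mono τ d = mono (σ * τ) ⟨symmDiff c (σ • (d : Finset GolayPt)), symmDiff_mem_Cw c.2 ((smul_mem_Cw σ).2 d.2)⟩ :=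
  ext' fun v => Subtype.ext (funext fun i => by
    rw [mul_smul, mono_smul, mono_smul]
    have h : i ∈ σ • (d : Finset GolayPt) ↔ (σ : Equiv.Perm GolayPt).symm i ∈ (d : Finset GolayPt) := by
      rw [← Finset.inv_smul_mem_iff]; rfl
    simp only [signedPerm, mono_smul, Finset.mem_symmDiff, h]
    have e : ((σ * τ : M24) : Equiv.Perm GolayPt).symm i = (τ : Equiv.Perm GolayPt).symm ((σ : Equiv.Perm GolayPt).symm i) := rfl
    rw [e]
    by_cases h1 : i ∈ (c : Finset GolayPt) <;> by_cases h2 : (σ : Equiv.Perm GolayPt).symm i ∈ (d : Finset GolayPt) <;> simp [h1, h2])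

/-- the empty code word -/
def c0 : Cw := ⟨∅, empty_mem_Cw⟩

theorem mono_one : mono 1 c0 = 1 := ext' fun v => Subtype.ext (funext fun i => by
  rw [mono_smul, one_smul]; rfl)

/-- the permutation matrices -/
noncomputable def pm : M24 →* Co0 := MonoidHom.mk' (fun σ => mono σ c0) fun σ τ => by
  rw [mono_mul]; congr 1

theorem pm_mem (σ : M24) : pm σ ∈ NN := mem_NN.2 ⟨σ, c0, rfl⟩

theorem exists_phi : ∃ φ : NN →* M24, ∀ σ c h, φ ⟨mono σ c, h⟩ = σ := by
  choose s c h using fun g : NN => mem_NN.1 g.2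
  have k : ∀ σ d hh, s ⟨mono σ d, hh⟩ = σ := fun σ d hh =>
    (congrArg Prod.fst (@mono_inj (σ, d) (s ⟨mono σ d, hh⟩, c ⟨mono σ d, hh⟩) (h ⟨mono σ d, hh⟩))).symm
  refine ⟨MonoidHom.mk' s fun a b => ?_, k⟩
  have : a * b = ⟨mono (s a) (c a) * mono (s b) (c b), mul_mem (h a ▸ a.2) (h b ▸ b.2)⟩ :=
    Subtype.ext (congrArg₂ (· * ·) (h a) (h b))
  rw [this]; simp only [mono_mul, k]

/-- the permutation part of a monomial automorphism -/
noncomputable def phi : NN →* M24 := exists_phi.choose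

theorem phi_mono (σ : M24) (c : Cw) (h : mono σ c ∈ NN) : phi ⟨mono σ c, h⟩ = σ := exists_phi.choose_spec σ c h

theorem phi_pm (σ : M24) : phi ⟨pm σ, pm_mem σ⟩ = σ := phi_mono σ c0 _

theorem phi_surj : Function.Surjective phi := fun σ => ⟨_, phi_pm σ⟩

/-- the sign changes -/
noncomputable def DD : Subgroup Co0 := phi.ker.map NN.subtype

theorem mem_DD {g : Co0} : g ∈ DD ↔ ∃ h : g ∈ NN, phi ⟨g, h⟩ = 1 :=
  ⟨by rintro ⟨a, h, rfl⟩; exact ⟨a.2, h⟩, fun ⟨h, e⟩ => ⟨⟨g, h⟩, e, rfl⟩⟩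

theorem mono_mem_DD (c : Cw) : mono 1 c ∈ DD := mem_DD.2 ⟨mem_NN.2 ⟨1, c, rfl⟩, phi_mono _ _ _⟩

theorem card_DD : Nat.card DD = 4096 := by
  have h := phi.ker.card_mul_index
  rw [Subgroup.index_ker, MonoidHom.range_eq_top.2 phi_surj, Subgroup.card_top, card_M24, card_NN] at h
  rw [DD, Subgroup.card_map_of_injective NN.subtype_injective]
  exact Nat.eq_of_mul_eq_mul_right (by norm_num) h

theorem not_two {H : Type*} [Group H] [Finite H] (h : 3 ∣ Nat.card H) : ¬ IsPGroup 2 H := fun h2 => by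
  obtain ⟨n, e⟩ := IsPGroup.iff_card.1 h2
  exact absurd (Nat.prime_three.dvd_of_dvd_pow (e ▸ h)) (by norm_num)

theorem eq_bot_two {H : Type*} [Group H] [Finite H] [IsSimpleGroup H] (h : 3 ∣ Nat.card H) (E : Subgroup H) [E.Normal]
    (h2 : IsPGroup 2 E) : E = ⊥ :=
  (Subgroup.Normal.eq_bot_or_eq_top inferInstance).resolve_right fun e =>
    not_two (H := E) (by rw [e, Subgroup.card_top]; exact h) h2

theorem le_DD {E : Subgroup Co0} (h1 : E ≤ NN) (h2 : IsPGroup 2 E) (h3 : ∀ g ∈ NN, ∀ x ∈ E, g * x * g⁻¹ ∈ E) : E ≤ DD := by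
  have : (E.subgroupOf NN).Normal := ⟨fun x hx g => h3 g g.2 x hx⟩
  have := this.map phi phi_surj
  have := M24Sub.simple24
  have e := eq_bot_two (by rw [card_M24]; norm_num) _
    ((h2.of_equiv (Subgroup.subgroupOfEquivOfLe h1).symm).map phi)
  exact fun g hg => mem_DD.2 ⟨h1 hg, (Subgroup.map_eq_bot_iff _).1 e (show (⟨g, h1 hg⟩ : NN) ∈ E.subgroupOf NN from hg)⟩

/-- congruence modulo twice the lattice -/
def Cg (v w : LL) : Prop := ∃ u : LL, v = w + (u + u)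

theorem cg_iff {v w : LL} : Cg v w ↔ ∃ z ∈ leechLattice, (v : V) - w = 2 • z :=
  ⟨fun ⟨u, h⟩ => ⟨u, u.2, by rw [h, two_nsmul]; simp⟩, fun ⟨z, hz, h⟩ => ⟨⟨z, hz⟩, Subtype.ext (by
    rw [two_nsmul, sub_eq_iff_eq_add'] at h; exact h)⟩⟩

theorem Cg.rfl' (v : LL) : Cg v v := ⟨0, by simp⟩

theorem Cg.symm {v w : LL} (h : Cg v w) : Cg w v := by
  obtain ⟨u, rfl⟩ := h; exact ⟨-u, by abel⟩

theorem cg_neg (v : LL) : Cg (-v) v := ⟨-v, by abel⟩

theorem Cg.pm {v w : LL} (h : Cg v w) (hv : sqNorm (v : V) ≤ 64) (hw : sqNorm (w : V) < 64) : v = w ∨ v = -w := by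
  by_contra hn
  rw [not_or] at hn
  have := (cong v.2 w.2 hv hw.le (cg_iff.1 h) (fun e => hn.1 (Subtype.ext e.symm))
    fun e => hn.2 (Subtype.ext (neg_eq_iff_eq_neg.1 e.symm))).2.1
  omega

theorem exists_short' (v : LL) : ∃ w : LL, Cg v w ∧ (w = 0 ∨ sqNorm (w : V) = 32 ∨ sqNorm (w : V) = 48 ∨ sqNorm (w : V) = 64) := by
  obtain ⟨y, hy, hn, h⟩ := exists_short v.2
  refine ⟨⟨y, hy⟩, cg_iff.2 h, or_iff_not_imp_left.2 fun y0 => ?_⟩
  have h1 := min_norm hy fun e => y0 (Subtype.ext e)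
  obtain ⟨c, hc⟩ := dvd_sq hy
  show sqNorm y = 32 ∨ sqNorm y = 48 ∨ sqNorm y = 64
  omega

theorem not_cg_zero {v : LL} (h : sqNorm (v : V) ≤ 64) (h0 : sqNorm (v : V) ≠ 0) : ¬ Cg v 0 := fun e => by
  rcases e.pm h (by rw [ZeroMemClass.coe_zero, sq_eq_zero'.2 rfl]; norm_num) with e | e <;>
    exact h0 (sq_eq_zero'.2 (by simp [e]))

theorem cg_e8 {g : Co0} : Cg (g • e8 none) (e8 none) ↔ g ∈ NN := by
  refine ⟨fun h => fixX_of (i := none) (cross_e8 none ▸ ⟨(g • e8 none).2, sq_smul g _, cg_iff.1 h.symm⟩), fun h => ?_⟩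
  obtain ⟨σ, c, rfl⟩ := mem_NN.1 h
  exact Cg.symm (cg_iff.2 (std_cong (fixX_mono σ c _ ⟨none, 8, Or.inl rfl, rfl⟩) none))

theorem cg_U {g : Co0} : Cg (g • vU) vU ↔ g ∈ pmU :=
  ⟨fun h => mem_pmU.2 (h.pm (by rw [sq_smul, sqU]; norm_num) (by rw [sqU]; norm_num)), fun h => by
    rcases mem_pmU.1 h with e | e <;> rw [e]
    exacts [Cg.rfl' _, cg_neg _]⟩

theorem ng_not_fix : ng ∉ St [vU] := fun h => U_ne (by rw [zero_sub, ← ng_smul]; exact (mem_St1.1 h).symm)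

theorem le_center {E : Subgroup Co0} (h1 : E ≤ pmU) (h2 : IsPGroup 2 E) (h3 : ∀ g ∈ pmU, ∀ x ∈ E, g * x * g⁻¹ ∈ E)
    (h4 : ng ∈ E) : E ≤ Subgroup.center Co0 := by
  have : (E.subgroupOf (St [vU])).Normal := ⟨fun x hx g => h3 g (St_le_pmU g.2) x hx⟩
  have := simple_Co2
  have e := eq_bot_two (by rw [card_Co2]; norm_num) (E.subgroupOf (St [vU])) (h2.comap_subtype)
  have k : ∀ g ∈ E, g • vU = vU → g = 1 := fun g hg h =>
    congrArg Subtype.val (Subgroup.mem_bot.1 (e.le (show (⟨g, mem_St1.2 h⟩ : St [vU]) ∈ E.subgroupOf _ from hg)))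
  intro g hg
  rcases mem_pmU.1 (h1 hg) with h | h
  · exact mem_center.2 (Or.inl (k g hg h))
  · have := k _ (mul_mem h4 hg) (by rw [mul_smul, h, ng_smul, neg_neg])
    exact mem_center.2 (Or.inr (by rw [← ng_sq] at this; exact mul_left_cancel this))

/-- twice the indicator vector of a code word -/
def twL (c : Cw) : LL := ⟨tw c, tw_mem c.2⟩

theorem mono_tw (c d : Cw) (i : GolayPt) : ((mono 1 c • twL d - twL d : LL) : V) i =
    if i ∈ (c : Finset GolayPt) ∧ i ∈ (d : Finset GolayPt) then -4 else 0 := by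
  show (if i ∈ (c : Finset GolayPt) then -tw d i else tw d i) - tw d i = _
  by_cases h1 : i ∈ (c : Finset GolayPt) <;> by_cases h2 : i ∈ (d : Finset GolayPt) <;> simp [tw, h1, h2]

theorem ex_U : ∃ g ∈ DD, ∃ v : LL, (16 : ℤ) ∣ dotInt (e8 none : V) v ∧ g • v - v = -vU := by
  refine ⟨_, mono_mem_DD ⟨ds 13062145, (ds_mem_Cw (by norm_num)).2 (by decide +kernel)⟩,
    twL ⟨ds 11575377, (ds_mem_Cw (by norm_num)).2 (by decide +kernel)⟩, by decide +kernel, Subtype.ext (funext fun i => ?_)⟩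
  rw [mono_tw, ← U_eq]
  revert i; decide +kernel

theorem ex_U' : ∃ g ∈ St [vU], ∃ v : LL, (16 : ℤ) ∣ dotInt (v : V) Spor.vecU ∧ ¬ Cg (g • v - v) 0 ∧ ¬ Cg (g • v - v) vU := by
  let c : Cw := ⟨ds 4845570, (ds_mem_Cw (by norm_num)).2 (by decide +kernel)⟩
  let d : Cw := ⟨ds 5652556, (ds_mem_Cw (by norm_num)).2 (by decide +kernel)⟩
  have e : ((mono 1 c • twL d - twL d : LL) : V) = fun i => if i ∈ ds 4845570 ∧ i ∈ ds 5652556 then -4 else 0 :=
    funext (mono_tw c d)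
  have h : sqNorm ((mono 1 c • twL d - twL d : LL) : V) = 32 := by rw [e]; decide +kernel
  refine ⟨mono 1 c, mem_St1.2 (Subtype.ext (funext fun i => ?_)), twL d, by decide +kernel,
    not_cg_zero (by omega) (by omega), fun k => ?_⟩
  · rw [mono_smul, ← U_eq]; revert i; decide +kernel
  · rcases k.pm (by omega) (by rw [sqU]; norm_num) with k | k <;>
    · have := congrFun (congrArg Subtype.val k) none
      rw [e, ← U_eq] at this
      revert this; decide +kernel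

end CA.Leech
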