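import Mathlib
import Cfsg.Agent.Lib.Comp.CLevel

/-! A group of rank five and degree 7128 with centre of order three. -/

set_option autoImplicit false

namespace CA.LyC
open Subgroup MulAction

theorem conj_into {G : Type*} [Group G] [Finite G] {S P : Subgroup G} (h : P ≤ S) {k : ℕ} (hP : Nat.card P = 3 ^ k)
    (hS : ¬ 3 ^ (k + 1) ∣ Nat.card S) {b : G} (hb : b ∈ S) (h3 : b ^ 3 = 1) : ∃ s ∈ S, s * b * s⁻¹ ∈ P := by
  have := Fact.mk Nat.prime_three
  have h1 : Nat.card (P.subgroupOf S) = 3 ^ k := (Nat.card_congr (subgroupOfEquivOfLe h).toEquiv).trans hP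
  have h2 : IsPGroup 3 (zpowers (⟨b, hb⟩ : S)) := by
    rintro ⟨_, l, rfl⟩
    refine ⟨1, Subtype.ext (Subtype.ext ?_)⟩
    show (b ^ l) ^ (3 ^ 1) = 1
    rw [← zpow_natCast, ← zpow_mul, mul_comm, zpow_mul, zpow_natCast, pow_one, h3, one_zpow]
  obtain ⟨Q, hQ⟩ := h2.exists_le_sylow
  let R := (IsPGroup.of_card h1).toSylow (fun h4 => hS (by
    rw [← (P.subgroupOf S).card_mul_index, h1, pow_succ]; exact Nat.mul_dvd_mul_left _ h4))
  obtain ⟨s, hs⟩ := exists_smul_eq S Q R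
  have h5 : s * ⟨b, hb⟩ * s⁻¹ ∈ (R : Subgroup S) := by
    rw [← hs]; exact ⟨_, hQ (mem_zpowers _), rfl⟩
  exact ⟨s, s.2, h5⟩

theorem half {G : Type*} [Group G] [Finite G] {S Y : Subgroup G} (h : Y ≤ S) {t : G} (ht : t ∈ S) (ht' : t ∉ Y) :
    2 * Nat.card Y ≤ Nat.card S := by
  obtain ⟨c, hc⟩ := card_dvd_of_le h
  have h0 : Nat.card S ≠ 0 := Nat.card_pos.ne'
  have h1 : c ≠ 1 := fun e => ht' ((eq_of_le_of_card_ge h (by rw [hc, e, mul_one])).ge ht)
  have h2 : c ≠ 0 := fun e => h0 (by rw [hc, e, mul_zero])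
  rw [hc, mul_comm]
  exact Nat.mul_le_mul_left _ (by omega)

theorem ar1 : ∀ k2 ≤ 56, 108 * k2 ∣ 6048 → 108 * k2 ∣ 378000 → ∀ k3 ≤ 80, 73 ≤ 36 * k3 →
    36 * k3 ∣ 2880 → 36 * k3 ∣ 378000 → ∀ k4 ≤ 2, 252 * k4 ∣ 378000 → ∀ b2 b3 b4 : Bool,
    ((if true = true then 1 else 0) + (if true = true then 252 else 0) + (if b2 then 378000 / (108 * k2) else 0) +
      (if b3 then 378000 / (36 * k3) else 0) + (if b4 then 378000 / (252 * k4) else 0)) * 378000 ∣ 51765179004000000 →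
    378000 / (108 * k2) = 3500 ∧ 378000 / (36 * k3) = 2625 ∧ 378000 / (252 * k4) = 750 ∧
    ((if true = true then 1 else 0) + (if true = true then 252 else 0) + (if b2 then 378000 / (108 * k2) else 0) +
      (if b3 then 378000 / (36 * k3) else 0) + (if b4 then 378000 / (252 * k4) else 0)) * 378000 = 2694384000 := by
  intro k2 a1 a2 a3 k3 a4 a5 a6 a7 k4 a8 a9
  have b1 := (by decide +kernel : ∀ k ≤ 56, 108 * k ∣ 6048 → 108 * k ∣ 378000 →
    378000 / (108 * k) ∈ [3500, 1750, 875, 500, 250, 125]) k2 a1 a2 a3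
  have b2 := (by decide +kernel : ∀ k ≤ 80, 73 ≤ 36 * k ∧ 36 * k ∣ 2880 ∧ 36 * k ∣ 378000 →
    378000 / (36 * k) ∈ [2625, 2100, 1050, 525]) k3 a4 ⟨a5, a6, a7⟩
  have b3 := (by decide +kernel : ∀ k ≤ 2, 252 * k ∣ 378000 → 378000 / (252 * k) ∈ [1500, 750]) k4 a8 a9
  generalize 378000 / (108 * k2) = f2 at *
  generalize 378000 / (36 * k3) = f3 at *
  generalize 378000 / (252 * k4) = f4 at *
  simp only [List.mem_cons, List.not_mem_nil, or_false] at b1 b2 b3
  rcases b1 with rfl | rfl | rfl | rfl | rfl | rfl <;> rcases b2 with rfl | rfl | rfl | rfl <;> rcases b3 with rfl | rfl <;>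
    decide +kernel

theorem main {D X : Type*} [Group D] [Finite D] [Finite X] [MulAction D X] (x : D) (hz : x ∈ center D) (q : Fin 5 → X)
    (hx : orderOf x = 3) (hxU : x ∈ stabilizer D (q 0)) (hG : Nat.card D ∣ 51765179004000000)
    (cU : Nat.card (stabilizer D (q 0)) = 378000)
    (h1 : ∀ d : D, ∃ i, ∃ u ∈ stabilizer D (q 0), d • q 0 = u • q i)
    (hd : ∀ i j, ∀ u ∈ stabilizer D (q 0), ∀ v ∈ stabilizer D (q 0), u • q i = v • q j → i = j)
    (c : Fin 5 → ℕ) (hc : ∀ i, Nat.card (stabilizer D (q 0) ⊓ stabilizer D (q i) : Subgroup D) = c i)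
    (c1 : c 1 = 1500) (c2 : 108 ∣ c 2 ∧ c 2 ∣ 6048) (c3 : 36 ∣ c 3 ∧ 73 ≤ c 3 ∧ c 3 ∣ 2880)
    (c4 : 252 ∣ c 4 ∧ 2 * c 4 ≤ 1008) (h5 : ∃ d : D, d • q 0 = q 1)
    (h7 : ∀ M ≤ stabilizer D (q 0), (∀ u ∈ stabilizer D (q 0), ∀ m ∈ M, u * m * u⁻¹ ∈ M) → x ∈ M →
      M = zpowers x ∨ M = stabilizer D (q 0)) :
    Nat.card (center D) = 3 ∧ IsSimpleGroup (D ⧸ center D) ∧ Nat.card (D ⧸ center D) = 898128000 := by
  classical
  generalize hU : stabilizer D (q 0) = U at *
  have fx : ∀ u ∈ U, u • q 0 = q 0 := fun u hu => hU.ge hu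
  let f : Fin 5 → ℕ := fun i => Nat.card {ξ // ∃ u ∈ U, u • q i = ξ}
  have hf : ∀ i, 378000 = f i * c i := fun i => by rw [← cU, ← hc]; exact CLevel.card_eq_orbit_mul U (q i)
  have f0 : f 0 = 1 := by
    have := hf 0
    rw [← hc, hU, inf_idem, cU] at this
    omega
  have key : ∀ L, U ≤ L → ∃ b : Fin 5 → Bool, (∀ i, b i = true ↔ ∃ l ∈ L, l • q 0 = q i) ∧
      Nat.card L = (∑ i, if b i then f i else 0) * 378000 := fun L hL => by
    refine ⟨fun i => ∃ l ∈ L, l • q 0 = q i, fun i => decide_eq_true_iff, ?_⟩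
    rw [CLevel.card_eq_orbit_mul L (q 0), hU, inf_eq_right.2 hL, cU]
    congr 1
    rw [← Nat.card_congr (Equiv.ofBijective
      (fun y : Σ i : Fin 5, {ξ // (∃ l ∈ L, l • q 0 = q i) ∧ ∃ u ∈ U, u • q i = ξ} =>
      (⟨y.2.1, by
        obtain ⟨⟨l, hl, e⟩, u, hu, e'⟩ := y.2.2
        exact ⟨u * l, mul_mem (hL hu) hl, by rw [mul_smul, e, e']⟩⟩ : {ξ // ∃ l ∈ L, l • q 0 = ξ})) ⟨?_, ?_⟩), Nat.card_sigma]
    · refine Finset.sum_congr rfl fun i _ => ?_
      by_cases e : ∃ l ∈ L, l • q 0 = q i <;> simp [e, f]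
    · intro y z h
      obtain ⟨i, ξ, a, u, hu, e⟩ := y
      obtain ⟨j, η, b, v, hv, e'⟩ := z
      obtain rfl : ξ = η := congrArg Subtype.val h
      obtain rfl := hd i j u hu v hv (e.trans e'.symm)
      rfl
    · intro y
      obtain ⟨_, l, hl, rfl⟩ := y
      obtain ⟨i, u, hu, e⟩ := h1 l
      exact ⟨⟨i, _, ⟨u⁻¹ * l, mul_mem (inv_mem (hL hu)) hl, by rw [mul_smul, e, inv_smul_smul]⟩, u, hu, e.symm⟩, rfl⟩
  have f1 : f 1 = 252 := by have := hf 1; rw [c1] at this; omega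
  obtain ⟨b, hb, e⟩ := key ⊤ le_top
  obtain ⟨d, hd1⟩ := h5
  rw [card_top, Fin.sum_univ_five, (hb 0).2 ⟨1, trivial, one_smul _ _⟩, (hb 1).2 ⟨d, trivial, hd1⟩, f0, f1] at e
  obtain ⟨⟨k2, e2⟩, g2⟩ := c2
  obtain ⟨⟨k3, e3⟩, g3, g3'⟩ := c3
  obtain ⟨⟨k4, e4⟩, g4⟩ := c4
  have a2 := hf 2
  have a3 := hf 3
  have a4 := hf 4
  rw [e2] at a2 g2
  rw [e3] at a3 g3 g3'
  rw [e4] at a4 g4
  have l2 := Nat.le_of_dvd (by decide) g2
  have l3 := Nat.le_of_dvd (by decide) g3'
  have dv : ∀ {a k : ℕ}, 378000 = a * k → k ∣ 378000 ∧ a = 378000 / k := fun {a k} h =>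
    ⟨⟨a, h.trans (mul_comm _ _)⟩, (Nat.div_eq_of_eq_mul_left (Nat.pos_of_ne_zero fun h0 => by simp [h0] at h) h).symm⟩
  obtain ⟨f2, f3, f4, cD⟩ := ar1
    k2 (by omega) g2 (dv a2).1 k3 (by omega) g3 g3' (dv a3).1 k4 (by omega) (dv a4).1 (b 2) (b 3) (b 4)
    (by rw [← (dv a2).2, ← (dv a3).2, ← (dv a4).2, ← e]; exact hG)
  rw [← (dv a2).2] at f2 cD
  rw [← (dv a3).2] at f3 cD
  rw [← (dv a4).2] at f4 cD
  rw [← e] at cD
  clear e hb b
  have mx : ∀ L, U ≤ L → L = U ∨ L = ⊤ := fun L hL => by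
    obtain ⟨b, hb, e⟩ := key L hL
    rw [Fin.sum_univ_five, (hb 0).2 ⟨1, one_mem _, one_smul _ _⟩, f0, f1, f2, f3, f4] at e
    have := card_subgroup_dvd_card L
    rw [cD, e] at this
    rcases (by simp only [forall_eq]; decide +kernel : ∀ b1 b2 b3 b4 : Bool, ((if true = true then 1 else 0) + (if b1 then 252 else 0) +
      (if b2 then 3500 else 0) + (if b3 then 2625 else 0) + (if b4 then 750 else 0)) * 378000 ∣ 2694384000 →
      ∀ n, n = ((if true = true then 1 else 0) + (if b1 then 252 else 0) + (if b2 then 3500 else 0) + (if b3 then 2625 else 0) +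
      (if b4 then 750 else 0)) * 378000 → n = 378000 ∨ n = 2694384000) _ _ _ _ this _ e with h | h
    · exact .inl (eq_of_le_of_card_ge hL (by rw [h, cU])).symm
    · exact .inr (eq_top_of_card_eq _ (h.trans cD.symm))
  have big : ∀ d : D, d ∉ U → 252 ≤ Nat.card {ξ // ∃ u ∈ U, u • d • q 0 = ξ} := fun d hd' => by
    obtain ⟨i, v, hv, e⟩ := h1 d
    have : Nat.card {ξ // ∃ u ∈ U, u • d • q 0 = ξ} = f i := Nat.card_congr (Equiv.subtypeEquivRight fun ξ =>
      ⟨fun ⟨u, hu, h⟩ => ⟨u * v, mul_mem hu hv, by rw [mul_smul, ← e, h]⟩,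
        fun ⟨u, hu, h⟩ => ⟨u * v⁻¹, mul_mem hu (inv_mem hv), by rw [e, mul_smul, inv_smul_smul, h]⟩⟩)
    rw [this]
    fin_cases i
    · exact absurd (hU.le (e.trans (fx v hv))) hd'
    all_goals simp [f1, f2, f3, f4]
  have c3 : Nat.card (zpowers x) = 3 := (Nat.card_zpowers x).trans hx
  have nrm : ∀ N : Subgroup D, N.Normal → x ∈ N → N = zpowers x ∨ N = ⊤ := fun N hN hxN => by
    rcases h7 (N ⊓ U) inf_le_right (fun u hu m hm => ⟨hN.conj_mem _ hm.1 u, U.mul_mem (U.mul_mem hu hm.2) (U.inv_mem hu)⟩)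
      ⟨hxN, hxU⟩ with h | h
    · rcases mx (N ⊔ U) le_sup_right with h' | h'
      · exact .inl ((inf_eq_left.2 (le_sup_left.trans h'.le)).symm.trans h)
      exfalso
      have cN : Nat.card N = 21384 := by
        have b1 := (N.subgroupOf U).card_mul_index
        have b2 := N.card_mul_index
        rw [← inf_subgroupOf_right, Nat.card_congr (subgroupOfEquivOfLe inf_le_right).toEquiv, h, c3, ← h,
          inf_subgroupOf_right, cU] at b1
        rw [← relIndex_top_right, ← h', relIndex_sup_left, cD, show N.relIndex U = 126000 by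
          unfold relIndex; omega] at b2
        omega
      have := Fact.mk (by norm_num : Nat.Prime 11)
      obtain ⟨y, hy⟩ := exists_prime_orderOf_dvd_card' (G := N) 11 (by rw [cN]; decide)
      have hyU : y.1 ∉ U := fun h => by
        have := orderOf_dvd_natCard (⟨y.1, h⟩ : U)
        rw [← orderOf_coe, orderOf_coe y, hy, cU] at this
        exact absurd this (by decide)
      have cS : ∀ Q : Sylow 11 N, Nat.card Q = 11 := fun Q => by
        rw [Q.card_eq_multiplicity, cN, show Nat.factorization 21384 11 = 1 by decide +kernel, pow_one]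
      have nS : Nat.card (Sylow 11 N) ≤ 12 := by
        obtain ⟨Q⟩ : Nonempty (Sylow 11 N) := inferInstance
        have b1 := card_sylow_modEq_one 11 N
        have b2 := (normalizer (Q : Set N)).card_mul_index
        have b3 : 11 ∣ Nat.card (normalizer (Q : Set N)) :=
          (cS Q).symm.dvd.trans (card_dvd_of_le le_normalizer)
        have b4 : 3 ∣ Nat.card (normalizer (Q : Set N)) := by
          have := orderOf_dvd_natCard (⟨⟨x, hxN⟩, center_le_normalizer _ (mem_center_iff.2 fun g =>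
            Subtype.ext (mem_center_iff.1 hz g))⟩ : normalizer (Q : Set N))
          rwa [← orderOf_coe, ← orderOf_coe, hx] at this
        obtain ⟨r, hr⟩ := Nat.Coprime.mul_dvd_of_dvd_of_dvd (by decide) b4 b3
        rw [← Q.card_eq_index_normalizer, hr, cN] at b2
        have b5 : Nat.card (Sylow 11 N) ∣ 648 := ⟨r, by nlinarith⟩
        exact (by decide +kernel : ∀ n ≤ 648, n ∣ 648 → n ≡ 1 [MOD 11] → n ≤ 12) _ (Nat.le_of_dvd (by decide) b5) b5 b1
      have b6 : ∀ ξ : {ξ // ∃ u ∈ U, u • y.1 • q 0 = ξ}, ∃ w : Σ Q : Sylow 11 N, Q, w.2.1.1 • q 0 = ξ := by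
        rintro ⟨_, u, hu, rfl⟩
        let w : N := ⟨_, hN.conj_mem _ y.2 u⟩
        have hw : orderOf w = 11 := by
          rw [← orderOf_coe, ← hy, ← orderOf_coe y]; exact (MulAut.conj u).orderOf_eq y.1
        obtain ⟨Q, hQ⟩ := (IsPGroup.of_card (p := 11) (n := 1) ((Nat.card_zpowers w).trans hw)).exists_le_sylow
        refine ⟨⟨Q, w, hQ (mem_zpowers w)⟩, ?_⟩
        show (u * y.1 * u⁻¹) • q 0 = u • y.1 • q 0
        rw [mul_smul, mul_smul, fx _ (inv_mem hu)]
      choose g hg using b6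
      have b7 := Nat.card_le_card_of_injective g fun a b h => Subtype.ext (by rw [← hg, ← hg, h])
      have := Fintype.ofFinite (Sylow 11 N)
      rw [Nat.card_sigma, Finset.sum_congr rfl fun Q _ => cS Q, Finset.sum_const, Finset.card_univ,
        ← Nat.card_eq_fintype_card, smul_eq_mul] at b7
      have := big y.1 hyU
      omega
    · rcases mx N (inf_eq_right.1 h) with h' | h'
      · have := big d (fun h => absurd (hd 0 1 d h 1 (one_mem _) (by rw [hd1, one_smul])) (by decide))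
        have h2 : Nat.card {ξ // ∃ u ∈ U, u • d • q 0 = ξ} ≤ 1 := Finite.card_le_one_iff_subsingleton.2 ⟨by
          have : ∀ u ∈ U, u • d • q 0 = d • q 0 := fun u hu => by
            have := fx _ (h'.le (hN.conj_mem' _ (h'.ge hu) d))
            rwa [mul_smul, mul_smul, inv_smul_eq_iff] at this
          rintro ⟨_, u, hu, rfl⟩ ⟨_, v, hv, rfl⟩
          exact Subtype.ext ((this u hu).trans (this v hv).symm)⟩
        omega
      · exact .inr h'
  have hZ : center D = zpowers x := (nrm _ inferInstance hz).resolve_right fun h => by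
    rcases nrm U ⟨fun u hu g => by rwa [mem_center_iff.1 (h.ge (mem_top u)) g, mul_inv_cancel_right]⟩ hxU with e | e
    · rw [e, c3] at cU; exact absurd cU (by decide)
    · rw [e, card_top, cD] at cU; exact absurd cU (by decide)
  have cQ : Nat.card (D ⧸ center D) = 898128000 := by
    have := card_eq_card_quotient_mul_card_subgroup (center D)
    rw [cD, show Nat.card (center D) = 3 from hZ ▸ c3] at this
    omega
  have : Nontrivial (D ⧸ center D) := Finite.one_lt_card_iff_nontrivial.1 (by rw [cQ]; decide)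
  refine ⟨hZ ▸ c3, ⟨fun N hN => ?_⟩, cQ⟩
  have hs := QuotientGroup.mk'_surjective (center D)
  rcases nrm (N.comap (QuotientGroup.mk' _)) inferInstance (by
    show QuotientGroup.mk' _ x ∈ N
    rw [show QuotientGroup.mk' _ x = 1 from (QuotientGroup.eq_one_iff x).2 hz]; exact one_mem _) with h | h
  · left
    rw [← map_comap_eq_self_of_surjective hs N, h, ← hZ, Subgroup.map_eq_bot_iff, QuotientGroup.ker_mk']
  · right
    rw [← map_comap_eq_self_of_surjective hs N, h, map_top_of_surjective _ hs]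

end CA.LyC
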