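import Cfsg.Agent.Lib.Spor.LyC0
import Cfsg.Agent.Lib.Spor.LyC1

/-! The centraliser `SU₃(5)` of an element of order three of `G₂(5)`. -/

set_option autoImplicit false
set_option maxRecDepth 100000

namespace CA.LyC
open Equiv CA.CNet CA.CWord CA.CLevel CA.CSimple CA.CPoint CA.CLow CA.TCos CA.LyM CA.LyO CA.CBack Subgroup MulAction

noncomputable abbrev a : Perm (Fin C.n) := C.ev aw
noncomputable def V : Subgroup (Perm (Fin C.n)) := H ⊓ centralizer {a}
def pt (k : ℕ) (h : k < 19530 := by decide) : Fin C.n := ⟨k, h⟩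

theorem eqv {u v : Word} (h : eqQ lk B (u, v) = true) : C.ev u = C.ev v := eq_of_eqQ hlk base (mem _) (mem _) h
theorem mp (w : Word) (p q : ℕ) (hp : p < 19530 := by decide) (hq : q < 19530 := by decide)
    (h : mapsP C lk w p q = true := by decide +kernel) : C.ev w (pt p hp) = pt q hq :=
  Fin.ext (mapsP_spec hlk h)
theorem ao : a o = o := mp aw 0 0
theorem a3 : a ^ 3 = 1 := (ev_wpow _ _ _).symm.trans (eqv (lall_iff.1 e1 (wpow aw 3, []) (by simp)))
theorem ne1 {g : Perm (Fin C.n)} {p q : Fin C.n} (h : g p = q) (e : p ≠ q) : g ≠ 1 := fun h1 => e (by rw [← h, h1]; rfl)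
theorem oa : orderOf a = 3 := have := Fact.mk Nat.prime_three
  orderOf_eq_prime a3 (ne1 (mp aw 1 5) (by decide))
theorem ta : C.ev [1] * a * (C.ev [1])⁻¹ = a⁻¹ := by
  rw [mul_inv_eq_iff_eq_mul, ← ev_winv]
  exact (ev_lapp _ _ _).symm.trans ((eqv (lall_iff.1 e1 (lapp [1] aw, lapp (winv aw) [1]) (by simp))).trans (ev_lapp _ _ _))
theorem t_not : C.ev [1] ∉ V := fun h => by
  have h1 := ta
  rw [mem_centralizer_singleton_iff.1 h.2, mul_inv_cancel_right, eq_inv_iff_mul_eq_one, ← sq] at h1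
  exact absurd (oa ▸ orderOf_dvd_of_pow_eq_one h1) (by decide)
theorem memV {w : Word} (h : w ∈ [[1,1], e7, u1, u2] ++ ys ++ bw ++ c3 ++ PS.flatten) : C.ev w ∈ V :=
  ⟨mem w, mem_centralizer_singleton_iff.2 ((ev_lapp _ _ _).symm.trans ((eqv (lall_iff.1 e2 w h)).trans (ev_lapp _ _ _)))⟩
theorem fixV {g : Perm (Fin C.n)} (hg : g ∈ V) {p : Fin C.n} (hp : a p = p) : Fx.testBit (g p) = true :=
  (testBit_fixM hC _ _).2 (by
    show (a * g) p = g p
    rw [← mem_centralizer_singleton_iff.1 hg.2, Perm.mul_apply, hp])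
theorem orb_le {L : Subgroup (Perm (Fin C.n))} {p : Fin C.n} {O : ℕ} (h : ∀ g ∈ L, O.testBit (g p) = true) :
    Nat.card {i : Fin C.n // ∃ x ∈ L, x • p = i} ≤ cnt C.n O := by
  rw [← card_mask hC]
  exact Nat.card_le_card_of_injective (fun i => ⟨i.1, by obtain ⟨g, hg, e⟩ := i.2; exact e ▸ h g hg⟩)
    fun a b h => Subtype.ext (congrArg Subtype.val h :)

theorem H0_eq : H ⊓ stabilizer _ o = C.grp SW :=
  le_antisymm (fun g hg => stab g hg.1 hg.2) (le_inf (grpH _) (fix_of_mapsP hlk (p := o) fixSW))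
theorem cSW : Nat.card (C.grp SW) = 300000 := by
  have h := card_eq_orbit_mul H o
  have : ∀ i, ∃ x ∈ H, x • o = i := LyO.trans
  simp only [this] at h
  rw [Nat.card_congr (Equiv.subtypeUnivEquiv fun _ => trivial), Nat.card_fin, card, H0_eq] at h
  have h' : 5859000000 = 19530 * Nat.card (C.grp SW) := h
  omega
theorem o9 : 12500 ≤ Nat.card {i : Fin C.n // ∃ x ∈ C.grp SW, x • pt 9 = i} :=
  e5.2.1.ge.trans (cnt_le_orbit hC (clo_bit hC SW _ (pt 9)))
theorem T_eq : C.grp SW ⊓ stabilizer _ (pt 9) = C.grp tw :=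
  stab_of_card (fun g hg => stab g (grpH _ hg) (fix_of_mapsP hlk (p := o) e8.1 g hg)) (fix_of_mapsP hlk (p := pt 9) e8.2.1) o9
    (cSW.le.trans (Nat.mul_le_mul_left 12500 lowT.1))
theorem cT : Nat.card (C.grp tw) ≤ 24 := by
  have h := card_eq_orbit_mul (C.grp SW) (pt 9)
  rw [cSW, T_eq] at h
  have := Nat.mul_le_mul_right (Nat.card (C.grp tw)) o9
  omega
theorem ca : Nat.card (zpowers a) = 3 := (Nat.card_zpowers a).trans oa
theorem Z_eq : zpowers a = C.grp tw ⊓ stabilizer _ (pt 398) := by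
  refine eq_of_le_of_card_ge (zpowers_le.2 ⟨subst_mem_grp C.g tw [0, 2], mp aw 398 398⟩) ?_
  have h := card_eq_orbit_mul (C.grp tw) (pt 398)
  have := Nat.mul_le_mul_right (Nat.card (C.grp tw ⊓ stabilizer _ (pt 398) : Subgroup _))
    (e6.2.1.ge.trans (cnt_le_orbit hC (clo_bit hC tw _ (pt 398))))
  have := cT
  rw [ca]
  omega
theorem m1 {g : Perm (Fin C.n)} (hg : g ∈ C.grp SW) {p : Fin C.n} (h : M1.testBit p = true) : M1.testBit (g p) = true :=
  (Ctx.inv_spec hC e5.1 hg p).trans h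
theorem cV0 : Nat.card (V ⊓ stabilizer _ o : Subgroup _) ≤ 1500 := by
  have k : V ⊓ stabilizer _ o ≤ C.grp SW := fun g hg => stab g hg.1.1 hg.2
  have h1 := orb_le (L := V ⊓ stabilizer _ o) (p := pt 9) (O := Nat.land M1 Fx) fun g hg => by
    show (M1 &&& Fx).testBit _ = true
    rw [Nat.testBit_and, m1 (k hg) e6.2.2.2.2.2.1, fixV hg.1 (mp aw 9 9)]; rfl
  have h2 := half (Y := V ⊓ stabilizer _ o ⊓ stabilizer _ (pt 9)) (fun g hg => T_eq.le ⟨k hg.1, hg.2⟩)
    (subst_mem_grp C.g tw [1]) fun h => t_not h.1.1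
  have := cT
  rw [card_eq_orbit_mul _ (pt 9)]
  exact Nat.mul_le_mul (h1.trans e5.2.2.1.le) (show _ ≤ 12 by omega)
theorem ysV : C.grp ys ≤ V := (grp_le_iff _).2 fun w hw => memV (by simp [hw])
theorem cV : Nat.card V = 378000 := le_antisymm (by
  rw [card_eq_orbit_mul _ o]
  exact Nat.mul_le_mul ((orb_le (p := o) (O := Fx) fun g hg => fixV hg ao).trans e5.2.2.2.le) cV0) (lowU.1.trans (card_le_of_le ysV))
theorem V_eq : C.grp ys = V := eq_of_le_of_card_ge ysV (cV.le.trans lowU.1)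
theorem bV : C.grp bw ≤ V ⊓ stabilizer _ o := le_inf (bys.trans ysV) (fix_of_mapsP hlk (p := o) e8.2.2.1)
theorem cB : Nat.card (C.grp bw) = 1500 := lowB.card ((card_le_of_le bV).trans cV0)

theorem small {M : Subgroup (Perm (Fin C.n))} (hM : M ≤ V) (hn : ∀ u ∈ V, ∀ m ∈ M, u * m * u⁻¹ ∈ M)
    (hm : ∀ m ∈ M, m o = o ∨ m o = pt 2) : M ≤ zpowers a := fun g hg => by
  have k : ∀ u ∈ V, g (u o) = u o ∨ g (u o) = u (pt 2) := fun u hu => by
    simpa [Equiv.symm_apply_eq] using hm _ (hn _ (inv_mem hu) g hg)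
  have k1 := k _ (memV (w := u1) (by simp))
  have k2 := k _ (memV (w := u2) (by simp))
  rw [show C.ev u1 o = pt 9 from mp u1 0 9, mp u1 2 3] at k1
  rw [show C.ev u2 o = pt 398 from mp u2 0 398, mp u2 2 69] at k2
  obtain ⟨b1, -, b2, b3, b4, b5, b6, b7, b8⟩ := e6
  rcases hm g hg with h | h
  · have h1 := stab g (hM hg).1 h
    refine Z_eq.ge ⟨T_eq.le ⟨h1, k1.resolve_right fun e => ?_⟩, k2.resolve_right fun e => ?_⟩
    · have := m1 h1 (p := pt 9) b5
      rw [e] at this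
      exact absurd (this.symm.trans b7) (by decide)
    · have := m1 h1 (p := pt 398) b6
      rw [e] at this
      exact absurd (this.symm.trans b8) (by decide)
  · exfalso
    have h1 := stab (C.ev (winv tau) * g) (mul_mem (mem _) (hM hg).1) (by rw [Perm.mul_apply, h]; exact mp (winv tau) 2 0)
    have h4 : (C.ev (winv tau) * g) (pt 9) = pt 9 := by
      rcases k1 with e | e
      · have := m1 h1 (p := pt 9) b5
        rw [Perm.mul_apply, e, mp (winv tau) 9 3] at this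
        exact absurd (this.symm.trans b7) (by decide)
      · rw [Perm.mul_apply, e, mp (winv tau) 3 9]
    have h2 : C.ev (winv tau) * g ∈ C.grp tw := T_eq.le (mem_inf.2 ⟨h1, mem_stabilizer_iff.2 h4⟩)
    have h3 := (Ctx.inv_spec hC b1 h2 (pt 398)).trans b2
    rcases k2 with e | e
    · rw [Perm.mul_apply, e, mp (winv tau) 398 1280] at h3
      exact absurd (h3.symm.trans b3) (by decide)
    · rw [Perm.mul_apply, e, mp (winv tau) 69 4029] at h3
      exact absurd (h3.symm.trans b4) (by decide)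

theorem large {M : Subgroup (Perm (Fin C.n))} (hM : M ≤ V) (hn : ∀ u ∈ V, ∀ m ∈ M, u * m * u⁻¹ ∈ M) {m : Perm (Fin C.n)}
    (hm : m ∈ M) {O : ℕ} {p : Fin C.n} (hO : ∀ i : Fin C.n, O.testBit i = true → ∃ x ∈ C.grp bw, x p = i)
    (h1 : O.testBit (m o) = true) (h2 : cnt C.n (Nat.lor (bit 0) O) = 126) : M = V := by
  have hN : (M.subgroupOf V).Normal := ⟨fun x hx g => hn g g.2 x hx⟩
  let L := M.subgroupOf V ⊔ (C.grp bw).subgroupOf V
  have bv := bV.trans inf_le_left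
  have cB' : Nat.card ((C.grp bw).subgroupOf V) = 1500 := (Nat.card_congr (subgroupOfEquivOfLe bv).toEquiv).trans cB
  have c1 : 126 * 1500 ≤ Nat.card L := by
    rw [← card_map_of_injective V.subtype_injective, card_eq_orbit_mul _ o]
    have k : C.grp bw ≤ L.map V.subtype := fun g hg => ⟨⟨g, bv hg⟩, mem_sup_right hg, rfl⟩
    refine Nat.mul_le_mul (h2.ge.trans (cnt_le_orbit hC fun i hi => ?_))
      (cB.ge.trans (card_le_of_le (le_inf k (bV.trans inf_le_right))))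
    have hi : (bit 0 ||| O).testBit i = true := hi
    rw [Nat.testBit_or, Bool.or_eq_true, testBit_bit, decide_eq_true_eq] at hi
    rcases hi with hi | hi
    · exact ⟨1, one_mem _, Fin.ext hi⟩
    obtain ⟨b, hb, e⟩ := hO i hi
    obtain ⟨b', hb', e'⟩ := hO _ h1
    exact ⟨b * b'⁻¹ * m, mul_mem (k (mul_mem hb (inv_mem hb'))) ⟨⟨m, hM hm⟩, mem_sup_left hm, rfl⟩, by simp [← e', e]⟩
  have c2 := L.card_mul_index
  have c3 : L.index ≤ 2 := by
    rw [cV] at c2
    by_contra h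
    have := Nat.mul_le_mul c1 (Nat.not_le.1 h)
    omega
  have c4 : ¬ 7 ∣ (M.subgroupOf V).index := by
    rw [← relIndex_mul_index (le_sup_left : _ ≤ L), relIndex_sup_left, (by norm_num : Nat.Prime 7).dvd_mul]
    rintro (h | h)
    · exact absurd (cB' ▸ h.trans (relIndex_dvd_card _ _)) (by decide)
    · exact absurd ((Nat.le_of_dvd (Nat.pos_of_ne_zero index_ne_zero_of_finite) h).trans c3) (by decide)
  refine le_antisymm hM (V_eq.ge.trans ((grp_le_iff _).2 fun w hw => ?_))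
  let y : V := ⟨_, ysV (mem_grp _ hw)⟩
  have y7 : y ^ 7 = 1 := Subtype.ext ((ev_wpow _ _ _).symm.trans (eqv (lall_iff.1 e3 w hw)))
  have c5 : orderOf (QuotientGroup.mk' (M.subgroupOf V) y) ∣ 7 := orderOf_dvd_of_pow_eq_one (by rw [← map_pow, y7, map_one])
  rcases (Nat.dvd_prime (by norm_num)).1 c5 with h | h
  · exact (QuotientGroup.eq_one_iff y).1 (orderOf_eq_one_iff.1 h)
  · exact absurd (h ▸ orderOf_dvd_natCard _) c4

theorem nrmV {M : Subgroup (Perm (Fin C.n))} (hM : M ≤ V) (hn : ∀ u ∈ V, ∀ m ∈ M, u * m * u⁻¹ ∈ M) (ha : a ∈ M) :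
    M = zpowers a ∨ M = V := by
  by_cases hm : ∀ m ∈ M, m o = o ∨ m o = pt 2
  · exact .inl (le_antisymm (small hM hn hm) (zpowers_le.2 ha))
  right
  push Not at hm
  obtain ⟨m, hm, h1, h2⟩ := hm
  have h : (bit 0 ||| (bit 2 ||| (D9 ||| D3))).testBit (m o) = true := sub_spec e7'.1 (fixV (hM hm) ao)
  simp only [Nat.testBit_or, Bool.or_eq_true, testBit_bit, decide_eq_true_eq] at h
  rcases h with h | h | h | h
  · exact absurd (Fin.ext h.symm) h1
  · exact absurd (Fin.ext h.symm) h2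
  · exact large hM hn hm (clo_bit hC bw _ (pt 9)) h e7'.2.1
  · exact large hM hn hm (clo_bit hC bw _ (pt 3)) h e7'.2.2

theorem plist {i : ℕ} (hi : i < 5) (h0 : 0 < i) {g : Perm (Fin C.n)} (hg : g ∈ C.grp (nth PS [] i)) :
    ∃ k < (nth LS [] i).length, g = C.ev (nth (nth LS [] i) [] k) := by
  have h1 : g ∈ (C.grp (nth PS [] i)).toSubmonoid := hg
  rw [Ctx.grp, grp, closure_toSubmonoid_of_finite] at h1
  clear hg
  induction h1 using Submonoid.closure_induction_left with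
  | one =>
    obtain ⟨b1, b2⟩ := (by decide +kernel : ∀ i < 5, 0 < i → 0 < (nth LS [] i).length ∧ nth (nth LS [] i) [] 0 = []) i hi h0
    exact ⟨0, b1, by rw [b2]; rfl⟩
  | mul_left x hx y _ ih =>
    obtain ⟨w, hw, rfl⟩ := hx
    obtain ⟨k, hk, rfl⟩ := ih
    obtain ⟨j, hj, rfl⟩ := exists_nth_of_mem [] hw
    exact ⟨_, (pcl i hi j hj k hk).2, (ev_lapp _ _ _).symm.trans (eqv (pcl i hi j hj k hk).1)⟩

theorem cP {i : ℕ} (hi : i < 5) (h0 : 0 < i) : Nat.card (C.grp (nth PS [] i)) = 3 ^ nth [0, 1, 3, 2, 2] 0 i := by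
  have h : Nat.card (C.grp (nth PS [] i)) ≤ (nth LS [] i).length := by
    choose f h1 h2 using fun g : C.grp (nth PS [] i) => plist hi h0 g.2
    have := Nat.card_le_card_of_injective (fun g => (⟨f g, h1 g⟩ : Fin _)) fun x y e =>
      Subtype.ext (by rw [h2 x, h2 y, show f x = f y from congrArg Fin.val e])
    rwa [Nat.card_fin] at this
  interval_cases i
  exacts [lowP1.card h, lowP2.card h, lowP3.card h, lowP4.card h]

theorem Ple {i : ℕ} (hi : i < 5) : C.grp (nth PS [] i) ≤ C.grp (nth GW [] i) :=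
  le_of_eqQ hlk base (grpH _) _ (ple i hi).2 (grpH _) (ple i hi).1
theorem PV' {i : ℕ} (hi : i < 5) : C.grp (nth PS [] i) ≤ V := (grp_le_iff _).2 fun w hw => memV
  (List.mem_append_right _ ((by decide +kernel : ∀ i < 5, ∀ w ∈ nth PS [] i, w ∈ PS.flatten) i hi w hw))
theorem tG {i : ℕ} (hi : i < 5) (h0 : 0 < i) : C.ev [1] ∈ C.grp (nth GW [] i) :=
  mem_grp _ ((by decide +kernel : ∀ i < 5, 0 < i → [1] ∈ nth GW [] i) i hi h0)

theorem cls {i : ℕ} (hi : i < 5) (h0 : 0 < i) {S : Subgroup (Perm (Fin C.n))} (hS : C.grp (nth GW [] i) ≤ S)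
    (hn : ¬ 3 ^ (nth [0, 1, 3, 2, 2] 0 i + 1) ∣ Nat.card S) {h : Perm (Fin C.n)} (hb : h⁻¹ * a * h ∈ S) :
    ∃ s ∈ S, s * (h⁻¹ * a * h) * s⁻¹ = a := by
  obtain ⟨s, hs, h1⟩ := conj_into ((Ple hi).trans hS) (cP hi h0) hn hb (by
    rw [show h⁻¹ * a * h = h⁻¹ * a * h⁻¹⁻¹ by simp, conj_pow, a3]; simp)
  obtain ⟨k, hk, e⟩ := plist hi h0 h1
  rcases pfx i hi _ ((nth_mem_or (nth LS [] i) [] k).elim id fun e => by
    rw [e]; exact (by decide +kernel : ∀ i < 5, 0 < i → [] ∈ nth LS [] i) i hi h0) with h2 | h2 | h2 | h2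
  · rw [h2] at e
    have : a = 1 := by simpa [mul_assoc, mul_eq_one_iff_eq_inv] using e.trans (ev_nil _)
    exact absurd (this ▸ oa) (by simp)
  · exact ⟨s, hs, e.trans (congrArg _ h2)⟩
  · refine ⟨C.ev [1] * s, mul_mem (hS (tG hi h0)) hs, ?_⟩
    rw [h2, Ctx.ev, ev_winv] at e
    rw [show ∀ t b : Perm (Fin C.n), t * s * b * (t * s)⁻¹ = t * (s * b * s⁻¹) * t⁻¹ from fun t b => by group, e, ← conj_inv]
    exact (congrArg _ ta).trans (inv_inv _)
  · have := (testBit_fixM hC (nth (nth LS [] i) [] k) (s (h⁻¹ o))).2 (by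
      rw [← e]; simp [ao])
    rw [h2] at this
    simp at this

end CA.LyC
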