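import Cfsg.Agent.Lib.Fi.FiW2

/-! A class of involutions whose commuting graph has components of Fischer type is connected. -/

set_option autoImplicit false
set_option linter.unusedVariables false
set_option linter.unusedSectionVars false
open Cfsg

namespace CA.M2T
open CA.Fi CA.Tr3Basic CA.Tr3Rank

variable {G : Type*} [Group G]

section Dih
variable {a b : G} (ha : a * a = 1) (hb : b * b = 1)
include ha hb

theorem dih_a (i : ℕ) : (a * b) ^ i * a * (a * b) ^ i = a := by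
  induction i with
  | zero => simp
  | succ i ih =>
    calc (a * b) ^ (i + 1) * a * (a * b) ^ (i + 1)
        = (a * b) ^ i * (a * b * (a * a) * b) * (a * b) ^ i := by
          nth_rw 1 [pow_succ]; rw [pow_succ']; simp only [mul_assoc]
      _ = a := by rw [ha, mul_one, mul_assoc a, hb, mul_one, ih]

theorem dih_b (i : ℕ) : (a * b) ^ i * b * (a * b) ^ i = b := by
  induction i with
  | zero => simp
  | succ i ih =>
    calc (a * b) ^ (i + 1) * b * (a * b) ^ (i + 1)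
        = (a * b) ^ i * (a * (b * b) * a * b) * (a * b) ^ i := by
          nth_rw 1 [pow_succ]; rw [pow_succ']; simp only [mul_assoc]
      _ = b := by rw [hb, mul_one, ha, one_mul, ih]

theorem dih_even (j : ℕ) : ((a * b) ^ j)⁻¹ * a * ((a * b) ^ j)⁻¹⁻¹ = a * (a * b) ^ (2 * j) := by
  rw [inv_inv, two_mul, pow_add, ← mul_assoc a, mul_left_inj, inv_mul_eq_iff_eq_mul, ← mul_assoc, dih_a ha hb]

theorem dih_odd (j : ℕ) : ((a * b) ^ j)⁻¹ * b * ((a * b) ^ j)⁻¹⁻¹ = a * (a * b) ^ (2 * j + 1) := by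
  rw [inv_inv, pow_succ', ← mul_assoc a, ← mul_assoc a, ha, one_mul, two_mul, pow_add, ← mul_assoc b, mul_left_inj,
    inv_mul_eq_iff_eq_mul, ← mul_assoc, dih_b ha hb]

theorem dih_cen {m : ℕ} (h : orderOf (a * b) = 2 * m) (h0 : 0 < m) : (a * b) ^ m * (a * b) ^ m = 1 ∧ (a * b) ^ m ≠ 1 ∧
    Commute a ((a * b) ^ m) ∧ Commute b ((a * b) ^ m) := by
  have e : (a * b) ^ m * (a * b) ^ m = 1 := by rw [← pow_add, ← two_mul, ← h, pow_orderOf_eq_one]
  have k : ∀ c, (a * b) ^ m * c * (a * b) ^ m = c → Commute c ((a * b) ^ m) := fun c hc => by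
    have : (a * b) ^ m * c * (a * b) ^ m * (a * b) ^ m = c * (a * b) ^ m := by rw [hc]
    rw [mul_assoc, e, mul_one] at this
    exact this.symm
  exact ⟨e, pow_ne_one_of_lt_orderOf (by omega) (by omega), k _ (dih_a ha hb m), k _ (dih_b ha hb m)⟩

theorem dih_conj (h : Odd (orderOf (a * b))) {K : Subgroup G} (h1 : a ∈ K) (h2 : b ∈ K) :
    ∃ g ∈ K, g * b * g⁻¹ = a := by
  obtain ⟨j, hj⟩ := h
  refine ⟨_, K.inv_mem (K.pow_mem (K.mul_mem h1 h2) j), ?_⟩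
  rw [dih_odd ha hb, ← hj, pow_orderOf_eq_one, mul_one]

end Dih

/-- the properties of a component which are used -/
structure Gd (v k lam : ℕ) (S : Set G) : Prop where
  set : IsThreeTranspositionSet S
  inv : ∀ y ∈ Subgroup.closure S, y * y = 1 → ∃ z ∈ S, Commute z y
  tr : ∀ x ∈ S, ∀ y ∈ S, ∃ g ∈ Subgroup.closure S, g * x * g⁻¹ = y
  cj : ∀ g ∈ Subgroup.closure S, ∀ x ∈ S, g * x * g⁻¹ ∈ S
  u2 : ∀ j l l', PF S 2 j l → PF S 2 j l' → ∀ a ∈ l', a ∈ l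
  c2 : ∀ j l, PF S 2 j l → ∀ z ∈ S, Commute z j → ∀ a ∈ l, Commute z a
  six : ∀ a ∈ S, ∀ b ∈ S, a ≠ b → Commute a b → Six S {a, b} a
  f3 : ∀ j l, PF S 3 j l → ∃ l' : List G, l'.length = 3 ∧ ∀ s, PF S 3 j s → (∀ x ∈ s, x ∈ l) ∨ ∀ x ∈ s, x ∈ l'
  hv : S.ncard = v
  hk : ∀ x ∈ S, (Dd S x).ncard = k
  hl : ∀ x ∈ S, ∀ y ∈ Dd S x, (Dd (Dd S x) y).ncard = lam

structure Glob (v k lam : ℕ) (D : Set G) (Δ : G → Set G) : Prop where
  cj : ∀ g, ∀ x ∈ D, g * x * g⁻¹ ∈ D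
  self : ∀ x ∈ D, x ∈ Δ x
  sub : ∀ x ∈ D, Δ x ⊆ D
  eq : ∀ x ∈ D, ∀ y ∈ Δ x, Δ y = Δ x
  nb : ∀ x ∈ D, ∀ y ∈ D, Commute x y → y ∈ Δ x
  gd : ∀ x ∈ D, Gd v k lam (Δ x)
  cen : ∀ x ∈ D, ∀ g, Commute g x → g ∈ Subgroup.closure (Δ x)
  n2 : ∀ a ∈ D, ∀ b ∈ D, a ≠ b → Commute a b → a * b ∉ D

theorem prod_comm {e d : G} (hd : d * d = 1) : ∀ (n : ℕ) (s : List G), s.length = 2 * n →
    (∀ y ∈ s, Commute d y ∧ Commute e (d * y)) → Commute e s.prod
  | 0, [], _, _ => Commute.one_right e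
  | n + 1, x :: y :: s, h, k => by
    rw [List.prod_cons, List.prod_cons, ← mul_assoc]
    refine Commute.mul_right ?_ (prod_comm hd n s (by simp at h; omega) fun z hz => k z (by simp [hz]))
    have := (k x (by simp)).2.mul_right (k y (by simp)).2
    rwa [show d * x * (d * y) = x * y by rw [(k x (by simp)).1.eq, mul_assoc, ← mul_assoc d, hd, one_mul]] at this

theorem ncard_pairs {α : Type*} [Finite α] {A : Set α} {B : α → Set α} {n : ℕ} (h : ∀ a ∈ A, (B a).ncard = n) :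
    {p : α × α | p.1 ∈ A ∧ p.2 ∈ B p.1}.ncard = A.ncard * n := by
  classical
  have := Fintype.ofFinite α
  rw [Set.ncard_eq_toFinset_card', Set.ncard_eq_toFinset_card', ← smul_eq_mul, ← Finset.sum_const,
    Finset.card_eq_sum_card_fiberwise (f := Prod.fst) (t := A.toFinset) (fun p hp => by simp_all)]
  refine Finset.sum_congr rfl fun a ha => ?_
  rw [← h a (by simpa using ha), Set.ncard_eq_toFinset_card']
  refine Finset.card_bij (fun p _ => p.2) (fun p hp => ?_) (fun p hp q hq e => ?_) fun b hb => ⟨(a, b), ?_, rfl⟩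
  · simp at hp; simp [← hp.2, hp.1.2]
  · simp at hp hq; exact Prod.ext (hp.2.trans hq.2.symm) e
  · simp_all

theorem ncard_le_fib {α β : Type*} [Finite α] [Finite β] {P : Set α} {T : Set β} {n : ℕ} (R : α → β → Prop)
    (h : ∀ p ∈ P, ∃ t ∈ T, R p t) (hf : ∀ t ∈ T, {p ∈ P | R p t}.ncard ≤ n) : P.ncard ≤ n * T.ncard := by
  classical
  have := Fintype.ofFinite α
  have := Fintype.ofFinite β
  rcases P.eq_empty_or_nonempty with rfl | ⟨p0, h0⟩
  · simp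
  have : Nonempty β := ⟨(h p0 h0).choose⟩
  choose! f f1 f2 using h
  rw [Set.ncard_eq_toFinset_card', Set.ncard_eq_toFinset_card']
  refine Finset.card_le_mul_card_image_of_maps_to (f := f) (fun p hp => by simpa using f1 p (by simpa using hp)) n
    fun t ht => le_trans ?_ (hf t (by simpa using ht))
  rw [Set.ncard_eq_toFinset_card']
  refine Finset.card_le_card fun p hp => ?_
  simp only [Finset.mem_filter, Set.mem_toFinset, Set.mem_setOf_eq] at hp ⊢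
  exact ⟨hp.1, hp.2 ▸ f2 p hp.1⟩

theorem ncard_sq {α : Type*} {l : List α} (h : l.length = 3) : {p : α × α | p.1 ∈ l ∧ p.2 ∈ l}.ncard ≤ 9 := by
  classical
  have e : {p : α × α | p.1 ∈ l ∧ p.2 ∈ l} = ((l.toFinset ×ˢ l.toFinset : Finset _) : Set _) := by ext; simp
  have := List.toFinset_card_le l
  rw [e, Set.ncard_coe_finset, Finset.card_product]
  exact Nat.mul_le_mul (h ▸ this) (h ▸ this)

namespace Glob
variable [Finite G] {v k lam : ℕ} {D : Set G} {Δ : G → Set G} (h : Glob v k lam D Δ)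
include h

theorem sq {x : G} (hx : x ∈ D) : x * x = 1 := Tr3Basic.sq (h.gd x hx).set (h.self x hx)

theorem nb' {x y z : G} (hx : x ∈ D) (hy : y ∈ Δ x) (hz : z ∈ D) (c : Commute y z) : z ∈ Δ x :=
  h.eq x hx y hy ▸ h.nb y (h.sub x hx hy) z hz c

theorem mem {x y g : G} (hx : x ∈ D) (hy : y ∈ Δ x) (e : g * y * g⁻¹ ∈ Δ x) : g ∈ Subgroup.closure (Δ x) := by
  obtain ⟨u, hu, k⟩ := (h.gd x hx).tr y hy _ e
  have : u⁻¹ * g ∈ Subgroup.closure (Δ y) := h.cen y (h.sub x hx hy) _ (by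
    rw [← conj_eq_iff_commute, mul_inv_rev, inv_inv, show u⁻¹ * g * y * (g⁻¹ * u) = u⁻¹ * (g * y * g⁻¹) * u by group, ← k]
    group)
  rw [h.eq x hx y hy] at this
  simpa using Subgroup.mul_mem _ hu this

theorem mem' {x y : G} (hx : x ∈ D) (hy : y ∈ D) (e : y ∈ Subgroup.closure (Δ x)) : y ∈ Δ x := by
  obtain ⟨z, hz, c⟩ := (h.gd x hx).inv y e (h.sq hy)
  exact h.nb' hx hz hy c

theorem ev {x y e : G} (hx : x ∈ D) (hy : y ∈ Δ x) (he : e ∈ D) (n : ¬ Odd (orderOf (y * e))) : ∃ y' ∈ Δ x, y ≠ y' ∧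
    Commute y y' ∧ Commute e (y * y') ∧ ∀ K : Subgroup G, y ∈ K → e ∈ K → ∃ g ∈ K, g * e * g⁻¹ = y' := by
  have yD := h.sub x hx hy
  have y2 := h.sq yD
  have e2 := h.sq he
  obtain ⟨m, hm⟩ := Nat.not_odd_iff_even.1 n
  rw [← two_mul] at hm
  have := orderOf_pos (y * e)
  obtain ⟨w2, w1, c1, c2⟩ := dih_cen y2 e2 hm (by omega)
  have sD : ∀ i, y * (y * e) ^ i ∈ D := fun i => by
    obtain ⟨j, rfl | rfl⟩ := Nat.even_or_odd' i
    exacts [dih_even y2 e2 j ▸ h.cj _ _ yD, dih_odd y2 e2 j ▸ h.cj _ _ he]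
  have c3 : Commute y (y * (y * e) ^ m) := (Commute.refl y).mul_right c1
  have hy' := h.nb' hx hy (sD m) c3
  refine ⟨_, hy', fun e => w1 (by simpa using e), c3, by rwa [← mul_assoc, y2, one_mul], fun K k1 k2 => ?_⟩
  obtain ⟨j, rfl | rfl⟩ := Nat.even_or_odd' m
  · exfalso
    have g1 := h.mem hx hy (dih_even y2 e2 j ▸ hy')
    have f1 := h.mem' hx (sD j) (Subgroup.mul_mem _ (Subgroup.subset_closure hy) (by simpa using g1))
    have := (h.gd x hx).set.2 y hy _ f1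
    rw [← mul_assoc, y2, one_mul, ← pow_mul, ← pow_mul, mul_comm j] at this
    refine this.elim w1 fun e3 => w1 ?_
    have : (y * e) ^ j * (y * e) ^ (j * 3) = 1 := by rw [← w2, ← pow_add, ← pow_add]; congr 1; omega
    rw [e3, mul_one] at this
    rw [mul_comm, pow_mul, this, one_pow]
  · exact ⟨_, K.inv_mem (K.pow_mem (K.mul_mem k1 k2) j), dih_odd y2 e2 j⟩

theorem odd {x d e : G} (hx : x ∈ D) (hd : d ∈ Δ x) (he : e ∈ D) (n : e ∉ Δ x) : Odd (orderOf (d * e)) := by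
  by_contra o
  have g := h.gd x hx
  obtain ⟨d', hd', nd, c, ce, k⟩ := h.ev hx hd he o
  have d2 := Tr3Basic.sq g.set hd
  have pf := pf2 hd hd' nd c
  set K := Subgroup.centralizer {d * d'}
  have mK : ∀ {z}, z ∈ K ↔ Commute z (d * d') := Subgroup.mem_centralizer_singleton_iff
  obtain ⟨u, hu, eu⟩ := k K (mK.2 ((Commute.refl d).mul_right c)) (mK.2 ce)
  have key : ∀ y ∈ Δ x, (∃ t ∈ K, t * e * t⁻¹ = y) → y = d ∨ y = d' := by
    rintro y hy ⟨t, ht, rfl⟩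
    have e1 : t * u⁻¹ * d' * (t * u⁻¹)⁻¹ = t * e * t⁻¹ := by rw [← eu]; group
    have m := h.mem hx hd' (e1 ▸ hy)
    have p2 := pf2 (g.cj _ m d hd) hy (fun q => nd (conj_inj.1 (q.trans e1.symm))) (e1 ▸ (commute_conj_iff _ _ _).2 c)
    rw [← e1, show t * u⁻¹ * d * (t * u⁻¹)⁻¹ * (t * u⁻¹ * d' * (t * u⁻¹)⁻¹) = t * u⁻¹ * (d * d') * (t * u⁻¹)⁻¹ by group,
      (conj_eq_iff_commute _ _).2 (mK.1 (K.mul_mem ht (K.inv_mem hu))), e1] at p2
    simpa using g.u2 _ _ _ pf p2 (t * e * t⁻¹) (by simp)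
  obtain ⟨s, s1, s2, s3⟩ := g.six d hd d' hd' nd c
  refine n (h.nb' hx hd he (Commute.symm (s3 ▸ prod_comm d2 3 s s1 fun y hy => ?_)))
  obtain ⟨y1, ⟨y2, y3⟩, y4⟩ := s2 y hy
  have c1 := mem_cz.1 y1 d (by simp)
  have c2 := mem_cz.1 y1 d' (by simp)
  have yK := mK.2 (c1.mul_right c2)
  refine ⟨c1.symm, ?_⟩
  by_cases o' : Odd (orderOf (y * e))
  · exact (y3 (by simpa using key y y2 (dih_conj y4 (h.sq he) o' yK (mK.2 ce)))).elim
  obtain ⟨y', hy', -, -, ce', k'⟩ := h.ev hx y2 he o'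
  rcases key y' hy' (k' K yK (mK.2 ce)) with rfl | rfl
  · rwa [← c1.eq]
  · have := ce'.mul_right ce
    rwa [show y * y' * (d * y') = d * y by
      rw [c.eq, mul_assoc, ← mul_assoc y', Tr3Basic.sq g.set hd', one_mul, c1.eq]] at this

theorem two {x d d' e : G} (hx : x ∈ D) (hd : d ∈ Δ x) (hd' : d' ∈ Δ x) (nd : d ≠ d') (c : Commute d d') (he : e ∈ D)
    (ce : Commute e (d * d')) : e ∈ Δ x := by
  by_contra n
  have g := h.gd x hx
  have d2 := Tr3Basic.sq g.set hd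
  have u2 : d * d' * (d * d') = 1 := (pf2 hd hd' nd c).sq g.set
  have cd : Commute d (d * d') := (Commute.refl d).mul_right c
  obtain ⟨s, hs, es⟩ := dih_conj d2 (h.sq he) (h.odd hx hd he n) (K := Subgroup.centralizer {d * d'})
    (Subgroup.mem_centralizer_singleton_iff.2 cd) (Subgroup.mem_centralizer_singleton_iff.2 ce)
  have cs : Commute s (d * d') := Subgroup.mem_centralizer_singleton_iff.1 hs
  have e' : e * (d * d') ∈ D := by
    have : s⁻¹ * d' * s⁻¹⁻¹ = e * (d * d') := by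
      have a1 : d' = s * e * s⁻¹ * (d * d') := by rw [es, ← mul_assoc, d2, one_mul]
      rw [← (conj_eq_iff_commute _ _).2 cs.inv_left]
      generalize d * d' = u at a1 ⊢
      rw [a1]; group
    exact this ▸ h.cj _ _ (h.sub x hx hd')
  have o := h.odd hx hd e' fun m => n (h.nb' hx m he ((Commute.refl e).mul_left ce.symm))
  have o' := h.odd hx hd he n
  have e1 := pow_orderOf_eq_one (d * (e * (d * d')))
  rw [← mul_assoc, (cd.mul_left ce).mul_pow] at e1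
  obtain ⟨i, hi⟩ := o
  obtain ⟨j, hj⟩ := o'
  have p : ∀ i, (d * d') ^ (2 * i + 1) = d * d' := fun i => by rw [pow_succ, pow_mul, pow_two, u2, one_pow, one_mul]
  rw [mul_assoc, hi, p, mul_eq_one_iff_eq_inv] at e1
  have e2 := congrArg (· ^ (2 * j + 1)) e1
  simp only [inv_pow, p] at e2
  rw [← pow_mul, mul_comm, pow_mul, ← hj, pow_orderOf_eq_one, one_pow, eq_comm, inv_eq_one] at e2
  exact nd (by rw [← d2] at e2; exact (mul_left_cancel e2).symm)

theorem three {x d d' e : G} (hx : x ∈ D) (hd : d ∈ Δ x) (hd' : d' ∈ Dd (Δ x) d) (he : e ∈ D) (n : e ∉ Δ x) :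
    ∃ f ∈ Dd (Δ e) e, ∃ f' ∈ Dd (Dd (Δ e) e) f, ∃ y, PF (Δ x) 3 (e * (f * f')) [d, d', y] := by
  obtain ⟨hd', nd, c⟩ := hd'
  replace nd := nd.symm
  have g := h.gd x hx
  have dD := h.sub x hx hd
  have dD' := h.sub x hx hd'
  have pf := pf2 hd hd' nd c
  have u2 : d * d' * (d * d') = 1 := pf.sq g.set
  have e2 := h.sq he
  have cd : Commute d (d * d') := (Commute.refl d).mul_right c
  have o : ¬ Odd (orderOf (d * d' * e)) := fun o => by
    obtain ⟨s, -, es⟩ := dih_conj u2 e2 o (K := ⊤) trivial trivial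
    exact h.n2 d dD d' dD' nd c (es ▸ h.cj _ _ he)
  obtain ⟨m, hm⟩ := Nat.not_odd_iff_even.1 o
  rw [← two_mul] at hm
  have := orderOf_pos (d * d' * e)
  obtain ⟨w2, w1, c1, c2⟩ := dih_cen u2 e2 hm (by omega)
  have ew : e * (d * d' * e) ^ m = d * d' * (d * d' * e) ^ (m + 1) := by
    rw [pow_succ', ← mul_assoc, ← mul_assoc, u2, one_mul]
  set w := (d * d' * e) ^ m
  have wM : w ∈ Subgroup.closure (Δ x) := h.mem hx hd (h.two hx hd hd' nd c (h.cj _ _ dD) (by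
    rw [← (conj_eq_iff_commute _ _).2 c1.symm]; exact (commute_conj_iff _ _ _).2 cd))
  have wD : w ∉ D := fun k => n (h.nb' hx (h.mem' hx k wM) he c2.symm)
  obtain ⟨j, rfl | rfl⟩ := Nat.even_or_odd' m
  · exfalso
    have e' : e * w ∈ D := ew ▸ dih_odd u2 e2 j ▸ h.cj _ _ he
    obtain ⟨z, hz, cz⟩ := g.inv w wM w2
    have c3 : Commute e (e * w) := (Commute.refl e).mul_right c2
    have := h.two he (h.self e he) (h.nb e he _ e' c3) (fun k => w1 (by simpa using k)) c3 (h.sub x hx hz)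
      (by rwa [← mul_assoc, e2, one_mul])
    exact n (h.eq x hx z hz ▸ (h.eq e he z this).symm ▸ h.self e he)
  have yD : d * d' * w ∈ D := dih_odd u2 e2 j ▸ h.cj _ _ he
  have hy := h.mem' hx yD (Subgroup.mul_mem _ (Subgroup.mul_mem _ (Subgroup.subset_closure hd)
    (Subgroup.subset_closure hd')) wM)
  have cy := g.c2 _ _ pf _ hy ((Commute.refl _).mul_left c1.symm)
  have e3 : d * d' * (d * d' * w) = w := by rw [← mul_assoc, u2, one_mul]
  have q := dih_even u2 e2 (j + 1)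
  rw [show 2 * (j + 1) = 2 * j + 1 + 1 by ring, ← ew] at q
  set t := ((d * d' * e) ^ (j + 1))⁻¹
  have fD := h.cj t d dD
  have fD' := h.cj t d' dD'
  have cf := (commute_conj_iff t d d').2 c
  have nf : t * d * t⁻¹ ≠ t * d' * t⁻¹ := fun k => nd (conj_inj.1 k)
  have e4 : t * d * t⁻¹ * (t * d' * t⁻¹) = e * w := by rw [← q]; group
  have ce : Commute e (t * d * t⁻¹ * (t * d' * t⁻¹)) := e4 ▸ (Commute.refl e).mul_right c2
  have m1 := h.two fD (h.self _ fD) (h.nb _ fD _ fD' cf) nf cf he ce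
  have m2 : t * d * t⁻¹ ∈ Δ e := h.eq _ fD e m1 ▸ h.self _ fD
  have m3 := h.nb' he m2 fD' cf
  have ce' := (h.gd e he).c2 _ _ (pf2 m2 m3 nf cf) e (h.self e he) ce
  have e5 : e * (t * d * t⁻¹ * (t * d' * t⁻¹)) = w := by rw [e4, ← mul_assoc, e2, one_mul]
  refine ⟨_, ⟨m2, fun k => wD ?_, ce' _ (by simp)⟩, _, ⟨⟨m3, fun k => wD ?_, ce' _ (by simp)⟩, nf.symm, cf⟩,
    d * d' * w, ?_⟩
  · rwa [← e5, k, ← mul_assoc, e2, one_mul]
  · rwa [← e5, cf.eq, k, ← mul_assoc, e2, one_mul]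
  have p := pf3 hd hd' hy nd (fun k => wD ?_) (fun k => wD ?_) c (cy _ (by simp)).symm (cy _ (by simp)).symm
  · rw [e3] at p; rwa [e5]
  · rwa [← e3, ← k, c.eq, mul_assoc, h.sq dD, mul_one]
  · rwa [← e3, ← k, mul_assoc, h.sq dD', mul_one]

theorem conn (hv : 18 * lam < v) (hk : 0 < k) {x e : G} (hx : x ∈ D) (he : e ∈ D) : e ∈ Δ x := by
  by_contra n
  have g := h.gd x hx
  have g' := h.gd e he
  have key := ncard_le_fib (P := {p : G × G | p.1 ∈ Δ x ∧ p.2 ∈ Dd (Δ x) p.1})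
    (T := {p : G × G | p.1 ∈ Dd (Δ e) e ∧ p.2 ∈ Dd (Dd (Δ e) e) p.1}) (n := 18)
    (fun p t => ∃ y, PF (Δ x) 3 (e * (t.1 * t.2)) [p.1, p.2, y])
    (fun p hp => by obtain ⟨f, a, f', b, c⟩ := h.three hx hp.1 hp.2 he n; exact ⟨(f, f'), ⟨a, b⟩, c⟩) fun t _ => by
      by_cases q : ∃ l, PF (Δ x) 3 (e * (t.1 * t.2)) l
      · obtain ⟨l, hl⟩ := q
        obtain ⟨l', a, b⟩ := g.f3 _ l hl
        refine (Set.ncard_le_ncard (t := {p : G × G | p.1 ∈ l ∧ p.2 ∈ l} ∪ {p : G × G | p.1 ∈ l' ∧ p.2 ∈ l'}) ?_).trans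
          ((Set.ncard_union_le _ _).trans (Nat.add_le_add (ncard_sq hl.2.1) (ncard_sq a)))
        rintro p ⟨-, y, hy⟩
        exact (b _ hy).imp (fun c => ⟨c _ (by simp), c _ (by simp)⟩) fun c => ⟨c _ (by simp), c _ (by simp)⟩
      · rw [Set.eq_empty_of_forall_notMem (s := {p ∈ _ | _}) fun p hp => q ⟨_, hp.2.choose_spec⟩]; simp
  rw [ncard_pairs g.hk, ncard_pairs (g'.hl e (h.self e he)), g.hv, g'.hk e (h.self e he)] at key
  nlinarith

end Glob

end CA.M2T
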