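import Cfsg.Agent.Lib.Spor.M22A
import Cfsg.Agent.Lib.Spor.Fis18

/-! A class of involutions which looks locally like the class of 3-transpositions of a Fischer group. -/

set_option autoImplicit false
set_option linter.unusedVariables false
set_option linter.unusedSectionVars false
open Cfsg

namespace CA.M2T
open CA.Fi CA.Tr3Basic CA.Tr3Block CA.Tr3Prim CA.Tr3Rank CA.Tr3Iso CA.Tr3Ext CA.Fis

variable {G H : Type*} [Group G] [Group H]

/-- a map which is an injective homomorphism on `K` matching `D` and `E` -/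
structure LH (K : Subgroup G) (D : Set G) (E : Set H) (F : G → H) : Prop where
  mul : ∀ a ∈ K, ∀ b ∈ K, F (a * b) = F a * F b
  inj : ∀ a ∈ K, ∀ b ∈ K, F a = F b → a = b
  mem : ∀ a ∈ K, F a ∈ E ↔ a ∈ D

namespace LH
variable {K : Subgroup G} {D : Set G} {E : Set H} {F : G → H} (h : LH K D E F)
include h

theorem one : F 1 = 1 := by simpa using h.mul 1 K.one_mem 1 K.one_mem

theorem inv {a : G} (ha : a ∈ K) : F a⁻¹ = (F a)⁻¹ :=
  eq_inv_of_mul_eq_one_left (by rw [← h.mul _ (K.inv_mem ha) _ ha, inv_mul_cancel, h.one])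

theorem conj {a b : G} (ha : a ∈ K) (hb : b ∈ K) : F (a * b * a⁻¹) = F a * F b * (F a)⁻¹ := by
  rw [h.mul _ (K.mul_mem ha hb) _ (K.inv_mem ha), h.mul _ ha _ hb, h.inv ha]

theorem comm {a b : G} (ha : a ∈ K) (hb : b ∈ K) : Commute (F a) (F b) ↔ Commute a b := by
  rw [commute_iff_eq, commute_iff_eq, ← h.mul _ ha _ hb, ← h.mul _ hb _ ha]
  exact ⟨h.inj _ (K.mul_mem ha hb) _ (K.mul_mem hb ha), congrArg F⟩

theorem pow {a : G} (ha : a ∈ K) (n : ℕ) : F (a ^ n) = F a ^ n := by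
  induction n with
  | zero => simpa using h.one
  | succ n ih => rw [pow_succ, pow_succ, h.mul _ (K.pow_mem ha n) _ ha, ih]

theorem prod : ∀ {l : List G}, (∀ a ∈ l, a ∈ K) → F l.prod = (l.map F).prod
  | [], _ => h.one
  | a :: l, k => by
    rw [List.prod_cons, h.mul _ (k a (by simp)) _ (K.list_prod_mem fun x hx => k x (by simp [hx])),
      prod fun x hx => k x (by simp [hx])]; rfl

theorem pf {m : ℕ} {y : G} {l : List G} (p : PF D m y l) (k : ∀ a ∈ l, a ∈ K) : PF E m (F y) (l.map F) := by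
  refine ⟨p.1.map_on fun a ha b hb => h.inj _ (k a ha) _ (k b hb), by simpa using p.2.1, fun a ha => ?_,
    fun a ha b hb => ?_, by rw [← h.prod k, p.2.2.2.2]⟩
  · replace ha := List.mem_map.1 ha; obtain ⟨a, ha, rfl⟩ := ha
    exact (h.mem a (k a ha)).2 (p.2.2.1 a ha)
  · replace ha := List.mem_map.1 ha; obtain ⟨a, ha, rfl⟩ := ha
    replace hb := List.mem_map.1 hb; obtain ⟨b, hb, rfl⟩ := hb
    exact (h.comm (k a ha) (k b hb)).2 (p.2.2.2.1 a ha b hb)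

theorem mem_map {l : List G} (k : ∀ a ∈ l, a ∈ K) {a : G} (ha : a ∈ K) (e : F a ∈ l.map F) : a ∈ l := by
  obtain ⟨b, hb, e⟩ := List.mem_map.1 e
  exact h.inj _ (k b hb) _ ha e ▸ hb

end LH

open Classical in
/-- extension of a map on a subgroup -/
noncomputable def ext1 {K : Subgroup G} (f : K → H) (y : G) : H := if h : y ∈ K then f ⟨y, h⟩ else 1

theorem ext1_eq {K : Subgroup G} (f : K → H) {y : G} (h : y ∈ K) : ext1 f y = f ⟨y, h⟩ := dif_pos h

theorem lh_ext {K : Subgroup G} {D : Set G} {E : Set H} (f : K →* H) (hf : Function.Injective f)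
    (m : ∀ a : K, f a ∈ E ↔ a.1 ∈ D) : LH K D E (ext1 f) :=
  ⟨fun a ha b hb => by rw [ext1_eq f ha, ext1_eq f hb, ext1_eq f (K.mul_mem ha hb), ← map_mul]; rfl,
    fun a ha b hb e => by rw [ext1_eq f ha, ext1_eq f hb] at e; exact congrArg Subtype.val (hf e),
    fun a ha => by rw [ext1_eq f ha, m]⟩

/-- the properties of a model used in the global step -/
structure Gm (E : Set H) : Prop where
  inv : ∀ y : H, y * y = 1 → ∃ z ∈ E, Commute z y
  u2 : ∀ j l l', PF E 2 j l → PF E 2 j l' → ∀ a ∈ l', a ∈ l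
  c2 : ∀ j l, PF E 2 j l → ∀ z ∈ E, Commute z j → ∀ a ∈ l, Commute z a
  six : ∀ a ∈ E, ∀ b ∈ E, a ≠ b → Commute a b → Six E {a, b} a
  f3 : ∀ j l, PF E 3 j l → ∃ l' : List H, l'.length = 3 ∧ ∀ s, PF E 3 j s → (∀ x ∈ s, x ∈ l) ∨ ∀ x ∈ s, x ∈ l'

theorem Gm.gd {S : Set G} {v k lam : ℕ} (h : Gm (sub S)) (p : Pr S) (hv : S.ncard = v)
    (hk : ∀ x ∈ S, (Dd S x).ncard = k) (hl : ∀ x ∈ S, ∀ y ∈ Dd S x, (Dd (Dd S x) y).ncard = lam) : Gd v k lam S := by
  have a : LH (Subgroup.closure S) S (sub S) (ext1 (MonoidHom.id _)) := lh_ext _ (fun _ _ => id) fun _ => .rfl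
  set F := ext1 (MonoidHom.id (Subgroup.closure S))
  have m : ∀ {n j l}, PF S n j l → ∀ x ∈ l, x ∈ Subgroup.closure S := fun p x hx =>
    Subgroup.subset_closure (p.2.2.1 x hx)
  refine ⟨p.fs.set, fun y hy e => ?_, p.cn.tr, fun g hg x hx => p.fs.conj hg hx, fun j l l' p1 p2 x hx => ?_,
    fun j l p1 z hz c x hx => ?_, fun x hx y hy n c => ?_, fun j l p1 => ?_, hv, hk, hl⟩
  · obtain ⟨z, hz, c⟩ := h.inv ⟨y, hy⟩ (Subtype.ext e)
    exact ⟨z, hz, congrArg Subtype.val c⟩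
  · exact a.mem_map (m p1) (m p2 x hx) (h.u2 _ _ _ (a.pf p1 (m p1)) (a.pf p2 (m p2)) _ (List.mem_map_of_mem hx))
  · have z1 := Subgroup.subset_closure hz
    exact (a.comm z1 (m p1 x hx)).1 (h.c2 _ _ (a.pf p1 (m p1)) _ ((a.mem z z1).2 hz) ((a.comm z1
      (p1.2.2.2.2 ▸ Subgroup.list_prod_mem _ (m p1))).2 c) _ (List.mem_map_of_mem hx))
  · obtain ⟨s, s1, s2, s3⟩ := h.six ⟨x, Subgroup.subset_closure hx⟩ hx ⟨y, Subgroup.subset_closure hy⟩ hy
      (fun e => n (congrArg Subtype.val e)) (Subtype.ext c)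
    refine ⟨s.map Subtype.val, by simpa using s1, fun z hz => ?_, by
      simpa using congrArg Subtype.val s3⟩
    replace hz := List.mem_map.1 hz; obtain ⟨z, hz, rfl⟩ := hz
    obtain ⟨t1, ⟨t2, t3⟩, t4⟩ := s2 z hz
    refine ⟨mem_cz.2 ?_, ⟨t2, fun q => t3 ?_⟩, congrArg Subtype.val t4⟩
    · rintro _ (rfl | rfl)
      exacts [congrArg Subtype.val (mem_cz.1 t1 _ (.inl rfl)), congrArg Subtype.val (mem_cz.1 t1 _ (.inr rfl))]
    · exact q.imp Subtype.ext Subtype.ext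
  · obtain ⟨l', e, k⟩ := h.f3 _ _ (a.pf p1 (m p1))
    refine ⟨l'.map Subtype.val, by simpa using e, fun s p2 => (k _ (a.pf p2 (m p2))).imp
      (fun q x hx => a.mem_map (m p1) (m p2 x hx) (q _ (List.mem_map_of_mem hx))) fun q x hx =>
        List.mem_map.2 ⟨_, q _ (List.mem_map_of_mem hx), congrArg Subtype.val (ext1_eq _ (m p2 x hx))⟩⟩

/-- domination of the relations -/
def HD (n : ℕ) (E : Set H) : Prop := ∀ f pre e xs d, pre.length = n → xs.length = 4 →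
  PF E (n + 6) 1 (f :: (pre ++ e :: xs)) → d ∈ E → Commute d f → (∀ a ∈ pre, Commute d a) → ¬ Commute d e →
    ∃ x ∈ xs, Commute d x

/-- the rules obeyed by the set of common neighbours -/
structure Rl (n : ℕ) (E : Set H) (o : H) (W : Set H) : Prop where
  sub : W ⊆ Dd E o
  cl : ∀ x ∈ W, ∀ y ∈ W, x * y * x⁻¹ ∈ W
  dom : ∀ f pre xs, pre.length = n → xs.length = 4 → PF E (n + 6) 1 (f :: (pre ++ o :: xs)) → f ∈ W →
    (∀ a ∈ pre, a ∈ W) → ∃ x ∈ xs, x ∈ W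
  full : ∀ m f as ys, ys.length = 3 → PF E m 1 (f :: (as ++ ys)) → (∀ y ∈ ys, Commute y o) → f ∈ W →
    (∀ a ∈ as, a ∈ W) → ∀ y ∈ ys, y ∈ W
  nb : ∀ f ∈ W, ∃ f' ∈ W, f ≠ f' ∧ Commute f f'

structure Mod (n : ℕ) (E : Set H) (o : H) : Prop where
  prim : Prim E
  mem : o ∈ E
  gen : Subgroup.closure (Dd E o) = Subgroup.centralizer {o}
  cen : ∀ z, Commute z o → (∀ y ∈ Dd E o, Commute z y) → z = 1 ∨ z = o
  pr : Pr (Dd E o)
  hd : HD n E
  lw : ∀ W, Rl n E o W → W.Nonempty → ∀ g ∈ Dd E o, ∃ w ∈ W, Commute w g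

structure Lc (D : Set G) (x : G) (E : Set H) (o : H) (F : G → H) (F' : H → G) : Prop where
  a : LH (Subgroup.centralizer {x}) D E F
  b : LH (Subgroup.centralizer {o}) E D F'
  pt : F x = o
  l : ∀ y, Commute y x → Commute (F y) o ∧ F' (F y) = y
  r : ∀ y, Commute y o → Commute (F' y) x ∧ F (F' y) = y

theorem mc {x y : G} (h : Commute y x) : y ∈ Subgroup.centralizer {x} := Subgroup.mem_centralizer_singleton_iff.2 h
theorem cm {x y : G} (h : y ∈ Subgroup.centralizer {x}) : Commute y x := Subgroup.mem_centralizer_singleton_iff.1 h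

theorem lc_of {D : Set G} {x : G} {E : Set H} {o : H} (f : Subgroup.centralizer {x} ≃* Subgroup.centralizer {o})
    (h1 : (f ⟨x, mc (Commute.refl x)⟩).1 = o) (h2 : ∀ y : Subgroup.centralizer {x}, y.1 ∈ D ↔ (f y).1 ∈ E) :
    ∃ F F', Lc D x E o F F' :=
  ⟨_, _, lh_ext ((Subgroup.subtype _).comp f.toMonoidHom) (Subtype.val_injective.comp f.injective) fun a => (h2 a).symm,
    lh_ext ((Subgroup.subtype _).comp f.symm.toMonoidHom) (Subtype.val_injective.comp f.symm.injective)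
      fun a => by simpa using h2 (f.symm a),
    (ext1_eq _ _).trans h1, fun y hy => by
      rw [ext1_eq _ (mc hy)]
      exact ⟨cm (f _).2, (ext1_eq _ (f _).2).trans (by simp)⟩, fun y hy => by
      rw [ext1_eq _ (mc hy)]
      exact ⟨cm (f.symm _).2, (ext1_eq _ (f.symm _).2).trans (by simp)⟩⟩

namespace Lc
variable {D : Set G} {x : G} {E : Set H} {o : H} {F : G → H} {F' : H → G} (h : Lc D x E o F F')
include h

theorem pt' : F' o = x := h.pt ▸ (h.l x (Commute.refl x)).2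

theorem symm : Lc E o D x F' F := ⟨h.b, h.a, h.pt', h.r, h.l⟩

theorem dd {y : G} (hy : y ∈ Dd D x) : F y ∈ Dd E o :=
  ⟨(h.a.mem y (mc hy.2.2.symm)).2 hy.1, fun e => hy.2.1 (h.a.inj _ (mc hy.2.2.symm) _ (mc (Commute.refl x))
    (e.trans h.pt.symm)), (h.l y hy.2.2.symm).1.symm⟩

theorem cj (g : G) (hc : ∀ g, ∀ y ∈ D, g * y * g⁻¹ ∈ D) :
    Lc D (g * x * g⁻¹) E o (fun y => F (g⁻¹ * y * g⁻¹⁻¹)) (fun y => g * F' y * g⁻¹) := by
  have k : ∀ {y}, Commute y (g * x * g⁻¹) → Commute (g⁻¹ * y * g⁻¹⁻¹) x := fun c =>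
    ((commute_conj_left _ _ _).1 c.symm).symm
  have m : ∀ (g y : G), g * y * g⁻¹ ∈ D ↔ y ∈ D := fun g y =>
    ⟨fun q => by simpa [mul_assoc] using hc g⁻¹ _ q, hc g y⟩
  refine ⟨⟨fun a ha b hb => ?_, fun a ha b hb e => conj_inj.1 (h.a.inj _ (mc (k (cm ha))) _ (mc (k (cm hb))) e),
    fun a ha => (h.a.mem _ (mc (k (cm ha)))).trans (m _ _)⟩, ⟨fun a ha b hb => ?_,
    fun a ha b hb e => h.b.inj _ ha _ hb (conj_inj.1 e), fun a ha => (m _ _).trans (h.b.mem _ ha)⟩,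
    by simpa [mul_assoc] using h.pt, fun y hy => ⟨(h.l _ (k hy)).1, by rw [(h.l _ (k hy)).2]; group⟩,
    fun y hy => ⟨(commute_conj_iff _ _ _).2 (h.r y hy).1, by simpa [mul_assoc] using (h.r y hy).2⟩⟩
  · rw [← h.a.mul _ (mc (k (cm ha))) _ (mc (k (cm hb)))]; congr 1; group
  · rw [h.b.mul _ ha _ hb]; group

variable {n : ℕ} (M : Mod n E o)
include M

theorem sq {y : G} (hy : y ∈ D) (c : Commute y x) : y * y = 1 :=
  h.a.inj _ (mc (c.mul_left c)) _ (Subgroup.one_mem _) (by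
    rw [h.a.mul _ (mc c) _ (mc c), h.a.one, Tr3Basic.sq M.prim.set ((h.a.mem _ (mc c)).2 hy)])

theorem ne_one {y : G} (hy : y ∈ D) (c : Commute y x) : y ≠ 1 := fun e =>
  Tr3Basic.ne_one M.prim.set ((h.a.mem _ (mc c)).2 hy) (e ▸ h.a.one)

theorem l3 {a b : G} (ha : a ∈ D) (hb : b ∈ D) (c : Commute a x) (c' : Commute b x) :
    (a * b) ^ 2 = 1 ∨ (a * b) ^ 3 = 1 := by
  have k : ∀ i, (F a * F b) ^ i = 1 → (a * b) ^ i = 1 := fun i e =>
    h.a.inj _ (mc ((c.mul_left c').pow_left i)) _ (Subgroup.one_mem _) (by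
      rw [h.a.pow (mc (c.mul_left c')), h.a.mul _ (mc c) _ (mc c'), e, h.a.one])
  exact (M.prim.set.2 _ ((h.a.mem _ (mc c)).2 ha) _ ((h.a.mem _ (mc c')).2 hb)).imp (k 2) (k 3)

theorem c3 {m : ℕ} (hm : m ≤ 3) {y z : G} {l : List G} (p : PF D m y l) (k : ∀ a ∈ l, Commute a x) (hz : z ∈ D)
    (c : Commute z x) (e : Commute z y) : ∀ a ∈ l, Commute z a := fun a ha =>
  (h.a.comm (mc c) (mc (k a ha))).1 (((h.a.pf p fun a ha => mc (k a ha)).commute_iff M.prim hm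
    ((h.a.mem _ (mc c)).2 hz)).1 ((h.a.comm (mc c) (p.2.2.2.2 ▸ Subgroup.list_prod_mem _ fun a ha => mc (k a ha))).2 e) _
      (List.mem_map_of_mem ha))

theorem dom {pre xs : List G} {e d : G} (h1 : pre.length = n) (h2 : xs.length = 4)
    (p : PF D (n + 6) 1 (x :: (pre ++ e :: xs))) (hd : d ∈ D) (c : Commute d x) (c1 : ∀ a ∈ pre, Commute d a)
    (c2 : ¬ Commute d e) : ∃ y ∈ xs, Commute d y := by
  have k : ∀ a ∈ x :: (pre ++ e :: xs), a ∈ Subgroup.centralizer {x} := fun a ha => mc (p.2.2.2.1 a ha x (by simp))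
  have q := h.a.pf p k
  rw [h.a.one, List.map_cons, List.map_append, List.map_cons] at q
  obtain ⟨y, hy, c3⟩ := M.hd _ _ _ _ (F d) (by simpa) (by simpa) q ((h.a.mem _ (mc c)).2 hd) (h.pt ▸ (h.l d c).1)
    (fun a ha => by
      replace ha := List.mem_map.1 ha; obtain ⟨a, ha, rfl⟩ := ha
      exact (h.a.comm (mc c) (k a (by simp [ha]))).2 (c1 a ha)) fun q => c2 ((h.a.comm (mc c) (k e (by simp))).1 q)
  replace hy := List.mem_map.1 hy; obtain ⟨y, hy, rfl⟩ := hy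
  exact ⟨y, hy, (h.a.comm (mc c) (k y (by simp [hy]))).1 c3⟩

theorem fiso : FIso (Dd E o) (Dd D x) F' :=
  ⟨⟨fun y hy => h.symm.dd hy, fun a ha b hb => h.b.inj _ (mc ha.2.2.symm) _ (mc hb.2.2.symm),
    fun y hy => ⟨_, h.dd hy, (h.l y hy.2.2.symm).2⟩⟩, fun a ha b hb => M.pr.fs.cl hb ha,
    fun a ha b hb => h.b.conj (mc hb.2.2.symm) (mc ha.2.2.symm), fun a ha => Tr3Basic.sq M.prim.set ha.1,
    fun a ha => h.sq M ha.1 ha.2.2.symm⟩

theorem pr : Pr (Dd D x) := M.pr.fiso (h.fiso M)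

theorem gen {g : G} (c : Commute g x) : g ∈ Subgroup.closure (Dd D x) := by
  have : ∀ y ∈ Subgroup.closure (Dd E o), F' y ∈ Subgroup.closure (Dd D x) := fun y hy => by
    induction hy using Subgroup.closure_induction with
    | mem y hy => exact Subgroup.subset_closure (h.symm.dd hy)
    | one => rw [h.b.one]; exact Subgroup.one_mem _
    | mul a b ha hb i j => rw [h.b.mul _ (M.gen ▸ ha) _ (M.gen ▸ hb)]; exact Subgroup.mul_mem _ i j
    | inv a ha i => rw [h.b.inv (M.gen ▸ ha)]; exact Subgroup.inv_mem _ i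
  exact (h.l g c).2 ▸ this _ (M.gen ▸ mc (h.l g c).1)

theorem cen {z : G} (c : Commute z x) (k : ∀ y ∈ Dd D x, Commute z y) : z = 1 ∨ z = x :=
  (M.cen (F z) (h.l z c).1 fun y hy => (h.r y hy.2.2.symm).2 ▸ (h.a.comm (mc c) (mc (h.r y hy.2.2.symm).1)).2
    (k _ (h.symm.dd hy))).imp (fun e => h.a.inj _ (mc c) _ (Subgroup.one_mem _) (e.trans h.a.one.symm))
      fun e => h.a.inj _ (mc c) _ (mc (Commute.refl x)) (e.trans h.pt.symm)

theorem n2 [Finite H] {b : G} (hx : x ∈ D) (hb : b ∈ D) (nb : x ≠ b) (c : Commute x b) : x * b ∉ D := fun q => by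
  have c1 : Commute x (x * b) := (Commute.refl x).mul_right c
  have x2 := h.sq M hx (Commute.refl x)
  have p := pf3 hx hb q nb (fun e => h.ne_one M hb c.symm (by simpa using e))
    (fun e => h.ne_one M hx (Commute.refl x) (by simpa using e)) c c1 (c.symm.mul_right (Commute.refl b))
  rw [h.sq M q c1.symm] at p
  have p' := h.a.pf p (by simp [mc c.symm, mc c1.symm, mc (Commute.refl x)])
  rw [h.a.one] at p'
  exact absurd (nr_four M.prim 3 _ (by omega) p') (by omega)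

end Lc

structure Lo (n : ℕ) (D : Set G) (E : Set H) (o : H) : Prop where
  cj : ∀ g, ∀ x ∈ D, g * x * g⁻¹ ∈ D
  md : Mod n E o
  lc : ∀ x ∈ D, ∃ F F', Lc D x E o F F'

/-- the points at distance at most two -/
def Nb (D : Set G) (x : G) : Set G := {y | y ∈ D ∧ ∃ f ∈ D, Commute f x ∧ Commute f y}

namespace Lo
variable [Finite G] [Finite H] {n : ℕ} {D : Set G} {E : Set H} {o : H} (h : Lo n D E o)
include h

theorem sq {x : G} (hx : x ∈ D) : x * x = 1 := by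
  obtain ⟨F, F', l⟩ := h.lc x hx
  exact l.sq h.md hx (Commute.refl x)

theorem pr {x : G} (hx : x ∈ D) : Pr (Dd D x) := by
  obtain ⟨F, F', l⟩ := h.lc x hx
  exact l.pr h.md

theorem diam {d e g : G} (hd : d ∈ D) (he : e ∈ Nb D d) (hg : g ∈ D) (c : Commute e g) : g ∈ Nb D d := by
  obtain ⟨he, f, hf, c1, c2⟩ := he
  by_cases de : Commute d e
  · exact ⟨hg, e, he, de.symm, c⟩
  by_cases eg : g = e
  · exact ⟨hg, f, hf, c1, eg ▸ c2⟩
  obtain ⟨F, F', l⟩ := h.lc e he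
  have fe : f ∈ Dd D e := ⟨hf, fun q => de (q ▸ c1.symm), c2.symm⟩
  obtain ⟨w, hw, cw⟩ := h.md.lw {y | y ∈ Dd E o ∧ Commute d (F' y)} ⟨fun _ => And.left, fun x hx y hy =>
    ⟨h.md.pr.fs.cl hx.1 hy.1, by
      rw [l.b.conj (mc hx.1.2.2.symm) (mc hy.1.2.2.symm)]
      exact (hx.2.mul_right hy.2).mul_right hx.2.inv_right⟩, fun f pre xs h1 h2 p hf hp => by
      have k : ∀ a ∈ f :: (pre ++ o :: xs), a ∈ Subgroup.centralizer {o} := fun a ha => mc (p.2.2.2.1 a ha o (by simp))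
      have q := l.b.pf p k
      rw [l.b.one, List.map_cons, List.map_append, List.map_cons, l.pt'] at q
      obtain ⟨F1, F2, l'⟩ := h.lc _ (l.symm.dd hf.1).1
      obtain ⟨y, hy, c3⟩ := l'.dom h.md (by simpa) (by simpa) q hd hf.2 (fun a ha => by
        replace ha := List.mem_map.1 ha; obtain ⟨a, ha, rfl⟩ := ha
        exact (hp a ha).2) de
      replace hy := List.mem_map.1 hy; obtain ⟨y, hy, rfl⟩ := hy
      refine ⟨y, hy, ⟨p.2.2.1 y (by simp [hy]), fun q => ?_, (cm (k y (by simp [hy]))).symm⟩, c3⟩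
      exact de (by rwa [q, l.pt'] at c3),
    fun m f as ys h1 p cy hf ha y hy => by
      have k : ∀ a ∈ f :: (as ++ ys), a ∈ Subgroup.centralizer {o} := fun a ha' => mc (by
        rcases List.mem_cons.1 ha' with rfl | ha'
        · exact hf.1.2.2.symm
        · exact (List.mem_append.1 ha').elim (fun q => (ha a q).1.2.2.symm) (cy a))
      have q := l.b.pf p k
      rw [l.b.one, List.map_cons, List.map_append] at q
      obtain ⟨F1, F2, l'⟩ := h.lc _ (l.symm.dd hf.1).1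
      have q3 : PF D 3 _ (ys.map F') := ⟨(List.nodup_append.1 (List.nodup_cons.1 q.1).2).2.1, by simpa,
        fun a ha => q.2.2.1 a (by simp only [List.mem_cons, List.mem_append, ha, or_true]), fun a ha b hb =>
          q.2.2.2.1 a (by simp only [List.mem_cons, List.mem_append, ha, or_true]) b
            (by simp only [List.mem_cons, List.mem_append, hb, or_true]), rfl⟩
      have c3 := l'.c3 h.md le_rfl q3 (fun a ha => q.2.2.2.1 a
        (by simp only [List.mem_cons, List.mem_append, ha, or_true]) _ (by simp)) hd hf.2 (by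
          have := q.2.2.2.2
          rw [List.prod_cons, List.prod_append, ← mul_assoc, mul_eq_one_iff_inv_eq] at this
          rw [← this]
          exact (hf.2.mul_right (Commute.list_prod_right _ _ fun a ha' => by
            replace ha' := List.mem_map.1 ha'; obtain ⟨a, ha', rfl⟩ := ha'
            exact (ha a ha').2)).inv_right) _ (List.mem_map_of_mem hy)
      exact ⟨⟨p.2.2.1 y (by simp [hy]), fun q => de (by rwa [q, l.pt'] at c3), (cy y hy).symm⟩, c3⟩,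
    fun f hf => by
      have f1 := l.symm.dd hf.1
      obtain ⟨y, hy⟩ := (h.pr f1.1).mm_nonempty (a := d) (b := e) ⟨hd, fun q => de (q ▸ f1.2.2.symm), hf.2.symm⟩
        (Dd.symm he f1) de
      obtain ⟨y1, y2, y3⟩ := (mem_mm de).1 hy
      have y4 := l.l y y3.symm
      exact ⟨F y, ⟨l.dd ⟨y1.1, fun q => de (q ▸ y2), y3⟩, y4.2.symm ▸ y2⟩, fun q => y1.2.1 (by rw [q, y4.2]),
        (l.b.comm (mc hf.1.2.2.symm) (mc y4.1)).1 (y4.2.symm ▸ y1.2.2)⟩⟩
    ⟨F f, l.dd fe, (l.l f c2).2.symm ▸ c1.symm⟩ (F g) (l.dd ⟨hg, eg, c⟩)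
  refine ⟨hg, F' w, (l.symm.dd hw.1).1, hw.2.symm, ?_⟩
  rw [← (l.l g c.symm).2]
  exact (l.b.comm (mc hw.1.2.2.symm) (mc (l.l g c.symm).1)).2 cw

theorem self {x : G} (hx : x ∈ D) : x ∈ Nb D x := ⟨hx, x, hx, .refl x, .refl x⟩

theorem trans {x y z : G} (hx : x ∈ D) (hy : y ∈ Nb D x) (hz : z ∈ Nb D y) : z ∈ Nb D x := by
  obtain ⟨hz, f, hf, c1, c2⟩ := hz
  exact h.diam hx (h.diam hx hy hf c1.symm) hz c2

theorem symm {x y : G} (hx : x ∈ D) (hy : y ∈ Nb D x) : x ∈ Nb D y := by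
  obtain ⟨-, f, hf, c1, c2⟩ := hy
  exact ⟨hx, f, hf, c2, c1⟩

theorem eq {x y : G} (hx : x ∈ D) (hy : y ∈ Nb D x) : Nb D y = Nb D x :=
  Set.ext fun z => ⟨h.trans hx hy, h.trans hy.1 (h.symm hx hy)⟩

theorem dd {x y : G} (hx : x ∈ D) (hy : y ∈ Nb D x) : Dd (Nb D x) y = Dd D y :=
  Set.ext fun z => ⟨fun q => ⟨q.1.1, q.2⟩, fun q => ⟨h.diam hx hy q.1 q.2.2, q.2⟩⟩

theorem common {x y z : G} (hx : x ∈ D) (hy : y ∈ Nb D x) (hz : z ∈ Nb D x) :
    ∃ f ∈ D, y ∈ Dd D f ∧ z ∈ Dd D f := by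
  obtain ⟨-, f, hf, c1, c2⟩ := h.trans hy.1 (h.symm hx hy) hz
  by_cases c : Commute y z
  · by_cases e : y = z
    · obtain ⟨w, hw⟩ := (h.pr hy.1).pair
      exact ⟨w, hw.1.1, Dd.symm hy.1 hw.1, e ▸ Dd.symm hy.1 hw.1⟩
    · obtain ⟨w, hw⟩ := (h.pr hy.1).nb (x := z) ⟨hz.1, Ne.symm e, c⟩
      exact ⟨w, hw.1.1, Dd.symm hy.1 hw.1, hz.1, hw.2.1.symm, hw.2.2.symm⟩
  · exact ⟨f, hf, ⟨hy.1, fun q => c (q ▸ c2), c1⟩, hz.1, fun q => c (q ▸ c1).symm, c2⟩

theorem prN {x : G} (hx : x ∈ D) : Pr (Nb D x) := by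
  have s : ∀ {y z f}, y ∈ Nb D x → f ∈ D → y ∈ Dd D f → z ∈ Dd D f → z ∈ Nb D x := fun hy hf a b =>
    h.diam hx (h.diam hx hy hf a.2.2.symm) b.1 b.2.2
  have fs : FS (Nb D x) := ⟨⟨fun y hy => ?_, fun y hy z hz => ?_⟩, fun {y z} hy hz => ?_⟩
  rotate_left
  · obtain ⟨f, hf, a, -⟩ := h.common hx hy hy
    exact (h.pr hf).fs.set.1 y a
  · obtain ⟨f, hf, a, b⟩ := h.common hx hy hz
    exact (h.pr hf).fs.set.2 y a z b
  · obtain ⟨f, hf, a, b⟩ := h.common hx hy hz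
    exact s hy hf a ((h.pr hf).fs.cl a b)
  refine ⟨fs, fs.cn_of fun y hy z hz => ?_, fun y hy z hz r => ?_, fun y hy z hz r => ?_,
    fun P hP y hy z hz p => ?_, ?_⟩
  · obtain ⟨f, hf, a, b⟩ := h.common hx hy hz
    obtain ⟨w, hw, c⟩ := (h.pr hf).fs.common (h.pr hf).cn a b
    exact ⟨w, s hy hf a hw, c⟩
  · obtain ⟨f, hf, a, b⟩ := h.common hx hy hz
    exact (h.pr hf).vt y a z b fun w hw => r w (s hy hf a hw)
  · obtain ⟨f, hf, a, b⟩ := h.common hx hy hz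
    exact (h.pr hf).wt y a z b fun w hw => r w (s hy hf a hw)
  · obtain ⟨f, hf, a, b⟩ := h.common hx hy hz
    have m := h.diam hx hy hf a.2.2.symm
    exact hP f m z hz b.2.2 (hP y hy f m a.2.2.symm p)
  · obtain ⟨w, hw, -⟩ := (h.pr hx).pair
    exact ⟨w, h.diam hx (h.self hx) hw.1 hw.2.2, x, h.self hx, hw.2.1, hw.2.2.symm⟩

theorem cen {x z : G} (hx : x ∈ D) (k : ∀ y ∈ Nb D x, Commute z y) : z = 1 := by
  obtain ⟨F, F', l⟩ := h.lc x hx
  refine (l.cen h.md (k x (h.self hx)) fun y hy => k y (h.diam hx (h.self hx) hy.1 hy.2.2)).resolve_right fun e => ?_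
  obtain ⟨y, hy, c⟩ := (h.prN hx).cn.edge x (h.self hx)
  exact c (e ▸ k y hy)

theorem cen' {x : G} (hx : x ∈ D) : Subgroup.center (Subgroup.closure (Nb D x)) = ⊥ :=
  eq_bot_iff.2 fun z hz => Subtype.ext (h.cen hx fun y hy =>
    congrArg Subtype.val (Subgroup.mem_center_iff.1 hz ⟨y, Subgroup.subset_closure hy⟩).symm)

theorem glob {v k lam : ℕ} (g : ∀ x ∈ D, Gd v k lam (Nb D x)) : Glob v k lam D (Nb D) :=
  ⟨h.cj, fun x => h.self, fun x _ _ => And.left, fun x hx y => h.eq hx,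
    fun x hx y hy c => h.diam hx (h.self hx) hy c, g, fun x hx g c => by
      obtain ⟨F, F', l⟩ := h.lc x hx
      exact Subgroup.closure_mono (fun y hy => h.diam hx (h.self hx) hy.1 hy.2.2) (l.gen h.md c),
    fun a ha b hb n c => by
      obtain ⟨F, F', l⟩ := h.lc a ha
      exact l.n2 h.md ha hb n c⟩

theorem main {v k lam : ℕ} (g : ∀ x ∈ D, Gd v k lam (Nb D x)) (hv : 18 * lam < v) (hk : 0 < k) {d : G} (hd : d ∈ D)
    (e : D = conjugatesOf d) : Nb D d = D ∧ IsThreeTranspositionClass D ∧ Subgroup.center G = ⊥ := by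
  have G := h.glob g
  have a : Nb D d = D := Set.Subset.antisymm (fun _ => And.left) fun y hy => G.conn hv hk hd hy
  refine ⟨a, ⟨a ▸ (h.prN hd).fs.set, ⟨d, hd, e⟩, eq_top_iff.2 fun u _ => a ▸ G.mem hd (h.self hd) ?_⟩,
    eq_bot_iff.2 fun z hz => h.cen hd fun y _ => (Subgroup.mem_center_iff.1 hz y).symm⟩
  exact a.symm ▸ h.cj u d hd

end Lo

end CA.M2T
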