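import Cfsg.Agent.Lib.Spor.M22B
import Cfsg.Agent.Lib.Fi.FiT

/-! The local hypotheses in the models of `Fi₂₂` and `Fi₂₃`; recognition from the centraliser of a transposition. -/

set_option autoImplicit false
set_option linter.unusedVariables false
set_option linter.unusedSectionVars false
set_option maxRecDepth 100000
open Cfsg

namespace CA.M2T
open CA.Fi CA.Tr3Basic CA.Tr3Block CA.Tr3Prim CA.Tr3Rank CA.Tr3Iso CA.Tr3Ext CA.Fis CA.CNet CA.CWord CA.CLevel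
  CA.H27Pres CA.CForm CA.CForm.Form

inductive Ct
  | hit (a : ℕ)
  | cl (a b : ℕ) (w : Word) (t : Ct)
  | full (a : ℕ) (as : List ℕ) (ys : List Word) (t : Ct)
  | dom (a : ℕ) (pre : List ℕ) (xs : List Word) (t1 t2 t3 t4 : Ct)

noncomputable def rel (f : ℕ → ℕ → ℕ) (N d k : ℕ) (B : List ℕ) (ws : List Word) : Bool :=
  band (pfI f k (full N) ws) (eqI f B (prW d ws, []))

noncomputable def Ct.ok (f : ℕ → ℕ → ℕ) (N d k n : ℕ) (B : List ℕ) (wg w0 : Word) (t : Ct) : List Word → Bool :=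
  Ct.rec (motive := fun _ => List Word → Bool)
    (fun a L => Nat.ble (im f (lapp (winv wg) (nth L w0 a)) 0) k)
    (fun a b w _ ih L => band (Nat.beq (im f (lapp (trw d (nth L w0 a)) (nth L w0 b)) 0) (im f w 0)) (ih (w :: L)))
    (fun a as ys _ ih L => band (band (Nat.beq ys.length 3) (lall ys fun y => Nat.ble (im f y 0) k))
      (band (rel f N d k B (nth L w0 a :: lapp (lmap (nth L w0) as) ys)) (ih (lapp ys L))))
    (fun a pre xs _ _ _ _ i1 i2 i3 i4 L => band (band (band (Nat.beq pre.length n) (Nat.beq xs.length 4))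
      (rel f N d k B (nth L w0 a :: lapp (lmap (nth L w0) pre) ([] :: xs))))
      (band (band (i1 (nth xs [] 0 :: L)) (i2 (nth xs [] 1 :: L))) (band (i3 (nth xs [] 2 :: L)) (i4 (nth xs [] 3 :: L))))) t

section
variable {H : Type*} [Group H] {E : Set H} {C : Ctx} {d k : ℕ} (M : Model H E C d k)

theorem comm_w {f : ℕ → ℕ → ℕ} (hf : GoodG C.g f) {u v : Word} (h : Nat.ble (im f (lapp (winv u) v) 0) k = true) :
    Commute (M.t (M.p u)) (M.t (M.p v)) := by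
  rw [← M.p_im hf, Nat.ble_eq, ← M.nb] at h
  have := (commute_conj_iff (M.e u) _ _).2 h
  rwa [M.conj_t, M.conj_t, show C.ev u (M.p (lapp (winv u) v)) = M.p v by
    simp [Model.p, Ctx.ev, ev_lapp, ev_winv]] at this

theorem Ct.sound {f : ℕ → ℕ → ℕ} (hf : GoodG C.g f) {B : List ℕ} (hB : CSimple.IsBase (X C) B) {n : ℕ} {W : Set H}
    (R : Rl n E (M.t (M.p [])) W) {wg w0 : Word} (hn : ∀ w ∈ W, ¬ Commute w (M.t (M.p wg))) (h0 : M.t (M.p w0) ∈ W)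
    (t : Ct) : ∀ L, (∀ w ∈ L, M.t (M.p w) ∈ W) → t.ok f C.n d k n B wg w0 L = true → False := by
  have g : ∀ {L}, (∀ w ∈ L, M.t (M.p w) ∈ W) → ∀ a, M.t (M.p (nth L w0 a)) ∈ W := fun hL a =>
    (nth_mem_or _ w0 a).elim (hL _) fun e => e.symm ▸ h0
  have g' : ∀ {L}, (∀ w ∈ L, M.t (M.p w) ∈ W) → ∀ as, ∀ a ∈ (lmap (nth L w0) as).map fun w => M.t (M.p w), a ∈ W :=
    fun hL as => by simpa [lmap_eq] using fun a _ => g hL a
  induction t with
  | hit a => exact fun L hL h => hn _ (g hL a) (comm_w M hf h).symm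
  | cl a b w t ih =>
    intro L hL h
    obtain ⟨h1, h2⟩ := band_iff.1 h
    refine ih _ (List.forall_mem_cons.2 ⟨?_, hL⟩) h2
    have := R.cl _ (g hL a) _ (g hL b)
    rw [← M.e_trw, M.conj_t] at this
    rw [← M.p_im hf, ← M.p_im hf] at h1
    rwa [← Fin.ext (Nat.eq_of_beq_eq_true h1), show M.p (lapp _ _) = _ by
      simp only [Model.p, Ctx.ev, ev_lapp, Equiv.Perm.mul_apply]; rfl]
  | full a as ys t ih =>
    intro L hL h
    obtain ⟨h1, h2⟩ := band_iff.1 h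
    obtain ⟨h1, h3⟩ := band_iff.1 h1
    obtain ⟨h2, h4⟩ := band_iff.1 h2
    have p := M.pf hf hB _ _ h2
    rw [lapp_eq, List.map_cons, List.map_append] at p
    refine ih _ (fun w hw => (List.mem_append.1 (lapp_eq _ _ ▸ hw)).elim (fun q => ?_) (hL w)) h4
    refine R.full _ _ _ _ (by simpa using Nat.eq_of_beq_eq_true h1) p (fun y hy => ?_) (g hL a) (g' hL as) _
      (List.mem_map_of_mem q)
    replace hy := List.mem_map.1 hy
    obtain ⟨y, hy, rfl⟩ := hy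
    exact (comm_w M hf (u := []) (lall_iff.1 h3 y hy)).symm
  | dom a pre xs t1 t2 t3 t4 i1 i2 i3 i4 =>
    intro L hL h
    simp only [Ct.ok, band_iff] at h
    obtain ⟨⟨⟨h1, h2⟩, h3⟩, ⟨k1, k2⟩, k3, k4⟩ := h
    have p := M.pf hf hB _ _ h3
    replace h1 := Nat.eq_of_beq_eq_true h1
    obtain ⟨x1, x2, x3, x4, rfl⟩ := List.length_eq_four.1 (Nat.eq_of_beq_eq_true h2)
    rw [lapp_eq, List.map_cons, List.map_append, List.map_cons,
      show List.length _ = n + 6 by simp [lmap_eq, h1]] at p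
    obtain ⟨x, hx, q⟩ := R.dom _ _ _ (by simp [lmap_eq, h1]) rfl p (g hL a) (g' hL pre)
    simp only [List.map_cons, List.map_nil, List.mem_cons, List.not_mem_nil, or_false] at hx
    rcases hx with rfl | rfl | rfl | rfl
    exacts [i1 _ (List.forall_mem_cons.2 ⟨q, hL⟩) k1, i2 _ (List.forall_mem_cons.2 ⟨q, hL⟩) k2,
      i3 _ (List.forall_mem_cons.2 ⟨q, hL⟩) k3, i4 _ (List.forall_mem_cons.2 ⟨q, hL⟩) k4]

theorem recenter2 {ws : List Word} {s : List ℕ} {T q : ℕ} {wg : Word}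
    (h : band (CWord.sub T (C.clo ws s (bit q))) (C.maps wg 0 q) = true) {i : Fin C.n} (hi : T.testBit i = true) :
    ∃ M' : Model H E C d k, M'.t (M'.p wg) = M.t i ∧ ∀ w q', band (C.maps w 0 q') (lall ws fun u => C.maps u q' q') = true →
      M'.t (M'.p w) = M.t (M.p w) := by
  obtain ⟨u, hu, j, hj, e⟩ := M.clo_spec (band_iff.1 h).1 hi
  obtain ⟨M', a, b⟩ := M.exists_cj u⁻¹
  have p : ∀ w, M'.p w = M.p w := fun w => by rw [Model.p, b]
  refine ⟨M', ?_, fun w q' k => ?_⟩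
  · rw [a, p, show M.p wg = j from Fin.ext ((M.p_val (band_iff.1 h).2).trans (by simpa [testBit_bit] using hj)), ← e]
    group
  · rw [a, p, conj_eq_iff_commute]
    exact (M.comm_H (band_iff.1 k).1 (band_iff.1 k).2 u hu).inv_left

theorem cen_of {o : H} (h : Subgroup.closure (Dd E o) = Subgroup.centralizer {o}) (h2 : o * o = 1)
    (hc : Subgroup.center (Subgroup.centralizer {o}) = (Subgroup.zpowers o).subgroupOf _) (z : H) (c : Commute z o)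
    (k : ∀ y ∈ Dd E o, Commute z y) : z = 1 ∨ z = o := by
  obtain ⟨i, e⟩ := hc.le (Subgroup.mem_center_iff.2 fun y : Subgroup.centralizer {o} => Subtype.ext
    (comm_closure (x := z) (mem_cz.2 k) (h.ge y.2)).symm : ⟨z, mc c⟩ ∈ _)
  have e : o ^ i = z := e
  rcases Int.even_or_odd' i with ⟨j, rfl | rfl⟩
  · exact .inl (by rw [← e, zpow_mul, zpow_two, h2, one_zpow])
  · exact .inr (by rw [← e, zpow_add_one, zpow_mul, zpow_two, h2, one_zpow, one_mul])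

theorem split3 (h : IsThreeTranspositionSet E) {m : ℕ} {l s : List H} (p : PF E m 1 (l ++ s)) :
    PF E l.length l.prod l ∧ PF E s.length l.prod s ∧ ∀ a ∈ l, a ∉ s := by
  have q := List.nodup_append.1 p.1
  have a : PF E s.length _ s := ⟨q.2.1, rfl, fun a ha => p.2.2.1 a (by simp [ha]),
    fun a ha b hb => p.2.2.2.1 a (by simp [ha]) b (by simp [hb]), rfl⟩
  refine ⟨⟨q.1, rfl, fun a ha => p.2.2.1 a (by simp [ha]), fun a ha b hb => p.2.2.2.1 a (by simp [ha]) b (by simp [hb]),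
    rfl⟩, ?_, fun a ha hb => q.2.2 a ha a hb rfl⟩
  rwa [mul_right_cancel ((List.prod_append.symm.trans p.2.2.2.2).trans (a.sq h).symm)]

end

noncomputable def ct22 : Ct :=
  (.dom 0 [] [[16,8,10,2,26,4,2],[16,12,10,2,26,4,2],[26,10,12,8,10,26,16,12,10,2,26,4,2],[26,16,10,26,14,16,12,8,10,2,26,4,2]] (.hit 0) (.dom 0 []
  [[14,16,26,16,12,10,2,26,4,2],[10,26,14,16,12,10,2,26,4,2],[16,26,14,16,10,26,16,12,10,2,26,4,2],[26,16,10,26,12,10,2,26,4,2]] (.dom 1 []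
  [[14,16,14,6,8,10,26,16,12,10,2,26,4,2],[4,6,14,16,10,26,12,10,2,26,4,2],[6,8,10,26,16,12,8,10,2,26,4,2],[2,26,6,14,16,12,10,26,2]] (.cl 1 0 [6,14,16,2,26,10,12,8,10,26,4,0,2] (.cl 0 4
  [8,6,14,16,10,12,8,10,2,26,4,2] (.hit 0))) (.hit 0) (.cl 3 0 [4,6,8,10,26,16,12,8,10,2,26,4,2] (.hit 0)) (.cl 1 0 [12,10,4,2,26,6,4,2] (.hit 0))) (.hit 0) (.full 2 [0,1]
  [[12,8,10,26,16,12,8,10,2,26,4,2],[16,12,10,26,16,10,2,26,4,2],[14,16,10,12,8,10,2,26,4,2]] (.dom 2 []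
  [[26,16,8,10,26,14,16,12,8,10,2,26,4,2],[12,10,26,16,12,8,10,2,26,4,2],[8,10,26,14,16,12,10,2,26,4,2],[26,16,10,26,14,16,10,12,8,10,2,26,4,2]] (.full 6 [0,3]
  [[8,10,26,16,10,2,26,4,2],[8,10,2,26,4,2],[16,10,26,16,12,8,10,2,26,4,2]] (.hit 1)) (.hit 0) (.cl 1 0 [26,16,2,26,0,2] (.hit 0)) (.cl 2 0 [26,16,10,12,8,10,2,26,4,2] (.hit 0)))) (.full 2 [0,1]
  [[10,26,16,12,8,10,2,26,4,2],[12,8,10,2,26,4,2],[16,8,10,26,16,12,8,10,2,26,4,2]] (.hit 0))) (.dom 1 []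
  [[16,26,10,2,26,4,2],[16,26,12,8,10,2,26,4,2],[12,10,26,14,16,10,12,8,10,2,26,4,2],[8,10,26,14,16,10,12,8,10,2,26,4,2]] (.full 2 [0,1]
  [[16,8,10,2,26,0,2],[26,16,10,26,14,16,2,26,10,12,8,10,26,4,0,2],[16,6,8,10,26,12,10,8,6,2,4,0,2]] (.dom 0 []
  [[26,16,8,10,2,26,4,2],[12,10,26,14,16,12,8,10,2,26,4,2],[16,10,26,14,16,2,26,10,12,8,10,26,4,0,2],[14,16,10,12,8,10,2,26,0,2]] (.hit 0) (.cl 3 0 [10,26,16,8,10,2,26,4,2] (.hit 0)) (.cl 2 0
  [2,26,0,2] (.hit 0)) (.full 6 [0,1] [[16,26,16,12,8,10,2,26,4,2],[26,16,12,10,2,26,4,2],[10,2,26,0,2]] (.hit 0)))) (.hit 0) (.full 2 [0,1]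
  [[12,10,26,14,16,2,26,10,12,8,10,26,4,0,2],[26,16,14,2,4,6,8,10,26,16,12,8,10,26,0,2],[16,2,26,10,12,8,10,26,2]] (.dom 2 []
  [[26,12,10,2,26,16,12,6,8,10,26,2],[16,6,14,2,4,6,8,10,26,16,12,8,10,26,0,2],[16,4,2,26,14,16,12,10,26,2],[2,26,16,12,10,26,2]] (.full 3 [0,2]
  [[12,10,4,2,26,16,8,10,26,2],[10,26,16,12,10,4,2,26,6,4,2],[14,16,26,6,14,16,10,26,12,10,2,26,4,2]] (.hit 1)) (.cl 1 0 [26,16,12,10,4,2,26,6,4,2] (.hit 0)) (.cl 4 0
  [4,6,8,10,26,14,16,12,8,10,2,26,4,2] (.hit 0)) (.hit 0))) (.full 2 [0,1] [[26,10,2,26,0,2],[16,12,10,2,26,0,2],[26,14,16,2,26,0,2]] (.hit 0))) (.dom 1 []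
  [[10,26,14,16,8,10,2,26,4,2],[16,12,10,26,16,10,2,26,4,2],[16,8,10,26,16,12,8,10,2,26,4,2],[10,26,14,16,12,10,2,26,4,2]] (.full 2 [0,1]
  [[12,8,10,26,16,12,8,10,2,26,4,2],[12,8,10,2,26,4,2],[14,16,2,26,4,2]] (.hit 1)) (.full 2 [0,1] [[14,16,26,16,12,10,2,26,4,2],[26,16,8,10,26,14,16,10,12,8,10,2,26,4,2],[26,16,10,26,12,10,2,26,4,2]]
  (.dom 0 [] [[14,16,26,10,2,26,4,2],[8,10,26,14,16,12,8,10,2,26,4,2],[12,8,10,26,14,16,10,12,8,10,2,26,4,2],[10,26,8,10,2,26,4,2]] (.cl 3 0 [10,26,16,2,26,10,12,8,10,26,4,0,2] (.hit 0)) (.cl 2 0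
  [16,2,26,0,2] (.hit 0)) (.full 6 [0,1] [[16,26,16,12,8,10,2,26,4,2],[12,10,26,16,10,12,8,10,2,26,4,2],[16,26,14,16,10,12,8,10,2,26,4,2]] (.hit 0)) (.hit 0))) (.full 2 [0,1]
  [[10,26,16,10,2,26,4,2],[10,2,26,4,2],[14,16,10,12,8,10,2,26,4,2]] (.dom 1 []
  [[26,16,14,12,6,8,10,26,16,12,10,2,26,4,2],[14,6,8,10,2,26,0,2],[2,26,16,0,2,26,10,8,6,14,16,12,8,10,26,0,2],[10,12,6,8,10,2,26,0,2]] (.cl 3 0 [2,26,16,10,26,2] (.hit 0)) (.hit 0) (.full 2 [0,1]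
  [[12,10,2,26,16,12,6,8,10,26,2],[10,8,6,14,16,2,26,0,2],[10,12,4,6,8,10,26,16,12,10,2,26,4,2]] (.hit 1)) (.cl 4 0 [4,2,26,14,16,6,8,10,26,2] (.hit 0)))) (.hit 0)))
theorem ok22' : ct22.ok f22 C22.n 0 693 0 B22 [4,6,2,4,0,2] [2,0,4,2] [[2,0,4,2]] = true := by decide +kernel

noncomputable def ct23 : Ct :=
  (.dom 0 [1] [[26,14,16,10,26,12,18,24,10,12,18],[18,16,12,10,26,8,10,12,18],[18,16,12,10,26,6,14,4,6,8,10,12,18],[18,16,12,10,8,6,14,4,6,8,10,12,18]] (.hit 0) (.dom 1 [2]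
  [[10,12,18,24,8,10,12,18],[18,24,12,18],[2,26,16,14,6,8,10,26,16,2,26,18,24,10,12,18],[2,26,18,16,14,12,6,8,10,26,16,2,26,10,12,18]] (.hit 0) (.hit 0) (.full 3 [0,1,2]
  [[10,12,18,24,16,6,14,4,6,8,10,12,18],[16,10,26,18,24,6,14,4,6,8,10,12,18],[26,18,14,16,12,10,8,6,14,4,6,8,10,12,18]] (.hit 1)) (.full 3 [0,1,2]
  [[16,10,26,12,18,24,8,6,14,4,6,8,10,12,18],[18,24,16,10,8,6,14,4,6,8,10,12,18],[26,18,14,16,12,10,26,6,14,4,6,8,10,12,18]] (.hit 0))) (.hit 0) (.dom 0 [2]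
  [[14,16,2,26,12,18,24,6,8,10,12,18],[18,24,12,18,10,12,8,10,26,16,2,26,6,8,10,12,18],[0,2,26,12,18,24,14,6,8,10,12,18],[12,18,10,12,8,10,26,6,14,16,0,2,26,10,12,18]] (.cl 2 0
  [14,16,0,2,26,12,18,24,6,8,10,12,18] (.hit 0)) (.hit 0) (.hit 0) (.cl 2 0 [12,18,10,12,8,10,26,6,14,16,2,26,10,12,18] (.hit 0))))
theorem ok23' : ct23.ok f23 C23.n 12 3510 1 B23 [26,10,2,26,12,18,24,10,12,18] wa23 [wa23, wc23] = true := by
  decide +kernel

variable {H : Type*} [Group H] {E : Set H}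

theorem lw22 (M : M22 H E) {o : H} (ho : o ∈ E) (W : Set H) (R : Rl 0 E o W) (hW : W.Nonempty) :
    ∀ g ∈ Dd E o, ∃ w ∈ W, Commute w g := fun g hg => by
  by_contra! hn
  obtain ⟨f, hf⟩ := hW
  have f1 := R.sub hf
  obtain ⟨M, e⟩ := M.recenterL ((top22 M).2.2 2 (by omega)) (pf22c M) (pf2 ho f1.1 f1.2.1.symm f1.2.2)
  obtain ⟨rfl, rfl⟩ : M.t (M.p []) = o ∧ M.t (M.p [2,0,4,2]) = f := by simpa using e
  obtain ⟨i, rfl⟩ := M.exists_t hg.1
  obtain ⟨M', a, b⟩ := recenter2 M (ws := hs21) (s := [0,2,8,4,10,12,6,4,10,2,8,6,4,12,14,4,10,12,6,4])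
    (T := mdf (ival 1 693) (Nm C22 693 [2,0,4,2])) (q := 535) (wg := [4,6,2,4,0,2]) (by decide +kernel) (i := i)
    ((testBit_mdf _ _ _).2 ⟨(M.msk_Dd0 i).1 hg, Bool.eq_false_iff.2 fun q => hn _ hf ((M.testBit_Nm _ _).1 q)⟩)
  rw [← b [] 0 (by decide +kernel)] at R
  rw [← b _ 1 (by decide +kernel)] at hf
  exact Ct.sound M' good22 base22 R (a ▸ hn) hf _ _ (by simpa using hf) ok22'

theorem lw23 (M : M23 H E) {o : H} (ho : o ∈ E) (W : Set H) (R : Rl 1 E o W) (hW : W.Nonempty) :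
    ∀ g ∈ Dd E o, ∃ w ∈ W, Commute w g := fun g hg => by
  by_contra! hn
  obtain ⟨f, hf⟩ := hW
  obtain ⟨f', hf', nf, c⟩ := R.nb f hf
  have f1 := R.sub hf
  have f2 := R.sub hf'
  obtain ⟨M, e⟩ := M.recenterL ((top23 M).2.2 3 (by omega)) (pf23c M)
    (pf3 ho f1.1 f2.1 f1.2.1.symm f2.2.1.symm nf f1.2.2 f2.2.2 c)
  obtain ⟨rfl, rfl, rfl⟩ : M.t (M.p []) = o ∧ M.t (M.p wa23) = f ∧ M.t (M.p wc23) = f' := by simpa using e
  obtain ⟨i, rfl⟩ := M.exists_t hg.1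
  obtain ⟨M', a, b⟩ := recenter2 M (ws := lapp hs21 [[0]])
    (s := [0,12,16,4,10,2,6,8,12,4,10,12,2,6,14,10,4,12,6,8,2,4,6,14])
    (T := mdf (mdf (ival 1 3510) (Nm C23 3510 wa23)) (Nm C23 3510 wc23)) (q := 3289)
    (wg := [26,10,2,26,12,18,24,10,12,18]) (by decide +kernel) (i := i)
    ((testBit_mdf _ _ _).2 ⟨(testBit_mdf _ _ _).2 ⟨(M.msk_Dd0 i).1 hg,
      Bool.eq_false_iff.2 fun q => hn _ hf ((M.testBit_Nm _ _).1 q)⟩,
      Bool.eq_false_iff.2 fun q => hn _ hf' ((M.testBit_Nm _ _).1 q)⟩)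
  rw [← b [] 0 (by decide +kernel)] at R
  rw [← b _ 1 (by decide +kernel)] at hf
  rw [← b _ 2 (by decide +kernel)] at hf'
  exact Ct.sound M' good23 base23 R (a ▸ hn) hf _ _ (by simpa using ⟨hf, hf'⟩) ok23'

theorem hd22 (M : M22 H E) : HD 0 E := fun f pre e xs d h1 h2 p hd c _ c2 => by
  obtain rfl := List.length_eq_zero_iff.1 h1
  obtain ⟨x1, x2, x3, x4, rfl⟩ := List.length_eq_four.1 h2
  obtain ⟨p1, p2, p3⟩ := split3 M.prim.set (l := [f, e, x1]) (s := [x2, x3, x4]) p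
  obtain ⟨M, e⟩ := M.recenterL ((top22 M).2.2 3 le_rfl) (pf22e M) p1
  obtain ⟨l', -, q2, q3⟩ := hex22 M p1
  have q4 := pf22h M
  rw [← (pf22e M).2.2.2.2, e] at q4
  have q5 := (q3 _ p2).resolve_left fun q => p3 x2 ((q _).1 (by simp)) (by simp)
  have q6 := (q3 _ q4).resolve_left fun q => by
    have h6 := M.pf' good22 M.msk_full (ws := [[], [2,0,4,2], [6,4,2,0,8,6,4,2]] ++ [[10,12,26,2,0,10,26,2]])
      (by decide +kernel)
    rw [List.map_append, e] at h6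
    exact (List.nodup_append.1 h6.1).2.2 _ ((q _).1 (.head _)) _ (.head _) rfl
  obtain ⟨rfl, rfl, rfl⟩ : M.t (M.p []) = f ∧ M.t (M.p [2,0,4,2]) = _ ∧ M.t (M.p [6,4,2,0,8,6,4,2]) = x1 := by
    simpa using e
  obtain ⟨i, rfl⟩ := M.exists_t hd
  have := sub_spec (A := Nm C22 693 []) (B := Nat.lor (Nm C22 693 [2,0,4,2]) (Nat.lor (Nm C22 693 [6,4,2,0,8,6,4,2])
    (Nat.lor (Nm C22 693 [10,12,26,2,0,10,26,2]) (Nat.lor (Nm C22 693 [2,0,26,16,14,6,8,10,12,26,10,16,26,2])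
      (Nm C22 693 [2,4,26,16,14,6,8,10,12,26,10,16,26,2]))))) (by decide +kernel) ((M.testBit_Nm _ i).2 c.symm)
  simp only [Nat.lor_eq, Nat.testBit_or, Bool.or_eq_true, M.testBit_Nm] at this
  rcases this with r | r | r | r | r
  exacts [(c2 r.symm).elim, ⟨_, by simp, r.symm⟩, ⟨_, .tail _ ((q5 _).2 ((q6 _).1 (by simp))), r.symm⟩,
    ⟨_, .tail _ ((q5 _).2 ((q6 _).1 (by simp))), r.symm⟩, ⟨_, .tail _ ((q5 _).2 ((q6 _).1 (by simp))), r.symm⟩]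

theorem hd23 (M : M23 H E) : HD 1 E := fun f pre e xs d h1 h2 p hd c c1 c2 => by
  obtain ⟨f', rfl⟩ := List.length_eq_one_iff.1 h1
  obtain ⟨x1, x2, x3, x4, rfl⟩ := List.length_eq_four.1 h2
  obtain ⟨p1, p2, -⟩ := split3 M.prim.set (l := [f, f', e, x1]) (s := [x2, x3, x4]) p
  obtain ⟨M, e⟩ := M.recenterL ((top23 M).2.2 4 le_rfl) (pf23e M) p1
  have q4 := M.pf good23 base23 [[18,24,12,18], [2,26,16,14,6,8,10,26,16,2,26,18,24,10,12,18],
    [2,26,18,16,14,12,6,8,10,26,16,2,26,10,12,18]] [24,0,4,8] (by decide +kernel)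
  rw [← (pf23e M).2.2.2.2, e] at q4
  have q5 := p2.hu M.prim (top23 M).2.1 le_rfl le_rfl _ q4
  obtain ⟨rfl, rfl, rfl, rfl⟩ : M.t (M.p []) = f ∧ M.t (M.p wa23) = f' ∧ M.t (M.p wc23) = _ ∧ M.t (M.p we23) = x1 := by
    simpa using e
  obtain ⟨i, rfl⟩ := M.exists_t hd
  have := sub_spec (A := Nat.land (Nm C23 3510 []) (Nm C23 3510 wa23)) (B := Nat.lor (Nm C23 3510 wc23)
    (Nat.lor (Nm C23 3510 we23) (Nat.lor (Nm C23 3510 [18,24,12,18])
    (Nat.lor (Nm C23 3510 [2,26,16,14,6,8,10,26,16,2,26,18,24,10,12,18])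
      (Nm C23 3510 [2,26,18,16,14,12,6,8,10,26,16,2,26,10,12,18]))))) (by decide +kernel) (i := i) (by
      simp only [Nat.land_eq, Nat.testBit_and, Bool.and_eq_true, M.testBit_Nm]
      exact ⟨c.symm, (c1 _ (by simp)).symm⟩)
  simp only [Nat.lor_eq, Nat.testBit_or, Bool.or_eq_true, M.testBit_Nm] at this
  rcases this with r | r | r | r | r
  exacts [(c2 r.symm).elim, ⟨_, by simp, r.symm⟩, ⟨_, .tail _ (q5 _ (by simp)), r.symm⟩,
    ⟨_, .tail _ (q5 _ (by simp)), r.symm⟩, ⟨_, .tail _ (q5 _ (by simp)), r.symm⟩]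

def hp22 : List Word := [[2,26,4,2], [10,26,8,10,2,26,4,2], [6,14,4,6,2,4,0,2], [10,26,12,10,2,26,4,2],
  [10,12,8,10,2,26,4,2], [2,26,10,12,8,10,26,2]]
theorem six22 (M : M22 H E) {a b : H} (ha : a ∈ E) (hb : b ∈ E) (hab : a ≠ b) (h : Commute a b) : Six E {a, b} a := by
  obtain ⟨M, e⟩ := M.recenterL ((top22 M).2.2 2 (by omega)) (pf22c M) (pf2 ha hb hab h)
  obtain ⟨rfl, rfl⟩ : M.t (M.p []) = a ∧ M.t (M.p [2,0,4,2]) = b := by simpa using e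
  have h1 := M.pf' good22 M.msk_full (ws := [[], [2,0,4,2]] ++ hp22) (by decide +kernel)
  have h2 := M.pf good22 base22 hp22 [0] (by decide +kernel)
  rw [List.map_append] at h1
  refine ⟨_, h2.2.1, fun y hy => ⟨mem_cz.2 fun s hs => h1.2.2.2.1 _ (List.mem_append_right _ hy) _
    (List.mem_append_left _ (by simpa using hs)), ⟨h2.2.2.1 y hy, fun hs => (List.nodup_append.1 h1.1).2.2 y
    (by simpa using hs) y hy rfl⟩, sq M.prim.set (h2.2.2.1 y hy)⟩, h2.2.2.2.2.trans ?_⟩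
  rw [M.t_p]; simp [Model.e, ev_cons, ev_nil, lv_even (g := M.γ) 0]

theorem inv_of (hP : Prim E) (h : ∀ x : H, x * x = 1 → ∃ m ≤ 3, ∃ l, PF E m x l) (y : H) (e : y * y = 1) :
    ∃ z ∈ E, Commute z y := by
  obtain ⟨m, -, l, p⟩ := h y e
  cases l with
  | nil => obtain ⟨a, ha, -⟩ := hP.pair; exact ⟨a, ha, p.2.2.2.2 ▸ Commute.one_right a⟩
  | cons a l => exact ⟨a, p.2.2.1 a (by simp), p.comm (p.2.2.2.1 a (by simp))⟩

theorem gm22 (M : M22 H E) : Gm E :=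
  ⟨inv_of M.prim (inv22 M), fun j l l' p => p.hu M.prim (top22 M).2.1 (by omega) (by omega) l',
    fun j l p z hz => (p.commute_iff M.prim (by omega) hz).1, fun a ha b hb => six22 M ha hb, fun j l p =>
      (hex22 M p).imp fun l' q => ⟨q.1.2.1, fun s r => (q.2.2 s r).imp (fun a x => (a x).1) fun a x => (a x).1⟩⟩

theorem gm23 (M : M23 H E) : Gm E :=
  ⟨inv_of M.prim (inv23 M), fun j l l' p => p.hu M.prim (top23 M).2.1 (by omega) (by omega) l',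
    fun j l p z hz => (p.commute_iff M.prim (by omega) hz).1, fun a ha b hb => six23 M ha hb, fun j l p =>
      ⟨l, p.2.1, fun s r => .inl (p.hu M.prim (top23 M).2.1 le_rfl le_rfl s r)⟩⟩

theorem fiso22 (M : M22 H E) {x : H} (hx : x ∈ E) {H' : Type*} [Group H'] {E' : Set H'} (M' : M21 H' E') :
    ∃ φ, FIso E' (Dd E x) φ := by
  obtain ⟨M, rfl⟩ := M.recenter hx
  obtain ⟨ψ, h⟩ := desc22 M M'
  exact ⟨_, h.fiso.symm⟩

theorem fiso23 (M : M23 H E) {x : H} (hx : x ∈ E) {H' : Type*} [Group H'] {E' : Set H'} (M' : M22 H' E') :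
    ∃ φ, FIso E' (Dd E x) φ := by
  obtain ⟨M, rfl⟩ := M.recenter hx
  obtain ⟨ψ, h⟩ := desc23 M M'
  exact ⟨_, h.fiso.symm⟩

theorem mod22 (M : M22 H E) {o : H} (ho : o ∈ E) : Mod 0 E o :=
  ⟨M.prim, ho, (loc22 M ho).1, cen_of (loc22 M ho).1 (sq M.prim.set ho) (loc22 M ho).2.2,
    (pr_of_prim model21.some.prim).fiso (fiso22 M ho model21.some).choose_spec, hd22 M, lw22 M ho⟩

theorem mod23 (M : M23 H E) {o : H} (ho : o ∈ E) : Mod 1 E o :=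
  ⟨M.prim, ho, (loc23 M ho).1, cen_of (loc23 M ho).1 (sq M.prim.set ho) (loc23 M ho).2.2,
    (pr_of_prim model22.some.prim).fiso (fiso23 M ho model22.some).choose_spec, hd23 M, lw23 M ho⟩

variable {F : Type} [Field F] [Fintype F] (hF : Fintype.card F = 2 ^ 2)

theorem isU21 (M : M21 H E) : IsU hF 6 E := by
  obtain ⟨S, τ, c⟩ := herm_model (hermStd_nondeg hF 6)
  have u : IsU hF 6 S := ⟨τ, c⟩
  obtain ⟨g, φ, hφ⟩ := u_bridge hF (by omega) c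
  have u' := u.fiso (by omega) hφ.symm
  have p := u'.pr (by omega)
  obtain ⟨e⟩ := FiU6.iso M F hF
  have := M.finite
  have : Finite (PSU 6 F 2) := Finite.of_equiv _ e.toEquiv
  have q := FIso.of_equiv e.symm (fun x hx y hy => p.fs.cl hy hx) fun x hx => sq p.fs.set hx
  rw [← uniq21 M (FiL.prim_map (p.prim' g.top) e.symm).cls]
  exact u'.fiso (by omega) q

theorem t22 (M : M22 H E) : T22 hF E :=
  ⟨pr_of_prim M.prim, fun x hx => (isU21 hF model21.some).fiso (by omega) (fiso22 M hx model21.some).choose_spec⟩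

variable {G : Type*} [Group G] [Finite G] {d : G}

theorem lo_of {n : ℕ} {o : H} (md : Mod n E o) (f : Subgroup.centralizer {d} ≃* Subgroup.centralizer {o})
    (h1 : (f ⟨d, mc (Commute.refl d)⟩).1 = o) (h2 : ∀ y : Subgroup.centralizer {d}, IsConj d y.1 ↔ (f y).1 ∈ E) :
    Lo n (conjugatesOf d) E o := by
  have c : ∀ g, ∀ x ∈ conjugatesOf d, g * x * g⁻¹ ∈ conjugatesOf d := fun g x hx =>
    IsConj.trans hx (isConj_iff.2 ⟨g, rfl⟩)
  obtain ⟨F, F', l⟩ := lc_of (D := conjugatesOf d) f h1 h2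
  refine ⟨c, md, fun x hx => ?_⟩
  obtain ⟨g, rfl⟩ := isConj_iff.1 hx
  exact ⟨_, _, l.cj g c⟩

theorem main22 (M : M22 H E) {o : H} (ho : o ∈ E) (f : Subgroup.centralizer {d} ≃* Subgroup.centralizer {o})
    (h1 : (f ⟨d, mc (Commute.refl d)⟩).1 = o) (h2 : ∀ y : Subgroup.centralizer {d}, IsConj d y.1 ↔ (f y).1 ∈ E) :
    IsThreeTranspositionClass (conjugatesOf d) ∧ IsOfTypeM22 G (conjugatesOf d) := by
  have := M.finite
  have h := lo_of (mod22 M ho) f h1 h2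
  obtain ⟨F, _, _, hF⟩ := f4_exists
  have t : ∀ x ∈ conjugatesOf d, T22 hF (Nb (conjugatesOf d) x) := fun x hx => ⟨h.prN hx, fun y hy => by
    obtain ⟨_, _, l⟩ := h.lc y hy.1
    exact h.dd hx hy ▸ ((t22 hF M).loc o ho).fiso (by omega) (l.fiso h.md)⟩
  obtain ⟨a, b, c⟩ := h.main (v := 3510) (k := 693) (lam := 180) (fun x hx => (gm22 (Fi.T22 (t x hx).pr.fs.sub_group
    (((t x hx).fiso (t x hx).pr.fs.fiso_val.symm).type (h.cen' hx))).some).gd (t x hx).pr (t x hx).card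
      (fun y => (t x hx).k) fun y hy z hz => by
        have := ((t x hx).loc y hy).ad hz
        have := ncard_split hz
        have := (t x hx).k hy
        have : us 6 = 2079 := by decide
        have : us (6 - 2) = 135 := by decide
        omega) (by omega) (by omega) (IsConj.refl d) rfl
  exact ⟨b, (a ▸ t d (IsConj.refl d)).type c⟩

theorem main23 (M : M23 H E) {o : H} (ho : o ∈ E) (f : Subgroup.centralizer {d} ≃* Subgroup.centralizer {o})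
    (h1 : (f ⟨d, mc (Commute.refl d)⟩).1 = o) (h2 : ∀ y : Subgroup.centralizer {d}, IsConj d y.1 ↔ (f y).1 ∈ E) :
    IsThreeTranspositionClass (conjugatesOf d) ∧ IsOfTypeM23 G (conjugatesOf d) := by
  have := M.finite
  have h := lo_of (mod23 M ho) f h1 h2
  obtain ⟨F, _, _, hF⟩ := f4_exists
  have t : ∀ x ∈ conjugatesOf d, T23 hF (Nb (conjugatesOf d) x) := fun x hx => ⟨h.prN hx, fun y hy => by
    obtain ⟨_, _, l⟩ := h.lc y hy.1
    exact h.dd hx hy ▸ ((t22 hF model22.some).fiso (fiso23 M ho model22.some).choose_spec).fiso (l.fiso h.md)⟩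
  obtain ⟨a, b, c⟩ := h.main (v := 31671) (k := 3510) (lam := 693) (fun x hx => (gm23 (Fi.T23'
    ((t x hx).pr.prim.cls) (T23.type (hF := hF) (((t x hx).fiso (t x hx).pr.fs.fiso_val.symm)) (h.cen' hx))).1.some).gd
      (t x hx).pr (t x hx).card (fun y hy => ((t x hx).loc y hy).card) fun y hy z hz => ((t x hx).loc y hy).k hz)
        (by omega) (by omega) (IsConj.refl d) rfl
  exact ⟨b, (a ▸ t d (IsConj.refl d)).type c⟩

end CA.M2T
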