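import Cfsg.Agent.Lib.Spor.M22C

/-! Fusion of an involution whose centraliser is that of a transposition of `Fi₂₂` or `Fi₂₃`. -/

set_option autoImplicit false
set_option linter.unusedVariables false
set_option linter.unusedSectionVars false
set_option maxRecDepth 100000
open Cfsg

namespace CA.M2T
open CA.Fi CA.Tr3Basic CA.Tr3Block CA.Tr3Prim CA.Tr3Rank CA.Tr3Iso CA.Tr3Ext CA.Fis CA.CNet CA.CWord CA.CLevel
  CA.H27Pres

/-- square of an element centralising `o` -/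
def Sq {H : Type*} [Group H] (o y : H) : Prop := ∃ w, Commute w o ∧ w * w = y

section
variable {H : Type*} [Group H] {E : Set H} {C : Ctx} {d k : ℕ} (M : Model H E C d k)

theorem e_prW (ws : List Word) : M.e (prW d ws) = (ws.map fun w => M.t (M.p w)).prod := by
  induction ws with
  | nil => rfl
  | cons w ws ih => exact (ev_lapp _ _ _).trans (by rw [List.map_cons, List.prod_cons, ← ih, ← M.e_trw]; rfl)

theorem fix_w {f : ℕ → ℕ → ℕ} (hf : GoodG C.g f) {u w : Word} (h : Nat.beq (im f u (im f w 0)) (im f w 0) = true) :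
    Commute (M.e u) (M.t (M.p w)) :=
  (M.commute_iff _ _).2 (Fin.ext (by rw [M.φ_im hf, M.p_im hf]; exact Nat.eq_of_beq_eq_true h))

include M in
theorem sq_w {f : ℕ → ℕ → ℕ} (hf : GoodG C.g f) {B : List ℕ} (hB : CSimple.IsBase (X C) B) (ε : Bool) (ws : List Word)
    (w : Word) (ht : TrL E (ws.length + 1)) (h : band (pfI f k (full C.n) ([] :: ws)) (band (eqI f B
      (prW d (cond ε ([] :: ws) ws), lapp w w)) (Nat.beq (im f w (im f [] 0)) (im f [] 0))) = true) {o y : H} {l : List H}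
    (p : PF E (ws.length + 1) y (o :: l)) : Sq o (cond ε (o * l.prod) l.prod) := by
  obtain ⟨h1, h2⟩ := band_iff.1 h
  obtain ⟨h2, h3⟩ := band_iff.1 h2
  obtain ⟨M, e⟩ := M.recenterL ht (M.pf' hf M.msk_full h1) p
  obtain ⟨rfl, rfl⟩ := List.cons_eq_cons.1 e
  refine ⟨M.e w, fix_w M hf h3, ?_⟩
  rw [← ev_lapp, ← Model.e, ← M.e_eq (hf.eq_of_Q hB (g_mem_X C) h2), e_prW]
  cases ε <;> rfl

theorem lift_cls {H' : Type*} [Group H'] {E' : Set H'} {C' : Ctx} {d' k' : ℕ} {M' : Model H' E' C' d' k'}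
    {hn : C'.n < C.n} {l : List ℕ} {ψ : Subgroup.centralizer {M.t M.o} →* H'} (h : Desc M M' hn l ψ)
    (hc : Nat.card (Subgroup.centralizer {M.t M.o}) = 2 * Nat.card H') {y : Subgroup.centralizer {M.t M.o}} {m : ℕ}
    (p : ∃ l', PF E' m (ψ y) l') :
    ∃ s, PF E (m + 1) (M.t M.o * s.prod) (M.t M.o :: s) ∧ (y.1 = s.prod ∨ y.1 = M.t M.o * s.prod) := by
  obtain ⟨l', p⟩ := p
  have q := p.map h.fiso.symm
  obtain ⟨hx, e⟩ := h.fn_prod q.2.2.1
  refine ⟨_, q.cons (M.t_mem _), h.eq_or hc (y := ⟨_, hx⟩) ?_⟩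
  rw [e, List.map_map, List.map_congr_left (f := h.fn ∘ Function.invFunOn h.fn _) (g := id)
    fun a ha => h.fiso.apply_symm (p.2.2.1 a ha), List.map_id,
    p.2.2.2.2]

theorem psi_sq {H' : Type*} [Group H'] {E' : Set H'} {C' : Ctx} {d' k' : ℕ} {M' : Model H' E' C' d' k'}
    {hn : C'.n < C.n} {l : List ℕ} {ψ : Subgroup.centralizer {M.t M.o} →* H'} (h : Desc M M' hn l ψ)
    {y : Subgroup.centralizer {M.t M.o}} (e : y.1 * y.1 = 1 ∨ y.1 * y.1 = M.t M.o) : ψ y * ψ y = 1 := by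
  rw [← map_mul]
  rcases e with e | e
  · rw [show y * y = 1 from Subtype.ext e, map_one]
  · rw [show y * y = ⟨_, mc (Commute.refl _)⟩ from Subtype.ext e, h.psi_o]

theorem pf_sq (hP : Prim E) {o y : H} {m : ℕ} {s : List H} (p : PF E (m + 1) (o * s.prod) (o :: s))
    (e : y = s.prod ∨ y = o * s.prod) : y * y = 1 := by
  rcases e with rfl | rfl
  exacts [(p.tail.mono fun _ => And.left).sq hP.set, p.sq hP.set]

end

variable {H : Type*} [Group H] {E : Set H}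

theorem sq22a (M : M22 H E) {o a : H} (ho : o ∈ E) (ha : a ∈ Dd E o) : Sq o (o * a) := by
  simpa using sq_w M good22 base22 true [[2,26,10,12,8,10,26,4,0,2]]
    [6,4,26,10,12,14,6,12,8,12,6,4,26,10,12,14,6,12,8,12,6,4,26,10,12,14,6,12,8,12]
    ((top22 M).2.2 _ (by decide)) (by decide +kernel) (pf2 ho ha.1 ha.2.1.symm ha.2.2)

theorem sq22b (M : M22 H E) {o y : H} {l : List H} (p : PF E 3 y (o :: l)) : Sq o l.prod ∧ Sq o (o * l.prod) :=
  ⟨sq_w M good22 base22 false [[6,2,4,0,2], [14,4,6,2,4,0,2]] [14,6,4] ((top22 M).2.2 _ le_rfl) (by decide +kernel) p,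
    sq_w M good22 base22 true [[6,14,4,6,2,4,0,2], [2,26,10,12,8,10,26,2]] [12,10,8,12,10,26] ((top22 M).2.2 _ le_rfl)
      (by decide +kernel) p⟩

theorem sq23b (M : M23 H E) {o y : H} {l : List H} (p : PF E 3 y (o :: l)) : Sq o l.prod ∧ Sq o (o * l.prod) :=
  ⟨sq_w M good23 base23 false [[16,10,26,12,18,24,10,12,18], [10,2,26,12,18,24,10,12,18]] [2,26,16]
    ((top23 M).2.2 _ (by decide)) (by decide +kernel) p,
    sq_w M good23 base23 true [[6,14,16,26,10,2,26,18,24,16,14,6,8,10,12,18],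
      [4,6,14,16,26,10,0,2,26,18,24,16,14,6,8,10,12,18]] [12,8,10,2,0,4] ((top23 M).2.2 _ (by decide))
      (by decide +kernel) p⟩

theorem sq23c (M : M23 H E) {o y : H} {l : List H} (p : PF E 4 y (o :: l)) : Sq o l.prod ∧ Sq o (o * l.prod) :=
  ⟨sq_w M good23 base23 false [[10,26,12,18,24,8,6,14,4,6,8,10,12,18], [10,12,18,24,2,4,6,8,10,12,18],
    [26,10,12,18,24,0,2,4,6,8,10,12,18]] [6,8,0,2,14,26] ((top23 M).2.2 _ le_rfl) (by decide +kernel) p,
    sq_w M good23 base23 true [[18,24,12,18], [18,12,10,2,26,14,6,8,10,12,18], [10,2,26,18,24,14,6,8,10,12,18]]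
      [6,8,0,2,14,26] ((top23 M).2.2 _ le_rfl) (by decide +kernel) p⟩

theorem cls23 (M : M23 H E) {y : H} (c : Commute y (M.t M.o)) (e : y * y = 1 ∨ y * y = M.t M.o) : y * y = 1 ∧
    (y = M.t M.o ∨ y ∈ Dd E (M.t M.o) ∨ M.t M.o * y ∈ Dd E (M.t M.o) ∨ Sq (M.t M.o) y) := by
  obtain ⟨M'⟩ := model22
  obtain ⟨ψ, h⟩ := desc23 M M'
  obtain ⟨m, hm, p⟩ := inv22 M' _ (psi_sq M h (y := ⟨y, mc c⟩) e)
  obtain ⟨s, p, q⟩ := lift_cls M h (hc23 M M') p
  dsimp only at q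
  refine ⟨pf_sq M.prim p q, ?_⟩
  interval_cases m
  · obtain rfl : s = [] := by simpa using p.2.1
    exact q.elim (fun q => .inr (.inr (.inr ⟨1, .one_left _, by simpa using q.symm⟩))) fun q => .inl (by simpa using q)
  · obtain ⟨a, rfl⟩ : ∃ a, s = [a] := List.length_eq_one_iff.1 (by simpa using p.2.1)
    have ha := p.tail.2.2.1 a (by simp)
    simp only [List.prod_singleton] at q
    rcases q with rfl | rfl
    · exact .inr (.inl ha)
    · exact .inr (.inr (.inl (by rwa [← mul_assoc, sq M.prim.set (M.t_mem _), one_mul])))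
  · exact .inr (.inr (.inr (q.elim (fun q => q ▸ (sq23b M p).1) fun q => q ▸ (sq23b M p).2)))
  · exact .inr (.inr (.inr (q.elim (fun q => q ▸ (sq23c M p).1) fun q => q ▸ (sq23c M p).2)))

theorem five22 (M : M22 H E) : PF E 5 (M.e [0,4,8,26,14])
    ([[], [2,0,4,2], [6,4,2,0,8,6,4,2], [2,26,0,2], [6,14,4,6,2,4,0,2]].map fun w => M.t (M.p w)) :=
  M.pf good22 base22 _ _ (by decide +kernel)

/-- the third class -/
noncomputable abbrev x22 (M : M22 H E) : H := M.t (M.p [2,0,4,2]) * (M.t (M.p [6,4,2,0,8,6,4,2]) * M.t (M.p [2,26,0,2]))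

theorem x22_eq (M : M22 H E) : M.e [4,8,26] = x22 M := by
  simpa using (M.pf good22 base22 [[2,0,4,2], [6,4,2,0,8,6,4,2], [2,26,0,2]] [4,8,26] (by decide +kernel)).2.2.2.2.symm

theorem x22_cj (M : M22 H E) : ∃ v, Commute v (M.t M.o) ∧ v * x22 M * v⁻¹ = M.t M.o * x22 M := by
  refine ⟨M.e [16,14,6,8,4,6,14,16,6,14,4,6], fix_w M good22 (w := []) (by decide +kernel), ?_⟩
  rw [← x22_eq, M.t0, ← ev_gen M.γ 0, ← ev_winv, ← ev_lapp, ← ev_lapp, ← ev_lapp]
  exact M.e_eq (good22.eq_of_Q base22 (g_mem_X _) (by decide +kernel))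

theorem cls22 (M : M22 H E) {y : H} (c : Commute y (M.t M.o)) (e : y * y = 1 ∨ y * y = M.t M.o) : y * y = 1 ∧
    (y = M.t M.o ∨ y ∈ Dd E (M.t M.o) ∨ Sq (M.t M.o) y ∨ ∃ u, Commute u (M.t M.o) ∧ u * x22 M * u⁻¹ = y) := by
  obtain ⟨M'⟩ := model21
  obtain ⟨ψ, h⟩ := desc22 M M'
  have o2 := sq M.prim.set (M.t_mem M.o)
  have k : ∀ m ≤ 2, (∃ l, PF _ m (ψ ⟨y, mc c⟩) l) →
      y * y = 1 ∧ (y = M.t M.o ∨ y ∈ Dd E (M.t M.o) ∨ Sq (M.t M.o) y) := fun m hm p => by
    obtain ⟨s, p, q⟩ := lift_cls M h (hc22 M M') p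
    dsimp only at q
    refine ⟨pf_sq M.prim p q, ?_⟩
    interval_cases m
    · obtain rfl : s = [] := by simpa using p.2.1
      exact q.elim (fun q => .inr (.inr ⟨1, .one_left _, by simpa using q.symm⟩)) fun q => .inl (by simpa using q)
    · obtain ⟨a, rfl⟩ : ∃ a, s = [a] := List.length_eq_one_iff.1 (by simpa using p.2.1)
      have ha := p.tail.2.2.1 a (by simp)
      simp only [List.prod_singleton] at q
      rcases q with rfl | rfl
      exacts [.inr (.inl ha), .inr (.inr (sq22a M (M.t_mem _) ha))]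
    · exact .inr (.inr (q.elim (fun q => q ▸ (sq22b M p).1) fun q => q ▸ (sq22b M p).2))
  have k' : ∀ m ≤ 2, (∃ l, PF _ m (ψ ⟨y, mc c⟩) l) → _ := fun m hm p =>
    (k m hm p).imp_right (Or.imp_right (Or.imp_right (Or.inl (b := ∃ u, Commute u (M.t M.o) ∧ u * x22 M * u⁻¹ = y))))
  rcases inv21 M' (x := ψ ⟨y, mc c⟩) (by rw [pow_two, psi_sq M h e]) with q | q | q | q
  · exact k' 0 (by omega) ⟨[], q ▸ pf_one⟩
  · exact k' 1 (by omega) (PF.of_isConj M'.prim ⟨_, pf21c M'⟩ q)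
  · exact k' 2 (by omega) (PF.of_isConj M'.prim ⟨_, pf21e M'⟩ q)
  obtain ⟨g, hg⟩ := isConj_iff.1 q
  obtain ⟨g, rfl⟩ := h.surj g
  have cx : Commute (M.e [4,8,26]) (M.t M.o) := fix_w M good22 (w := []) (by decide +kernel)
  have x2 : x22 M * x22 M = 1 := x22_eq M ▸
    (M.pf good22 base22 [[2,0,4,2], [6,4,2,0,8,6,4,2], [2,26,0,2]] [4,8,26] (by decide +kernel)).sq M.prim.set
  rw [← h.ee [4,8,26] (by decide +kernel) (mc cx), ← map_inv, ← map_mul, ← map_mul] at hg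
  have : ∃ u, Commute u (M.t M.o) ∧ u * x22 M * u⁻¹ = y := by
    rcases h.eq_or (hc22 M M') hg.symm with r | r
    · exact ⟨g, cm g.2, x22_eq M ▸ r.symm⟩
    · obtain ⟨v, v1, v2⟩ := x22_cj M
      refine ⟨g * v, (cm g.2).mul_left v1, ?_⟩
      rw [show y = _ from r, show g * v * x22 M * (g * v)⁻¹ = g * (v * x22 M * v⁻¹) * g⁻¹ by simp [mul_assoc], v2,
        ← mul_assoc, (cm g.2).eq, ← x22_eq]
      simp [mul_assoc]
  refine ⟨?_, .inr (.inr (.inr this))⟩
  obtain ⟨u, -, rfl⟩ := this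
  rw [conj_mul, x2]; simp

variable {G : Type*} [Group G] {d : G} {o : H} {F : G → H} {F' : H → G}

theorem lc_of' (f : Subgroup.centralizer {d} ≃* Subgroup.centralizer {o}) (h1 : (f ⟨d, mc (Commute.refl d)⟩).1 = o) :
    ∃ F F', Lc Set.univ d Set.univ o F F' ∧ ∀ y : Subgroup.centralizer {d}, F y = f y :=
  ⟨_, _, ⟨lh_ext ((Subgroup.subtype _).comp f.toMonoidHom) (Subtype.val_injective.comp f.injective) fun a => .rfl,
    lh_ext ((Subgroup.subtype _).comp f.symm.toMonoidHom) (Subtype.val_injective.comp f.symm.injective) fun a => .rfl,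
    (ext1_eq _ _).trans h1, fun y hy => by
      rw [ext1_eq _ (mc hy)]
      exact ⟨cm (f _).2, (ext1_eq _ (f _).2).trans (by simp)⟩, fun y hy => by
      rw [ext1_eq _ (mc hy)]
      exact ⟨cm (f.symm _).2, (ext1_eq _ (f.symm _).2).trans (by simp)⟩⟩, fun y => ext1_eq _ y.2⟩

section
variable (l : Lc Set.univ d Set.univ o F F') (hs : ∀ y, Commute y o → y * y ≠ o)
include l

theorem fus_cj {u y : H} (hu : Commute u o) (hy : Commute y o) : IsConj d (F' (u * y * u⁻¹)) ↔ IsConj d (F' y) := by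
  rw [l.b.conj (mc hu) (mc hy)]
  exact ⟨fun h => h.trans (isConj_iff.2 ⟨_, rfl⟩).symm, fun h => h.trans (isConj_iff.2 ⟨_, rfl⟩)⟩

theorem fus_mul {x y : H} (hx : Commute x o) (hy : Commute y o) : F' (x * y) = F' x * F' y := l.b.mul _ (mc hx) _ (mc hy)

theorem fus_ne {x y : H} (hx : Commute x o) (hy : Commute y o) (n : x ≠ y) : F' x ≠ F' y :=
  fun e => n (l.b.inj _ (mc hx) _ (mc hy) e)

include hs
theorem fus_sq {y : H} (h : Sq o y) : ¬ IsConj d (F' y) := fun q => by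
  obtain ⟨w, c, rfl⟩ := h
  obtain ⟨g, hg⟩ := isConj_iff.1 q.symm
  rw [fus_mul l c c, ← conj_mul] at hg
  have c' : Commute (g * F' w * g⁻¹) d := hg ▸ (Commute.refl _).mul_right (Commute.refl _)
  exact hs _ (l.l _ c').1 (by rw [← l.a.mul _ (mc c') _ (mc c'), hg, l.pt])

theorem fus_inv {y : G} (o2 : o * o = 1) (h : IsConj d y) (c : Commute y d) : F y * F y = 1 := by
  obtain ⟨g, rfl⟩ := isConj_iff.1 h
  rw [← l.a.mul _ (mc c) _ (mc c), conj_mul, ← l.pt', ← fus_mul l (.refl o) (.refl o), o2, l.b.one]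
  simpa using l.a.one

end

theorem move1 (h : ∀ y, IsConj d y → Commute y d → y ≠ d → IsConj d (d * y)) {x y : G} (hx : IsConj d x)
    (hy : IsConj d y) (c : Commute y x) (n : y ≠ x) : IsConj d (x * y) := by
  obtain ⟨g, rfl⟩ := isConj_iff.1 hx
  have := h (g⁻¹ * y * g⁻¹⁻¹) (hy.trans (isConj_iff.2 ⟨_, rfl⟩)) ((commute_conj_left _ _ _).1 c.symm).symm
    fun e => n (by rw [← e]; group)
  exact this.trans (isConj_iff.2 ⟨g, by group⟩)

theorem move2 (h : ∀ y z, IsConj d y → IsConj d z → Commute y d → Commute z d → Commute y z → y ≠ d → z ≠ d →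
    ¬ IsConj d (d * y) → ¬ IsConj d (d * z) → ¬ IsConj d (y * z)) {x y z : G} (hx : IsConj d x) (hy : IsConj d y)
    (hz : IsConj d z) (c1 : Commute y x) (c2 : Commute z x) (c3 : Commute y z) (n1 : y ≠ x) (n2 : z ≠ x)
    (k1 : ¬ IsConj d (x * y)) (k2 : ¬ IsConj d (x * z)) : ¬ IsConj d (y * z) := fun q => by
  obtain ⟨g, rfl⟩ := isConj_iff.1 hx
  exact h (g⁻¹ * y * g⁻¹⁻¹) (g⁻¹ * z * g⁻¹⁻¹) (hy.trans (isConj_iff.2 ⟨_, rfl⟩)) (hz.trans (isConj_iff.2 ⟨_, rfl⟩))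
    ((commute_conj_left _ _ _).1 c1.symm).symm ((commute_conj_left _ _ _).1 c2.symm).symm
    ((commute_conj_iff _ _ _).2 c3) (fun e => n1 (by rw [← e]; group)) (fun e => n2 (by rw [← e]; group))
    (fun e => k1 (e.trans (isConj_iff.2 ⟨g, by group⟩))) (fun e => k2 (e.trans (isConj_iff.2 ⟨g, by group⟩)))
    (q.trans (isConj_iff.2 ⟨g⁻¹, by group⟩))

theorem fus_dd [Finite H] (hP : Prim E) (ho : o ∈ E) (l : Lc Set.univ d Set.univ o F F') {a b : H} (ha : a ∈ Dd E o)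
    (hb : b ∈ Dd E o) : (IsConj d (F' a) ↔ IsConj d (F' b)) ∧ (IsConj d (F' (o * a)) ↔ IsConj d (F' (o * b))) := by
  obtain ⟨g, hg, rfl⟩ := trans_Dd hP ho ha hb
  have c : Commute g o := (comm_closure (x := o) (mem_cz.2 fun s hs => hs.2.2) hg).symm
  refine ⟨(fus_cj l c ha.2.2.symm).symm, ?_⟩
  rw [← fus_cj l c ((Commute.refl o).mul_left ha.2.2.symm), ← mul_assoc g, c.eq]; simp [mul_assoc]

theorem fus22 (M : M22 H E) (l : Lc Set.univ d Set.univ (M.t M.o) F F')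
    (hn : ∃ g : G, g * d * g⁻¹ ∈ Subgroup.centralizer {d} ∧ g * d * g⁻¹ ≠ d) {y : G} (c : Commute y d) :
    IsConj d y ↔ F y ∈ E := by
  have := M.finite
  have ho := M.t_mem M.o
  have o2 := sq M.prim.set ho
  have hs : ∀ y, Commute y (M.t M.o) → y * y ≠ M.t M.o := fun y c e =>
    ne_one M.prim.set ho (e.symm.trans (cls22 M c (.inr e)).1)
  have p := five22 M
  have u0 := fix_w M good22 (u := [16,26,14,16]) (w := []) (by decide +kernel)
  have u1 := fix_w M good22 (u := [16,26,14,16]) (w := [2,0,4,2]) (by decide +kernel)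
  have u2 := fix_w M good22 (u := [16,26,14,16]) (w := [6,4,2,0,8,6,4,2]) (by decide +kernel)
  have u3 : M.e [16,26,14,16] * M.t (M.p [2,26,0,2]) * (M.e [16,26,14,16])⁻¹ = M.t (M.p [6,14,4,6,2,4,0,2]) := by
    rw [M.conj_t]; congr 1; refine Fin.ext ?_
    rw [← M.φ_e, M.φ_im good22, M.p_im good22, M.p_im good22]; exact Nat.eq_of_beq_eq_true (by decide +kernel)
  obtain ⟨v, v1, v2⟩ := x22_cj M
  have cl := fun y (c : Commute y (M.t M.o)) e => (cls22 M c (.inl e)).2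
  simp only [List.map_cons, List.map_nil] at p
  change PF E 5 _ (M.t M.o :: _) at p
  change Commute _ (M.t M.o) at u0
  unfold x22 at v2 cl
  have sa := fun a => sq22a M ho (a := a)
  have sb := fun a b (ha : a ∈ Dd E (M.t M.o)) (hb : b ∈ Dd E (M.t M.o)) n c =>
    (sq22b M (pf3 ho ha.1 hb.1 ha.2.1.symm hb.2.1.symm n ha.2.2 hb.2.2 c)).1
  simp only [List.prod_cons, List.prod_nil, mul_one] at sb
  generalize M.e [16,26,14,16] = u at *
  generalize M.t (M.p [2,0,4,2]) = a at *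
  generalize M.t (M.p [6,4,2,0,8,6,4,2]) = e at *
  generalize M.t (M.p [2,26,0,2]) = n at *
  generalize M.t (M.p [6,14,4,6,2,4,0,2]) = h at *
  generalize M.t M.o = o at *
  have m := p.tail.2.2.1
  have pc := p.tail.2.2.2.1
  have nd := p.tail.1
  simp only [List.mem_cons, List.not_mem_nil, or_false, forall_eq_or_imp, forall_eq, List.nodup_cons, not_or] at m pc nd
  obtain ⟨ha, he, hn', hh⟩ := m
  obtain ⟨⟨-, ae, an, ah⟩, ⟨-, -, en, eh⟩, ⟨-, -, -, nh⟩, -⟩ := pc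
  have s := fun x (hx : x ∈ Dd E o) => sq M.prim.set hx.1
  have cx : Commute (a * (e * n)) o := ha.2.2.symm.mul_left (he.2.2.symm.mul_left hn'.2.2.symm)
  have cy : Commute (a * (e * h)) o := ha.2.2.symm.mul_left (he.2.2.symm.mul_left hh.2.2.symm)
  have cls : ∀ y, IsConj d y → Commute y d → y ≠ d →
      F y ∈ Dd E o ∨ ∃ u, Commute u o ∧ u * (a * (e * n)) * u⁻¹ = F y := fun y q c n => by
    rcases cl _ (l.l y c).1 (fus_inv l hs o2 q c) with r | r | r | r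
    · exact (n (by rw [← (l.l y c).2, r, l.pt'])).elim
    · exact .inl r
    · exact (fus_sq l hs r ((l.l y c).2.symm ▸ q)).elim
    · exact .inr r
  have nx : ¬ IsConj d (F' (a * (e * n))) := fun px => by
    have pox : IsConj d (F' (o * (a * (e * n)))) := v2 ▸ (fus_cj l v1 cx).2 px
    have k : ∀ y u, Commute y d → Commute u o → u * (a * (e * n)) * u⁻¹ = F y → IsConj d (d * y) := fun y u c c' r => by
      have := (fus_cj l c' ((Commute.refl o).mul_left cx)).2 pox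
      rwa [← mul_assoc u, c'.eq, mul_assoc o, mul_assoc o, r, fus_mul l (.refl o) (l.l y c).1, l.pt', (l.l y c).2] at this
    by_cases pa : IsConj d (F' a)
    · refine move2 (fun y z q1 q2 c1 c2 c3 n1 n2 k1 k2 q => ?_) pa px (IsConj.refl d) ((l.b.comm (mc cx)
        (mc ha.2.2.symm)).2 ((Commute.refl a).mul_left (ae.symm.mul_left an.symm))) (l.r a ha.2.2.symm).1.symm
        (l.r _ cx).1 (fus_ne l cx ha.2.2.symm fun q => nd.2.1.1 ?_) (l.pt' ▸ fus_ne l (.refl o) ha.2.2.symm ha.2.1.symm)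
        ?_ ?_ ?_
      · have y1 := (cls y q1 c1 n1).resolve_right fun ⟨u, c', r⟩ => k1 (k y u c1 c' r)
        have z1 := (cls z q2 c2 n2).resolve_right fun ⟨u, c', r⟩ => k2 (k z u c2 c' r)
        rw [← (l.l y c1).2, ← (l.l z c2).2, ← fus_mul l y1.2.2.symm z1.2.2.symm] at q
        refine fus_sq l hs ?_ q
        by_cases e : F y = F z
        · exact ⟨1, .one_left _, by rw [e, s _ z1, one_mul]⟩
        · exact sb _ _ y1 z1 e ((l.a.comm (mc c1) (mc c2)).2 c3)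
      · exact mul_left_cancel ((s e he).trans (by simpa using q : e * n = 1).symm)
      · rw [← fus_mul l ha.2.2.symm cx, ← mul_assoc, s a ha, one_mul]
        exact fus_sq l hs (sb _ _ he hn' nd.2.1.1 en)
      · rw [(l.r a ha.2.2.symm).1.eq, ← l.pt', ← fus_mul l (.refl o) ha.2.2.symm, l.pt']
        exact fus_sq l hs (sa a ha)
      · rwa [(l.r _ cx).1.eq, ← l.pt', ← fus_mul l (.refl o) cx, l.pt']
    · have e1 : u * (a * (e * n)) * u⁻¹ = a * (e * h) := by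
        rw [← u3, ← mul_assoc u, u1.eq, mul_assoc a u, ← mul_assoc u, u2.eq]; simp only [mul_assoc]
      have := move1 (fun y q c n => (cls y q c n).elim (fun r => (pa ((fus_dd M.prim ho l r ha).1.1
        ((l.l y c).2.symm ▸ q))).elim) fun ⟨u, c', r⟩ => k y u c c' r) px (e1 ▸ (fus_cj l u0 cx).2 px)
        ((l.b.comm (mc cy) (mc cx)).2 (((Commute.refl a).mul_right (ae.mul_right an)).mul_left
          ((ae.symm.mul_right ((Commute.refl e).mul_right en)).mul_left (ah.symm.mul_right (eh.symm.mul_right nh.symm)))))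
        (fus_ne l cy cx fun q => nd.2.2.1 (mul_left_cancel (mul_left_cancel q)).symm)
      rw [← fus_mul l cx cy, show a * (e * n) * (a * (e * h)) = n * h by
        rw [(ae.mul_right an).symm.mul_mul_mul_comm, en.symm.mul_mul_mul_comm, s a ha, s e he, one_mul, one_mul]] at this
      exact fus_sq l hs (sb _ _ hn' hh nd.2.2.1 nh) this
  have cls' : ∀ y, IsConj d y → Commute y d → y ≠ d → F y ∈ Dd E o := fun y q c n =>
    (cls y q c n).resolve_right fun ⟨u, c', r⟩ => nx ((fus_cj l c' cx).1 (by rwa [r, (l.l y c).2]))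
  by_cases yd : y = d
  · exact iff_of_true (yd ▸ IsConj.refl y) (yd ▸ l.pt ▸ ho)
  refine ⟨fun q => (cls' y q c yd).1, fun q => ?_⟩
  obtain ⟨g, g1, g2⟩ := hn
  have g3 : IsConj d (g * d * g⁻¹) := isConj_iff.2 ⟨g, rfl⟩
  have := (fus_dd M.prim ho l (cls' _ g3 (cm g1) g2) (b := F y) ⟨q, fun r => yd (by rw [← (l.l y c).2, r, l.pt']),
    (l.l y c).1.symm⟩).1.1 ((l.l _ (cm g1)).2.symm ▸ g3)
  rwa [(l.l y c).2] at this

theorem fus23 (M : M23 H E) (l : Lc Set.univ d Set.univ (M.t M.o) F F')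
    (hn : ∃ g : G, g * d * g⁻¹ ∈ Subgroup.centralizer {d} ∧ g * d * g⁻¹ ≠ d) :
    (∀ y, Commute y d → (IsConj d y ↔ F y ∈ E)) ∨
      ∀ y, Commute y d → (IsConj d y ↔ F y = M.t M.o ∨ M.t M.o * F y ∈ Dd E (M.t M.o)) := by
  have := M.finite
  have ho := M.t_mem M.o
  have o2 := sq M.prim.set ho
  have hs : ∀ y, Commute y (M.t M.o) → y * y ≠ M.t M.o := fun y c e =>
    ne_one M.prim.set ho (e.symm.trans (cls23 M c (.inr e)).1)
  have cl := fun y (c : Commute y (M.t M.o)) e => (cls23 M c (.inl e)).2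
  have sb := fun a b (ha : a ∈ Dd E (M.t M.o)) (hb : b ∈ Dd E (M.t M.o)) n c =>
    (sq23b M (pf3 ho ha.1 hb.1 ha.2.1.symm hb.2.1.symm n ha.2.2 hb.2.2 c)).1
  simp only [List.prod_cons, List.prod_nil, mul_one] at sb
  obtain ⟨a, ha, b, hb, ab, c⟩ := (mod23 M ho).pr.pair
  generalize M.t M.o = o at *
  have oo : ∀ y, o * (o * y) = y := fun y => by rw [← mul_assoc, o2, one_mul]
  have cls : ∀ y, IsConj d y → Commute y d → y ≠ d → F y ∈ Dd E o ∨ o * F y ∈ Dd E o := fun y q c n => by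
    rcases cl _ (l.l y c).1 (fus_inv l hs o2 q c) with r | r | r | r
    · exact (n (by rw [← (l.l y c).2, r, l.pt'])).elim
    · exact .inl r
    · exact .inr r
    · exact (fus_sq l hs r ((l.l y c).2.symm ▸ q)).elim
  have k1 : ∀ y, Commute y d → F y ∈ Dd E o → (IsConj d y ↔ IsConj d (F' a)) ∧ (IsConj d (d * y) ↔ IsConj d (F' (o * a))) :=
    fun y c r => by
      have := fus_dd M.prim ho l r ha
      rwa [fus_mul l (.refl o) (l.l y c).1, l.pt', (l.l y c).2] at this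
  have k2 : ∀ y, Commute y d → o * F y ∈ Dd E o →
      (IsConj d (d * y) ↔ IsConj d (F' a)) ∧ (IsConj d y ↔ IsConj d (F' (o * a))) := fun y c r => by
    have := fus_dd M.prim ho l r ha
    rwa [oo, fus_mul l (.refl o) (l.l y c).1, l.pt', (l.l y c).2] at this
  have yd : ∀ y, Commute y d → F y = o → y = d := fun y c r => by rw [← (l.l y c).2, r, l.pt']
  obtain ⟨g, g1, g2⟩ := hn
  have g3 : IsConj d (g * d * g⁻¹) := isConj_iff.2 ⟨g, rfl⟩
  by_cases pa : IsConj d (F' a)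
  · have po : ¬ IsConj d (F' (o * a)) := fun po => by
      have := move1 (fun y q c n => (cls y q c n).elim (fun r => (k1 y c r).2.2 po) fun r => (k2 y c r).1.2 pa) pa
        ((fus_dd M.prim ho l hb ha).1.2 pa) ((l.b.comm (mc hb.2.2.symm) (mc ha.2.2.symm)).2 c.symm)
        (fus_ne l hb.2.2.symm ha.2.2.symm ab.symm)
      rw [← fus_mul l ha.2.2.symm hb.2.2.symm] at this
      exact fus_sq l hs (sb _ _ ha hb ab c) this
    refine .inl fun y c => ?_
    by_cases e : y = d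
    · exact iff_of_true (e ▸ IsConj.refl y) (e ▸ l.pt ▸ ho)
    exact ⟨fun q => ((cls y q c e).resolve_right fun r => po ((k2 y c r).2.1 q)).1,
      fun q => (k1 y c ⟨q, fun r => e (yd y c r), (l.l y c).1.symm⟩).1.2 pa⟩
  · have po := (k2 _ (cm g1) ((cls _ g3 (cm g1) g2).resolve_left fun r => pa ((k1 _ (cm g1) r).1.1 g3))).2.1 g3
    refine .inr fun y c => ⟨fun q => ?_, fun q => q.elim (fun r => yd y c r ▸ IsConj.refl d) fun r => (k2 y c r).2.2 po⟩
    by_cases e : y = d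
    · exact .inl (e ▸ l.pt)
    · exact .inr ((cls y q c e).resolve_left fun r => pa ((k1 y c r).1.1 q))

theorem swap23 (M : M23 H E) {o : H} (ho : o ∈ E) : ∃ α : Subgroup.centralizer {o} ≃* Subgroup.centralizer {o},
    (α ⟨o, mc (.refl o)⟩).1 = o ∧ ∀ y, (α y).1 ∈ E ↔ y.1 = o ∨ o * y.1 ∈ Dd E o := by
  obtain ⟨N⟩ := model24
  have := N.finite
  have ha := N.t_mem N.o
  generalize N.t N.o = a at ha
  obtain ⟨χ, h⟩ := lo24 N M ha
  obtain ⟨b, ⟨hb, ba⟩, eb⟩ := h.bij.surjOn ho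
  have ab : Commute a b := (cm b.2).symm
  have a2 := sq N.prim.set ha
  have b2 := sq N.prim.set hb
  have nab : a ≠ b.1 := fun e => ba e.symm
  obtain ⟨g, hg⟩ := (top24 N).2.2 2 (by omega) _ _ _ _ (pf2 hb ha nab.symm ab.symm) (pf2 ha hb nab ab)
  obtain ⟨g1, g2⟩ : g * b * g⁻¹ = a ∧ g * a * g⁻¹ = b := by simpa using hg
  have nc := fun x hx => (mem24 N (a := x) hx).2
  have i2 := fun x y => Subgroup.mul_mem_iff_of_index_two (FiIdx.index24 N) (a := x) (b := y)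
  have ker : ∀ x, χ x = 1 ↔ x.1 = 1 ∨ x.1 = a := fun x => by
    rw [h.ker, ← Subgroup.zpowers_eq_closure]
    exact ⟨eq_of_mem_zpowers a2, fun q => q.elim (fun q => q ▸ Subgroup.one_mem _)
      fun q => by rw [q]; exact Subgroup.mem_zpowers _⟩
  have ka : χ ⟨a, mc (.refl a)⟩ = 1 := (ker _).2 (.inr rfl)
  let K := Subgroup.centralizer {a} ⊓ (Subgroup.centralizer {b.1} ⊓ commutator _)
  let θ : K →* Subgroup.centralizer {o} := (χ.comp (Subgroup.inclusion inf_le_left)).codRestrict _ fun x =>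
    mc (eb ▸ (h.comm_iff _ ⟨hb, ba⟩).2 (cm x.2.2.1))
  have k1 : ∀ x : K, (θ x).1 = 1 ↔ x.1 = 1 := fun x => (ker _).trans
    ⟨fun q => q.resolve_right fun q => nc a ha (q ▸ x.2.2.2 :), .inl⟩
  have tb : Function.Bijective θ := ⟨(injective_iff_map_eq_one θ).2 fun x e =>
    Subtype.ext ((k1 x).1 (congrArg Subtype.val e)), fun y => by
      obtain ⟨x, hx⟩ := h.surj y
      have c := (h.comm_iff x ⟨hb, ba⟩).1 (by rw [hx, eb]; exact cm y.2)
      rcases (mem24 N ha).1 x with q | q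
      · exact ⟨⟨x, x.2, mc c, q⟩, Subtype.ext hx⟩
      · refine ⟨⟨x * a, mc ((cm x.2).mul_left (.refl a)), mc (c.mul_left ab), q⟩, Subtype.ext ?_⟩
        exact (map_mul χ x ⟨a, mc (.refl a)⟩).trans (by rw [ka, mul_one, hx])⟩
  let κ : K →* K := ((MulAut.conj g).toMonoidHom.comp K.subtype).codRestrict _ fun x =>
    ⟨mc (g1 ▸ (commute_conj_iff _ _ _).2 (cm x.2.2.1)), mc (g2 ▸ (commute_conj_iff _ _ _).2 (cm x.2.1)),
      Subgroup.Normal.conj_mem inferInstance _ x.2.2.2 g⟩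
  have kb : Function.Bijective κ := Finite.injective_iff_bijective.1 fun x y e =>
    Subtype.ext (conj_inj.1 (congrArg Subtype.val e))
  have k2 : ∀ x : K, (θ x).1 ∈ E ↔ a * x.1 ∈ DX C24 11 ∧ x.1 ≠ 1 := fun x => by
    have ca : a * x.1 ∈ Subgroup.centralizer {a} := mc ((Commute.refl a).mul_left (cm x.2.1))
    have e : χ ⟨_, ca⟩ = (θ x).1 := (map_mul χ ⟨a, mc (.refl a)⟩ ⟨x.1, x.2.1⟩).trans
      (by rw [ka, one_mul]; rfl)
    refine ⟨fun q => ?_, fun q => e ▸ h.bij.mapsTo ⟨q.1, by simpa using q.2⟩⟩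
    obtain ⟨s, ⟨s1, s2⟩, s3⟩ := h.bij.surjOn q
    rcases (ker (⟨_, ca⟩ * s⁻¹)).1 (by rw [map_mul, map_inv, e, s3, mul_inv_cancel]) with r | r
    · have r : a * x.1 = s := mul_inv_eq_one.1 r
      exact ⟨r ▸ s1, fun q => s2 (by simp [← r, q])⟩
    · have r : x.1 = s := mul_left_cancel (mul_inv_eq_iff_eq_mul.1 r)
      exact (nc _ s1 (r ▸ x.2.2.2)).elim
  let z : K := ⟨a * b, mc ((Commute.refl a).mul_left ab.symm), mc (ab.mul_left (.refl _)),
    (i2 _ _).2 (iff_of_false (nc a ha) (nc _ hb))⟩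
  have tz : (θ z).1 = o := by
    change χ (⟨a, mc (.refl a)⟩ * b) = o
    rw [map_mul, ka, one_mul, eb]
  have kz : κ z = z := Subtype.ext (by
    change g * (a * b) * g⁻¹ = a * b
    rw [← conj_mul, g1, g2, ab.eq])
  refine ⟨(MulEquiv.ofBijective θ tb).symm.trans ((MulEquiv.ofBijective κ kb).trans (MulEquiv.ofBijective θ tb)), ?_,
    fun y => ?_⟩
  · rw [show (⟨o, _⟩ : Subgroup.centralizer {o}) = MulEquiv.ofBijective θ tb z from Subtype.ext tz.symm]
    rw [MulEquiv.trans_apply, MulEquiv.symm_apply_apply]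
    change (θ (κ z)).1 = o
    rw [kz, tz]
  obtain ⟨x, rfl⟩ := (MulEquiv.ofBijective θ tb).surjective y
  rw [MulEquiv.trans_apply, MulEquiv.symm_apply_apply]
  change (θ (κ x)).1 ∈ E ↔ (θ x).1 = o ∨ o * (θ x).1 ∈ _
  have k3 : a * (κ x).1 ∈ DX C24 11 ∧ (κ x).1 ≠ 1 ↔ b * x.1 ∈ DX C24 11 ∧ x.1 ≠ 1 := by
    change a * (g * x.1 * g⁻¹) ∈ _ ∧ g * x.1 * g⁻¹ ≠ 1 ↔ _
    rw [show a * (g * x.1 * g⁻¹) = g * (b * x.1) * g⁻¹ by rw [← conj_mul, g1], Ne, conj_eq_one_iff]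
    exact and_congr_left' ⟨fun q => by simpa [mul_assoc] using N.prim.conj g⁻¹ q, N.prim.conj g⟩
  have k4 : o * (θ x).1 = (θ (z * x)).1 := by rw [map_mul, Subgroup.coe_mul, tz]
  have k5 : a * (z * x).1 = b * x.1 := by
    change a * (a * b * x.1) = _
    rw [← mul_assoc, ← mul_assoc, a2, one_mul]
  rw [k2, k3]
  refine ⟨fun q => or_iff_not_imp_left.2 fun n => ⟨k4 ▸ (k2 _).2 ⟨k5 ▸ q.1, fun r => n ?_⟩, fun r => q.2 ((k1 x).1
    (by simpa using r)), (Commute.refl o).mul_right (cm (θ x).2).symm⟩, fun q => q.elim (fun q => ?_) fun q =>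
      ⟨k5 ▸ ((k2 _).1 (k4 ▸ q.1)).1, fun r => q.2.1 (by rw [(k1 x).2 r, mul_one])⟩⟩
  · rw [(k1 _).2 r, mul_eq_one_iff_inv_eq] at k4
    rw [← k4, inv_eq_of_mul_eq_one_left (sq M.prim.set ho)]
  · obtain rfl : x = z := tb.1 (Subtype.ext (q.trans tz.symm))
    refine ⟨?_, fun r => nab (mul_left_cancel (a2.trans (r.symm : _)))⟩
    change b * (a * b) ∈ _
    rwa [ab.eq, ← mul_assoc, b2, one_mul]

variable [Finite G]

theorem rec22 (M : M22 H E) (f : Subgroup.centralizer {d} ≃* Subgroup.centralizer {M.t M.o})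
    (h1 : (f ⟨d, mc (Commute.refl d)⟩).1 = M.t M.o)
    (hn : ∃ g : G, g * d * g⁻¹ ∈ Subgroup.centralizer {d} ∧ g * d * g⁻¹ ≠ d) :
    IsThreeTranspositionClass (conjugatesOf d) ∧ IsOfTypeM22 G (conjugatesOf d) := by
  obtain ⟨F, F', l, e⟩ := lc_of' f h1
  exact main22 M (M.t_mem _) f h1 fun y => e y ▸ fus22 M l hn (cm y.2)

theorem rec23 (M : M23 H E) (f : Subgroup.centralizer {d} ≃* Subgroup.centralizer {M.t M.o})
    (h1 : (f ⟨d, mc (Commute.refl d)⟩).1 = M.t M.o)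
    (hn : ∃ g : G, g * d * g⁻¹ ∈ Subgroup.centralizer {d} ∧ g * d * g⁻¹ ≠ d) :
    IsThreeTranspositionClass (conjugatesOf d) ∧ IsOfTypeM23 G (conjugatesOf d) := by
  obtain ⟨F, F', l, e⟩ := lc_of' f h1
  rcases fus23 M l hn with h | h
  · exact main23 M (M.t_mem _) f h1 fun y => e y ▸ h y (cm y.2)
  · obtain ⟨α, a, b⟩ := swap23 M (M.t_mem M.o)
    refine main23 M (M.t_mem _) (f.trans α) ?_ fun y => (h y (cm y.2)).trans (by rw [e]; exact (b _).symm)
    rwa [MulEquiv.trans_apply, show f _ = ⟨_, mc (.refl _)⟩ from Subtype.ext h1]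

end CA.M2T
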