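import Cfsg.Agent.Lib.Spor.M22F
import Cfsg.Agent.Lib.Grp.SchurHopf
import Cfsg.Agent.Lib.Spor.FiU6

/-! Identification of the double covers of `U₆(2)` and `Fi₂₂` with centralisers of transpositions. -/

set_option autoImplicit false
set_option linter.unusedVariables false
set_option linter.unusedSectionVars false
set_option maxRecDepth 100000
open Cfsg

namespace CA.M2T
open CA.Fi CA.Tr3Basic CA.Tr3Block CA.Tr3Prim CA.Tr3Rank CA.Tr3Iso Function

theorem surj_comm {P X : Type*} [Group P] [Group X] (π : P →* X) (h : Surjective π) (h' : commutator X = ⊤) :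
    Surjective (π.comp (commutator P).subtype) := fun x => by
  have : x ∈ (commutator P).map π := by
    rw [map_commutator_eq, MonoidHom.range_eq_top.2 h, ← commutator_def, h']; trivial
  obtain ⟨y, hy, rfl⟩ := this
  exact ⟨⟨y, hy⟩, rfl⟩

/-- a perfect central extension with large kernel of exponent two covers every other one -/
theorem fib {C U L A : Type*} [Group C] [Group U] [Group L] [CommGroup A] [Finite U] (hA : HasSchurMultiplier L A)
    {p : C →* L} {q : U →* L} (sp : Surjective p) (sq : Surjective q) (cp : p.ker ≤ Subgroup.center C)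
    (cq : q.ker ≤ Subgroup.center U) (pC : commutator C = ⊤) (pU : commutator U = ⊤)
    (e1 : ∀ x, p x = 1 → x * x = 1) (e2 : ∀ x, q x = 1 → x * x = 1) (s : Finset A) (hs : ∀ a, a ^ 3 ∈ s)
    (t : List U) (nd : t.Nodup) (ht : ∀ x ∈ t, q x = 1) (hc : s.card ≤ t.length) :
    ∃ φ : U →* C, Surjective φ ∧ ∀ u, p (φ u) = q u := by
  classical
  replace hc : s.card ≤ Nat.card q.ker := hc.trans (by
    simpa using Nat.card_le_card_of_injective (fun i : Fin t.length => (⟨t.get i, ht _ (List.get_mem _ _)⟩ : q.ker))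
      fun i j e => List.nodup_iff_injective_get.1 nd (congrArg Subtype.val e))
  let P := MonoidHom.eqLocus (p.comp (MonoidHom.fst C U)) (q.comp (MonoidHom.snd C U))
  let π1 : P →* C := (MonoidHom.fst C U).comp P.subtype
  let π2 : P →* U := (MonoidHom.snd C U).comp P.subtype
  have e : ∀ x : P, p (π1 x) = q (π2 x) := fun x => x.2
  have s1 : Surjective π1 := fun c => let ⟨u, h⟩ := sq (p c); ⟨⟨(c, u), h.symm⟩, rfl⟩
  have s2 : Surjective π2 := fun u => let ⟨c, h⟩ := sp (q u); ⟨⟨(c, u), h⟩, rfl⟩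
  obtain ⟨f, hf⟩ := SchurHopf.surj_mult hA (q.comp π2) (sq.comp s2) fun x hx => Subgroup.mem_center_iff.2 fun y =>
    Subtype.ext (Prod.ext (Subgroup.mem_center_iff.1 (cp ((e x).trans hx)) _) (Subgroup.mem_center_iff.1 (cq hx) _))
  have x2 : ∀ x : SchurHopf.mult (q.comp π2), x * x = 1 := fun x =>
    have h := (SchurHopf.mem_mult.1 x.2).1
    Subtype.ext (Subtype.ext (Prod.ext (e1 _ ((e x).trans h)) (e2 _ h)))
  have s3 : Surjective fun a : s => f a := fun x => by
    obtain ⟨a, rfl⟩ := hf x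
    exact ⟨⟨_, hs a⟩, by show f (a ^ 3) = _; rw [map_pow, pow_three, x2, mul_one]⟩
  have := Finite.of_surjective _ s3
  let g : SchurHopf.mult (q.comp π2) → q.ker := fun x => ⟨π2 x, (SchurHopf.mem_mult.1 x.2).1⟩
  have gb : Bijective g := (Function.Surjective.bijective_of_nat_card_le (fun k => by
    obtain ⟨x, hx⟩ := surj_comm π2 s2 pU k
    exact ⟨⟨x, SchurHopf.mem_mult.2 ⟨(congrArg q hx).trans k.2, x.2⟩⟩, Subtype.ext hx⟩)
    ((Nat.card_le_card_of_surjective _ s3).trans (by simpa using hc)))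
  have b2 : Bijective (π2.comp (commutator P).subtype) := ⟨(injective_iff_map_eq_one _).2 fun x hx => by
    have := gb.1 (a₁ := ⟨x, SchurHopf.mem_mult.2 ⟨(congrArg q hx).trans (map_one q), x.2⟩⟩) (a₂ := 1)
      (Subtype.ext (hx.trans (map_one π2).symm))
    exact Subtype.ext (congrArg (fun y : SchurHopf.mult (q.comp π2) => y.1) this), surj_comm π2 s2 pU⟩
  refine ⟨(π1.comp (commutator P).subtype).comp (MulEquiv.ofBijective _ b2).symm.toMonoidHom,
    (surj_comm π1 s1 pC).comp (MulEquiv.ofBijective _ b2).symm.surjective, fun u => (e _).trans (congrArg q ?_)⟩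
  exact (MulEquiv.ofBijective _ b2).apply_symm_apply u

theorem equiv_ker {D X Y : Type*} [Group D] [Group X] [Group Y] {a : D →* X} {b : D →* Y} (ha : Surjective a)
    (hb : Surjective b) (h : ∀ x, a x = 1 ↔ b x = 1) : ∃ e : X ≃* Y, ∀ d, e (a d) = b d :=
  ⟨(QuotientGroup.quotientKerEquivOfSurjective a ha).symm.trans
    ((QuotientGroup.quotientMulEquivOfEq (Subgroup.ext h)).trans (QuotientGroup.quotientKerEquivOfSurjective b hb)),
    fun d => by
      rw [show a d = QuotientGroup.quotientKerEquivOfSurjective a ha (QuotientGroup.mk d) from rfl,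
        MulEquiv.trans_apply, MulEquiv.symm_apply_apply]; rfl⟩

theorem three {U C : Type*} [Group U] [Group C] {φ : U →* C} {d : C} (d1 : d ≠ 1) (d2 : d * d = 1) {a b : U}
    (cs : ∀ u, φ u = 1 ∨ φ u = d → u = 1 ∨ u = a ∨ u = b ∨ u = a * b) (pa : φ a = 1 ∨ φ a = d) (pb : φ b = 1 ∨ φ b = d)
    (h : ∃ u, φ u = d) : (φ b = d ∧ ∀ u, φ u = 1 ↔ u = 1 ∨ u = a) ∨ (φ a = d ∧ ∀ u, φ u = 1 ↔ u = 1 ∨ u = b) ∨
      (φ a = d ∧ ∀ u, φ u = 1 ↔ u = 1 ∨ u = a * b) := by
  rcases pa with pa | pa <;> rcases pb with pb | pb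
  · obtain ⟨u, hu⟩ := h
    rcases cs u (.inr hu) with rfl | rfl | rfl | rfl <;> simp [pa, pb, d1.symm] at hu
  · refine .inl ⟨pb, fun u => ⟨fun q => ?_, by rintro (rfl | rfl) <;> simp [pa]⟩⟩
    rcases cs u (.inl q) with rfl | rfl | rfl | rfl <;> simp [pa, pb, d1] at q ⊢
  · refine .inr (.inl ⟨pa, fun u => ⟨fun q => ?_, by rintro (rfl | rfl) <;> simp [pb]⟩⟩)
    rcases cs u (.inl q) with rfl | rfl | rfl | rfl <;> simp [pa, pb, d1] at q ⊢
  · refine .inr (.inr ⟨pa, fun u => ⟨fun q => ?_, by rintro (rfl | rfl) <;> simp [pa, pb, d2]⟩⟩)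
    rcases cs u (.inl q) with rfl | rfl | rfl | rfl <;> simp [pa, pb, d1] at q ⊢

variable {H H' : Type*} [Group H] [Group H'] {E : Set H} {E' : Set H'}

theorem loc_perf {S : Set H} {χ : Subgroup.centralizer S →* H'} (h : Loc E S E' χ) (hD : IsThreeTranspositionClass E')
    (hp : commutator H' = ⊤) (h6 : ∀ s ∈ S, Six E S s) : commutator (Subgroup.centralizer S) = ⊤ :=
  perfect_of h.surj hp fun x hx => by
    have : x.1 ∈ (commutator (Subgroup.centralizer S)).map (Subgroup.subtype _) := by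
      rw [Subgroup.map_subtype_commutator]
      exact (Subgroup.closure_le _).2 (fun s hs => (h6 s hs).mem h hD) ((h.ker x).1 hx)
    obtain ⟨y, hy, e⟩ := this
    exact (Subtype.ext e : y = x) ▸ hy

theorem loc_cen {S : Set H} {χ : Subgroup.centralizer S →* H'} (h : Loc E S E' χ) :
    χ.ker ≤ Subgroup.center _ := fun x hx => Subgroup.mem_center_iff.2 fun y =>
  Subtype.ext (comm_closure y.2 ((h.ker x).1 hx))

theorem loc_ker1 {a : H} {χ : Subgroup.centralizer {a} →* H'} (h : Loc E {a} E' χ) (a2 : a * a = 1) (x) :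
    χ x = 1 ↔ x.1 = 1 ∨ x.1 = a := by
  rw [h.ker, ← Subgroup.zpowers_eq_closure]
  exact ⟨eq_of_mem_zpowers a2, fun q => q.elim (fun q => q ▸ Subgroup.one_mem _)
    fun q => by rw [q]; exact Subgroup.mem_zpowers _⟩

theorem mem_cl2 {a b x : H} (a2 : a * a = 1) (b2 : b * b = 1) (c : Commute a b) (h : x ∈ Subgroup.closure {a, b}) :
    x = 1 ∨ x = a ∨ x = b ∨ x = a * b := by
  have k1 : a * (a * b) = b := by rw [← mul_assoc, a2, one_mul]
  have k2 : b * (a * b) = a := by rw [c.eq, ← mul_assoc, b2, one_mul]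
  have k3 : a * b * a = b := by rw [c.eq, mul_assoc, a2, mul_one]
  have k4 : a * b * b = a := by rw [mul_assoc, b2, mul_one]
  have k5 : a * b * (a * b) = 1 := by rw [← mul_assoc, k3, b2]
  induction h using Subgroup.closure_induction with
  | mem x hx => rcases hx with rfl | rfl <;> simp
  | one => simp
  | mul x y _ _ hx hy =>
    rcases hx with rfl | rfl | rfl | rfl <;> rcases hy with h | h | h | h <;> rw [h] <;>
      simp [a2, b2, k1, k2, k3, k4, k5, c.symm.eq]
  | inv x _ hx =>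
    rcases hx with rfl | rfl | rfl | rfl
    · simp
    · simp [inv_eq_of_mul_eq_one_left a2]
    · simp [inv_eq_of_mul_eq_one_left b2]
    · rw [inv_eq_of_mul_eq_one_left k5]; simp

section
variable {G : Type*} [Group G] [Finite G] {d : G} (hd : orderOf d = 2)
  [((Subgroup.zpowers d).subgroupOf (Subgroup.centralizer ({d} : Set G))).Normal] {L : Type*} [Group L]
  (e : Subgroup.centralizer ({d} : Set G) ⧸ (Subgroup.zpowers d).subgroupOf (Subgroup.centralizer ({d} : Set G)) ≃* L)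
include hd e

theorem fibd {U A : Type*} [Group U] [CommGroup A] [Finite U] (hA : HasSchurMultiplier L A)
    (pC : commutator (Subgroup.centralizer ({d} : Set G)) = ⊤) {q : U →* L} (sq : Surjective q)
    (cq : q.ker ≤ Subgroup.center U) (pU : commutator U = ⊤) (e2 : ∀ x, q x = 1 → x * x = 1) (s : Finset A)
    (hs : ∀ a, a ^ 3 ∈ s) (t : List U) (nd : t.Nodup) (ht : ∀ x ∈ t, q x = 1) (hc : s.card ≤ t.length) :
    ∃ φ : U →* Subgroup.centralizer ({d} : Set G), Surjective φ ∧ ∀ u, q u = 1 ↔ (φ u).1 = 1 ∨ (φ u).1 = d := by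
  have d2 := mul_self_of_orderOf hd
  have k : ∀ x, (e.toMonoidHom.comp (QuotientGroup.mk' _)) x = 1 ↔ x.1 = 1 ∨ x.1 = d := fun x => by
    change e x = 1 ↔ _
    rw [map_eq_one_iff _ e.injective, QuotientGroup.eq_one_iff, Subgroup.mem_subgroupOf]
    exact ⟨eq_of_mem_zpowers d2, fun q => q.elim (fun q => q ▸ Subgroup.one_mem _)
      fun q => by rw [q]; exact Subgroup.mem_zpowers _⟩
  obtain ⟨φ, h1, h2⟩ := fib hA (p := e.toMonoidHom.comp (QuotientGroup.mk' _))
    (e.surjective.comp (QuotientGroup.mk'_surjective _)) sq (fun x hx => Subgroup.mem_center_iff.2 fun y =>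
      Subtype.ext (by
        rcases (k x).1 hx with h | h
        · simp [h]
        · simpa [h] using (cm y.2).eq)) cq pC pU
    (fun x hx => Subtype.ext (by rcases (k x).1 hx with h | h <;> simp [h, d2])) e2 s hs t nd ht hc
  exact ⟨φ, h1, fun u => by rw [← h2, k]⟩

theorem cov23 (M : M23 H E) (M' : M22 H' E') (i : H' ≃* L) (hA : HasCyclicSchurMultiplier L 6)
    (pC : commutator (Subgroup.centralizer ({d} : Set G)) = ⊤) {o : H} (ho : o ∈ E) :
    ∃ f : Subgroup.centralizer {d} ≃* Subgroup.centralizer {o}, (f ⟨d, mc (Commute.refl d)⟩).1 = o := by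
  have := M.finite
  have := M'.finite
  obtain ⟨χ, h⟩ := lo23 M M' ho
  have o2 := sq M.prim.set ho
  have k := loc_ker1 h o2
  have k' : ∀ x, (i.toMonoidHom.comp χ) x = 1 ↔ χ x = 1 := fun x => map_eq_one_iff _ i.injective
  obtain ⟨b, hb⟩ : ∃ b, b ∈ Dd E o := by
    obtain ⟨b, hb, -⟩ := h.bij.surjOn (M'.t_mem M'.o)
    exact ⟨b, hb.1, hb.2, (cm b.2).symm⟩
  obtain ⟨φ, h1, h2⟩ := fibd hd e hA pC (q := i.toMonoidHom.comp χ) (i.surjective.comp h.surj)
    (fun x hx => loc_cen h ((k' x).1 hx)) (loc_perf h M'.prim.cls (FiSimple.perfect22 M') (by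
      rintro _ rfl; exact (six23 M ho hb.1 hb.2.1.symm hb.2.2).mono (by simp)))
    (fun x hx => Subtype.ext (by rcases (k x).1 ((k' x).1 hx) with h | h <;> simp [h, o2]))
    {1, Multiplicative.ofAdd 3} (by decide) [1, ⟨o, mc (.refl o)⟩]
    (by simpa [Subtype.ext_iff] using (ne_one M.prim.set ho).symm) (by simp [k', k]) Finset.card_le_two
  obtain ⟨u, hu⟩ := h1 ⟨d, mc (.refl d)⟩
  have n1 : ∀ u, φ u = ⟨d, mc (.refl d)⟩ → u.1 = o := fun u hu =>
    ((k u).1 ((k' u).1 ((h2 u).2 (.inr (by rw [hu]))))).resolve_left fun q => ne_one_of_orderOf hd (by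
      rw [show u = 1 from Subtype.ext q, map_one] at hu; exact (congrArg Subtype.val hu).symm)
  have b : Bijective φ := ⟨(injective_iff_map_eq_one _).2 fun x hx => Subtype.ext (((k x).1 ((k' x).1
    ((h2 x).2 (.inl (by rw [hx]; rfl))))).resolve_right fun q => ne_one_of_orderOf hd (by
      rw [show x = u from Subtype.ext (q.trans (n1 u hu).symm), hu] at hx; exact congrArg Subtype.val hx)), h1⟩
  exact ⟨(MulEquiv.ofBijective φ b).symm, n1 _ ((MulEquiv.ofBijective φ b).apply_symm_apply _)⟩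

omit hd e in
theorem theta (M : M23 H E) (M' : M22 H' E') {a b : H} (ha : a ∈ E) (hb : b ∈ E) (hab : a ≠ b) (c : Commute a b)
    {U : Type*} [Group U] (ι : U →* H) (hr : ∀ x, (∃ u, ι u = x) ↔ Commute x a ∧ Commute x b) :
    ∃ o ∈ E', ∃ θ : U →* Subgroup.centralizer {o}, Surjective θ ∧ (∀ u, θ u = 1 ↔ ι u = 1 ∨ ι u = a) ∧
      ∀ u, ι u = b → (θ u).1 = o := by
  obtain ⟨χ, h⟩ := lo23 M M' ha
  have m : ∀ u, ι u ∈ Subgroup.centralizer {a} := fun u => mc ((hr _).1 ⟨u, rfl⟩).1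
  have hb' : (⟨b, mc c.symm⟩ : Subgroup.centralizer {a}).1 ∈ E ∧ b ∉ ({a} : Set H) := ⟨hb, hab.symm⟩
  refine ⟨_, h.bij.mapsTo hb', (χ.comp (ι.codRestrict _ m)).codRestrict _ fun u =>
    mc ((h.comm_iff _ hb').2 ((hr _).1 ⟨u, rfl⟩).2), fun y => ?_, fun u => Subtype.ext_iff.trans
      (loc_ker1 h (sq M.prim.set ha) _), fun u hu => congrArg χ (Subtype.ext hu)⟩
  obtain ⟨x, hx⟩ := h.surj y
  obtain ⟨u, hu⟩ := (hr x).2 ⟨cm x.2, (h.comm_iff x hb').1 (by rw [hx]; exact cm y.2)⟩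
  exact ⟨u, Subtype.ext ((congrArg χ (Subtype.ext hu)).trans hx)⟩

theorem cov22 {H'' : Type*} [Group H''] {E'' : Set H''} (M : M23 H E) (M' : M22 H' E') (M'' : M21 H'' E'') (i : H'' ≃* L)
    (hA : HasSchurMultiplier L (Multiplicative (ZMod 3 × ZMod 2 × ZMod 2)))
    (pC : commutator (Subgroup.centralizer ({d} : Set G)) = ⊤) : ∃ o ∈ E',
    ∃ f : Subgroup.centralizer {d} ≃* Subgroup.centralizer {o}, (f ⟨d, mc (Commute.refl d)⟩).1 = o := by
  have := M.finite
  have ha := M.t_mem M.o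
  generalize M.t M.o = a at ha
  obtain ⟨b, hb, nb, c⟩ : ∃ b, b ∈ Dd E a := by
    obtain ⟨χ, h⟩ := lo23 M M' ha
    obtain ⟨b, hb, -⟩ := h.bij.surjOn (M'.t_mem M'.o)
    exact ⟨b, hb.1, hb.2, (cm b.2).symm⟩
  have a2 := sq M.prim.set ha
  have b2 := sq M.prim.set hb
  have a1 := ne_one M.prim.set ha
  have b1 := ne_one M.prim.set hb
  obtain ⟨χ, h⟩ := lo23' M M'' ha hb nb.symm c
  have mz : ∀ {x}, x ∈ Subgroup.centralizer {a, b} ↔ Commute x a ∧ Commute x b := by simp [mem_cz]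
  let a' : Subgroup.centralizer {a, b} := ⟨a, mz.2 ⟨.refl a, c⟩⟩
  let b' : Subgroup.centralizer {a, b} := ⟨b, mz.2 ⟨c.symm, .refl b⟩⟩
  have k : ∀ x, (i.toMonoidHom.comp χ) x = 1 ↔ x.1 ∈ Subgroup.closure {a, b} := fun x =>
    (map_eq_one_iff _ i.injective).trans (h.ker x)
  have ka : a ∈ Subgroup.closure {a, b} := Subgroup.subset_closure (by simp)
  have kb : b ∈ Subgroup.closure {a, b} := Subgroup.subset_closure (by simp)
  have ab2 : a * b * (a * b) = 1 := by rw [mul_assoc, ← mul_assoc b, ← c.eq, mul_assoc, b2, mul_one, a2]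
  have ab1 : a * b ≠ 1 := fun q => nb (mul_left_cancel (q.trans a2.symm))
  obtain ⟨φ, h1, h2⟩ := fibd hd e hA pC (q := i.toMonoidHom.comp χ) (i.surjective.comp h.surj)
    (fun x hx => loc_cen h ((h.ker x).2 ((k x).1 hx))) (loc_perf h M''.prim.cls (FiSimple.perfect21 M'') (by
      rintro _ (rfl | rfl)
      exacts [six23 M ha hb nb.symm c, Set.pair_comm _ _ ▸ six23 M hb ha nb c.symm]))
    (fun x hx => Subtype.ext (by rcases mem_cl2 a2 b2 c ((k x).1 hx) with h | h | h | h <;> simp [h, a2, b2, ab2]))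
    {1, Multiplicative.ofAdd (0, 1, 0), Multiplicative.ofAdd (0, 0, 1), Multiplicative.ofAdd (0, 1, 1)} (by decide)
    [1, a', b', a' * b'] (by simp [Subtype.ext_iff, a', b', a1, b1, a1.symm, b1.symm, ab1.symm, nb.symm])
    (by simp only [List.mem_cons, List.not_mem_nil, or_false, forall_eq_or_imp, forall_eq, k]
        exact ⟨Subgroup.one_mem _, ka, kb, Subgroup.mul_mem _ ka kb⟩) Finset.card_le_four
  have key : ∀ z w, (φ w = ⟨d, mc (.refl d)⟩ ∧ ∀ u, φ u = 1 ↔ u = 1 ∨ u = z) → (∃ o ∈ E',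
      ∃ θ : _ →* Subgroup.centralizer {o}, Surjective θ ∧ (∀ u, θ u = 1 ↔ u = 1 ∨ u = z) ∧ (θ w).1 = o) → ∃ o ∈ E',
      ∃ f : Subgroup.centralizer {d} ≃* Subgroup.centralizer {o}, (f ⟨d, mc (Commute.refl d)⟩).1 = o := by
    rintro z w ⟨q2, q1⟩ ⟨o, ho, θ, q3, q4, q5⟩
    obtain ⟨f, hf⟩ := equiv_ker h1 q3 fun x => (q1 x).trans (q4 x).symm
    exact ⟨o, ho, f, by rw [← q2, hf, q5]⟩
  have r1 : ∀ x, (∃ u, (Subgroup.centralizer {a, b}).subtype u = x) ↔ Commute x a ∧ Commute x b := fun x =>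
    ⟨fun ⟨u, hu⟩ => hu ▸ mz.1 u.2, fun q => ⟨⟨x, mz.2 q⟩, rfl⟩⟩
  have h3 : ∀ u, u.1 ∈ Subgroup.closure {a, b} ↔ φ u = 1 ∨ φ u = ⟨d, mc (.refl d)⟩ := fun u =>
    (k u).symm.trans ((h2 u).trans (by simp only [Subtype.ext_iff]; rfl))
  rcases three (a := a') (b := b') (fun q => ne_one_of_orderOf hd (congrArg Subtype.val q))
    (Subtype.ext (mul_self_of_orderOf hd)) (fun u hu => (mem_cl2 a2 b2 c ((h3 u).2 hu)).imp Subtype.ext
      (Or.imp Subtype.ext (Or.imp Subtype.ext Subtype.ext))) ((h3 _).1 ka) ((h3 _).1 kb) (h1 _) with p | p | p <;>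
    refine key _ _ p ?_
  · obtain ⟨o, ho, θ, q1, q2, q3⟩ := theta M M' ha hb nb.symm c _ r1
    exact ⟨o, ho, θ, q1, fun u => (q2 u).trans (by simp only [Subtype.ext_iff]; rfl), q3 _ rfl⟩
  · obtain ⟨o, ho, θ, q1, q2, q3⟩ := theta M M' hb ha nb c.symm _ fun x => (r1 x).trans and_comm
    exact ⟨o, ho, θ, q1, fun u => (q2 u).trans (by simp only [Subtype.ext_iff]; rfl), q3 _ rfl⟩
  · obtain ⟨α, α1, α2⟩ := swap23 M ha
    let j : Subgroup.centralizer {a, b} →* Subgroup.centralizer {a} :=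
      Subgroup.inclusion (Subgroup.centralizer_le (by simp))
    have ji : Injective j := Subgroup.inclusion_injective _
    have e1 : α (j a') = j a' := Subtype.ext α1
    have hz : (α (j (a' * b'))).1 ∈ E := (α2 _).2 (.inr (by
      change a * (a * b) ∈ _
      rw [← mul_assoc, a2, one_mul]; exact ⟨hb, nb, c⟩))
    have cc : ∀ x y : Subgroup.centralizer {a}, Commute (α x).1 (α y).1 ↔ Commute x.1 y.1 := fun x y =>
      ⟨fun q => congrArg Subtype.val (α.injective (a₁ := x * y) (a₂ := y * x) (by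
        rw [map_mul, map_mul]; exact Subtype.ext q)), fun q => congrArg Subtype.val
          (Commute.map (Subtype.ext q : Commute x y) α).eq⟩
    obtain ⟨o, ho, θ, q1, q2, q3⟩ := theta M M' hz ha (fun q => b1 (by
        have := ji (α.injective ((Subtype.ext (q.trans α1.symm) : α _ = α (j a'))))
        simpa [Subtype.ext_iff, b'] using this)) (cm (α _).2)
      (((Subgroup.subtype _).comp α.toMonoidHom).comp j) fun x => ⟨by
        rintro ⟨u, rfl⟩
        exact ⟨(cc (j u) _).2 ((mz.1 u.2).1.mul_right (mz.1 u.2).2), cm (α _).2⟩, fun ⟨p1, p2⟩ => by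
        obtain ⟨y, hy⟩ := α.surjective ⟨x, mc p2⟩
        have p3 : Commute y.1 (a * b) := (cc y (j (a' * b'))).1 (by rw [hy]; exact p1)
        refine ⟨⟨y, mz.2 ⟨cm y.2, ?_⟩⟩, congrArg Subtype.val hy⟩
        simpa [← mul_assoc, a2] using (cm y.2).mul_right p3⟩
    refine ⟨o, ho, θ, q1, fun u => (q2 u).trans (or_congr ?_ ?_), q3 _ α1⟩
    · exact (OneMemClass.coe_eq_one (x := α (j u))).trans ((map_eq_one_iff _ α.injective).trans (map_eq_one_iff _ ji))
    · exact Subtype.ext_iff.symm.trans (α.injective.eq_iff.trans ji.eq_iff)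

theorem fin22 (K : Type*) [Field K] [Fintype K] (hK : Fintype.card K = 4) (i : PSU 6 K 2 ≃* L)
    (hA : HasSchurMultiplier L (Multiplicative (ZMod 3 × ZMod 2 × ZMod 2)))
    (hq : IsQuasisimple (Subgroup.centralizer ({d} : Set G)))
    (hn : ∃ g : G, g * d * g⁻¹ ∈ Subgroup.centralizer {d} ∧ g * d * g⁻¹ ≠ d) :
    IsThreeTranspositionClass (conjugatesOf d) ∧ IsOfTypeM22 G (conjugatesOf d) := by
  obtain ⟨M⟩ := model23
  obtain ⟨M'⟩ := model22
  obtain ⟨M''⟩ := model21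
  obtain ⟨o, ho, f, hf⟩ := cov22 hd e M M' M'' ((FiU6.iso21 K hK).some.symm.trans i) hA hq.1.commutator_eq_top
  obtain ⟨M', rfl⟩ := M'.recenter ho
  exact rec22 M' f hf hn

theorem fin23 (M' : M22 H' E') (i : H' ≃* L) (hA : HasCyclicSchurMultiplier L 6)
    (hq : IsQuasisimple (Subgroup.centralizer ({d} : Set G)))
    (hn : ∃ g : G, g * d * g⁻¹ ∈ Subgroup.centralizer {d} ∧ g * d * g⁻¹ ≠ d) :
    IsThreeTranspositionClass (conjugatesOf d) ∧ IsOfTypeM23 G (conjugatesOf d) := by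
  obtain ⟨M⟩ := model23
  obtain ⟨f, hf⟩ := cov23 hd e M M' i hA hq.1.commutator_eq_top (M.t_mem M.o)
  exact rec23 M f hf hn

end

end CA.M2T
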