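/-
Self-centralizing normal 2-subgroups of involution centralizers in the Mathieu groups.
-/
import Cfsg.Agent.Lib.Spor.BlkOne
import Cfsg.Agent.Lib.Spor.M24Iso
import Cfsg.Agent.Lib.Spor.CGLin2

namespace CA.M24Blk

open Cfsg CA.NatBits CA.OrbBfs CA.CGroup CA.CGConstr CA.CGParts CA.CGCert CA.CGRank CA.CGDec CA.Perm24 CA.Golay
open CA.M24Core CA.M24Sub CA.M24Tools MulAction
open scoped Pointwise
open CA.M24St2 CA.M24Syl CA.M24Cls CA.CGIso CA.BlkOne

theorem locM {K C : Subgroup M24} {lC lQ : List ℕ} {N : ℕ} {z : M24} (hC : St lC C N)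
    (e : C = K ⊓ Subgroup.centralizer {z}) (ws : List (List ℕ)) (a n : ℕ) (L : List (ℕ × List (List ℕ)))
    (h : (wordsM lC ws lQ && nrmOK mul24 cj24 id24 lC lQ (2 ^ a) && lowc cj24 mul24 inv24 id24 L lC n &&
      decide (L.map Prod.fst = lQ) && allL lQ (fun a => allL lQ fun b => Nat.beq (cj24 a b) b) &&
      Nat.beq N (n * 2 ^ a) && Nat.ble 1 n) = true) : Loc 2 K z := by
  simp only [Bool.and_eq_true, decide_eq_true_eq, beq_iff, Nat.ble_eq] at h
  obtain ⟨⟨⟨⟨⟨⟨h1, h2⟩, h3⟩, h4⟩, h5⟩, h6⟩, h7⟩ := h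
  have hQ := in_of_wordsM hC.inn h1
  obtain ⟨h8, h9⟩ := nrmOK_spec (G := mG) R_cj R_inj hQ.ok (by rwa [mG_mul, mG_one])
  rw [hC.gen] at h9
  have hx : List.Forall₂ mCj.S (L.map Prod.fst) (lQ.map fun c => toCj (elt c)) := by
    rw [h4, List.forall₂_map_right_iff, List.forall₂_same]
    exact fun c hc => elt_R' (hQ.ok c hc)
  have h10 := lowc_spec (N := n) hx hC.inn (by rw [mCj_act, mG_mul, mG_inv, mG_one]; exact h3)
  rw [hC.card, h6] at h10
  have h11 : mG.gen lQ ≤ Fx C (lQ.map fun c => toCj (elt c)) := by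
    refine CG.In.gen_le (CG.In.of_forall hQ.ok fun c hc g hg => mem_Fx.2 ⟨hQ.gen_le (CG.mem_gen hc hg), ?_⟩)
    intro x hx
    obtain ⟨d, hd, rfl⟩ := List.mem_map.1 hx
    have := elt_R' (hQ.ok d hd)
    have h13 := R_cj hg this
    rw [beq_iff.1 (allL_iff.1 (allL_iff.1 h5 c hc) d hd)] at h13
    rw [smul_toCj, mG.R_fun h13 this]
  have h12 := Subgroup.eq_of_le_of_card_ge h11 (h8 ▸ Nat.le_of_mul_le_mul_left h10 h7)
  subst e
  refine ⟨mG.gen lQ, IsPGroup.of_card h8, hQ.gen_le, h9, fun g hg hc => h12.ge (mem_Fx.2 ⟨hg, ?_⟩)⟩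
  intro x hx
  obtain ⟨d, hd, rfl⟩ := List.mem_map.1 hx
  rw [smul_toCj, toCj_inj, ← hc _ (CG.mem_gen hd (elt_R' (hQ.ok d hd))), mul_inv_cancel_right]

theorem loc2A : Loc 2 ⊤ (elt c2A) :=
  locM (lQ := [564634823915048411554457391326392249617996968297106637056, 564537935142741672021005194776512269838173077554382110976, 565685792648485468331498721340437743820357305959352238336, 564919185394254767161431177722554914050553753760576962816])
    stC2A (top_inf_eq _).symm [[3, 3, 3, 0, 0, 3, 3, 3, 1, 2, 1], [2, 2, 0, 0, 2, 2, 2, 0, 3, 0, 2], [3, 3, 3, 1, 3, 3, 3, 1], [2, 2, 0, 2, 2, 2, 0, 2]] 4 1344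
    [(564634823915048411554457391326392249617996968297106637056, [[1, 2, 1, 1, 3, 0], [1, 1, 2, 0, 3, 3, 0], [3, 0, 3, 3, 3, 1, 1, 2]]), (564537935142741672021005194776512269838173077554382110976, [[3, 5, 2, 4, 2, 1, 5, 0, 4], [1, 5, 2, 2, 4, 0, 3], [1, 5, 0, 5, 2], [1, 3, 4, 3, 0]]), (565685792648485468331498721340437743820357305959352238336, [[1, 7, 5, 0, 7, 5], [3, 7, 3, 7, 2, 4], [1, 3, 7, 3, 3, 0, 7, 4], [1, 3, 7, 7, 5, 6, 6, 1]]), (564919185394254767161431177722554914050553753760576962816, [])]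
    (by decide +kernel)

theorem loc2B : Loc 2 ⊤ (elt c2B) :=
  locM (lQ := [564827141425591996311280244733034358286479746640136765696, 564728358535254677311065767183622622399995563894844293376, 565786073651748568815280624763333500052157882797215908096, 564732481431684580023396050640108145996918054608018145536, 344053125008499438253559592626101671795062529702293012481, 25389832012488047361590059097088480584530978701041604366])
    stC2B (top_inf_eq _).symm [[2, 0, 0, 2, 2, 0, 0, 2], [3, 1, 3, 1, 2, 1, 2, 1, 2, 1], [2, 2, 1, 3, 1, 2, 2, 0, 2, 0], [2, 0, 3, 0, 3, 0, 2, 0, 2, 0], [2, 0, 3, 0, 2, 0, 3, 0, 2, 0], [2, 2, 1, 2, 2, 0]] 6 120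
    [(564827141425591996311280244733034358286479746640136765696, [[2, 0, 0, 3, 3, 1, 1, 1, 3], [0, 3, 0, 2, 1, 1, 2, 0, 2, 0, 3, 1], [1, 3, 1, 1, 3, 0, 0, 3, 0]]), (564728358535254677311065767183622622399995563894844293376, [[3, 0, 2, 5, 3], [5, 3, 4], [1, 3, 3, 5, 5, 5], [4, 2, 1, 2]]), (565786073651748568815280624763333500052157882797215908096, [[5, 1, 2, 0, 3, 5], [4, 4, 0, 5, 7], [3, 3, 0], [2, 7, 4, 1, 3, 1], [5, 0, 5, 2, 2], [3, 0, 3, 3, 3]]), (564732481431684580023396050640108145996918054608018145536, [[0, 6, 6], [0, 11, 4], [7, 8, 7, 7, 8], [7, 3, 10], [10, 8, 5], [2, 6, 4, 1, 10]]), (344053125008499438253559592626101671795062529702293012481, [[8, 1, 2, 9, 1, 9], [3, 3, 0], [6, 9, 4, 2, 5], [7, 10, 6, 10, 4, 1, 2], [10, 2, 6, 1], [10, 7, 10, 3]]), (25389832012488047361590059097088480584530978701041604366, [])]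
    (by decide +kernel)

/-- elements of a subgroup with a property -/
theorem ncard_elts' {D : Type*} [Group D] [Finite D] {G : CG D} (hi : ∀ {c d : ℕ} {x : D}, G.R c x → G.R d x → c = d)
    {l : List ℕ} (hl : G.Ok l) {P : D → Prop} (f : ℕ → Bool)
    (hf : ∀ c g, G.R c g → (P g ↔ f c = true)) {n N : ℕ}
    (h : orb G.mul l G.one (fun t m => Nat.beq m N && Nat.beq (t.cnt f) n) = true) :
    Nat.card (G.gen l) = N ∧ {g : G.gen l | P g}.ncard = n := by
  obtain ⟨t, m, h1, h2⟩ := orb_spec (A := mulAct G hi) hl G.R_one h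
  rw [orbit_one] at h2
  rw [Bool.and_eq_true, beq_iff, beq_iff] at h1
  refine ⟨h2.ncard.trans h1.1, ?_⟩
  rw [← h1.2, ← h2.ncard_filter (P := P) fun c x _ hc => hf c x hc,
    ← Set.ncard_image_of_injective _ Subtype.val_injective]
  congr 1
  ext g
  exact ⟨fun ⟨x, hx, e⟩ => e ▸ ⟨x.2, hx⟩, fun hg => ⟨⟨g, hg.1⟩, hg.2, rfl⟩⟩

theorem ncard_elts {l : List ℕ} (hl : mG.Ok l) {P : M24 → Prop} (f : ℕ → Bool)
    (hf : ∀ c g, mG.R c g → (P g ↔ f c = true)) {n N : ℕ}
    (h : orb mul24 l id24 (fun t m => Nat.beq m N && Nat.beq (t.cnt f) n) = true) :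
    Nat.card (mG.gen l) = N ∧ {g : mG.gen l | P g}.ncard = n :=
  ncard_elts' R_inj hl f hf (by rwa [mG_mul, mG_one])

theorem pow_elts {l : List ℕ} (hl : mG.Ok l) (e : ℕ)
    (h : orb mul24 l id24 (fun t _ => t.all fun c _ => Nat.beq (powC mul24 id24 c e) id24) = true) :
    ∀ g ∈ mG.gen l, g ^ e = 1 :=
  CGLin2.pow_of_elts R_inj hl e (by rwa [mG_mul, mG_one])

theorem fx_ne_iff {c : ℕ} {g : M24} (h : mG.R c g) :
    (fx g).card ≠ 0 ↔ (!allLt 24 fun i => !Nat.beq (ap8 c i) i) = true := by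
  rw [Bool.not_eq_true', ← Bool.not_eq_true, allLt_iff, Finset.card_ne_zero]
  constructor
  · rintro ⟨p, hp⟩ h'
    have h1 := h' _ (gE.ix_lt p)
    have h2 := R_pt h p
    rw [mem_fx.1 hp] at h2
    rw [Bool.not_eq_true', ← Bool.not_eq_true, beq_iff] at h1
    exact h1 h2.symm
  · intro h'
    push Not at h'
    obtain ⟨i, hi, h1⟩ := h'
    refine ⟨gpt i, mem_fx.2 (gE.ix_inj ?_)⟩
    rw [ne_eq, Bool.not_eq_true', Bool.not_eq_false, beq_iff] at h1
    have h2 : gix (gpt i) = i := gE.ix_pt i hi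
    exact (R_pt h _).trans (by rw [h2, h1]; exact h2.symm)

end CA.M24Blk
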