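/-
Groups of Monster type: the dictionary between the extraspecial subgroup and the Leech lattice modulo 2.
-/
import Cfsg.Agent.Lib.Spor.LeechN
import Cfsg.Agent.Lib.Grp.H7Lge2
import Cfsg.Agent.S5552

set_option autoImplicit false
set_option linter.unusedSectionVars false

namespace CA.MonT

open Subgroup Cfsg CA.BG CA.BG4 CA.H7Lge CA.Leech Function
open scoped commutatorElement

variable {G : Type*} [Group G] [Finite G]

theorem ex_map {H : Type*} [Group H] {Q : Subgroup H} {z : H} (h : EX Q z) {f : H →* G} (hf : Injective f) :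
    EX (Q.map f) (f z) := by
  have k : ∀ c ∈ 𝓩(Q.map f), c ∈ zpowers (f z) := by
    rintro _ ⟨⟨c, hc, rfl⟩, h2⟩
    rw [← MonoidHom.map_zpowers]
    exact mem_map_of_mem f (h.ctr ⟨hc, mem_cent.2 fun a ha => hf (by
      rw [map_mul, map_mul]; exact mem_cent.1 h2 _ (mem_map_of_mem f ha))⟩)
  refine ⟨⟨mem_map_of_mem f h.mem, fun e => h.ne (hf (e.trans f.map_one.symm)), by rw [← map_mul, h.sq, map_one], ?_, ?_,
    fun c hc _ => k c hc⟩, k, fun hc => h.nc ⟨⟨fun a b => Subtype.ext (hf ?_)⟩⟩⟩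
  · rintro _ ⟨a, ha, rfl⟩
    rw [mem_cent1, ← map_mul, ← map_mul, mem_cent1.1 (h.cent ha)]
  · rintro _ ⟨a, ha, rfl⟩
    rw [← map_mul, ← MonoidHom.map_zpowers]; exact mem_map_of_mem f (h.pow a ha)
  · simpa using congrArg Subtype.val (hc.1.1 ⟨_, mem_map_of_mem f a.2⟩ ⟨_, mem_map_of_mem f b.2⟩)

theorem card_cent {Q : Subgroup G} {z y : G} (h : EX Q z) (hy : y ∈ Q) (hz : y ∉ zpowers z) :
    ♯(Q ⊓ 𝓒₁(y) : Subgroup G) * 2 = ♯Q := by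
  obtain ⟨a, ha, hn⟩ : ∃ a ∈ Q, a ∉ 𝓒₁(y) := by
    by_contra! k
    exact hz (h.ctr ⟨hy, mem_cent.2 fun a ha => mem_cent1.1 (k a ha)⟩)
  have : 𝓒₁(y).relIndex Q = 2 := relIndex_eq_two_iff.2 ⟨a, ha, fun b hb => by
    by_cases k : b ∈ 𝓒₁(y)
    · exact Or.inr ⟨k, fun k' => hn (by simpa using mul_mem (inv_mem k) k')⟩
    · exact Or.inl ⟨h.mul_cent hy hb ha k hn, k⟩⟩
  rw [← this, inf_comm, ← card_mul_index (𝓒₁(y).subgroupOf Q), ← inf_subgroupOf_right,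
    Nat.card_congr (subgroupOfEquivOfLe inf_le_right).toEquiv, relIndex, inf_subgroupOf_right]

theorem card_elem {Q A : Subgroup G} {z : G} (h : EX Q z) {w : ℕ} (hc : ♯Q = 2 ^ (2 * w + 1)) (hA : A ≤ Q)
    (h2 : ∀ a ∈ A, a * a = 1) : ♯A ≤ 2 ^ (w + 1) := by
  obtain ⟨k, m, c, -, -, a2, a3, a4⟩ := H7Ext.exists_two h.extra
  rw [a3, Nat.pow_right_inj one_lt_two] at hc
  have := (c.rank a2).2 (A.subgroupOf Q) fun a ha => Subtype.ext (by simpa [pow_two] using h2 a ha)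
  rw [Nat.card_congr (subgroupOfEquivOfLe hA).toEquiv] at this
  exact this.trans (Nat.pow_le_pow_right two_pos (by rcases a4 with ⟨e, -⟩ | ⟨e, -⟩ <;> omega))

theorem exists_equiv {D X Y : Type*} [Group D] [Group X] [Group Y] {a : D →* X} {b : D →* Y} (ha : Surjective a)
    (hb : Surjective b) (h : a.ker = b.ker) : ∃ e : X ≃* Y, ∀ d, e (a d) = b d :=
  ⟨(QuotientGroup.quotientKerEquivOfSurjective a ha).symm.trans
    ((QuotientGroup.quotientMulEquivOfEq h).trans (QuotientGroup.quotientKerEquivOfSurjective b hb)), fun d => by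
      rw [show a d = QuotientGroup.quotientKerEquivOfSurjective a ha (QuotientGroup.mk d) from rfl,
        MulEquiv.trans_apply, MulEquiv.symm_apply_apply]; rfl⟩

/-- the dictionary: `R x v` says that `x` lies over the class of `v` -/
structure MT (z : G) (Q : Subgroup 𝓒₁(z)) [Q.Normal] (P : Subgroup G) (κ : Co0 →* 𝓒₁(z) ⧸ Q) (R : G → LL → Prop) :
    Prop where
  eq : Q.map 𝓒₁(z).subtype = P
  ex : EX P z
  lx : LX P z
  card : ♯P = 2 ^ (2 * 12 + 1)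
  fused : ∃ g, g * z * g⁻¹ ∈ P ∧ g * z * g⁻¹ ≠ z
  surj : Surjective κ
  ker : κ.ker = center Co0
  mem : ∀ {x v}, R x v → x ∈ P
  exv : ∀ {x}, x ∈ P → ∃ v, R x v
  exx : ∀ v, ∃ x, R x v
  mul : ∀ {x y v w}, R x v → R y w → R (x * y) (v + w)
  zero : ∀ {x v}, R x v → (x ∈ zpowers z ↔ Cg v 0)
  one : ∀ {x v}, x ∈ zpowers z → Cg v 0 → R x v
  act : ∀ {g} {a : 𝓒₁(z)} {x v}, κ g = QuotientGroup.mk a → R x v → R (a * x * (a : G)⁻¹) (g • v)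

variable {z : G} {Q : Subgroup 𝓒₁(z)} [Q.Normal] {P : Subgroup G} {κ : Co0 →* 𝓒₁(z) ⧸ Q} {R : G → LL → Prop}
  {x y s t : G} {v w : LL}

theorem mem_map_iff : x ∈ Q.map 𝓒₁(z).subtype ↔ ∃ h : x ∈ 𝓒₁(z), (⟨x, h⟩ : 𝓒₁(z)) ∈ Q :=
  ⟨by rintro ⟨a, h, rfl⟩; exact ⟨a.2, h⟩, fun ⟨h, e⟩ => ⟨⟨x, h⟩, e, rfl⟩⟩

theorem setting {w : ℕ} (hS : IsExtraspecialCentralizerSetting z Q w) :
    EX (Q.map 𝓒₁(z).subtype) z ∧ LX (Q.map 𝓒₁(z).subtype) z ∧ ♯(Q.map 𝓒₁(z).subtype) = 2 ^ (2 * w + 1) ∧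
    (∃ g, g * z * g⁻¹ ∈ Q.map 𝓒₁(z).subtype ∧ g * z * g⁻¹ ≠ z) ∧
    ∀ q : Q, q ∈ center Q ↔ ((q : 𝓒₁(z)) : G) ∈ zpowers z := by
  obtain ⟨h1, h2, h3, h4, g, h5, h6⟩ := hS
  obtain ⟨z', e, hc⟩ := EX.of h3
  have e' := ex_map e 𝓒₁(z).subtype_injective
  obtain ⟨a1, a2, a3, -⟩ := of_fstar h1 (congrArg (map 𝓒₁(z).subtype) h2) e'.isPi
  have hz : 𝓒₁(z).subtype z' = z :=
    ((e'.mem_iff.1 (e'.ctr a1)).resolve_left fun k => by simp [k] at h1).symm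
  rw [hz] at e'
  refine ⟨e', e'.lx a2 a3, (card_map_of_injective 𝓒₁(z).subtype_injective).trans h4,
    ⟨g, mem_map_iff.2 h5, h6⟩, fun q => ?_⟩
  rw [← mem_map_iff_mem Q.subtype_injective, hc, ← mem_map_iff_mem 𝓒₁(z).subtype_injective, MonoidHom.map_zpowers, hz]
  rfl

theorem MT.of (hS : IsExtraspecialCentralizerSetting z Q 12) {e : 𝓒₁(z) ⧸ Q ≃* Spor.Co1} {ψ : LL → Q ⧸ center Q}
    (hψ : IsLeechModTwoIso Q e ψ) : MT z Q (Q.map 𝓒₁(z).subtype) (e.symm.toMonoidHom.comp (QuotientGroup.mk' _))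
      fun x v => ∃ q : Q, ((q : 𝓒₁(z)) : G) = x ∧ ψ v = QuotientGroup.mk q := by
  obtain ⟨h1, h2, h3, h4, h5⟩ := setting hS
  obtain ⟨p1, p2, p3, p4⟩ := hψ
  have p3' : ∀ v, ψ v = 1 ↔ Cg v 0 := fun v => by simp only [p3, Cg, zero_add]
  refine ⟨rfl, h1, h2, h3, h4, e.symm.surjective.comp (QuotientGroup.mk'_surjective _), ?_, ?_, ?_, fun v => ?_, ?_, ?_,
    fun {x v} hx hv => ?_, ?_⟩
  · ext g; simp [MonoidHom.mem_ker]
  · rintro _ v ⟨q, rfl, -⟩; exact mem_map_of_mem _ q.2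
  · rintro _ ⟨q, hq, rfl⟩
    obtain ⟨v, hv⟩ := p2 (QuotientGroup.mk ⟨q, hq⟩)
    exact ⟨v, ⟨q, hq⟩, rfl, hv⟩
  · obtain ⟨q, hq⟩ := QuotientGroup.mk_surjective (ψ v)
    exact ⟨_, q, rfl, hq.symm⟩
  · rintro _ _ v w ⟨q, rfl, hq⟩ ⟨r, rfl, hr⟩
    exact ⟨q * r, rfl, by rw [p1, hq, hr]; rfl⟩
  · rintro _ v ⟨q, rfl, hq⟩
    rw [← h5, ← p3', hq, QuotientGroup.eq_one_iff]
  · obtain ⟨q, hq, rfl⟩ := h1.le hx
    exact ⟨⟨q, hq⟩, rfl, by rw [(p3' v).2 hv, eq_comm, QuotientGroup.eq_one_iff, h5]; exact hx⟩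
  · rintro g a _ v hg ⟨q, rfl, hq⟩
    exact ⟨_, rfl, p4 a g (by rw [← hg]; simp) v q hq⟩

theorem exists_MT (hM : IsOfMonsterType z Q) : ∃ κ R, MT z Q (Q.map 𝓒₁(z).subtype) κ R :=
  let ⟨h, _, _, k⟩ := hM; ⟨_, _, MT.of h k⟩

theorem Cg.smul (g : Co0) (h : Cg v w) : Cg (g • v) (g • w) := by
  obtain ⟨u, rfl⟩ := h; exact ⟨g • u, by simp only [smul_add']⟩

namespace MT

variable (h : MT z Q P κ R)
include h

theorem twist (k : Co0) : MT z Q P (κ.comp (MulAut.conj k).toMonoidHom) fun x v => R x (k • v) := by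
  have c : ∀ v, Cg (k • v) 0 ↔ Cg v 0 := fun v =>
    ⟨fun e => by simpa [smul_zero'] using Cg.smul k⁻¹ e, fun e => by simpa [smul_zero'] using Cg.smul k e⟩
  refine ⟨h.eq, h.ex, h.lx, h.card, h.fused, h.surj.comp (MulAut.conj k).surjective, ?_, h.mem, fun hx => ?_,
    fun v => h.exx _, fun a b => by rw [smul_add']; exact h.mul a b, fun a => (h.zero a).trans (c _),
    fun a b => h.one a ((c _).2 b), fun {g a x v} e r => ?_⟩
  · ext g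
    rw [← MonoidHom.comap_ker, h.ker, mem_comap]
    exact Normal.mem_comm_iff inferInstance |>.trans (by simp)
  · obtain ⟨v, hv⟩ := h.exv hx
    exact ⟨k⁻¹ • v, by rwa [smul_inv_smul]⟩
  · have := h.act e r
    simpa [smul_smul] using this

theorem cg (r : R x v) (c : Cg w v) : R x w := by
  obtain ⟨u, rfl⟩ := c
  simpa using h.mul r (h.one (one_mem _) (v := u + u) ⟨u, by simp⟩)

theorem mulz (r : R x v) (hy : y ∈ zpowers z) : R (x * y) v := by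
  simpa using h.mul r (h.one hy (Cg.rfl' 0))

theorem inv (r : R x v) : R x⁻¹ v := by
  obtain ⟨w, r'⟩ := h.exv (inv_mem (h.mem r))
  obtain ⟨u, e⟩ := (h.zero (h.mul r r')).1 (by simp)
  exact h.cg r' ⟨u - w, by rw [zero_add, ← eq_sub_iff_add_eq] at e; rw [e]; abel⟩

theorem eq_or (r : R x v) (r' : R y v) : y = x ∨ y = x * z := by
  rcases h.ex.mem_iff.1 ((h.zero (h.mul (h.inv r) r')).2 ⟨v, by simp⟩) with e | e
  exacts [Or.inl (inv_mul_eq_one.1 e).symm, Or.inr (inv_mul_eq_iff_eq_mul.1 e)]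

theorem cg_of (r : R x v) (r' : R x w) : Cg v w := by
  obtain ⟨u, e⟩ := (h.zero (h.mul (h.inv r) r')).1 (by simp)
  exact ⟨u - w, by rw [zero_add, ← eq_sub_iff_add_eq] at e; rw [e]; abel⟩

theorem exg (a : 𝓒₁(z)) : ∃ g, κ g = QuotientGroup.mk a := h.surj _

theorem exa (g : Co0) : ∃ a : 𝓒₁(z), κ g = QuotientGroup.mk a :=
  let ⟨a, e⟩ := QuotientGroup.mk_surjective (κ g); ⟨a, e.symm⟩

theorem memQ {a : 𝓒₁(z)} : a ∈ Q ↔ (a : G) ∈ P := by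
  rw [← h.eq]; exact (mem_map_iff_mem 𝓒₁(z).subtype_injective).symm

theorem form : (∀ {x v}, R x v → (x * x = 1 ↔ (32 : ℤ) ∣ sqNorm (v : V))) ∧
    ∀ {x y v w}, R x v → R y w → (x * y = y * x ↔ (16 : ℤ) ∣ dotInt (v : V) w) := by
  obtain ⟨n, c, -, hc⟩ := h.ex.exists_cov
  choose f hf using h.exx
  let θ : LL → Fin n → ZMod 2 := fun v => c.π ⟨f v, h.mem (hf v)⟩
  have k : ∀ {x v} (r : R x v), θ v = c.π ⟨x, h.mem r⟩ := fun {x v} r => by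
    rcases h.eq_or r (hf v) with e | e
    · exact congrArg c.π (Subtype.ext e)
    · exact c.π_eq_iff.2 ⟨1, Subtype.ext (by rw [Subgroup.coe_mul, hc]; exact e)⟩
  have a : ∀ v w, θ (v + w) = θ v + θ w := fun v w => by rw [k (h.mul (hf v) (hf w)), ← c.π_mul]; rfl
  have q : ∀ {x v}, R x v → (c.q (θ v) = 0 ↔ x * x = 1) := fun r => by
    rw [k r, c.q_eq_zero, pow_two, Subtype.ext_iff]; rfl
  have two : ∀ a b : ZMod 2, (a = 0 ↔ b = 0) → a = b := by decide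
  have key := Cfsg.Agent.S5552.result (fun v => c.q (θ v))
    (fun v w => two _ _ ((q (h.cg (hf v) ⟨w, rfl⟩)).trans (q (hf v)).symm))
    (fun u v w => by
      simp only [a, c.q_add, c.b_add_left]
      ring)
    (fun g v => by
      obtain ⟨a, e⟩ := h.exa g
      exact two _ _ (by rw [q (h.act e (hf v)), q (hf v), conj_mul, conj_eq_one_iff]))
    (by
      obtain ⟨x, hx, e⟩ := h.ex.exists_sq (by rw [h.card]; norm_num) h.ex.mem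
      obtain ⟨v, r⟩ := h.exv hx.1
      exact ⟨v, fun k => h.ex.ne (e ▸ (q r).1 k)⟩)
  refine ⟨fun {x v} r => ?_, fun {x y v w} r r' => ?_⟩
  · obtain ⟨m, hm⟩ := dvd_sq v.2
    rw [← q r, key, ZMod.intCast_zmod_eq_zero_iff_dvd]; omega
  · have e := c.q_add (θ v) (θ w)
    obtain ⟨m, hm⟩ := dvd_sq v.2
    obtain ⟨m', hm'⟩ := dvd_sq w.2
    obtain ⟨d, hd⟩ := dvd_dot v.2 w.2
    rw [← a, key, key, key, AddSubgroup.coe_add, sq_add, hm, hm', hd,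
      show (16 * m + 2 * (8 * d) + 16 * m') / 16 = m + m' + d by omega, show 16 * m / 16 = m by omega,
      show 16 * m' / 16 = m' by omega, Int.cast_add, Int.cast_add, add_right_inj] at e
    have := c.b_eq_zero (x := ⟨x, h.mem r⟩) (y := ⟨y, h.mem r'⟩)
    rw [← k r, ← k r', ← e, ZMod.intCast_zmod_eq_zero_iff_dvd, Subtype.ext_iff] at this
    exact this.symm.trans (by rw [hd]; omega)

theorem conj_of (r : R x v) (r' : R y w) (hx : x ∉ zpowers z) (h2 : x * x = 1) {g : Co0} (c : Cg (g • v) w) :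
    ∃ a : 𝓒₁(z), κ g = QuotientGroup.mk a ∧ a * x * (a : G)⁻¹ = y := by
  obtain ⟨a, e⟩ := h.exa g
  rcases h.eq_or (h.act e r) (h.cg r' c) with k | k
  · exact ⟨a, e, k.symm⟩
  · obtain ⟨q, hq, e'⟩ := h.ex.exists_conj (h.mem r) h2 hx
    refine ⟨a * ⟨q, h.ex.cent hq⟩, by
      rw [e, QuotientGroup.mk_mul, (QuotientGroup.eq_one_iff (N := Q) ⟨q, _⟩).2 (h.memQ.2 hq), mul_one], ?_⟩
    rw [k, Subgroup.coe_mul, mul_inv_rev, show ∀ a q x : G, a * q * x * (q⁻¹ * a⁻¹) = a * (q * x * q⁻¹) * a⁻¹ by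
      intros; group, e', ← conj_mul, mul_inv_eq_iff_eq_mul.2 (mem_cent1.1 a.2)]

theorem short (hx : x ∈ P) (h1 : x ∉ zpowers z) (h2 : x * x = 1) :
    ∃ v, R x v ∧ (sqNorm (v : V) = 32 ∨ sqNorm (v : V) = 64) := by
  obtain ⟨v, r⟩ := h.exv hx
  obtain ⟨w, c, k⟩ := exists_short' v
  have r' := h.cg r c.symm
  rcases k with rfl | k | k | k
  · exact absurd ((h.zero r).2 c) h1
  · exact ⟨w, r', Or.inl k⟩
  · exact absurd ((h.form.1 r').1 h2) (by rw [k]; norm_num)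
  · exact ⟨w, r', Or.inr k⟩

theorem stab {g : Co0} {a : 𝓒₁(z)} (r : R x v) (e : κ g = QuotientGroup.mk a) (ha : (a : G) ∈ 𝓒₁(x)) : Cg (g • v) v :=
  h.cg_of (by simpa [mul_inv_eq_iff_eq_mul.2 (mem_cent1.1 ha)] using h.act e r) r

end MT

variable (Q) in
/-- the image of a subgroup in the quotient of the centralizer -/
abbrev im (B : Subgroup G) : Subgroup (𝓒₁(z) ⧸ Q) := (B.subgroupOf 𝓒₁(z)).map (QuotientGroup.mk' Q)

theorem mem_im {B : Subgroup G} {u : 𝓒₁(z) ⧸ Q} : u ∈ im Q B ↔ ∃ a : 𝓒₁(z), (a : G) ∈ B ∧ u = QuotientGroup.mk a :=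
  ⟨fun ⟨a, h, e⟩ => ⟨a, h, e.symm⟩, fun ⟨a, h, e⟩ => ⟨a, h, e.symm⟩⟩

theorem im_norm {B X : Subgroup G} (hX : X ≤ 𝓝(B)) : ∀ x ∈ im Q X, ∀ y ∈ im Q B, x * y * x⁻¹ ∈ im Q B := by
  rintro _ ⟨a, ha, rfl⟩ _ ⟨b, hb, rfl⟩
  exact ⟨a * b * a⁻¹, conj_mem_of_mem_norm (K := B) (hX ha) hb, rfl⟩

namespace MT

variable (h : MT z Q P κ R)
include h

theorem card_im {B : Subgroup G} (hB : B ≤ 𝓒₁(z)) : ♯(im Q B) * ♯(B ⊓ P : Subgroup G) = ♯B := by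
  rw [← Nat.card_congr (subgroupOfEquivOfLe hB).toEquiv, Rad.card_eq_card_map_mul_card_inf_ker (QuotientGroup.mk' Q),
    QuotientGroup.ker_mk', ← Nat.card_congr (subgroupOfEquivOfLe (inf_le_left.trans hB)).toEquiv]
  congr 3
  ext a
  simp only [mem_subgroupOf, mem_inf, h.memQ]

theorem card_hat (E : Subgroup (𝓒₁(z) ⧸ Q)) : ♯(E.comap κ) = ♯E * 2 := by
  rw [Rad.card_comap_of_surjective h.surj, h.ker, card_center]

theorem ng_mem (E : Subgroup (𝓒₁(z) ⧸ Q)) : ng ∈ E.comap κ :=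
  ker_le_comap _ _ (h.ker ▸ mem_center.2 (Or.inr rfl))

theorem mem_hat (r : R x v) (hx : x ∉ zpowers z) (h2 : x * x = 1) {g : Co0} :
    g ∈ (im Q (𝓒₁(z) ⊓ 𝓒₁(x))).comap κ ↔ Cg (g • v) v :=
  ⟨fun k => let ⟨_, ha, e⟩ := mem_im.1 k; h.stab r e ha.2, fun c =>
    let ⟨a, e, k⟩ := h.conj_of r r hx h2 c; mem_im.2 ⟨a, ⟨a.2, mem_cent1.2 (mul_inv_eq_iff_eq_mul.1 k)⟩, e⟩⟩

theorem pair {g : G} (hs : g * z * g⁻¹ ∈ P) (hn : g * z * g⁻¹ ≠ z) : Pair P z (cj g P) (g * z * g⁻¹) :=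
  h.lx.pair hs hn (h.ex.large_of_fused h.lx.norm h.lx.cent_le (by rw [h.card]; norm_num) hs hn).1

section
variable {g : G} (hs : g * z * g⁻¹ ∈ P) (hn : g * z * g⁻¹ ≠ z)
include hs hn

theorem card_B : ♯(cj g P ⊓ 𝓒₁(z) : Subgroup G) = 2 ^ 24 := by
  have := card_cent (h.ex.cj g) (h.pair hs hn).mem' (h.pair hs hn).symm.not_mem
  rw [card_cj, h.card] at this
  omega

theorem card_E_le : ♯(P ⊓ cj g P : Subgroup G) ≤ 2 ^ 13 :=
  card_elem h.ex h.card inf_le_left fun _ ha => (h.pair hs hn).E_sq ha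

theorem card_mul : ♯(im Q (cj g P ⊓ 𝓒₁(z))) * ♯(P ⊓ cj g P : Subgroup G) = 2 ^ 24 := by
  rw [← h.card_B hs hn, ← h.card_im (B := cj g P ⊓ 𝓒₁(z)) inf_le_right, inf_assoc, inf_of_le_right h.ex.cent, inf_comm P]

theorem two_hat : IsPGroup 2 ((im Q (cj g P ⊓ 𝓒₁(z))).comap κ) := by
  obtain ⟨k, -, e⟩ := (Nat.dvd_prime_pow Nat.prime_two).1 (Dvd.intro _ (h.card_mul hs hn))
  exact IsPGroup.of_card (n := k + 1) (by rw [h.card_hat, e, pow_succ])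

theorem B_le : cj g P ⊓ 𝓒₁(z) ≤ 𝓒₁(z) ⊓ 𝓒₁(g * z * g⁻¹) :=
  le_inf inf_le_right (inf_le_left.trans (h.ex.cj g).cent)

theorem B_norm : 𝓒₁(z) ⊓ 𝓒₁(g * z * g⁻¹) ≤ 𝓝(cj g P ⊓ 𝓒₁(z)) := fun a ha =>
  inf_normalizer_le_normalizer_inf ⟨(h.lx.cj g).norm ha.2, le_normalizer ha.1⟩

theorem hat_props {N : Subgroup Co0} (hN : ∀ k, k ∈ (im Q (𝓒₁(z) ⊓ 𝓒₁(g * z * g⁻¹))).comap κ ↔ k ∈ N) :
    (im Q (cj g P ⊓ 𝓒₁(z))).comap κ ≤ N ∧
    ∀ k ∈ N, ∀ x ∈ (im Q (cj g P ⊓ 𝓒₁(z))).comap κ, k * x * k⁻¹ ∈ (im Q (cj g P ⊓ 𝓒₁(z))).comap κ :=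
  ⟨fun k hk => (hN k).1 (map_mono (comap_mono (h.B_le hs hn)) hk), fun k hk x hx => by
    rw [mem_comap, map_mul, map_mul, map_inv]
    exact im_norm (h.B_norm hs hn) _ ((hN k).2 hk) _ hx⟩

theorem not_U (r : R (g * z * g⁻¹) vU) : False := by
  have p := h.pair hs hn
  obtain ⟨a, b⟩ := h.hat_props hs hn fun k => (h.mem_hat r p.not_mem p.r.sq).trans cg_U
  have := card_le_of_le (le_center a (h.two_hat hs hn) b (h.ng_mem _))
  rw [card_center, h.card_hat] at this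
  have h1 := h.card_mul hs hn
  have h2 := h.card_E_le hs hn
  have := Nat.mul_le_mul (show ♯(im Q (cj g P ⊓ 𝓒₁(z))) ≤ 1 by omega) h2
  omega

theorem hat_eq (r : R (g * z * g⁻¹) (e8 none)) : (im Q (cj g P ⊓ 𝓒₁(z))).comap κ = DD ∧
    ♯(im Q (cj g P ⊓ 𝓒₁(z))) = 2 ^ 11 ∧ ♯(P ⊓ cj g P : Subgroup G) = 2 ^ 13 := by
  have p := h.pair hs hn
  obtain ⟨a, b⟩ := h.hat_props hs hn fun k => (h.mem_hat r p.not_mem p.r.sq).trans cg_e8
  have c := le_DD a (h.two_hat hs hn) b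
  have := card_le_of_le c
  rw [card_DD, h.card_hat] at this
  have h1 := h.card_mul hs hn
  have h2 := h.card_E_le hs hn
  have h3 : ♯(im Q (cj g P ⊓ 𝓒₁(z))) = 2 ^ 11 := by
    by_contra k
    have := Nat.mul_le_mul (show ♯(im Q (cj g P ⊓ 𝓒₁(z))) ≤ 2047 by omega) h2
    omega
  refine ⟨eq_of_le_of_card_ge c (by rw [card_DD, h.card_hat, h3]; norm_num), h3, ?_⟩
  rw [h3] at h1; omega

theorem four : ∃ v, R (g * z * g⁻¹) v ∧ sqNorm (v : V) = 64 := by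
  have p := h.pair hs hn
  obtain ⟨v, r, k | k⟩ := h.short hs p.not_mem p.r.sq
  · obtain ⟨c, rfl⟩ := eqv1.1 (eqv32 sqU k)
    exact ((h.twist c).not_U hs hn r).elim
  · exact ⟨v, r, k⟩

theorem exists_e8 : ∃ κ' R', MT z Q P κ' R' ∧ R' (g * z * g⁻¹) (e8 none) := by
  obtain ⟨v, r, k⟩ := h.four hs hn
  obtain ⟨c, rfl⟩ := eqv1.1 (eqv64 (sq_e8 none) k)
  exact ⟨_, _, h.twist c, r⟩

end

theorem conj_eqv (r : R x v) (r' : R y w) (h1 : sqNorm (v : V) = 32 ∨ sqNorm (v : V) = 64) (e : Eqv [v] [w]) :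
    ∃ a ∈ 𝓒₁(z), a * x * a⁻¹ = y := by
  obtain ⟨g, rfl⟩ := eqv1.1 e
  obtain ⟨a, -, k⟩ := h.conj_of r r' (fun k => not_cg_zero (by omega) (by omega) ((h.zero r).1 k))
    ((h.form.1 r).2 (by omega)) (Cg.rfl' _)
  exact ⟨a, a.2, k⟩

theorem four_iff : (IsConj z x ∧ x ≠ z) ∧ x ∈ P ↔ ∃ v, R x v ∧ sqNorm (v : V) = 64 := by
  constructor
  · rintro ⟨⟨a, b⟩, c⟩
    obtain ⟨g, rfl⟩ := isConj_iff.1 a
    exact h.four c b
  · rintro ⟨v, r, k⟩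
    obtain ⟨g, hs, hn⟩ := h.fused
    obtain ⟨w, r', k'⟩ := h.four hs hn
    obtain ⟨a, -, e⟩ := h.conj_eqv r' r (Or.inr k') (eqv64 k' k)
    refine ⟨⟨isConj_iff.2 ⟨a * g, by rw [← e]; group⟩, fun e' => ?_⟩, h.mem r⟩
    exact not_cg_zero (by omega) (by omega) ((h.zero r).1 (e' ▸ mem_zpowers _))

theorem two (hx : x ∈ P) (h1 : orderOf x = 2) (hn : ¬ IsConj z x) : ∃ v, R x v ∧ sqNorm (v : V) = 32 := by
  obtain ⟨v, r, k | k⟩ := h.short hx (fun k => by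
    rcases h.ex.mem_iff.1 k with rfl | rfl
    · simp at h1
    · exact hn (IsConj.refl _)) (by rw [← pow_two, ← h1, pow_orderOf_eq_one])
  exacts [⟨v, r, k⟩, absurd (h.four_iff.2 ⟨v, r, k⟩).1.1 hn]

end MT

end CA.MonT
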