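/-
Groups of Monster type: the centralizer of a non-central involution.
-/
import Cfsg.Agent.Lib.Spor.MonT

set_option autoImplicit false
set_option linter.unusedSectionVars false

namespace CA.MonT

open Subgroup Cfsg CA.BG CA.BG4 CA.H7Lge CA.Leech Function
open scoped commutatorElement

theorem fstar_eq {H S : Type*} [Group H] [Finite H] [Group S] [Finite S] [IsSimpleGroup S] (h3 : 3 ∣ Nat.card S)
    {Q : Subgroup H} [Q.Normal] (e : H ⧸ Q ≃* S) (h2 : IsPGroup 2 Q) (hc : 𝓒(Q) ≤ Q) :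
    generalizedFittingSubgroup H = Q := by
  have k : pCore 2 H = Q := by
    refine le_antisymm (fun x hx => ?_) (Core.le_pCore h2)
    let f := e.toMonoidHom.comp (QuotientGroup.mk' Q)
    have := Normal.map (inferInstance : (pCore 2 H).Normal) f (e.surjective.comp (QuotientGroup.mk'_surjective Q))
    have := (Subgroup.map_eq_bot_iff _).1 (eq_bot_two h3 ((pCore 2 H).map f) (Core.isPGroup_pCore.map f)) hx
    simpa [f, MonoidHom.mem_ker] using this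
  rw [← k] at hc ⊢
  exact Fstar.fstar_eq_pCore_iff.2 hc

variable {G : Type*} [Group G] [Finite G] {z : G} {Q : Subgroup 𝓒₁(z)} [Q.Normal] {P : Subgroup G}
  {κ : Co0 →* 𝓒₁(z) ⧸ Q} {R : G → LL → Prop} {x y s t : G} {v w : LL}

namespace MT

variable (h : MT z Q P κ R)
include h

theorem not_conj (r : R x v) (k : sqNorm (v : V) = 32) : ¬ IsConj z x := fun c => by
  obtain ⟨w, r', k'⟩ := h.four_iff.1 ⟨⟨c, fun e =>
    not_cg_zero (by omega) (by omega) ((h.zero r).1 (e ▸ mem_zpowers _))⟩, h.mem r⟩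
  rcases (h.cg_of r' r).pm k'.le (by omega) with e | e <;> rw [e] at k'
  · omega
  · rw [NegMemClass.coe_neg, sq_neg] at k'; omega

theorem tz (r : R t vU) : t ∉ zpowers z := fun k => not_cg_zero (by rw [sqU]; norm_num) (by rw [sqU]; norm_num) ((h.zero r).1 k)

theorem t2 (r : R t vU) : t * t = 1 := (h.form.1 r).2 (by rw [sqU])

theorem fused_t (r : R t vU) : ∃ n ∈ 𝓒₁(t), ∃ s ∈ P, s ∉ zpowers t ∧ n * z * n⁻¹ = z * s := by
  obtain ⟨s, rs⟩ := h.exx (e8 none)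
  obtain ⟨⟨a, hn⟩, hs⟩ := h.four_iff.2 ⟨_, rs, sq_e8 none⟩
  obtain ⟨g, rfl⟩ := isConj_iff.1 a
  have p := h.pair hs hn
  have e := h.ex.cj g
  obtain ⟨k, hk, v, d, hv⟩ := ex_U
  obtain ⟨b, hb, kb⟩ := mem_im.1 (((h.hat_eq hs hn rs).1.ge hk))
  obtain ⟨y, ry⟩ := h.exx v
  have c := (p.comm_P (commutator_mem_commutator hb ⟨h.mem ry, mem_cent1.2 ((h.form.2 rs ry).2 d).symm⟩)).2
  have ht : t ∈ cj g P := by
    rcases h.eq_or (h.mul (h.act kb ry) (h.inv ry)) (h.cg r ⟨v - vU, by rw [sub_eq_iff_eq_add.1 hv]; abel⟩) with e | e <;>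
      rw [e]
    exacts [c, mul_mem c p.mem']
  obtain ⟨n, h1, h2⟩ : ∃ n ∈ cj g P ⊓ 𝓒₁(t), n ∉ 𝓒₁(z) := by
    by_contra! k
    rcases e.cent_cent ht p.mem' (mem_cent.2 fun n hn => mem_cent1.1 (k n hn)) with k | k
    · exact p.symm.not_mem (e.ctr ⟨p.mem', k⟩)
    · rcases e.mem_iff.1 (e.ctr ⟨mul_mem p.mem' ht, k⟩) with k | k
      · exact h.tz r (eq_inv_of_mul_eq_one_right k ▸ inv_mem (mem_zpowers z))
      · exact h.not_conj (h.mulz r (mem_zpowers z)) sqU (by rwa [mem_cent1.1 (h.ex.cent (h.mem r)), k])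
  refine ⟨n, h1.2, _, hs, fun k => ?_, e.conj h1.1 p.mem' h2⟩
  rcases (mem_two (h.t2 r)).1 k with k | k
  exacts [e.ne k, h.not_conj r sqU (k ▸ a)]

theorem exists_lam (r : R t vU) : ∃ l : (𝓒₁(z) ⊓ 𝓒₁(t) : Subgroup G) →* St [vU], Surjective l ∧
    ∀ d, κ (l d) = QuotientGroup.mk (inclusion inf_le_left d) := by
  have ex : ∀ d : (𝓒₁(z) ⊓ 𝓒₁(t) : Subgroup G), ∃ g : St [vU], κ g = QuotientGroup.mk (inclusion inf_le_left d) := fun d => by
    obtain ⟨g, e⟩ := h.exg (inclusion inf_le_left d)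
    rcases mem_pmU.1 (cg_U.1 (h.stab r e d.2.2)) with k | k
    · exact ⟨⟨g, mem_St1.2 k⟩, e⟩
    · exact ⟨⟨ng * g, mem_St1.2 (by rw [mul_smul, k, ng_smul, neg_neg])⟩, by
        rw [map_mul, show κ ng = 1 from h.ng_mem ⊥, one_mul, e]⟩
  have un : ∀ g g' : St [vU], κ g = κ g' → g = g' := fun g g' e => by
    have : ((g⁻¹ * g' : St [vU]) : Co0) ∈ κ.ker := by simp [MonoidHom.mem_ker, e]
    rcases mem_center.1 (h.ker ▸ this) with k | k
    exacts [inv_mul_eq_one.1 (Subtype.ext k), absurd (k ▸ (g⁻¹ * g').2) ng_not_fix]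
  choose l hl using ex
  refine ⟨MonoidHom.mk' l fun a b => un _ _ (by rw [Subgroup.coe_mul, map_mul, hl, hl, hl, map_mul]; rfl), fun g => ?_, hl⟩
  obtain ⟨a, e, k⟩ := h.conj_of r r (h.tz r) (h.t2 r) (g := g) (by rw [mem_St1.1 g.2]; exact Cg.rfl' _)
  exact ⟨⟨a, a.2, mem_cent1.2 (mul_inv_eq_iff_eq_mul.1 k)⟩, un _ _ ((hl _).trans e.symm)⟩

theorem baby' (r : R t vU) {H : Type*} [Group H] [Finite H] (ν : (𝓒₁(z) ⊓ 𝓒₁(t) : Subgroup G) →* H) (hν : Surjective ν)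
    (hk : ∀ d, ν d = 1 ↔ (d : G) ∈ zpowers t) (zD : (𝓒₁(z) ⊓ 𝓒₁(t) : Subgroup G)) (hz : (zD : G) = z)
    {S : Subgroup H} (hS : S = (P.subgroupOf _).map ν) [S.Normal] :
    EX S (ν zD) ∧ generalizedFittingSubgroup H = S ∧ ♯S = 2 ^ (2 * 11 + 1) ∧
    ∃ (e : H ⧸ S ≃* Spor.Co2) (ψ : leechPerpU → S ⧸ center S),
      (∀ x y : leechPerpU, ψ (x + y) = ψ x * ψ y) ∧ Surjective ψ ∧
      (∀ x : leechPerpU, ψ x = 1 ↔ (∃ w : LL, (x : LL) = w + w) ∨ ∃ w : LL, (x : LL) = Spor.leechU + (w + w)) ∧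
      ∀ (a : H) (g : Spor.Co2), e (QuotientGroup.mk a) = g → ∀ (x y : leechPerpU), g • (x : LL) = (y : LL) →
        ∀ q : S, ψ x = QuotientGroup.mk q →
          ψ y = QuotientGroup.mk ⟨a * q * a⁻¹, (inferInstance : S.Normal).conj_mem (q : H) q.2 a⟩ := by
  have tP := h.mem r
  let tD : (𝓒₁(z) ⊓ 𝓒₁(t) : Subgroup G) := ⟨t, h.ex.cent tP, mem_cent1_self t⟩
  have t1 : ν tD = 1 := (hk tD).2 (mem_zpowers t)
  have mS : ∀ {d}, ν d ∈ S ↔ (d : G) ∈ P := fun {d} => by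
    rw [hS]
    refine ⟨fun ⟨c, hc, e⟩ => ?_, fun k => ⟨d, k, rfl⟩⟩
    have := zpowers_le.2 tP ((hk (c⁻¹ * d)).1 (by simp [e]))
    simpa using mul_mem (show (c : G) ∈ P from hc) this
  have zc : ∀ d, ν d * ν zD = ν zD * ν d := fun d => by
    rw [← map_mul, ← map_mul]; exact congrArg ν (Subtype.ext (by simpa [hz] using mem_cent1.1 d.2.1))
  have mz : ∀ {d : (𝓒₁(z) ⊓ 𝓒₁(t) : Subgroup G)}, (d : G) ∈ zpowers z → ν d ∈ zpowers (ν zD) := fun {d} k => by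
    rcases h.ex.mem_iff.1 k with k | k
    · rw [show d = 1 from Subtype.ext k, map_one]; exact one_mem _
    · rw [show d = zD from Subtype.ext (k.trans hz.symm)]; exact mem_zpowers _
  have z1 : ν zD ≠ 1 := fun e => by
    rcases (mem_two (h.t2 r)).1 ((hk _).1 e) with k | k <;> rw [hz] at k
    exacts [h.ex.ne k, h.tz r (k ▸ mem_zpowers z)]
  have z2 : ν zD * ν zD = 1 := by
    rw [← map_mul, show zD * zD = 1 from Subtype.ext (by simpa [hz] using h.ex.sq), map_one]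
  have ctr : 𝓩(S) ≤ zpowers (ν zD) := fun c hc => by
    obtain ⟨c, rfl⟩ := hν c
    have cP := mS.1 hc.1
    have : (c : G) ∈ 𝓒(P ⊓ 𝓒₁(t)) := mem_cent.2 fun y hy => by
      let y' : (𝓒₁(z) ⊓ 𝓒₁(t) : Subgroup G) := ⟨y, h.ex.cent hy.1, hy.2⟩
      have k := (hk ⁅y', c⁆).1 (by
        rw [map_commutatorElement, commutatorElement_eq_one_iff_mul_comm]; exact mem_cent.1 hc.2 _ (mS.2 hy.1))
      rcases (mem_two (h.t2 r)).1 k with k | k
      · exact commutatorElement_eq_one_iff_mul_comm.1 k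
      · exact absurd (k ▸ h.ex.comm hy.1 cP) (h.tz r)
    rcases h.ex.cent_cent tP cP this with k | k
    · exact mz (h.ex.ctr ⟨cP, k⟩)
    · have := mz (d := c * tD) (h.ex.ctr ⟨mul_mem cP tP, k⟩)
      rwa [map_mul, t1, mul_one] at this
  have ex : EX S (ν zD) := by
    refine ⟨⟨mS.2 (by rw [hz]; exact h.ex.mem), z1, z2, fun a _ => ?_, fun a ha => ?_, fun c hc _ => ctr hc⟩, ctr, fun hc => ?_⟩
    · obtain ⟨a, rfl⟩ := hν a; exact mem_cent1.2 (zc a)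
    · obtain ⟨a, rfl⟩ := hν a
      rw [← map_mul]; exact mz (h.ex.pow _ (mS.1 ha))
    · obtain ⟨x, hx, e⟩ := h.ex.exists_sq (by rw [h.card]; norm_num) tP
      let x' : (𝓒₁(z) ⊓ 𝓒₁(t) : Subgroup G) := ⟨x, h.ex.cent hx.1, hx.2⟩
      have k := ctr ⟨mS.2 (show (x' : G) ∈ P from hx.1), mem_cent.2 fun a ha =>
        congrArg Subtype.val (hc.1.1 ⟨a, ha⟩ ⟨_, mS.2 (show (x' : G) ∈ P from hx.1)⟩)⟩
      refine z1 ?_
      rw [show zD = x' * x' from Subtype.ext (hz.trans e.symm), map_mul]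
      rcases (mem_two z2).1 k with k | k <;> rw [k]
      exacts [mul_one _, z2]
  have mc : ∀ q : S, q ∈ center S ↔ (q : H) ∈ zpowers (ν zD) := fun q => by
    rw [← mem_map_iff_mem S.subtype_injective, ex.map_center]; rfl
  obtain ⟨l, l1, l2⟩ := h.exists_lam r
  have l3 : ∀ d, l d = 1 ↔ (d : G) ∈ P := fun d => by
    refine ⟨fun e => ?_, fun k => ?_⟩
    · have := l2 d
      rw [e, OneMemClass.coe_one, map_one, eq_comm, QuotientGroup.eq_one_iff, h.memQ] at this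
      exact this
    · have : ((l d : St [vU]) : Co0) ∈ κ.ker := (l2 d).trans ((QuotientGroup.eq_one_iff _).2 (h.memQ.2 k))
      rcases mem_center.1 (h.ker ▸ this) with k | k
      exacts [Subtype.ext k, absurd (k ▸ (l d).2) ng_not_fix]
  obtain ⟨e, he⟩ := exists_equiv (a := (QuotientGroup.mk' S).comp ν) ((QuotientGroup.mk'_surjective S).comp hν) l1 (by
    ext d; simp [MonoidHom.mem_ker, mS, l3])
  have perp : ∀ {x v}, R x v → (x ∈ 𝓒₁(t) ↔ v ∈ leechPerpU) := fun rx =>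
    mem_cent1.trans ((h.form.2 rx r).trans (by rw [← U_eq]; rfl))
  have tt : ∀ {x v}, R x v → x ∈ zpowers t → Cg v 0 ∨ Cg v vU := fun rx k => by
    rcases (mem_two (h.t2 r)).1 k with rfl | rfl
    exacts [Or.inl ((h.zero rx).1 (one_mem _)), Or.inr (h.cg_of rx r)]
  have := simple_Co2
  refine ⟨ex, fstar_eq (by rw [card_Co2]; norm_num) e (IsPGroup.iff_orderOf.2 fun a => ?_) ?_, ?_, ?_⟩
  · obtain ⟨k, -, e⟩ := (Nat.dvd_prime_pow Nat.prime_two).1 (orderOf_dvd_of_pow_eq_one (ex.pow4 a.2))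
    exact ⟨k, by rw [← e, orderOf_coe]⟩
  · have := Normal.map (inferInstance : (𝓒(S).comap ν).Normal) l l1
    rcases this.eq_bot_or_eq_top with k | k
    · intro c hc
      obtain ⟨c, rfl⟩ := hν c
      exact mS.2 ((l3 c).1 ((Subgroup.map_eq_bot_iff _).1 k hc))
    · obtain ⟨g, hg, v, a, b, c⟩ := ex_U'
      obtain ⟨d, hd, e⟩ := k.ge (mem_top ⟨g, hg⟩)
      obtain ⟨x, rx⟩ := h.exx v
      let x' : (𝓒₁(z) ⊓ 𝓒₁(t) : Subgroup G) := ⟨x, h.ex.cent (h.mem rx), (perp rx).2 a⟩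
      have k := (hk ⁅d, x'⁆).1 (by
        rw [map_commutatorElement, commutatorElement_eq_one_iff_mul_comm]
        exact (mem_cent.1 hd _ (mS.2 (h.mem rx))).symm)
      have := l2 d
      rw [e] at this
      exact ((tt (h.cg (h.mul (h.act this rx) (h.inv rx)) ⟨-v, by simp; abel⟩) k).elim b c).elim
  · have h1 := Rad.card_eq_card_map_mul_card_inf_ker ν (P.subgroupOf _)
    have h2 := card_cent h.ex tP (h.tz r)
    rw [← hS, ← inf_subgroupOf_right, Nat.card_congr (subgroupOfEquivOfLe inf_le_right).toEquiv, ← inf_assoc,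
      inf_of_le_left h.ex.cent, show _ ⊓ ν.ker = (zpowers t).subgroupOf _ by
        ext d
        simp only [mem_inf, MonoidHom.mem_ker, hk, mem_subgroupOf]
        exact ⟨fun k => k.2, fun k => ⟨⟨zpowers_le.2 tP k, d.2.2⟩, k⟩⟩,
      Nat.card_congr (subgroupOfEquivOfLe (zpowers_le.2 tD.2)).toEquiv, Nat.card_zpowers,
      orderOf_eq_prime (p := 2) (x := t) (by rw [pow_two, h.t2 r]) (fun k => h.tz r (k ▸ one_mem _))] at h1
    rw [h.card] at h2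
    omega
  choose f hf using h.exx
  let F : leechPerpU → (𝓒₁(z) ⊓ 𝓒₁(t) : Subgroup G) := fun x => ⟨f x, h.ex.cent (h.mem (hf x)), (perp (hf x)).2 x.2⟩
  let ψ : leechPerpU → S ⧸ center S := fun x => QuotientGroup.mk ⟨ν (F x), mS.2 (h.mem (hf x))⟩
  have key : ∀ (x : leechPerpU) (d : (𝓒₁(z) ⊓ 𝓒₁(t) : Subgroup G)) (rd : R d x),
      ψ x = QuotientGroup.mk ⟨ν d, mS.2 (h.mem rd)⟩ := fun x d rd =>
    QuotientGroup.eq.2 ((mc _).2 (by
      simpa using mz (d := (F x)⁻¹ * d) ((h.zero (h.mul (h.inv (hf x)) rd)).2 ⟨x, by simp⟩)))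
  refine ⟨e.trans (eMap Co2_eq), ψ, fun x y => ?_, fun q => ?_, fun x => ⟨fun k => ?_, fun k => ?_⟩, ?_⟩
  · rw [key (x + y) (F x * F y) (h.mul (hf x) (hf y))]; simp only [map_mul]; rfl
  · obtain ⟨⟨q, hq⟩, rfl⟩ := QuotientGroup.mk_surjective q
    obtain ⟨d, rfl⟩ := hν q
    obtain ⟨v, rv⟩ := h.exv (mS.1 hq)
    exact ⟨⟨v, (perp rv).1 d.2.2⟩, key _ d rv⟩
  · rw [U_eq]
    suffices Cg x 0 ∨ Cg x vU by simpa only [Cg, zero_add] using this
    rcases (mem_two z2).1 ((mc _).1 ((QuotientGroup.eq_one_iff _).1 k)) with k | k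
    · exact tt (hf x) ((hk _).1 k)
    · exact tt (h.mulz (hf x) (show (zD : G) ∈ zpowers z by rw [hz]; exact mem_zpowers _)) ((hk (F x * zD)).1 (by rw [map_mul, show ν (F x) = _ from k, z2]))
  · rcases k with ⟨w, k⟩ | k
    · rw [key x 1 (h.one (one_mem _) ⟨w, by simpa using k⟩)]; simp only [map_one]; rfl
    · rw [key x tD (h.cg r (U_eq ▸ k))]
      simp only [t1]; rfl
  · intro a g hg x y hxy q hq
    obtain ⟨d, rfl⟩ := hν a
    have : (l d : Co0) • (x : LL) = y := by rw [← hxy, ← hg, ← he]; rfl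
    rw [key y (d * F x * d⁻¹) (this ▸ h.act (l2 d) (hf x))]
    refine QuotientGroup.eq.2 ((mc _).2 ?_)
    have k := (mc _).1 (QuotientGroup.eq.1 hq)
    have e : ∀ a b c : H, (a * b * a⁻¹)⁻¹ * (a * c * a⁻¹) = a * (b⁻¹ * c) * a⁻¹ := fun a b c => by group
    simp only [map_mul, map_inv, Subgroup.coe_mul, InvMemClass.coe_inv, e] at k ⊢
    rcases (mem_two z2).1 k with k | k <;> rw [k]
    · simp
    · rw [zc]; simp

theorem baby (r : R t vU) [hn : ((zpowers t).subgroupOf 𝓒₁(t)).Normal] :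
    IsOfBabyMonsterType (𝓒₁(t) ⧸ (zpowers t).subgroupOf 𝓒₁(t)) := by
  have tP := h.mem r
  let μ := QuotientGroup.mk' ((zpowers t).subgroupOf 𝓒₁(t))
  have m1 : ∀ a, μ a = 1 ↔ (a : G) ∈ zpowers t := fun a => QuotientGroup.eq_one_iff a
  let zD : (𝓒₁(z) ⊓ 𝓒₁(t) : Subgroup G) := ⟨z, mem_cent1_self z, mem_cent1_symm.1 (h.ex.cent tP)⟩
  let i : (𝓒₁(z) ⊓ 𝓒₁(t) : Subgroup G) →* 𝓒₁(t) := inclusion inf_le_right
  let ν : (𝓒₁(z) ⊓ 𝓒₁(t) : Subgroup G) →* 𝓒₁(μ (i zD)) := (μ.comp i).codRestrict _ fun d => mem_cent1.2 (by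
    rw [MonoidHom.comp_apply, ← map_mul, ← map_mul]; exact congrArg μ (Subtype.ext (mem_cent1.1 d.2.1)))
  have hν : Surjective ν := by
    rintro ⟨a, ha⟩
    obtain ⟨a, rfl⟩ := QuotientGroup.mk'_surjective _ a
    refine ⟨⟨a, ?_, a.2⟩, rfl⟩
    have k := (m1 ⁅a, i zD⁆).1 (by rw [map_commutatorElement, commutatorElement_eq_one_iff_mul_comm]; exact mem_cent1.1 ha)
    rcases (mem_two (h.t2 r)).1 k with k | k
    · exact mem_cent1.2 (commutatorElement_eq_one_iff_mul_comm.1 k)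
    · exact (h.not_conj (h.mulz r (mem_zpowers z)) sqU (isConj_iff.2 ⟨a, mul_inv_eq_iff_eq_mul.1 k⟩)).elim
  have : (P.subgroupOf (𝓒₁(z) ⊓ 𝓒₁(t))).Normal := ⟨fun x hx g => conj_mem_of_mem_norm (K := P) (h.lx.norm g.2.1) hx⟩
  have := this.map ν hν
  obtain ⟨a, b, c, e, ψ, d⟩ := h.baby' r ν hν (fun d => Subtype.ext_iff.trans (m1 _)) zD rfl rfl
  obtain ⟨n, n1, s, s1, s2, s3⟩ := h.fused_t r
  let d' : (𝓒₁(z) ⊓ 𝓒₁(t) : Subgroup G) := ⟨z * s, h.ex.cent (mul_mem h.ex.mem s1), s3 ▸ 𝓒₁(t).mul_mem (mul_mem n1 zD.2.2) (inv_mem n1)⟩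
  have k : μ ⟨n, n1⟩ * μ (i zD) * (μ ⟨n, n1⟩)⁻¹ = ν d' := by
    rw [← map_mul, ← map_inv, ← map_mul]; exact congrArg μ (Subtype.ext s3)
  refine ⟨μ (i zD), _, this, ⟨(orderOf_coe (ν zD)).trans a.ord, b, a.extra, c, μ ⟨n, n1⟩, ?_, fun k' => s2 ?_⟩, e, ψ, d⟩
  · rw [k]; exact ⟨(ν d').2, mem_map_of_mem ν (mul_mem h.ex.mem s1)⟩
  · simpa [i, zD, d'] using (m1 (i (zD⁻¹ * d'))).1 (by rw [map_mul, map_mul, map_inv, map_inv, ← k', k]; exact inv_mul_cancel _)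

end MT

end CA.MonT
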