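import Cfsg.Agent.Lib.Spor.ONL37T
import Cfsg.Agent.Lib.Spor.ONPerm
import Cfsg.Agent.Lib.Comp.CLink3
import Cfsg.Agent.Lib.Lin.SLnCard
import Cfsg.Agent.Lib.Lin.SLnGen

/-! `L₃(7):2` on the points and lines of the plane of order 7, and the subgroup `⟨a, …, f⟩` of the O'Nan group. -/

set_option autoImplicit false
set_option maxRecDepth 100000
set_option linter.all false
set_option Elab.async false

namespace CA.ONL37
open Cfsg Matrix CA.CNet CA.CWord CA.CLevel CA.CSimple CA.CPoint CA.CLow CA.CMat CA.CLink CA.CLink2 CA.CLink3 CA.CBlk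
  CA.H27Pres CA.CTrans CA.CTodd CA.CPres CA.ONL37T

def C : Ctx := ⟨114, 7, [[],
  [(nat_lit 0x15114411005140551501104501505, nat_lit 1),
  (nat_lit 0x231310323101121310010100230, nat_lit 2),
  (nat_lit 0xa0909050f0500090005060c0a00, nat_lit 4),
  (nat_lit 0xba00a7002d003000bb00fe00ff, nat_lit 8),
  (nat_lit 0x20000e50b000002cd00000ff3, nat_lit 16),
  (nat_lit 0xfe6e0000000020499dfc, nat_lit 32),
  (nat_lit 0x3ffffffffffff, nat_lit 64),
  (nat_lit 0x84100000, nat_lit 32),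
  (nat_lit 0x490000049000000f20c, nat_lit 16),
  (nat_lit 0x8900a500e000cc008b00000002, nat_lit 8),
  (nat_lit 0x506060a0e0a00060008090c0500, nat_lit 4),
  (nat_lit 0x132320313202212320020200130, nat_lit 2),
  (nat_lit 0x441144550415004054451054050, nat_lit 1)],
  [(nat_lit 0x1101040004110141150545050101, nat_lit 1),
  (nat_lit 0x3221232032331131022210310231, nat_lit 2),
  (nat_lit 0xb0d02040a06040e010b0c060e08, nat_lit 4),
  (nat_lit 0xac00cd001b00f2005300e50070, nat_lit 8),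
  (nat_lit 0x20000b25a000030030000e071, nat_lit 16),
  (nat_lit 0x39b8400000000d00e17f0, nat_lit 32),
  (nat_lit 0x3ffffffffffff, nat_lit 64),
  (nat_lit 0xce00000, nat_lit 32),
  (nat_lit 0x5280000003100001480, nat_lit 16),
  (nat_lit 0xe500ef0002000d00b300a40002, nat_lit 8),
  (nat_lit 0xe030c0508010003060108070302, nat_lit 4),
  (nat_lit 0x3102120031322232033120320330, nat_lit 2),
  (nat_lit 0x14454515551445414405010505454, nat_lit 1)],
  [(nat_lit 0x10554554510440154450450150015, nat_lit 1),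
  (nat_lit 0x2001013100111122111010011102, nat_lit 2),
  (nat_lit 0x6060300090500060d0001080301, nat_lit 4),
  (nat_lit 0x790069008c00a200cb00ac006e, nat_lit 8),
  (nat_lit 0x2000029910000a2070000fb04, nat_lit 16),
  (nat_lit 0x1fb8e00000000001edf65, nat_lit 32),
  (nat_lit 0x3ffffffffffff, nat_lit 64),
  (nat_lit 0xc200000, nat_lit 32),
  (nat_lit 0x10000d0080000550300006b84, nat_lit 16),
  (nat_lit 0xda00f20028005d005a00c00000, nat_lit 8),
  (nat_lit 0x1010908060a02090b0402000702, nat_lit 4),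
  (nat_lit 0x3002203022020200233130023200, nat_lit 2),
  (nat_lit 0x5001001045115401105105405540, nat_lit 1)],
  [(nat_lit 0x1445544114415510455400554141, nat_lit 1),
  (nat_lit 0x1313221323030100200123122213, nat_lit 2),
  (nat_lit 0x6010500020b04000104090d080b, nat_lit 4),
  (nat_lit 0xdc005f001b00a00046000e0088, nat_lit 8),
  (nat_lit 0x431d0000201e0000031c, nat_lit 16),
  (nat_lit 0x17d3200000000a0493f92, nat_lit 32),
  (nat_lit 0x3ffffffffffff, nat_lit 64),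
  (nat_lit 0x54800000, nat_lit 32),
  (nat_lit 0x9080000008a300006010, nat_lit 16),
  (nat_lit 0x3500100034005c001700280003, nat_lit 8),
  (nat_lit 0x70b03020008000a0400020b0201, nat_lit 4),
  (nat_lit 0x2103100011220231111313311111, nat_lit 2),
  (nat_lit 0x4100054501400014114141501404, nat_lit 1)],
  [(nat_lit 0x1514005111451440155445151, nat_lit 1),
  (nat_lit 0x212100300311023132021201200, nat_lit 2),
  (nat_lit 0x30404070c040a0b06060a0f0a01, nat_lit 4),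
  (nat_lit 0x6000600cc00d100e900db00eb, nat_lit 8),
  (nat_lit 0x10000dea40000910c0000e4f1, nat_lit 16),
  (nat_lit 0x38c0f0000000090282d4f, nat_lit 32),
  (nat_lit 0x3ffffffffffff, nat_lit 64),
  (nat_lit 0x2c400000, nat_lit 32),
  (nat_lit 0x300002940000022c000008840, nat_lit 16),
  (nat_lit 0xe000c00020002c000a00330001, nat_lit 8),
  (nat_lit 0x10a0009040801060801040b0502, nat_lit 4),
  (nat_lit 0x121000300322013231112102000, nat_lit 2),
  (nat_lit 0x15514001550440144115000110004, nat_lit 1)],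
  [(nat_lit 0x1045115554000410511501541005, nat_lit 1),
  (nat_lit 0x1102130121211202202333023233, nat_lit 2),
  (nat_lit 0x9040b0000070806010504090207, nat_lit 4),
  (nat_lit 0x89008f0095008c002d00dc0076, nat_lit 8),
  (nat_lit 0x10000acf000008d20000062da, nat_lit 16),
  (nat_lit 0x5dfd000000000132bece, nat_lit 32),
  (nat_lit 0x3ffffffffffff, nat_lit 64),
  (nat_lit 0x62000000, nat_lit 32),
  (nat_lit 0x1694000012840000255c, nat_lit 16),
  (nat_lit 0x70001300920070006200580001, nat_lit 8),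
  (nat_lit 0x20300000d0000020200020102, nat_lit 4),
  (nat_lit 0x2023012032300111010322103022, nat_lit 2),
  (nat_lit 0x14510440001555145044054014550, nat_lit 1)]]⟩
theorem hC : C.ok = true := by decide +kernel
noncomputable def lk : ℕ → ℕ → ℕ := look C 64
theorem hlk : Good C lk := good_look hC (by decide +kernel)
def gens : List Word := [[2], [4], [6], [8], [10], [12]]
def us : List Word := [[2,4,6,8,6,8], [2,4,6,8,10,12]]
def lowU_w3 : List Word := [[2,4,6,8,6,8,2,4,6,8,6,8,13,11,9,7,5,3,9,7,9,7,5,3,2,4,6,8,10,12,2,4,6,8,10,12,9,7,9,7,5,3,2,4,6,8,10,12,2,4,6,8,6,8,2,4,6,8,10,12,2,4,6,8,10,12], [2,4,6,8,10,12,9,7,9,7,5,3,13,11,9,7,5,3,9,7,9,7,5,3,13,11,9,7,5,3,9,7,9,7,5,3,9,7,9,7,5,3,9,7,9,7,5,3,2,4,6,8,10,12,2,4,6,8,10,12,9,7,9,7,5,3,9,7,9,7,5,3,2,4,6,8,10,12,2,4,6,8,10,12], [2,4,6,8,6,8,2,4,6,8,6,8,13,11,9,7,5,3,2,4,6,8,6,8,2,4,6,8,6,8,13,11,9,7,5,3,13,11,9,7,5,3,13,11,9,7,5,3,13,11,9,7,5,3,9,7,9,7,5,3,13,11,9,7,5,3,13,11,9,7,5,3,13,11,9,7,5,3,2,4,6,8,6,8,2,4,6,8,6,8,13,11,9,7,5,3]]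
theorem lowU_3 : Low (C.grp lowU_w3) 12 [16] :=
  low_orb hC hlk 16 (by decide) [(16,0), (16,1), (16,2), (16,4), (16,5), (38,2), (38,5), (26,2), (21,4), (21,5), (41,5)] (m := 12) (grp_mono _ (by decide +kernel))
    (by decide +kernel) (by decide +kernel) (low_nil C) (by decide)
def lowU_w2 : List Word := [[2,4,6,8,6,8,2,4,6,8,6,8,13,11,9,7,5,3,9,7,9,7,5,3,2,4,6,8,10,12,2,4,6,8,10,12,9,7,9,7,5,3,2,4,6,8,10,12,2,4,6,8,6,8,2,4,6,8,10,12,2,4,6,8,10,12], [2,4,6,8,10,12,9,7,9,7,5,3,13,11,9,7,5,3,9,7,9,7,5,3,13,11,9,7,5,3,9,7,9,7,5,3,9,7,9,7,5,3,9,7,9,7,5,3,2,4,6,8,10,12,2,4,6,8,10,12,9,7,9,7,5,3,9,7,9,7,5,3,2,4,6,8,10,12,2,4,6,8,10,12], [2,4,6,8,6,8,2,4,6,8,6,8,13,11,9,7,5,3,2,4,6,8,6,8,2,4,6,8,6,8,13,11,9,7,5,3,13,11,9,7,5,3,13,11,9,7,5,3,13,11,9,7,5,3,9,7,9,7,5,3,13,11,9,7,5,3,13,11,9,7,5,3,13,11,9,7,5,3,2,4,6,8,6,8,2,4,6,8,6,8,13,11,9,7,5,3], [2,4,6,8,6,8,2,4,6,8,6,8,2,4,6,8,6,8,13,11,9,7,5,3,2,4,6,8,6,8,2,4,6,8,6,8,13,11,9,7,5,3,9,7,9,7,5,3]]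
theorem lowU_2 : Low (C.grp lowU_w2) 588 [8,16] :=
  low_orb hC hlk 8 (by decide) [(8,6), (8,7), (16,0), (16,1), (16,2), (16,4), (16,5), (16,6), (56,2), (56,7), (38,2), (38,7), (26,2), (26,7), (21,4), (21,5), (21,6), (21,7), (34,6), (46,6), (24,0), (24,1), (24,2), (24,4), (24,5), (24,6), (51,6), (51,7), (48,2), (48,7), (41,6), (41,7), (25,7), (31,6), (31,7), (47,6), (22,0), (22,1), (22,4), (22,5), (13,0), (13,1), (13,4), (13,5), (49,2), (33,1), (33,4), (33,5)] (m := 49) (grp_mono _ (by decide +kernel))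
    (by decide +kernel) (by decide +kernel) lowU_3 (by decide)
def lowU_w1 : List Word := [[2,4,6,8,6,8,2,4,6,8,6,8,13,11,9,7,5,3,9,7,9,7,5,3,2,4,6,8,10,12,2,4,6,8,10,12,9,7,9,7,5,3,2,4,6,8,10,12,2,4,6,8,6,8,2,4,6,8,10,12,2,4,6,8,10,12], [2,4,6,8,10,12,9,7,9,7,5,3,13,11,9,7,5,3,9,7,9,7,5,3,13,11,9,7,5,3,9,7,9,7,5,3,9,7,9,7,5,3,9,7,9,7,5,3,2,4,6,8,10,12,2,4,6,8,10,12,9,7,9,7,5,3,9,7,9,7,5,3,2,4,6,8,10,12,2,4,6,8,10,12], [2,4,6,8,6,8,2,4,6,8,6,8,13,11,9,7,5,3,2,4,6,8,6,8,2,4,6,8,6,8,13,11,9,7,5,3,13,11,9,7,5,3,13,11,9,7,5,3,13,11,9,7,5,3,9,7,9,7,5,3,13,11,9,7,5,3,13,11,9,7,5,3,13,11,9,7,5,3,2,4,6,8,6,8,2,4,6,8,6,8,13,11,9,7,5,3], [2,4,6,8,6,8,2,4,6,8,6,8,2,4,6,8,6,8,13,11,9,7,5,3,2,4,6,8,6,8,2,4,6,8,6,8,13,11,9,7,5,3,9,7,9,7,5,3], [2,4,6,8,6,8,2,4,6,8,6,8,13,11,9,7,5,3,2,4,6,8,6,8]]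
theorem lowU_1 : Low (C.grp lowU_w1) 32928 [1,8,16] :=
  low_orb hC hlk 1 (by decide) [(1,8), (1,9), (49,0), (49,1), (49,2), (49,4), (49,5), (49,6), (49,7), (19,0), (19,1), (19,2), (19,4), (19,5), (19,6), (19,7), (55,2), (55,5), (55,6), (55,7), (55,8), (32,2), (32,8), (32,9), (44,4), (44,5), (44,7), (44,8), (44,9), (17,6), (17,7), (17,8), (17,9), (40,8), (50,1), (50,5), (50,8), (50,9), (41,1), (41,2), (37,5), (24,7), (24,9), (18,4), (18,6), (18,8), (35,8), (48,6), (11,1), (23,7), (47,2), (20,8), (7,1), (2,1), (42,7)] (m := 56) (grp_mono _ (by decide +kernel))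
    (by decide +kernel) (by decide +kernel) lowU_2 (by decide)
theorem lowU : Low (C.grp us) 1876896 [0,1,8,16] :=
  low_orb hC hlk 0 (by decide) [(0,0), (0,1), (0,2), (0,3), (44,0), (44,2), (44,3), (41,1), (41,3), (37,0), (37,1), (28,0), (28,1), (28,3), (32,0), (32,2), (31,0), (31,1), (20,0), (55,1), (55,2), (55,3), (26,0), (26,1), (26,3), (49,2), (29,0), (29,2), (29,3), (56,2), (56,3), (7,1), (7,3), (11,3), (35,0), (35,2), (54,3), (39,2), (50,0), (25,2), (34,0), (4,0), (4,1), (21,0), (21,2), (43,0), (43,1), (47,2), (2,3), (17,2), (38,3), (42,2), (36,2), (36,3), (12,3), (40,3)] (m := 57) (le_of_subst _ [[0,0,3,1,2,2,1,2,0,2,2], [2,1,3,1,3,1,1,1,2,2,1,1,2,2], [0,0,3,0,0,3,3,3,3,1,3,3,3,0,0,3], [0,0,0,3,0,0,3,1], [0,0,3,0]] (by decide +kernel))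
    (by decide +kernel) (by decide +kernel) lowU_1 (by decide)
def lowA_w3 : List Word := [[4,6,10,12,4,2], [12,4,6,8,6,10,8,4,6,8,10,12,6,4,8,2,10,6,4,6,8,6,8,10,4,6,8,6,4,10,8,6], [8,2,12,10,8,12,6,8,10,2,4,12,6,8,4,6,10,8,6,10,2,8,4,6,12,10,8,6,12,10,8,6,8,6]]
theorem lowA_3 : Low (C.grp lowA_w3) 12 [16] :=
  low_orb hC hlk 16 (by decide) [(16,0), (16,1), (16,2), (16,4), (26,2), (26,4), (38,2), (38,4), (56,4), (46,4), (34,4)] (m := 12) (grp_mono _ (by decide +kernel))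
    (by decide +kernel) (by decide +kernel) (low_nil C) (by decide)
def lowA_w2 : List Word := [[4,6,10,12,4,2], [12,4,6,8,6,10,8,4,6,8,10,12,6,4,8,2,10,6,4,6,8,6,8,10,4,6,8,6,4,10,8,6], [8,2,12,10,8,12,6,8,10,2,4,12,6,8,4,6,10,8,6,10,2,8,4,6,12,10,8,6,12,10,8,6,8,6], [2,8]]
theorem lowA_2 : Low (C.grp lowA_w2) 588 [8,16] :=
  low_orb hC hlk 8 (by decide) [(8,6), (24,0), (24,1), (24,2), (24,4), (37,2), (37,4), (37,6), (19,2), (19,4), (19,6), (48,4), (48,6), (27,6), (35,4), (42,6), (44,0), (44,1), (44,2), (44,4), (53,4), (18,6), (20,1), (20,4), (45,6), (40,1), (40,2), (12,0), (12,1), (12,2), (30,6), (46,0), (46,1), (46,2), (46,4), (33,6), (52,6), (21,0), (21,1), (21,4), (17,6), (36,1), (10,2), (9,2), (51,1), (34,2), (29,0), (29,1)] (m := 49) (grp_mono _ (by decide +kernel))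
    (by decide +kernel) (by decide +kernel) lowA_3 (by decide)
def lowA_w1 : List Word := [[4,6,10,12,4,2], [12,4,6,8,6,10,8,4,6,8,10,12,6,4,8,2,10,6,4,6,8,6,8,10,4,6,8,6,4,10,8,6], [8,2,12,10,8,12,6,8,10,2,4,12,6,8,4,6,10,8,6,10,2,8,4,6,12,10,8,6,12,10,8,6,8,6], [2,8], [4,6,12,4]]
theorem lowA_1 : Low (C.grp lowA_w1) 32928 [1,8,16] :=
  low_orb hC hlk 1 (by decide) [(1,8), (8,6), (24,0), (24,1), (24,2), (24,4), (37,2), (37,4), (37,6), (19,2), (19,4), (19,6), (48,4), (48,6), (48,8), (27,6), (35,4), (42,6), (44,0), (44,1), (44,2), (44,4), (44,8), (18,6), (20,1), (20,4), (45,6), (40,1), (40,2), (54,6), (12,0), (12,1), (12,2), (12,8), (30,6), (46,1), (46,2), (46,4), (52,6), (21,0), (21,1), (21,4), (17,6), (36,1), (34,2), (34,4), (10,2), (10,8), (9,2), (9,8), (11,8), (29,0), (29,1), (13,8), (14,8)] (m := 56) (grp_mono _ (by decide +kernel))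
    (by decide +kernel) (by decide +kernel) lowA_2 (by decide)
theorem lowA : Low (C.grp gens) 3753792 [0,1,8,16] :=
  low_orb hC hlk 0 (by decide) [(0,0), (0,2), (0,4), (0,8), (0,10), (95,2), (95,4), (95,8), (95,10), (72,0), (72,4), (72,8), (93,2), (93,6), (93,8), (73,6), (33,0), (33,4), (33,10), (28,2), (28,6), (28,10), (8,6), (55,4), (55,8), (20,6), (52,6), (11,4), (11,8), (32,6), (79,4), (79,10), (60,6), (59,6), (100,4), (100,8), (100,10), (62,6), (70,4), (70,8), (84,2), (84,8), (63,6), (63,10), (44,6), (56,8), (47,2), (47,8), (14,10), (29,8), (41,2), (41,8), (4,10), (7,8), (51,6), (51,10), (25,10), (99,10), (102,8), (92,6), (92,10), (61,8), (64,8), (87,6), (87,10), (86,6), (86,10), (103,4), (34,6), (34,10), (30,4), (43,6), (43,10), (54,4), (54,10), (38,4), (38,10), (82,4), (82,10), (58,4), (58,10), (78,2), (78,6), (104,2), (104,6), (35,2), (45,2), (45,6), (45,10), (26,8), (27,6), (36,8), (113,0), (113,6),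 (109,4), (109,8), (85,8), (101,10), (48,6), (40,4), (40,8), (12,8), (5,10), (9,10), (81,4), (81,8), (89,8), (94,10), (112,10), (2,8), (23,10), (22,6), (96,6)] (m := 114) (le_of_subst _ [[2,4,8,10,2,0], [10,2,4,6,4,8,6,2,4,6,8,10,4,2,6,0,8,4,2,4,6,4,6,8,2,4,6,4,2,8,6,4], [6,0,10,8,6,10,4,6,8,0,2,10,4,6,2,4,8,6,4,8,0,6,2,4,10,8,6,4,10,8,6,4,6,4], [0,6], [2,4,10,2]] (by decide +kernel))
    (by decide +kernel) (by decide +kernel) lowA_1 (by decide)
def mu : List (Mat × Mat) := [([[6,0,1],[1,6,4],[5,1,5]], [[5,1,1],[1,4,5],[6,1,1]]),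
  ([[3,6,1],[2,6,2],[2,3,6]], [[2,2,6],[6,2,3],[1,3,6]])]
def SL : Mat := [[nat_lit 0x1ffffffffffff00, nat_lit 0, nat_lit 0],
 [nat_lit 0x3f80fe03f80fe, nat_lit 0x1fc000fffc00000, nat_lit 0x1fffff000000000],
 [nat_lit 0xa952a54a952a55, nat_lit 0x13264c993264c98, nat_lit 0x1c3870e1c3870e0]]

instance : Fact (Nat.Prime 7) := ⟨by norm_num⟩

theorem cardP : Nat.card (ProjectiveSpecialLinearGroup (Fin 3) (ZMod 7)) = 1876896 := by
  have h1 := SLnCard.card_PSL (F := ZMod 7) 3 (by decide)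
  have h2 := SLnCard.card_SL (F := ZMod 7) 3 (by decide)
  rw [Nat.card_zmod] at h1 h2
  rw [Fin.prod_univ_three, show (7 ^ 3 - 7 ^ ((0 : Fin 3) : ℕ)) * (7 ^ 3 - 7 ^ ((1 : Fin 3) : ℕ)) *
    (7 ^ 3 - 7 ^ ((2 : Fin 3) : ℕ)) = 33784128 by decide] at h2
  rw [show Nat.gcd 3 (7 - 1) = 3 by decide] at h1
  omega

theorem relA : ∀ r ∈ rg, C.ev r = 1 := rels_of_eqW hC (by decide +kernel)

theorem cardA : Nat.card (C.grp gens) = 3753792 := lowA.card (bound _ C.g relA).2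

theorem U_le : C.grp us ≤ C.grp gens := le_of_subst _ [[0,2,4,6,4,6], [0,2,4,6,8,10]] (by decide +kernel)

theorem cardU : Nat.card (C.grp us) = 1876896 := by
  have h1 := Subgroup.card_dvd_of_le U_le
  have h2 := lowU.1
  have h3 : Nat.card (C.grp us) ≠ 3753792 := fun h => by
    have e := Subgroup.eq_of_le_of_card_ge U_le (by rw [h, cardA])
    have ha : C.ev [2] ∈ C.grp us := e ▸ mem_grp C.g (show [2] ∈ gens by decide)
    have h4 := Ctx.inv_spec hC (O := 144115188075855871) (by decide +kernel) ha ⟨0, by decide⟩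
    rw [(Ctx.maps_iff hC (w := [2]) (p := ⟨0, by decide⟩) (q := 95)).1 (by decide +kernel)] at h4
    exact absurd h4 (by decide +kernel)
  rw [cardA] at h1
  obtain ⟨c, hc⟩ := h1
  rcases c with _ | _ | _ | c
  · omega
  · omega
  · omega
  · nlinarith

theorem isoU : Nonempty (C.grp us ≃* ProjectiveSpecialLinearGroup (Fin 3) (ZMod 7)) := by
  have hA := soundP 7
  let ρ := slToMat 3 (ZMod 7)
  have hρ : Function.Injective ρ := Subtype.val_injective
  obtain ⟨γ, h1, -, h2⟩ := exists_let (Equiv.refl _) hA ρ (ms := mu) (by decide +kernel) (S := ⊤) fun m hm =>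
    ⟨⟨_, det_eq_one _ hA (k := 133) (by decide +kernel) (lall_iff.1 (show lall mu
      (fun m => meq 3 (mpow (arP 7) 3 m.1 133) (mone 3)) = true by decide +kernel) m hm)⟩, trivial, rfl⟩
  have hl := link ρ _ ⊤ hA hC (SL := SL) (O := 144115188075855871) (inS_top hA) h1 (gens := us) (k := 2) rfl h2
    fun _ => allR_spec (by decide +kernel)
  have hO : sub 144115188075855871 (C.clo us [0,2,0,0,2,0,2,0,2,0,0,0,0] (bit 0)) = true := by decide +kernel
  have hb := lowU.2 cardU.le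
  have hB : lall [0,1,8,16] (tb 144115188075855871) = true := by decide +kernel
  have hZ := center_bot hC (hs := [[3,3,0,0,3]]) (p := ⟨0, by decide⟩) (by decide +kernel)
    (orb_iff ρ hC hl (by decide +kernel) hO) hb hB
  have hI := inj_orb ρ _ hA hC hl (p := ⟨0, by decide⟩) (by decide +kernel) hO (by decide +kernel)
  exact equiv_quot ρ _ hA hρ hl (show frameOK (arP 7) 3 C.n SL 144115188075855871 [8,36,54] 32 [[1,0,0],[5,2,0],[1,4,2]] [5,4,6] = true by decide +kernel)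
    hI hb hB hZ (by decide) cardU cardP

theorem simpleU : IsSimpleGroup (C.grp us) :=
  have := SLnGen.isSimpleGroup_PSL (ι := Fin 3) (F := ZMod 7) (Or.inl (by simp))
  let ⟨f⟩ := isoU
  f.isSimpleGroup

theorem centA : Subgroup.center (C.grp gens) = ⊥ :=
  center_bot hC (O := full 114) (hs := [[4,2,8,4,0,10], [10,6,8,10]]) (p := ⟨0, by decide⟩) (by decide +kernel)
    (fun i => ⟨fun _ => CPres.trans_of_clo hC (sched := [0,2,4,8,6,0,2,8,4,10,6,2,4,2,6,8,10,4]) (by decide +kernel) i,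
      fun _ => by rw [testBit_full]; exact decide_eq_true i.2⟩) (isBase_all _ _) (by decide +kernel)

/-- a group satisfying the relators in which one even word is nontrivial: `⟨a, …, f⟩` is the model -/
theorem equiv {P : Type} [Group P] {π : ℕ → P} (hr : ∀ r ∈ rg, ev π r = 1) (h0 : ev π [2,4,6,8,6,8] ≠ 1) :
    ∃ e : C.grp gens ≃* grp π gens, ∀ v, (e (ev (sg C.g gens) v)).1 = ev π (subst gens v) := by
  have hp : ∀ w, ev (fun i => (C.g i, π i)) w = (C.ev w, ev π w) := fun w =>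
    Prod.ext (map_ev (MonoidHom.fst _ P) (fun i => (C.g i, π i)) w) (map_ev (MonoidHom.snd _ P) (fun i => (C.g i, π i)) w)
  obtain ⟨hf, hc⟩ : Finite (grp (fun i => (C.g i, π i)) gens) ∧ Nat.card (grp (fun i => (C.g i, π i)) gens) ≤ 3753792 :=
    bound _ (fun i => (C.g i, π i)) fun r h => by rw [hp, relA r h, hr r h]; rfl
  obtain ⟨hf', -⟩ := bound _ π hr
  obtain ⟨ψ, h1, -, h2⟩ := hom_of_graph' (R := grp (fun i => (C.g i, π i)) gens) (π := π) (gens := gens)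
    (γ := fun i => C.ev (nth gens [] i)) (fun i => hp _ ▸ nth_mem_grp _ gens i) (grp_eq_range C.g gens) fun x _ hx =>
      congrArg Prod.snd (inj_of_card (MonoidHom.fst _ _) (by rw [map_grp_fst]; exact hc.trans cardA.ge) hx rfl)
  have h3 : ∀ v, ψ (ev (sg C.g gens) v) = ev π (subst gens v) := fun v => h2 v _ (by rw [ev_sg, ev_subst])
  let e0 := Subgroup.subgroupOfEquivOfLe U_le
  have hs : IsSimpleGroup ((C.grp us).subgroupOf (C.grp gens)) := have := simpleU; e0.isSimpleGroup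
  have hx : ev (sg C.g gens) [0,2,4,6,4,6] ∈ (C.grp us).subgroupOf (C.grp gens) := by
    rw [Subgroup.mem_subgroupOf, ev_sg]; exact mem_grp C.g (show [2,4,6,8,6,8] ∈ us by decide)
  have hi := inj_of_simple hs (ψ.comp (Subgroup.subtype _)) (x := ⟨_, hx⟩) (by
    show ψ (ev (sg C.g gens) [0,2,4,6,4,6]) ≠ 1
    rw [h3]; exact h0)
  have : Finite ψ.range := h1 ▸ hf'
  have h4 : 1876896 ≤ Nat.card ψ.range := by
    rw [← cardU, ← Nat.card_congr e0.toEquiv]
    exact Nat.card_le_card_of_injective (fun x => ψ.rangeRestrict x.1) fun x y h => hi (congrArg Subtype.val h)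
  have hj := inj_of_center ψ centA (by rw [cardA]; omega)
  exact ⟨(MonoidHom.ofInjective hj).trans (MulEquiv.subgroupCongr h1), h3⟩

theorem relP : ∀ r ∈ rg, ev (pg Spor.ON.edges Spor.ON.extra ONRel.gen) r = 1 := fun r h =>
  ONRel.enc.hold r ((show ∀ r ∈ rg, r ∈ ONRel.rels by decide +kernel) r h)

theorem relO : ∀ r ∈ rg, ONPerm.C.ev r = 1 := fun r h =>
  ONPerm.hrel r ((show ∀ r ∈ rg, r ∈ ONRel.rels by decide +kernel) r h)

theorem neO : ONPerm.C.ev [2,4,6,8,6,8] ≠ 1 := Ctx.ne_one_of_moves ONPerm.hC (p := 1) (by decide) (by decide +kernel)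

theorem neP : ev (pg Spor.ON.edges Spor.ON.extra ONRel.gen) [2,4,6,8,6,8] ≠ 1 := fun h => by
  obtain ⟨φ, h1, -⟩ := ONRel.enc.hom' ONPerm.hrel
  exact neO (by rw [Ctx.ev, ← h1 _ (by decide), h, map_one])

/-- the subgroup `⟨a, …, f⟩` of the permutation model has order `3753792` -/
theorem cardO : Nat.card (ONPerm.C.grp gens) = 3753792 :=
  let ⟨e, _⟩ := equiv relO neO
  (Nat.card_congr e.toEquiv).symm.trans cardA

theorem two {H : Type*} [Group H] (e : C.grp gens ≃* H) :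
    ∃ N : Subgroup H, N.Normal ∧ N.index = 2 ∧ Nonempty (N ≃* ProjectiveSpecialLinearGroup (Fin 3) (ZMod 7)) := by
  let e0 := Subgroup.subgroupOfEquivOfLe U_le
  let U := (C.grp us).subgroupOf (C.grp gens)
  have h1 : U.index = 2 := by
    have := U.index_mul_card
    rw [Nat.card_congr e0.toEquiv, cardU, cardA] at this
    omega
  have h2 : (U.map e.toMonoidHom).index = 2 := (Subgroup.index_map_of_bijective e.bijective U).trans h1
  obtain ⟨f⟩ := isoU
  exact ⟨_, Subgroup.normal_of_index_eq_two h2, h2, ⟨((e.subgroupMap U).symm.trans e0).trans f⟩⟩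

end CA.ONL37
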