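import Cfsg.Agent.Lib.Root.L3
import Cfsg.Agent.Lib.Block.H13Zstar
import Cfsg.Agent.Lib.Loc.AmbIso

/-! Classes of involutions whose products have order 1, 2 or a fixed odd prime. -/

set_option autoImplicit false
set_option linter.unusedVariables false
set_option linter.unusedSectionVars false

namespace CA.PTr
open Subgroup Cfsg CA.RInv CA.Core

universe u
variable {G : Type u} [Group G] [Finite G] {D : Set G} {p : ℕ} {a b c d e f g s t u v w x y z : G}

theorem cyc (hG : GH.{u}) (hp : p.Prime) (h2 : p ≠ 2) (h : OT D) (hd : d ∈ D) (hx : x ∈ D) (o : Od d x) {X : Subgroup G}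
    (hX : X = closure (sameCommutingClass D d ∪ {x})) (hu : u ∈ X) (hg : g ∈ X) (ou : orderOf u = p) (og : orderOf g = p) :
    ∃ k ∈ X, k * u * k⁻¹ ∈ zpowers g ∧ g ∈ zpowers (k * u * k⁻¹) := by
  haveI := Fact.mk hp
  have c : ∀ P : Sylow p (X ⧸ pCore 2 X), IsCyclic P := fun P => by
    rcases s5051 hG h hd hx o hX with ⟨q, k⟩ | k | ⟨n, ⟨e⟩⟩
    exacts [cyc_of h2 (.inl k) P, cyc_of (q := 0) h2 (.inr k) P, isCyclic_of_injective
      ((e.toMonoidHom.comp (P : Subgroup _).subtype).codRestrict (zpowers (DihedralGroup.r 1)) fun y => by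
        obtain ⟨k, hk⟩ := IsPGroup.iff_orderOf.1 P.isPGroup' y
        rw [← orderOf_coe, ← e.orderOf_eq] at hk
        change e y ∈ _
        generalize e y = r at *
        rcases r with i | i
        · obtain ⟨j, rfl⟩ := ZMod.intCast_surjective i
          exact ⟨j, DihedralGroup.r_one_zpow j⟩
        · rw [DihedralGroup.orderOf_sr] at hk
          exact (h2 ((Nat.prime_dvd_prime_iff_eq Nat.prime_two hp).1 (Nat.prime_two.dvd_of_dvd_pow hk.dvd)).symm).elim)
      fun a b k => Subtype.ext (e.injective (congrArg Subtype.val k))]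
  have pg : ∀ {u} (hu : u ∈ X), orderOf u = p → IsPGroup p (zpowers (⟨u, hu⟩ : X)) := fun hu o =>
    .of_card (n := 1) (by rw [Nat.card_zpowers, ← orderOf_coe, o, pow_one])
  obtain ⟨P, hP⟩ := (pg hg og).exists_le_sylow
  obtain ⟨k, hk⟩ := H13Inv.exists_conj_mem_sylow_of_isPGroup P (pg hu ou)
  have : IsCyclic ((P : Subgroup X).map (QuotientGroup.mk' (pCore 2 X))) := c (P.mapSurjective (QuotientGroup.mk'_surjective _))
  have cP : IsCyclic P := isCyclic_of_injective ((QuotientGroup.mk' (pCore 2 X)).subgroupMap P)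
    ((injective_iff_map_eq_one _).2 fun y hy => Subtype.ext (disjoint_def.1 (IsPGroup.disjoint_of_ne p 2 h2 _ _ P.isPGroup'
      isPGroup_pCore) y.2 ((QuotientGroup.eq_one_iff _).1 (congrArg Subtype.val hy))))
  have m1 := hk _ (mem_zpowers _)
  have m2 := hP (mem_zpowers _)
  have e : orderOf (k * ⟨u, hu⟩ * k⁻¹) = orderOf (⟨g, hg⟩ : X) := by
    rw [orderOf_cj, ← orderOf_coe, ← orderOf_coe (⟨g, hg⟩ : X), ou, og]
  obtain ⟨i, hi⟩ := H13QBig.mem_zpowers_of_isCyclic cP m1 m2 e.dvd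
  obtain ⟨j, hj⟩ := H13QBig.mem_zpowers_of_isCyclic cP m2 m1 e.symm.dvd
  exact ⟨k, k.2, ⟨i, congrArg Subtype.val hi⟩, j, congrArg Subtype.val hj⟩

structure PT (D : Set G) (p : ℕ) : Prop where
  ot : OT D
  pr : p.Prime
  ord : ∀ {a b}, a ∈ D → b ∈ D → Od a b → orderOf (a * b) = p

theorem conj_eq_iff_commute' (c : Commute a b) : a * b * a⁻¹ = b := by rw [c.eq, mul_inv_cancel_right]

theorem od_self (h : OT D) (ha : a ∈ D) (hb : b ∈ D) (c : Commute a (b * a * b)) : Commute a b :=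
  h.cm_of ha hb fun o => h.ri.not_od ha hb (h.ri.cm_of_two hb o rfl c) o

/-- counting: not every product `a w` normalises a block without fixing it -/
theorem count (h : OT D) {X : Subgroup G} (hX : X ≤ closure D) (ha : a ∈ D) (aX : a ∈ X) (hE : ∀ c ∈ D, Sm D a c → c ∈ X)
    (hy : y ∈ D) (yX : y ∈ X) (o : Od a y) (k : ∀ w ∈ D, w ∈ X → Od a w → ∃ k ∈ X, Sm D a (k * (a * w) * k⁻¹ * a * (k * (a * w) * k⁻¹)⁻¹) ∧
      ¬ Commute (k * (a * w) * k⁻¹) a) : False := by
  classical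
  haveI := Fintype.ofFinite G
  let B := Finset.univ.filter fun w => w ∈ D ∧ w ∈ X ∧ Od a w
  let V := Finset.univ.filter fun c => c ∈ D ∧ Sm D a c
  refine (Finset.card_nsmul_lt_card_nsmul_of_le_of_lt (s := B) (t := B) (m := V.card) (n := V.card)
    (fun w b => Sm D (a * b * a) (w * b * w)) ⟨y, by simp [B, hy, yX, o]⟩ (fun w hw => ?_) fun b hb => ?_).false
  · obtain ⟨hw, wX, ow⟩ : w ∈ D ∧ w ∈ X ∧ Od a w := by simpa [B] using hw
    obtain ⟨k, kX, k1, k2⟩ := k w hw wX ow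
    have r : ∀ c ∈ D, Sm D a c → Sm D (a * (k⁻¹ * c * k⁻¹⁻¹) * a) (w * (k⁻¹ * c * k⁻¹⁻¹) * w) := fun c hc s => by
      have := h.ri.sm_cj (hX (mul_mem aX (inv_mem kX))) ((s.symm.trans k1).trans
        (h.ri.sm_cj (hX (mul_mem (mul_mem kX (mul_mem aX wX)) (inv_mem kX))) s))
      simpa [mul_assoc, h.ri.inv ha, h.ri.inv hw, h.ri.sq' ha, h.ri.sq a ha] using this
    have m : ∀ {c}, c ∈ D → k⁻¹ * c * k⁻¹⁻¹ ∈ D := h.ri.cj_mem (hX (inv_mem kX))
    have o1 : Od a (k⁻¹ * a * k⁻¹⁻¹) := h.od_of ha (m ha) fun c => by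
      have q := r a ha .refl
      rw [c.eq, mul_assoc _ a a, h.ri.sq a ha, mul_one] at q
      have := (cm_cj_iff k).2 (c.mul_left (od_self h (m ha) hw (q.cm' (m ha))).symm)
      exact k2 (by simpa [mul_assoc] using this)
    refine Finset.card_le_card_of_injOn (fun c => k⁻¹ * c * k⁻¹⁻¹) (fun c hc => ?_) fun c _ c' _ e => by simpa using e
    obtain ⟨hc, s⟩ : c ∈ D ∧ Sm D a c := by simpa [V] using hc
    simp only [B, Finset.coe_filter, Finset.mem_coe, Finset.mem_bipartiteAbove, Finset.mem_filter, Finset.mem_univ, true_and]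
    exact ⟨⟨m hc, mul_mem (mul_mem (inv_mem kX) (hE c hc s)) (inv_mem (inv_mem kX)),
      h.od_sm (h.ri.sm_cj (hX (inv_mem kX)) s) (m ha) (m hc) ha o1⟩, r c hc s⟩
  · obtain ⟨hb, bX, ob⟩ : b ∈ D ∧ b ∈ X ∧ Od a b := by simpa [B] using hb
    have hc := h.ri.cjD b hb a ha
    have n1 : ¬ Commute b (a * b * a) := fun c => h.ri.not_od hb ha (od_self h hb ha c) ob.symm
    obtain ⟨j, hj, e⟩ := h.ri.cj_cent ha hc (h.od_of ha hc fun c => h.ri.not_od ha hb
      (by simpa [mul_assoc, h.ri.sq' ha, h.ri.sq a ha] using ((Commute.refl a).mul_right c).mul_right rfl) ob)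
    have jD := hj _ (subset_closure ha) (subset_closure hc)
    have q : ∀ w ∈ B.bipartiteBelow (fun w b => Sm D (a * b * a) (w * b * w)) b,
        w ∈ D ∧ Od a w ∧ Sm D (a * b * a) (w * b * w) ∧ Od b w := fun w hw => by
      obtain ⟨⟨hw, -, ow⟩, s⟩ : (w ∈ D ∧ w ∈ X ∧ Od a w) ∧ Sm D (a * b * a) (w * b * w) := by simpa [B] using hw
      refine ⟨hw, ow, s, h.od_of hb hw fun c => n1 ?_⟩
      rw [← c.eq, mul_assoc b w w, h.ri.sq w hw, mul_one] at s
      exact (s.cm' hc).symm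
    refine (Finset.card_le_card_of_injOn (t := V.erase a) (fun w => j * (w * b * w) * j⁻¹) (fun w hw => ?_)
      fun w hw w' hw' e => mid_uniq (q w hw).2.2.2 (q w' hw').2.2.2 (by simpa using e)).trans_lt
      (Finset.card_erase_lt_of_mem (by simp [V, ha, Sm.refl]))
    obtain ⟨hw, ow, s, o'⟩ := q w hw
    simp only [V, Finset.coe_erase, Finset.coe_filter, Finset.mem_univ, true_and, Set.mem_diff, Set.mem_setOf_eq,
      Set.mem_singleton_iff]
    refine ⟨⟨h.ri.cj_mem jD (h.ri.cjD b hb w hw), ?_⟩, fun e' => ow.1 (mid_uniq ob.symm o' ?_)⟩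
    · simpa only [← e] using h.ri.sm_cj jD s
    · simpa using e.symm.trans e'.symm

namespace PT
variable (hG : GH.{u}) (h : PT D p)
include hG h

theorem one (ha : a ∈ D) (hb : b ∈ D) (c : Commute a b) (hy : y ∈ D) (oa : Od y a) (ob : Od y b) :
    Commute (a * y * a) (b * y * b) := by
  by_contra k
  have ri := h.ot.ri
  have n : a ≠ b := fun e => k (by rw [e])
  obtain ⟨e, he, -, ea, eb, ty, oe⟩ := h.ot.beta2 ha hb c n hy k
  have n1 : a ≠ e := by
    rintro rfl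
    rw [c.eq, mul_assoc, ri.sq a ha, mul_one] at ty
    exact ri.not_od hy hb ty.symm ob
  have n2 : b ≠ e := by
    rintro rfl
    rw [mul_assoc, ri.sq b hb, mul_one] at ty
    exact ri.not_od hy ha ty.symm oa
  have hT := h.ot.cd (a * b * e)
  have aT : a ∈ Cd D (a * b * e) := ⟨ha, ((Commute.refl a).mul_right c).mul_right ea.symm⟩
  have bT : b ∈ Cd D (a * b * e) := ⟨hb, (c.symm.mul_right rfl).mul_right eb.symm⟩
  have eT : e ∈ Cd D (a * b * e) := ⟨he, (ea.mul_right eb).mul_right rfl⟩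
  have yT : y ∈ Cd D (a * b * e) := ⟨hy, ty.symm⟩
  have k1 : ∀ z ∈ Cd D (a * b * e), Commute z a → Commute z (b * e) := fun z hz q => by
    simpa [mul_assoc] using q.inv_right.mul_right hz.2
  have sb : Sm (Cd D (a * b * e)) a b := fun z hz => ⟨fun q => h.ot.cent2 hb he eb.symm n2 hz.1 (k1 z hz q),
    fun q => h.ot.cent2 ha he ea.symm n1 hz.1 (by simpa [mul_assoc, c.left_comm] using q.inv_right.mul_right hz.2)⟩
  have se : Sm (Cd D (a * b * e)) a e := fun z hz => ⟨fun q => h.ot.cent2 he hb eb n2.symm hz.1 (eb.eq ▸ k1 z hz q),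
    fun q => h.ot.cent2 ha hb c n hz.1 (by simpa using hz.2.mul_right q.inv_right)⟩
  have sub : ∀ {z}, z ∈ Cd D (a * b * e) → z ∈ D ∧ Commute z (a * b * e) := id
  generalize Cd D (a * b * e) = T at *
  have mX : ∀ c ∈ T, Sm T a c → c ∈ closure (sameCommutingClass T a ∪ {y}) := fun c hc s =>
    subset_closure (.inl (mem_E.2 ⟨hc, s⟩))
  have yX : y ∈ closure (sameCommutingClass T a ∪ {y}) := subset_closure (.inr rfl)
  have aX := mX a aT .refl
  obtain ⟨s, hs, sX, e1⟩ := hT.ri.middle' aT yT oa.symm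
  replace sX := sX _ aX yX
  have b' := hT.ri.cjD b bT s hs
  obtain ⟨s', hs', sX', e2⟩ := hT.ri.middle' aT b' (hT.od_sm (e1 ▸ hT.ri.sm_cj2 hs sb) yT b' aT oa.symm)
  replace sX' := sX' _ aX (mul_mem (mul_mem sX (mX b bT sb)) sX)
  have e3 : s * s' * a * (s * s')⁻¹ = b := by
    rw [hT.ri.inv_mul hs hs', show s * s' * a * (s' * s) = s * (s' * a * s') * s by group, e2]
    simp [mul_assoc, hT.ri.sq' hs, hT.ri.sq s hs]
  have o : Od s s' := hT.od_of hs hs' fun q => by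
    have g2 := (hT.ri.cm_iff hs hs').1 q
    have e4 : s * s' * b * (s * s')⁻¹ = a := by
      rw [← e3, show ∀ g : G, g * (g * a * g⁻¹) * g⁻¹ = g * g * a * (g * g)⁻¹ from fun g => by group, g2]; simp
    have e5 := ((sub hs).2.mul_left (sub hs').2).eq
    rw [← mul_inv_eq_iff_eq_mul, ← conj_mul, ← conj_mul, e3, e4, ← c.eq, mul_right_inj, mul_inv_eq_iff_eq_mul] at e5
    have q' := hT.cent2 hs hs' q (by rintro rfl; rw [hT.ri.sq s hs] at e3; exact n (by simpa using e3)) eT e5.symm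
    have := hT.ri.sm_cj2 hs se
    rw [e1, ← q'.eq, mul_assoc, hT.ri.sq s hs, mul_one] at this
    exact ri.not_od hy he (this.cm' yT) oe
  have og := h.ord (sub hs).1 (sub hs').1 o
  have le : closure (sameCommutingClass T a ∪ {y}) ≤ closure T := closure_mono (by rintro _ (q | rfl); exacts [q.1, yT])
  refine count hT le aT aX mX yT yX oa.symm fun w hw wX ow => ?_
  obtain ⟨k, kX, k1, i, k2⟩ := cyc hG h.pr (fun q => absurd (q ▸ og ▸ o.2) (by decide)) hT aT yT oa.symm rfl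
    (mul_mem aX wX) (mul_mem sX sX') (h.ord ha (sub hw).1 ow) og
  refine ⟨k, kX, ?_, fun q => n ?_⟩
  · obtain ⟨m, hm⟩ := mem_powers_iff_mem_zpowers.2 k1
    rw [← hm]
    clear hm
    induction m with
    | zero => simpa using Sm.refl
    | succ m ih =>
      have := (e3 ▸ sb).trans (hT.ri.sm_cj (le (mul_mem sX sX')) ih)
      simpa only [pow_succ', mul_inv_rev, mul_assoc] using this
  · have := q.zpow_left i
    rw [show _ ^ i = _ from k2] at this
    rw [← e3, this.eq, mul_inv_cancel_right]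

theorem three (hx : x ∈ D) (hw : w ∈ D) (hy : y ∈ D) (he : e ∈ D) (xy : Commute x y) (xe : Commute x e) (we : Commute w e)
    (o1 : Od w x) (o2 : Od w y) (o3 : Od y e) : p = 3 := by
  by_contra p3
  have ri := h.ot.ri
  have ou := h.ord hy he o3
  have e2 := ri.sq e he
  have iv := ri.inverts' hy he
  have xu := xy.mul_right xe
  have wu : ¬ Commute w (y * e) := fun c => ri.not_od hw hy (by simpa using c.mul_right we.inv_right) o2
  have uD := mul_mem (subset_closure hy) (subset_closure he)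
  have od := o3.2
  have xe' : Commute (x * w * x) e := (xe.mul_left we).mul_left xe
  generalize y * e = u at *
  have F : ∀ n : ℤ, u ^ n ≠ 1 → Commute (x * w * x) (u ^ n * (w * e) * (u ^ n)⁻¹ * (u ^ n * u ^ n)) ∧
      Commute (w * e) (u ^ n * (w * e) * (u ^ n)⁻¹) := fun n n1 => by
    have i : e * u ^ n * e⁻¹ = (u ^ n)⁻¹ := by rw [← conj_zpow, iv, inv_zpow]
    have g : u ∈ zpowers (u ^ n) := by
      haveI := Fact.mk h.pr
      have := mem_zpowers_of_prime_card (G := zpowers u) (p := p) (by rw [Nat.card_zpowers, ou])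
        (g := ⟨u ^ n, n, rfl⟩) (g' := ⟨u, mem_zpowers u⟩) fun q => n1 (congrArg Subtype.val q)
      obtain ⟨j, hj⟩ := this
      exact ⟨j, congrArg Subtype.val hj⟩
    have ov := odd_zpow od n
    have xv := xu.zpow_right n
    have hm := ri.mem_of_inverts he (zpow_mem uD n) ov i
    generalize u ^ n = v at *
    rw [ri.inv he] at i
    have oe : Od (v * e) e := ⟨by simpa using n1, by rwa [mul_assoc, e2, mul_one]⟩
    have ow : Od w (v * e) := h.ot.od_of hw hm fun c => wu (by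
      obtain ⟨j, rfl⟩ := g
      exact Commute.zpow_right (by simpa using c.mul_right we.inv_right) j)
    have f1 := h.one hG hx hm (xv.mul_right xe) hw o1 ow
    have f2 := h.one hG hw he we hm ow.symm oe
    have i' : v * e = e * v⁻¹ := by rw [← i, ← mul_assoc, ← mul_assoc, e2, one_mul]
    refine ⟨?_, ?_⟩
    · rw [show v * (w * e) * v⁻¹ * (v * v) = v * e * w * (v * e) * e by rw [we.eq]; simp [mul_assoc, e2]]
      exact f1.mul_right xe'
    rw [show v * (w * e) * v⁻¹ = v * e * (w * e) * (v * e) by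
      nth_rw 2 [i']; simp only [mul_assoc, ri.sq' he, we.left_comm]]
    generalize v * e = m at *
    calc w * e * (m * (w * e) * m) = e * (w * m * w * (e * m * e)) * e := by simp only [mul_assoc, e2, mul_one, we.left_comm]
      _ = _ := by rw [f2.eq]; simp only [mul_assoc, ri.sq' he, we.left_comm]
  have q2 := sq_mul_cm we (ri.sq w hw) e2
  have fin : ¬ Commute (x * w * x) (w * e) := fun c =>
    ri.not_od hw hx (od_self h.ot hw hx (by simpa using (c.mul_right xe'.inv_right).symm)) o1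
  generalize x * w * x = z, w * e = q at *
  let Q : ℤ → G := fun n => u ^ n * q * (u ^ n)⁻¹
  have sh : ∀ n i, u ^ n * Q i * (u ^ n)⁻¹ = Q (n + i) := fun n i => by simp [Q, zpow_add, mul_assoc]
  have sq : ∀ i, Q i * Q i = 1 := fun i => by simp only [Q, conj_mul, q2]; simp
  have cQ : ∀ i j, Commute (Q i) (Q j) := fun i j => by
    have : Commute q (Q (j - i)) := by
      by_cases n : u ^ (j - i) = 1
      exacts [by simp [Q, n], (F _ n).2]
    have := this.conj (u ^ i)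
    rwa [sh, add_sub_cancel] at this
  let K := centralizer {z} ⊓ centralizer (Set.range Q)
  have mK : ∀ {r}, r ∈ K ↔ Commute z r ∧ ∀ i, Commute (Q i) r := by
    simp [K, mem_centralizer_iff, commute_iff_eq]
  have u1 : u ≠ 1 := fun n => h.pr.ne_one (by rw [← ou, n, orderOf_one])
  have g1 := (F 1 (by simpa using u1)).1
  have g2 := (F 2 fun n => u1 (eq_one_of_odd_sq od (by rwa [← zpow_two]))).1
  have N : u ∈ normalizer (K : Set G) := H13ZRed.mem_of_sq_mem od (mem_normalizer_fintype fun r hr => by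
    have c : ∀ i, Commute (Q i) (u * u * r * (u * u)⁻¹) := fun i => by
      have := ((mK.1 hr).2 (i - 2)).conj (u ^ (2 : ℤ))
      rwa [sh, add_sub_cancel, zpow_two] at this
    refine mK.2 ⟨?_, c⟩
    have := (g1.mul_right (mK.1 hr).1).mul_right g1.inv_right
    rwa [zpow_one, show ∀ a b : G, a * b * r * (a * b)⁻¹ = a * (b * r * b⁻¹) * a⁻¹ from fun a b => by group,
      (conj_eq_iff_commute' (by simpa [Q] using c 1))] at this)
  have NK : ∀ (n : ℤ) {i j}, Q i * Q j ∈ K → Q (n + i) * Q (n + j) ∈ K := fun n i j k => by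
    rw [← sh, ← sh, conj_mul]; exact (mem_normalizer_iff.1 (zpow_mem N n) _).1 k
  have r0 : Q 1 * Q 3 * (Q 2)⁻¹ ∈ K := mK.2 ⟨by
    refine (congrArg _ ?_).mp ((g1.mul_right g1).mul_right g2.inv_right)
    simp [Q, zpow_ofNat, pow_succ, mul_assoc], fun i => ((cQ i 1).mul_right (cQ i 3)).mul_right (cQ i 2).inv_right⟩
  have r1 := (mem_normalizer_iff.1 (zpow_mem N 1) _).1 r0
  rw [← conj_mul, ← conj_mul, ← conj_inv, sh, sh, sh] at r1
  have d3 : Q 1 * Q 4 ∈ K := by
    have := mul_mem r0 r1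
    norm_num [mul_assoc] at this
    rwa [← mul_assoc (Q 3), (cQ 3 4).eq, mul_inv_cancel_right] at this
  have d : ∀ m : ℕ, Q 0 * Q (3 * m) ∈ K := fun m => by
    induction m with
    | zero => simp [sq]
    | succ m ih =>
      have := mul_mem ih (NK (3 * m - 1) d3)
      rwa [sub_add_cancel, mul_assoc, ← mul_assoc (Q (3 * m)), sq, one_mul, show (3 * m - 1 + 4 : ℤ) = 3 * (m + 1 : ℕ) by
        push_cast; ring] at this
  obtain ⟨m, hm⟩ := exists_pow_eq_self_of_coprime (x := u) (n := 3)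
    (ou ▸ (Nat.coprime_primes Nat.prime_three h.pr).2 (Ne.symm p3))
  have d1 := d m
  rw [show Q (3 * m) = Q 1 by simp only [Q, zpow_mul, zpow_natCast, zpow_ofNat, hm, pow_one]] at d1
  have := mul_mem r0 (NK 2 d1)
  norm_num [mul_assoc, sq] at this
  have := (mem_normalizer_iff.1 (zpow_mem N (-1)) _).1 this
  rw [sh] at this
  exact fin (by simpa [Q] using (mK.1 this).1)

end PT

def Cj (x a b : G) : Prop := ∃ g, Commute g x ∧ g * a * g⁻¹ = b

theorem Cj.cm (h : Cj x a b) : Commute x a ↔ Commute x b := by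
  obtain ⟨g, c, rfl⟩ := h
  rw [← cm_cj_iff g, conj_eq_iff_commute' c]

theorem main (hG : GH.{u}) (hO : pPrimeCore 2 G = ⊥) (hO2 : pCore 2 G = ⊥) (hZ : center G = ⊥) (hinv : ∀ d ∈ D, orderOf d = 2)
    (hd : D = conjugatesOf d) (hgen : closure D = ⊤)
    (R : ∀ x ∈ D, ∀ a ∈ D, ∀ b ∈ D, ∀ c ∈ D, a ≠ x → b ≠ x → c ≠ x → Cj x a b ∨ Cj x a c ∨ Cj x b c) (ha : a ∈ D) (hb : b ∈ D) :
    (a * b) ^ 2 = 1 ∨ (a * b) ^ 3 = 1 := by
  have cj : ∀ {x} (g : G), x ∈ D → g * x * g⁻¹ ∈ D := fun g hx => hd ▸ IsConj.trans (hd ▸ hx :) (isConj_iff.2 ⟨g, rfl⟩)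
  have cl : ∀ {x y}, x ∈ D → y ∈ D → ∃ g, g * x * g⁻¹ = y := fun hx hy =>
    isConj_iff.1 (IsConj.trans (IsConj.symm (hd ▸ hx :)) (hd ▸ hy :))
  have sq : ∀ x ∈ D, x * x = 1 := fun x hx => sq_of_ord (hinv x hx)
  have ne : ∀ x ∈ D, x ≠ 1 := fun x hx => ne_of_ord (hinv x hx)
  have exA : ∀ x ∈ D, ∃ e ∈ D, e ≠ x ∧ Commute x e := fun x hx => by
    by_contra n
    push Not at n
    exact ne x hx (mem_bot.1 (hZ ▸ H13Zstar.central_of_isolated hO (sq x hx) fun g c =>
      by_contra fun q => n _ (cj g hx) q c))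
  obtain ⟨v, v1, ov, iv⟩ := AmbIso.exists_inverted (sq a ha) fun q => ne a ha (mem_bot.1 (hO2 ▸ q))
  obtain ⟨p, hp, pv⟩ := Nat.exists_prime_and_dvd (mt orderOf_eq_one_iff.1 v1)
  have op := ov.of_dvd_nat pv
  have o1 := orderOf_pow_orderOf_div (orderOf_pos v).ne' pv
  replace iv : a * v ^ (orderOf v / p) * a⁻¹ = (v ^ (orderOf v / p))⁻¹ := by rw [← conj_pow, iv, inv_pow]
  generalize v ^ (orderOf v / p) = v at o1 iv
  have o2 : a * (a * v) = v := by rw [← mul_assoc, sq a ha, one_mul]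
  obtain ⟨k, hk⟩ := H13Inv.exists_conj_of_odd (sq a ha) (y := a * v) (by
    nth_rw 1 [mul_inv_eq_iff_eq_mul.1 iv]; rw [mul_assoc, o2, inv_mul_cancel]) (by rwa [o2, o1])
  have nc : ∀ {x y}, x ∈ D → y ∈ D → orderOf (x * y) = p → ¬ Commute x y := fun hx hy o c =>
    hp.ne_one (by rw [← o, eq_one_of_odd_sq (o ▸ op) (sq_mul_cm c (sq _ hx) (sq _ hy)), orderOf_one])
  have exB : ∀ x ∈ D, ∃ y ∈ D, orderOf (x * y) = p := fun x hx => by
    obtain ⟨g, rfl⟩ := cl ha hx
    exact ⟨_, cj g (hk ▸ cj _ ha), by rw [conj_mul, orderOf_cj, o2, o1]⟩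
  have tA : ∀ {x a c}, x ∈ D → a ∈ D → c ∈ D → a ≠ x → c ≠ x → Commute x a → Commute x c → Cj x a c :=
    fun {x a c} hx ha hc n1 n2 c1 c2 => by
      obtain ⟨y, hy, o⟩ := exB x hx
      have n := nc hx hy o
      rcases R x hx a ha c hc y hy n1 n2 (fun e => n (e ▸ rfl)) with q | q | q
      exacts [q, (n (q.cm.1 c1)).elim, (n (q.cm.1 c2)).elim]
  have tB : ∀ {x a c}, x ∈ D → a ∈ D → c ∈ D → ¬ Commute x a → ¬ Commute x c → Cj x a c := fun {x a c} hx ha hc c1 c2 => by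
    obtain ⟨y, hy, n, o⟩ := exA x hx
    rcases R x hx a ha c hc y hy (fun e => c1 (e ▸ rfl)) (fun e => c2 (e ▸ rfl)) n with q | q | q
    exacts [q, (c1 (q.cm.2 o)).elim, (c2 (q.cm.2 o)).elim]
  have ord : ∀ {x y}, x ∈ D → y ∈ D → ¬ Commute x y → orderOf (x * y) = p := fun {x y} hx hy n => by
    obtain ⟨z, hz, o⟩ := exB x hx
    obtain ⟨g, c, rfl⟩ := tB hx hz hy (nc hx hz o) n
    rw [← o, ← orderOf_cj g (x * z), ← conj_mul, conj_eq_iff_commute' c]
  have od : ∀ {x y}, x ∈ D → y ∈ D → ¬ Commute x y → Od x y := fun hx hy n => ⟨fun e => n (e ▸ rfl), ord hx hy n ▸ op⟩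
  have ri : RI D := ⟨sq, ne, fun x hx y hy => by simpa only [inv_eq_of_mul_eq_one_right (sq y hy)] using cj y hx,
    fun x hx y hy => (em _).imp_right fun n => .inl (od hx hy n)⟩
  have h : PT D p := ⟨⟨ri, fun x hx y hy => (em _).elim (ri.not_fr hx hy) fun n => (od hx hy n).not_fr⟩, hp,
    fun hx hy o => ord hx hy fun c => ri.not_od hx hy c o⟩
  refine (em (Commute a b)).imp (fun c => by rw [pow_two, sq_mul_cm c (sq a ha) (sq b hb)]) fun n => ?_
  suffices p = 3 by rw [← this, ← ord ha hb n, pow_orderOf_eq_one]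
  obtain ⟨e, he, ea, ae⟩ := exA a ha
  have mG : ∀ g : G, g ∈ closure D := fun g => hgen ▸ mem_top g
  obtain ⟨s, hs, s1, s2⟩ : ∃ s ∈ D, Od s a ∧ Od s e := by
    have : ∀ c, Rt D a c → c = a ∨ Od a c ∨ ∃ f ∈ D, f ≠ a ∧ Commute a f ∧ ∃ s ∈ D, Od s a ∧ Od s f := fun c r => by
      induction r with
      | refl => exact .inl rfl
      | @tail s f _ q ih =>
        rcases ih with rfl | o | o
        exacts [.inr (.inl q.2.2), (em _).imp_right fun n => (em _).symm.imp (od ha q.2.1) fun c =>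
          ⟨f, q.2.1, n, c, s, q.1, o.symm, q.2.2⟩, .inr (.inr o)]
    obtain ⟨g, rfl⟩ := cl ha he
    rcases this _ (ri.rt_cj ha hb (od ha hb n).symm (mG g)) with q | q | ⟨f, hf, f1, f2, s, hs, s1, s2⟩
    exacts [(ea q).elim, (ri.not_od ha he ae q).elim, let ⟨g, c, q⟩ := tA ha hf he f1 ea f2 ae
      ⟨_, cj g hs, conj_eq_iff_commute' c ▸ s1.cj g, q ▸ s2.cj g⟩]
  obtain ⟨f, hf, fa, fs⟩ : ∃ f ∈ D, Commute a f ∧ Commute s f := by
    by_cases q : ∀ y ∈ D, Commute y e → Commute y a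
    · have sm := (h.ot.sm_of_le (fun x hx y hy => let ⟨g, q⟩ := cl hx hy; ⟨g, mG g, q.symm⟩) he ha q).symm
      refine (ea (mul_left_cancel ((h.ot.bsE hgen hO2 ha (mul_mem (subset_closure ⟨ha, .refl⟩) (subset_closure ⟨he, sm⟩))
        (sq_mul_cm ae (sq a ha) (sq e he)) fun y hy => ?_).trans (sq a ha).symm))).elim
      by_cases c : Commute y a
      · exact ((c.mul_right (sm.cm hy c)).mul_right rfl).mul_right (c.mul_right (sm.cm hy c))
      have := (h.one hG ha he ae hy (od hy ha c) (od hy he (mt (sm y hy).2 c))).conj a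
      simpa [mul_assoc, ri.inv ha, ri.sq' ha, sq a ha, ← ae.eq] using this
    push Not at q
    obtain ⟨y, hy, y1, y2⟩ := q
    obtain ⟨g, c, rfl⟩ := tB ha hy hs (fun c => y2 c.symm) fun c => ri.not_od hs ha c.symm s1
    exact ⟨_, cj g he, conj_eq_iff_commute' c ▸ ae.conj g, y1.conj g⟩
  by_cases fe : Commute e f
  swap
  · exact h.three hG ha hs he hf ae fa fs s1 s2 (od he hf fe)
  obtain ⟨w, hw, w1, w2, w3⟩ : ∃ w ∈ D, ¬ Commute a w ∧ Commute e w ∧ ¬ Commute f w := by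
    by_contra q
    push Not at q
    obtain ⟨g, c, rfl⟩ := tA ha he hf ea (fun q => ri.not_od hs ha (q ▸ fs) s1) ae fa
    have i : ∀ w, (g⁻¹ * w * g⁻¹⁻¹ ∈ D ∧ ¬ Commute a (g⁻¹ * w * g⁻¹⁻¹) ∧ Commute e (g⁻¹ * w * g⁻¹⁻¹)) ↔
        w ∈ D ∧ ¬ Commute a w ∧ Commute (g * e * g⁻¹) w := fun w =>
      and_congr ⟨fun k => by simpa [mul_assoc] using cj g k, cj _⟩ (and_congr (not_congr (Cj.cm ⟨_, c.inv_left, rfl⟩).symm)
        (by rw [← cm_cj_iff g]; simp [mul_assoc]))
    have := mem_set_normalizer_iff.1 (mem_normalizer_fintype (S := {w | w ∈ D ∧ ¬ Commute a w ∧ Commute e w}) (x := g⁻¹)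
      fun w k => (i w).2 ⟨k.1, k.2.1, q w k.1 k.2.1 k.2.2⟩) s
    exact ri.not_od hs he (this.2 ((i s).2 ⟨hs, fun c => ri.not_od hs ha c.symm s1, fs.symm⟩)).2.2.symm s2
  by_cases ws : Commute w s
  · exact h.three hG hf hw ha hs fa.symm fs.symm ws (od hf hw w3).symm (od ha hw w1).symm s1.symm
  · exact h.three hG hf hw hs he fs.symm fe.symm w2.symm (od hf hw w3).symm (od hw hs ws) s2

end CA.PTr
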