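import Cfsg.Agent.Lib.Spor.Suz3A

/-! Rank 3 groups of degree 4060: the amalgam. -/

set_option autoImplicit false
set_option linter.unusedVariables false
set_option maxHeartbeats 400000

namespace CA.Ru3A
open Subgroup MulAction CA.Suz3A

theorem aut_of_norm' {J G : Type*} [Group J] [Group G] {ψ : J →* G} (hψ : Function.Injective ψ) {t : G}
    (h : t ∈ normalizer (ψ.range : Set G)) : ∃ θ : MulAut J, ∀ j : J, ψ (θ j) = t * ψ j * t⁻¹ := by
  let e := MonoidHom.ofInjective hψ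
  refine ⟨e.trans ((ψ.range.normalizerMonoidHom ⟨t, h⟩).trans e.symm), fun j => ?_⟩
  exact congrArg Subtype.val (e.apply_symm_apply (ψ.range.normalizerMonoidHom ⟨t, h⟩ (e j)))

structure Mod {S : Type*} [Group S] (H J U : Subgroup S) (s t : S) : Prop where
  cH : Nat.card H = 35942400
  JH : J ≤ H
  UJ : U ≤ J
  sH : s ∈ H
  sJ : s ∉ J
  uniq : ∀ X ≤ H, Nat.card X = 15600 → ∃ h ∈ H, ∀ x ∈ H, h * x * h⁻¹ ∈ X ↔ x ∈ J
  aut : ∀ θ : MulAut J, ∃ j ∈ J, (∀ x : J, (θ x : S) = j * x * j⁻¹) ∨ ∀ x : J, (θ x : S) = j * (t * x * t⁻¹) * j⁻¹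
  fix : ∀ h ∈ H, (∀ x ∈ U, h⁻¹ * x * h ∈ J) → h ∈ J ∨ s⁻¹ * h ∈ J
  s2 : s * s = 1
  t2 : t * t = 1
  ts : (t * s) ^ 3 = 1
  sU : ∀ x ∈ U, s * x * s⁻¹ ∈ U
  tU : ∀ x ∈ U, t * x * t⁻¹ ∈ U
  cU : ∀ h ∈ H, (∀ x ∈ U, Commute h x) → h = 1
  c25 : 25 ∣ Nat.card U

variable {G Ω : Type*} [Group G] [MulAction G Ω]

theorem cover [Finite Ω] (hΩ : Nat.card Ω = 4060) {a b c : Ω} (hb : (orbit (stabilizer G a) b).ncard = 2304)
    (hc : (orbit (stabilizer G a) c).ncard = 1755) (x : Ω) :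
    x = a ∨ x ∈ orbit (stabilizer G a) b ∨ x ∈ orbit (stabilizer G a) c := by
  have h0 : orbit (stabilizer G a) a = {a} := Set.eq_singleton_iff_unique_mem.2 ⟨mem_orbit_self _, by
    rintro _ ⟨g, rfl⟩; exact g.2⟩
  have d : ∀ u v : Ω, (orbit (stabilizer G a) u).ncard ≠ (orbit (stabilizer G a) v).ncard →
      Disjoint (orbit (stabilizer G a) u) (orbit (stabilizer G a) v) := fun u v h =>
    Set.disjoint_left.2 fun z h1 h2 => h (by rw [← orbit_eq_iff.2 h1, ← orbit_eq_iff.2 h2])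
  have h1 : (orbit (stabilizer G a) a).ncard = 1 := by rw [h0, Set.ncard_singleton]
  have h2 : (orbit (stabilizer G a) a ∪ (orbit (stabilizer G a) b ∪ orbit (stabilizer G a) c)) = Set.univ :=
    Set.eq_of_subset_of_ncard_le (Set.subset_univ _) (by
      rw [Set.ncard_union_eq (Set.disjoint_union_right.2 ⟨d _ _ (by omega), d _ _ (by omega)⟩),
        Set.ncard_union_eq (d _ _ (by omega)), Set.ncard_univ]; omega)
  have := h2.ge (Set.mem_univ x)
  rwa [h0] at this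

theorem core [Finite Ω] [Finite G] [IsPretransitive G Ω] (hΩ : Nat.card Ω = 4060) {a b c : Ω}
    (hb : (orbit (stabilizer G a) b).ncard = 2304) (hc : (orbit (stabilizer G a) c).ncard = 1755)
    {S : Type*} [Group S] {H J U : Subgroup S} {s t : S} (M : Mod H J U s t) (e : H ≃* stabilizer G a) :
    ∃ (ψ : H →* G) (u : G), Function.Injective ψ ∧ u * u = 1 ∧
      (∀ x y : H, x.1 ∈ J → t * x * t⁻¹ = y → u * ψ x * u⁻¹ = ψ y) ∧ (u * ψ ⟨s, M.sH⟩) ^ 3 = 1 := by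
  have := Finite.of_equiv _ e.toEquiv.symm
  have c0 : Nat.card (stabilizer G a) = 35942400 := (Nat.card_congr e.toEquiv).symm.trans M.cH
  have c1 : nn G a b = 15600 := by have := nn_orb (G := G) a b; rw [hb] at this; omega
  have c2 : nn G a c = 20480 := by have := nn_orb (G := G) a c; rw [hc] at this; omega
  have c3 : nn G a a = 35942400 := by rw [nn, inf_idem, c0]
  have c4 : ∀ x ∈ orbit (stabilizer G a) c, nn G a x = 20480 := by
    rintro _ ⟨g, rfl⟩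
    rw [← c2, ← nn_smul g.1 a c, g.2]; rfl
  have ab : b ≠ a := by rintro rfl; omega
  let ψ0 := (stabilizer G a).subtype.comp e.toMonoidHom
  have i0 : Function.Injective ψ0 := (subtype_injective _).comp e.injective
  have r0 : ψ0.range = stabilizer G a := by
    rw [MonoidHom.range_comp, MonoidHom.range_eq_top.2 e.surjective, ← MonoidHom.range_eq_map, range_subtype]
  obtain ⟨k, kH, hk⟩ := M.uniq (((stabilizer G b).comap ψ0).map H.subtype) (map_subtype_le _) (by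
    rw [card_map_of_injective H.subtype_injective, ← card_map_of_injective i0, map_comap_eq, r0]; exact c1)
  let ψ := ψ0.comp (MulAut.conj (⟨k, kH⟩ : H)).toMonoidHom
  have hψ : Function.Injective ψ := i0.comp (MulAut.conj _).injective
  have pa : ∀ h, ψ h • a = a := fun h => (e _).2
  have pb : ∀ h : H, ψ h • b = b ↔ h.1 ∈ J := fun h =>
    (mem_map_iff_mem (K := (stabilizer G b).comap ψ0) (x := MulAut.conj (⟨k, kH⟩ : H) h)
      H.subtype_injective).symm.trans (hk h h.2)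
  have ex : ∀ g : G, g • a = a → ∃ h, ψ h = g := fun g hg => by
    obtain ⟨h, rfl⟩ := r0.ge hg
    exact ⟨(⟨k, kH⟩ : H)⁻¹ * h * ⟨k, kH⟩, congrArg ψ0 (by simp [mul_assoc])⟩
  clear_value ψ
  obtain ⟨v, ta, tb⟩ : ∃ v : G, v • a = b ∧ v • b = a := by
    obtain ⟨g, hg⟩ := exists_smul_eq G a b
    have h1 : nn G a (g⁻¹ • a) = 15600 := by rw [← nn_smul g, hg, smul_inv_smul, nn, inf_comm]; exact c1
    rcases cover hΩ hb hc (g⁻¹ • a) with h | ⟨u, hu⟩ | h
    · rw [h] at h1; omega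
    · exact ⟨g * u, by rw [mul_smul, u.2, hg], by rw [mul_smul]; exact (congrArg (g • ·) hu).trans (smul_inv_smul _ _)⟩
    · have := c4 _ h; omega
  have hJ : (ψ.comp (inclusion M.JH)).range = stabilizer G a ⊓ stabilizer G b := Subgroup.ext fun g =>
    ⟨by rintro ⟨h, rfl⟩; exact ⟨pa _, (pb _).2 h.2⟩, fun hg => by
      obtain ⟨h, rfl⟩ := ex g hg.1
      exact ⟨⟨h, (pb h).1 hg.2⟩, rfl⟩⟩
  obtain ⟨θ, hθ⟩ := aut_of_norm' (ψ := ψ.comp (inclusion M.JH)) (hψ.comp (inclusion_injective _)) (t := v)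
    (hJ ▸ mem_normalizer_fintype fun g hg =>
    ⟨by show (v * g * v⁻¹) • a = a; rw [mul_smul, mul_smul, ← tb, inv_smul_smul, hg.2],
     by show (v * g * v⁻¹) • b = b; rw [mul_smul, mul_smul, ← ta, inv_smul_smul, hg.1]⟩)
  obtain ⟨σ, hσ⟩ : ∃ σ : H, σ = ⟨s, M.sH⟩ := ⟨_, rfl⟩
  have hs : σ.1 = s := by rw [hσ]
  rw [← hσ]
  have UH : U ≤ H := M.UJ.trans M.JH
  have s2 : ψ σ * ψ σ = 1 := by rw [← map_mul, show σ * σ = 1 from Subtype.ext (by rw [coe_mul, hs]; exact M.s2), map_one]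
  have si : (ψ σ)⁻¹ = ψ σ := inv_eq_of_mul_eq_one_right s2
  have db : ψ σ • b ≠ b := fun h => M.sJ (hs ▸ (pb _).1 h)
  have da : ψ σ • b ≠ a := fun h => ab (smul_left_cancel _ (h.trans (pa _).symm))
  -- pairs that act alike on `U`
  let R : G → S → Prop := fun g g' => ∀ x : H, x.1 ∈ U → ∃ y : H, y.1 ∈ U ∧ g * ψ x * g⁻¹ = ψ y ∧ g' * x * g'⁻¹ = y
  have Rm : ∀ {g g' h h'}, R g g' → R h h' → R (g * h) (g' * h') := fun {g g' h h'} r1 r2 x hx => by
    obtain ⟨y, hy, e1, e2⟩ := r2 x hx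
    obtain ⟨z, hz, e3, e4⟩ := r1 y hy
    exact ⟨z, hz, by rw [← e3, ← e1]; group, by rw [← e4, ← e2]; group⟩
  have Rs : R (ψ σ) s := fun x hx => ⟨σ * x * σ⁻¹, by rw [coe_mul, coe_mul, coe_inv, hs]; exact M.sU _ hx,
    by rw [map_mul, map_mul, map_inv], by rw [coe_mul, coe_mul, coe_inv, hs]⟩
  have one : ∀ z : G, z • a = a → R z 1 → z = 1 := fun z hz h => by
    obtain ⟨y, rfl⟩ := ex z hz
    rw [show y = 1 from Subtype.ext (M.cU y y.2 fun x hx => ?_), map_one]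
    obtain ⟨z, -, e1, e2⟩ := h ⟨x, UH hx⟩ hx
    rw [← map_inv, ← map_mul, ← map_mul] at e1
    have e3 := congrArg Subtype.val (hψ e1)
    rw [← e2, one_mul, inv_one, mul_one] at e3
    exact mul_inv_eq_iff_eq_mul.1 e3
  have fd : ∀ x : H, x.1 ∈ U → ψ x • ψ σ • b = ψ σ • b := fun x hx => by
    obtain ⟨y, hy, e1, -⟩ := Rs x hx
    have := (pb y).2 (M.UJ hy)
    rwa [← e1, si, mul_smul, mul_smul, smul_eq_iff_eq_inv_smul, si] at this
  have fx : ∀ z, (∀ x : H, x.1 ∈ U → ψ x • z = z) → z = a ∨ z = b ∨ z = ψ σ • b := fun z hz => by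
    rcases cover hΩ hb hc z with h | ⟨u, rfl⟩ | h
    · exact Or.inl h
    · obtain ⟨h, e⟩ := ex u u.2
      have hu : (fun v : stabilizer G a => v • b) u = ψ h • b := e ▸ rfl
      rw [hu] at hz ⊢
      refine Or.inr ((M.fix h h.2 fun x hx => (pb (h⁻¹ * ⟨x, UH hx⟩ * h)).1 ?_).imp (pb h).2 fun h1 => ?_)
      · rw [map_mul, map_mul, map_inv, mul_smul, mul_smul, hz _ hx, inv_smul_smul]
      · have := (pb (σ⁻¹ * h)).2 (by rw [coe_mul, coe_inv, hs]; exact h1)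
        rwa [map_mul, map_inv, mul_smul, inv_smul_eq_iff] at this
    · have h1 := card_dvd_of_injective ((ψ.comp (inclusion UH)).codRestrict (stabilizer G a ⊓ stabilizer G z)
        fun x => ⟨pa _, hz _ x.2⟩) fun x y e => inclusion_injective UH (hψ (congrArg Subtype.val e))
      exact absurd (M.c25.trans (h1.trans (c4 z h).dvd)) (by decide)
  obtain ⟨j, hj, h⟩ := M.aut θ
  obtain ⟨j, rfl⟩ : ∃ i : H, i.1 = j := ⟨⟨j, M.JH hj⟩, rfl⟩
  have ua : ((ψ j)⁻¹ * v) • a = b := by rw [mul_smul, ta, inv_smul_eq_iff, (pb j).2 hj]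
  have ub : ((ψ j)⁻¹ * v) • b = a := by rw [mul_smul, tb, inv_smul_eq_iff, pa]
  have cj : ∀ (x y : H) (hx : x.1 ∈ J), (θ ⟨x, hx⟩ : S) = j * y * j⁻¹ → (ψ j)⁻¹ * v * ψ x * ((ψ j)⁻¹ * v)⁻¹ = ψ y :=
    fun x y hx h => by
    have h1 : ψ (inclusion M.JH (θ ⟨x, hx⟩)) = v * ψ x * v⁻¹ := hθ ⟨x, hx⟩
    rw [show inclusion M.JH (θ ⟨x, hx⟩) = j * y * j⁻¹ from Subtype.ext h, map_mul, map_mul, map_inv] at h1
    calc _ = (ψ j)⁻¹ * (v * ψ x * v⁻¹) * ψ j := by group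
      _ = _ := by rw [← h1]; group
  generalize (ψ j)⁻¹ * v = u at ua ub cj
  have ud : ∀ g, R u⁻¹ g → u • ψ σ • b = ψ σ • b := fun g h => by
    have h1 : ∀ x : H, x.1 ∈ U → ψ x • u • ψ σ • b = u • ψ σ • b := fun x hx => by
      obtain ⟨y, hy, e1, -⟩ := h x hx
      have := fd y hy
      rwa [← e1, inv_inv, mul_smul, mul_smul, inv_smul_eq_iff] at this
    rcases fx _ h1 with e | e | e
    exacts [absurd (smul_left_cancel _ (e.trans ub.symm)) db, absurd (smul_left_cancel _ (e.trans ua.symm)) da, e]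
  rcases h with h | h
  · have r1 : R u 1 := fun x hx => ⟨x, hx, cj x x (M.UJ hx) (h _), by simp⟩
    have r2 : R u⁻¹ 1 := fun x hx => ⟨x, hx, by nth_rw 1 [← cj x x (M.UJ hx) (h _)]; group, by simp⟩
    have uc := ud _ r2
    have r3 := Rm (Rm r1 (Rm (Rm Rs r1) Rs)) r2
    rw [mul_one s, M.s2, one_mul, one_mul] at r3
    have h1 := one _ (by
      simp only [mul_smul]
      rw [inv_smul_eq_iff.2 ub.symm, uc, ← mul_smul (ψ σ), s2, one_smul, ub]) r3
    rw [mul_inv_eq_one, mul_eq_left] at h1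
    have h2 : u = 1 := by
      calc u = (ψ σ)⁻¹ * (ψ σ * u * ψ σ) * (ψ σ)⁻¹ := by group
        _ = _ := by rw [h1, si, mul_one, s2]
    rw [h2, one_smul] at ua
    exact absurd ua.symm ab
  · have h1 : ∀ x y : H, x.1 ∈ J → t * x * t⁻¹ = y → u * ψ x * u⁻¹ = ψ y := fun x y hx e => cj x y hx (e ▸ h ⟨x, hx⟩)
    have r1 : R u t := fun x hx => ⟨⟨_, UH (M.tU _ hx)⟩, M.tU _ hx, h1 _ _ (M.UJ hx) rfl, rfl⟩
    have h2 : u * u = 1 := one _ (by rw [mul_smul, ua, ub]) (M.t2 ▸ Rm r1 r1)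
    have uc := ud t (by rwa [inv_eq_of_mul_eq_one_right h2])
    have r2 := Rm r1 Rs
    have r3 := Rm (Rm r2 r2) r2
    refine ⟨ψ, u, hψ, h2, h1, one _ ?_ ?_⟩
    · simp only [pow_succ, pow_zero, one_mul, mul_smul, pa, ua, uc]
      rw [← mul_smul (ψ _), s2, one_smul, ub]
    · rw [← M.ts, pow_three', pow_three']; exact r3

end CA.Ru3A
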