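import Cfsg.Agent.Lib.Fi.Pc

/-! Subgroups of order 15600: Sylow arguments. -/

set_option autoImplicit false
set_option linter.unusedVariables false
set_option maxHeartbeats 400000

namespace CA.Ru3G
open Subgroup
variable {S : Type*} [Group S] [Finite S]

theorem has_r {H X : Subgroup S} (hXH : X ≤ H) (hX : Nat.card X = 15600) {x r : S} (hx : orderOf x = 13) (xX : x ∈ X)
    (rH : r ∈ H) (hc : ∀ g ∈ H, g * x * g⁻¹ = x → g ∈ zpowers x) (hr : r * x * r⁻¹ = x ^ 5) (r4 : r ^ 4 = 1) : r ∈ X := by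
  have hP : Nat.card (zpowers x) = 13 := by rw [Nat.card_zpowers, hx]
  have PX : zpowers x ≤ X := zpowers_le_of_mem xX
  have : Fact (Nat.card (zpowers x)).Prime := ⟨by rw [hP]; decide⟩
  have : Fact (Nat.Prime 13) := ⟨by decide⟩
  let φ := (IsCyclic.mulAutMulEquiv (zpowers x)).toMonoidHom.comp (zpowers x).normalizerMonoidHom
  have k1 : ∀ g, φ g = 1 ↔ g.1 * x * g.1⁻¹ = x := fun g => by
    rw [MonoidHom.comp_apply, MulEquiv.coe_toMonoidHom, map_eq_one_iff _ (MulEquiv.injective _)]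
    refine ⟨fun h => ?_, fun h => ?_⟩
    · have := DFunLike.congr_fun h (⟨x, mem_zpowers x⟩ : zpowers x)
      exact congrArg Subtype.val this
    ext ⟨_, n, rfl⟩
    show g.1 * x ^ n * g.1⁻¹ = x ^ n
    rw [← conj_zpow, h]
  let Y := X.subgroupOf (normalizer (zpowers x : Set S))
  let ψ := φ.comp Y.subtype
  have c1 : Nat.card ψ.ker = 13 := by
    rw [← hP, ← card_map_of_injective (f := (Subgroup.subtype _).comp Y.subtype)
      ((subtype_injective _).comp (subtype_injective _))]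
    congr 2
    refine le_antisymm ?_ fun g hg => ⟨⟨⟨g, le_normalizer hg⟩, PX hg⟩, (k1 _).2 ?_, rfl⟩
    · rintro _ ⟨g, hg, rfl⟩
      exact hc _ (hXH g.2) ((k1 _).1 hg)
    · obtain ⟨n, rfl⟩ := hg
      show x ^ n * x * (x ^ n)⁻¹ = x
      group
  have c2 : Nat.card (ZMod (Nat.card (zpowers x)))ˣ = 12 := by
    rw [← Nat.card_congr (IsCyclic.mulAutMulEquiv (zpowers x)).toEquiv, IsCyclic.card_mulAut, hP]; rfl
  have c3 : Nat.card ψ.ker * Nat.card ψ.range = Nat.card Y := by rw [← index_ker, card_mul_index]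
  have c4 := ψ.range.card_subgroup_dvd_card
  let Q : Sylow 13 X := Sylow.ofCard ((zpowers x).subgroupOf X) (by
    rw [Nat.card_congr (subgroupOfEquivOfLe PX).toEquiv, hP, hX]
    rw [show 15600 = 13 ^ 1 * 1200 from rfl, Nat.factorization_mul (by decide) (by decide), Nat.Prime.factorization_pow (by decide)]
    simp [Nat.factorization_eq_zero_of_not_dvd (by decide : ¬ 13 ∣ 1200)])
  have c5 := card_sylow_modEq_one 13 X
  rw [Q.card_eq_index_normalizer] at c5
  have c6 := (normalizer (Q : Set X)).index_mul_card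
  have c7 : Nat.card (normalizer (Q : Set X)) = Nat.card Y := by
    rw [show normalizer (Q : Set X) = (normalizer (zpowers x : Set S)).subgroupOf X from (subgroupOf_normalizer_eq PX).symm,
      ← card_map_of_injective X.subtype_injective, ← card_map_of_injective (K := Y) (subtype_injective _),
      subgroupOf_map_subtype, subgroupOf_map_subtype, inf_comm]
  have c8 : Nat.card ψ.range = 4 := by
    rw [c2] at c4
    rw [c7, ← c3, c1, hX] at c6
    have := Nat.le_of_dvd (by decide) c4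
    unfold Nat.ModEq at c5
    generalize Nat.card ψ.range = k at *
    generalize (normalizer (Q : Set X)).index = n at *
    interval_cases k <;> omega
  have rN : r ∈ normalizer (zpowers x : Set S) := mem_normalizer_fintype (by
    rintro _ ⟨n, rfl⟩
    show r * x ^ n * r⁻¹ ∈ zpowers x
    rw [← conj_zpow, hr]; exact zpow_mem (pow_mem (mem_zpowers x) _) _)
  have e : ψ.range = (powMonoidHom 4).ker := eq_of_le_of_card_ge
    (fun a ha => congrArg Subtype.val (c8 ▸ pow_card_eq_one' : (⟨a, ha⟩ : ψ.range) ^ 4 = 1))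
    (by rw [IsCyclic.card_powMonoidHom_ker, c2, c8]; decide)
  obtain ⟨y, hy⟩ := e.ge (show φ ⟨r, rN⟩ ^ 4 = 1 by rw [← map_pow, show (⟨r, rN⟩ : normalizer _) ^ 4 = 1 from Subtype.ext r4, map_one])
  have := (k1 (y.1⁻¹ * ⟨r, rN⟩)).1 (by rw [map_mul, map_inv, ← hy]; exact inv_mul_cancel _)
  exact (X.mul_mem_cancel_left (inv_mem y.2)).1 (PX (hc _ (mul_mem (inv_mem (hXH y.2)) rH) this))

theorem has_g {X : Subgroup S} (hX : Nat.card X = 15600) {r : S} (hr : orderOf r = 4) (rX : r ∈ X) :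
    ∃ P ≤ X, Nat.card P = 16 ∧ r ∈ P ∧ ∃ g ∈ P, g ∉ zpowers r ∧ (g * r * g⁻¹ = r ^ 1 ∨ g * r * g⁻¹ = r ^ 3) := by
  classical
  have : Fact (Nat.Prime 2) := ⟨by decide⟩
  have h1 : Nat.card ((zpowers r).subgroupOf X) = 2 ^ 2 := by
    rw [Nat.card_congr (subgroupOfEquivOfLe (zpowers_le_of_mem rX)).toEquiv, Nat.card_zpowers, hr]; rfl
  obtain ⟨K, hK, l1⟩ := Sylow.exists_subgroup_card_pow_prime_le 2 (m := 3) (by rw [hX]; decide) _ h1 (by decide)
  obtain ⟨P, hP, l2⟩ := Sylow.exists_subgroup_card_pow_prime_le 2 (m := 4) (by rw [hX]; decide) _ hK (by decide)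
  have h2 : (((zpowers r).subgroupOf X).subgroupOf K).index = 2 := by
    have := (((zpowers r).subgroupOf X).subgroupOf K).index_mul_card
    rw [Nat.card_congr (subgroupOfEquivOfLe l1).toEquiv, h1, hK] at this
    omega
  obtain ⟨g, gK, hg⟩ := SetLike.exists_of_lt (lt_of_le_of_ne l1 fun e => by rw [e, hK] at h1; omega)
  have rK : (⟨r, rX⟩ : X) ∈ K := l1 (mem_zpowers r)
  have h3 : g.1 * r * g.1⁻¹ ∈ zpowers r := (normal_of_index_eq_two h2).conj_mem ⟨_, rK⟩ (mem_zpowers r) ⟨g, gK⟩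
  refine ⟨P.map X.subtype, map_subtype_le _, (card_map_of_injective X.subtype_injective).trans hP,
    mem_map_of_mem _ (l2 rK), g, mem_map_of_mem _ (l2 gK), hg, ?_⟩
  obtain ⟨i, hi, e⟩ := Finset.mem_image.1 (mem_zpowers_iff_mem_range_orderOf.1 h3)
  have h4 : orderOf (r ^ i) = 4 := by rw [e, ← hr]; exact (MulAut.conj g.1).orderOf_eq r
  rw [Finset.mem_range, hr] at hi
  rw [orderOf_pow, hr] at h4
  interval_cases i
  exacts [absurd h4 (by decide), Or.inl e.symm, absurd h4 (by decide), Or.inr e.symm]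

omit [Finite S] in
theorem card_comap (X : Subgroup S) (g : S) : Nat.card (X.comap (MulAut.conj g).toMonoidHom) = Nat.card X := by
  rw [← card_map_of_injective (f := (MulAut.conj g).toMonoidHom) (MulAut.conj g).injective,
    map_comap_eq_self_of_surjective (MulAut.conj g).surjective]

theorem uniq {H J : Subgroup S} (cH : Nat.card H = 35942400) (cJ : Nat.card J = 15600) {x : S} (hx : orderOf x = 13)
    (xH : x ∈ H) (h : ∀ X ≤ H, Nat.card X = 15600 → x ∈ X → ∃ h ∈ H, ∀ z ∈ X, h⁻¹ * z * h ∈ J) :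
    ∀ X ≤ H, Nat.card X = 15600 → ∃ h ∈ H, ∀ z ∈ H, h * z * h⁻¹ ∈ X ↔ z ∈ J := fun X hX cX => by
  have : Fact (Nat.Prime 13) := ⟨by decide⟩
  obtain ⟨b, hb⟩ := exists_prime_orderOf_dvd_card' (G := X) 13 (by rw [cX]; decide)
  obtain ⟨k, hk⟩ := Fi.exists_conj_mem (p := 13) (m := 1) (by decide) (P := zpowers (inclusion hX b))
    (by rw [Nat.card_zpowers, orderOf_injective _ (inclusion_injective hX), hb]; rfl) (by rw [cH]; decide)
    (Q := zpowers ⟨x, xH⟩) (IsPGroup.of_card (n := 1) (by rw [Nat.card_zpowers, ← orderOf_coe, hx]; rfl))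
  obtain ⟨n, hn⟩ := hk _ (mem_zpowers _)
  obtain ⟨g, gH, hg⟩ := h (X.comap (MulAut.conj k.1).toMonoidHom) (fun z hz => by
    have := mul_mem (mul_mem (inv_mem k.2) (hX hz)) k.2
    simpa [mul_assoc] using this) ((card_comap _ _).trans cX) (by
      show k.1 * x * k.1⁻¹ ∈ X
      have e : (b ^ n).1 = k.1 * x * k.1⁻¹ := congrArg (Subtype.val : H → S) hn
      exact e ▸ (b ^ n).2)
  have e : X.comap (MulAut.conj (k.1 * g)).toMonoidHom = J := eq_of_le_of_card_ge (fun z hz => by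
    have := hg (g * z * g⁻¹) (by
      have hz' : k.1 * g * z * (k.1 * g)⁻¹ ∈ X := hz
      show k.1 * (g * z * g⁻¹) * k.1⁻¹ ∈ X
      simpa [mul_assoc] using hz')
    simpa [mul_assoc] using this) (by rw [card_comap, cX, cJ])
  exact ⟨_, mul_mem k.2 gH, fun z _ => by rw [← e]; rfl⟩

end CA.Ru3G
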