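import Cfsg.Agent.Lib.Spor.Ru3A
import Cfsg.Agent.Lib.Spor.Ru3G
import Cfsg.Agent.Lib.Spor.Ru3S
import Cfsg.Agent.Lib.Spor.Ru3TC
import Cfsg.Agent.Lib.Comp.CPres

/-! Rank 3 groups of degree 4060. -/

set_option autoImplicit false
set_option Elab.async false
set_option maxRecDepth 100000
set_option linter.all false
set_option maxHeartbeats 400000

namespace CA.Ru3M
open Cfsg Subgroup MulAction CA.CNet CA.CWord CA.CLevel CA.H27Pres CA.CSimple CA.CPoint CA.CLow CA.CPres CA.Fi CA.CBack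
  CA.GBack CA.GOut CA.Ru3B CA.Ru3S CA.Ru3A CA.Suz3A CA.CTodd

theorem pw (w : Word) (n : ℕ) (h : C.eqW (wpow w n) [] = true) : C.ev w ^ n = 1 :=
  (ev_wpow _ _ _).symm.trans (Ctx.eq_of_eqW hC h)
theorem o13 : orderOf (C.ev [112]) = 13 :=
  have := Fact.mk (by decide : Nat.Prime 13)
  orderOf_eq_prime (pw _ _ (by decide +kernel)) (Ctx.ne_one_of_moves hC (p := 0) (by decide) (by decide +kernel))
theorem r4 : C.ev [114] ^ 4 = 1 := pw _ _ (by decide +kernel)
theorem or4 : orderOf (C.ev [114]) = 4 :=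
  have := Fact.mk (by decide : Nat.Prime 2)
  orderOf_eq_prime_pow (p := 2) (n := 1) (fun h => Ctx.ne_one_of_moves hC (w := wpow [114] 2) (p := 0) (by decide)
    (by decide +kernel) ((ev_wpow _ _ _).trans h)) r4
theorem rx : C.ev [114] * C.ev [112] * (C.ev [114])⁻¹ = C.ev [112] ^ 5 := by
  have h := Ctx.eq_of_eqW hC (u := lapp [114] [112]) (v := lapp (wpow [112] 5) [114]) (by decide +kernel)
  rw [Ctx.ev, Ctx.ev, ev_lapp, ev_lapp, ev_wpow] at h
  exact mul_inv_eq_iff_eq_mul.2 h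
theorem JH : J ≤ H := grp_mono _ (by decide)
theorem UJ : U ≤ J := grp_mono _ (by decide)
theorem cx (g : Equiv.Perm (Fin C.n)) (hg : g ∈ H) (hs : St C [[112]] [[112]] g) : g ∈ C.grp [[112]] :=
  Dd.all c_ch.2 hx (c_ch.1.ge hg) hs
theorem uq : ∀ X ≤ H, Nat.card X = 15600 → ∃ h ∈ H, ∀ z ∈ H, h * z * h⁻¹ ∈ X ↔ z ∈ J :=
  Ru3G.uniq hH.2 hJ.2 o13 (memH _ (by decide +kernel)) fun X hX cX xX => by
    have rX := Ru3G.has_r hX cX o13 xX (memH [114] (by decide +kernel)) (fun g hg e =>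
      (grp_le_iff (H := zpowers (C.ev [112])) _).2 (fun w hw => by
        rw [List.mem_singleton.1 hw]; exact mem_zpowers _) (cx g hg (st_one.2 e))) rx r4
    obtain ⟨P, hP, cP, rP, g, gP, h0, h | h⟩ := Ru3G.has_g cX or4 rX
    · exact Dd.all d_ch.2 h1 (d_ch.1.ge (hX (hP gP))) (st_one.2 (h.trans (ev_wpow _ _ _).symm)) X hX cX xX P hP cP rP gP h0
    · exact Dd.all d_ch.2 h3 (d_ch.1.ge (hX (hP gP))) (st_one.2 (h.trans (ev_wpow _ _ _).symm)) X hX cX xX P hP cP rP gP h0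
theorem autJ (θ : MulAut J) : ∃ j ∈ J, (∀ x : J, (θ x : Equiv.Perm (Fin C.n)) = j * x * j⁻¹) ∨
    ∀ x : J, (θ x : Equiv.Perm (Fin C.n)) = j * (C.ev [110] * x * (C.ev [110])⁻¹) * j⁻¹ := by
  obtain ⟨k, hk, g, hg | hg, h⟩ := aut hC hf (by decide) hJ3 hJ.2 (by decide) (by decide) hb (fun g hg => cx g (JH hg))
    (fun g hg hs => Dd.all e_ch.2 hy (e_ch.1.ge hg) hs) θ
  · exact ⟨_, mul_mem hk hg, Or.inl fun x => by rw [h]; group⟩
  · exact ⟨_, mul_mem hk hg, Or.inr fun x => by rw [h]; group⟩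
theorem sa : C.ev [108] pa = pa := mv _ _ _ (by decide +kernel)
theorem sb : C.ev [108] pb = pc := mv _ _ _ (by decide +kernel)
theorem sc : C.ev [108] pc = pb := mv _ _ _ (by decide +kernel)
theorem ta : C.ev [110] pa = pb := mv _ _ _ (by decide +kernel)
theorem tb' : C.ev [110] pb = pa := mv _ _ _ (by decide +kernel)
theorem tc : C.ev [110] pc = pc := mv _ _ _ (by decide +kernel)
theorem nU {g : Equiv.Perm (Fin C.n)} (hg : g ∈ A) (h : ∀ q ∈ [pa, pb, pc], ∃ p ∈ [pa, pb, pc], g p = q) :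
    ∀ x ∈ U, g * x * g⁻¹ ∈ U := fun x hx => by
  obtain ⟨h1, hc⟩ := inU.1 hx
  obtain ⟨h2, hb⟩ := inJ.1 h1
  obtain ⟨h3, ha⟩ := inH.1 h2
  have k : ∀ q ∈ [pa, pb, pc], (g * x * g⁻¹) q = q := fun q hq => by
    obtain ⟨p, hp, rfl⟩ := h q hq
    rw [Equiv.Perm.mul_apply, Equiv.Perm.mul_apply, Equiv.Perm.inv_eq_iff_eq.2 rfl]
    simp only [List.mem_cons, List.not_mem_nil, or_false] at hp
    rcases hp with rfl | rfl | rfl
    exacts [congrArg g ha, congrArg g hb, congrArg g hc]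
  exact inU.2 ⟨inJ.2 ⟨inH.2 ⟨mul_mem (mul_mem hg h3) (inv_mem hg), k _ (by simp)⟩, k _ (by simp)⟩, k _ (by simp)⟩
theorem fix (h : Equiv.Perm (Fin C.n)) (hH : h ∈ H) (hh : ∀ x ∈ U, h⁻¹ * x * h ∈ J) : h ∈ J ∨ (C.ev [108])⁻¹ * h ∈ J := by
  have k : ∀ w ∈ [[102], [104]], (fixM C w).testBit (h pb) = true := fun w hw =>
    (testBit_fixM hC _ _).2 (Equiv.Perm.inv_eq_iff_eq.1 (inJ.1 (hh _ (mem_grp _ hw))).2)
  have := mem_mkS (sub_spec (show sub (Nat.land (fixM C [102]) (fixM C [104])) (mkS [3655, 494, 1017] 0) = true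
    by decide +kernel) (land_bit (k _ (by decide)) (k _ (by decide))))
  simp only [List.mem_cons, List.not_mem_nil, or_false] at this
  rcases this with e | e | e
  · exact absurd (h.injective ((Fin.ext e : h pb = pa).trans (inH.1 hH).2.symm)) (by decide)
  · exact Or.inl (inJ.2 ⟨hH, Fin.ext e⟩)
  · refine Or.inr (inJ.2 ⟨mul_mem (inv_mem (mem_grp _ (by decide))) hH, ?_⟩)
    rw [Equiv.Perm.mul_apply, Equiv.Perm.inv_eq_iff_eq, sb]
    exact Fin.ext e

theorem mod : Mod H J U (C.ev [108]) (C.ev [110]) where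
  cH := hH.2
  JH := JH
  UJ := UJ
  sH := mem_grp _ (by decide)
  sJ h := absurd (sb.symm.trans (inJ.1 h).2) (by decide)
  uniq := uq
  aut := autJ
  fix := fix
  s2 := (pow_two _).symm.trans (pw _ _ (by decide +kernel))
  t2 := (pow_two _).symm.trans (pw _ _ (by decide +kernel))
  ts := (congrArg (· ^ 3) (ev_lapp C.g [110] [108])).symm.trans (pw _ _ (by decide +kernel))
  sU := nU (mem _ (by decide)) (by
    simp only [List.forall_mem_cons]
    exact ⟨⟨_, by simp, sa⟩, ⟨_, by simp, sc⟩, ⟨_, by simp, sb⟩, by simp⟩)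
  tU := nU (mem _ (by decide)) (by
    simp only [List.forall_mem_cons]
    exact ⟨⟨_, by simp, tb'⟩, ⟨_, by simp, ta⟩, ⟨_, by simp, tc⟩, by simp⟩)
  cU h hH e := (grp_nil C.g).le (Dd.all k_ch.2 hu (k_ch.1.ge hH)
    (st_cons (mul_inv_eq_iff_eq_mul.2 (e _ (mem_grp _ (by decide))).eq)
      (st_one.2 (mul_inv_eq_iff_eq_mul.2 (e _ (mem_grp _ (by decide))).eq))))
  c25 := by rw [hU.2]; decide

def zs : List Word := [[102], [104], [106], [108], [110]]
noncomputable def z (i : ℕ) : Equiv.Perm (Fin C.n) := ev C.g (nth zs [] i)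
theorem gz : grp z [[0], [2], [4], [6], [8]] = A :=
  ((grp_lmap_subst _ zs _).symm.trans (congrArg (grp _) (by decide))).trans hA
theorem zA (i : ℕ) : z i ∈ A := hA.le (nth_mem_grp _ zs i)
theorem zH (i : ℕ) (hi : i < 4) : z i ∈ H := mem_grp _ ((by decide : ∀ i < 4, nth zs [] i ∈ _) i hi)
theorem zJ (i : ℕ) (hi : i < 3) : z i ∈ J := mem_grp _ ((by decide : ∀ i < 3, nth zs [] i ∈ _) i hi)
theorem hrel : lall Ru3TC.rels (fun r => C.eqW (subst zs r) []) = true := by decide +kernel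
theorem rel (r : Word) (h : r ∈ Ru3TC.rels) : ev z r = 1 :=
  (ev_subst _ _ _).symm.trans (Ctx.eq_of_eqW hC (lall_iff.1 hrel r h))
theorem o5 : orderOf (z 1) = 5 :=
  have := Fact.mk (by decide : Nat.Prime 5)
  orderOf_eq_prime (pw [104] _ (by decide +kernel)) (Ctx.ne_one_of_moves hC (w := [104]) (p := 0) (by decide) (by decide +kernel))

theorem amal {G S : Type*} [Group G] [Group S] {H J : Subgroup S} {z : ℕ → S} (zH : ∀ i < 4, z i ∈ H)
    (zJ : ∀ i < 3, z i ∈ J) (rel : ∀ r ∈ Ru3TC.rels, ev z r = 1) {ψ : H →* G} {u : G} (h1 : u * u = 1)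
    (h2 : ∀ x y : H, x.1 ∈ J → z 4 * x * (z 4)⁻¹ = y → u * ψ x * u⁻¹ = ψ y) (h3 : (u * ψ ⟨z 3, zH 3 (by decide)⟩) ^ 3 = 1) :
    ∀ r ∈ Ru3TC.rels, ev (fun i => if h : i < 4 then ψ ⟨z i, zH i h⟩ else u) r = 1 := fun r hr => by
  let m : ℕ → H := fun i => if h : i < 4 then ⟨z i, zH i h⟩ else 1
  have key : ∀ w : Word, (∀ a ∈ w, a < 2 * 4) →
      ev (fun i => if h : i < 4 then ψ ⟨z i, zH i h⟩ else u) w = ψ (ev m w) ∧ (ev m w).1 = ev z w := fun w hw =>
    ⟨by rw [map_ev]; exact ev_congr (fun i hi => by simp only [m, dif_pos hi]) hw,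
     (map_ev H.subtype _ _).trans (ev_congr (fun i hi => by simp only [m, dif_pos hi]; rfl) hw)⟩
  have t2 : z 4 * z 4 = 1 := by simpa [lv] using rel [8, 8] (by decide)
  have k : ∀ i < 3, ∀ w : Word, (∀ a ∈ w, a < 2 * 4) → 8 :: 2 * i :: 8 :: w ∈ Ru3TC.rels →
      ev (fun i => if h : i < 4 then ψ ⟨z i, zH i h⟩ else u) (8 :: 2 * i :: 8 :: w) = 1 := fun i hi w hw hr => by
    have e := rel _ hr
    rw [show 8 = 2 * 4 from rfl, ev_cons, ev_cons, ev_cons, lv_even, lv_even] at e ⊢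
    rw [dif_neg (by decide), dif_pos (by omega), (key w hw).1]
    have := h2 ⟨z i, zH i (by omega)⟩ (ev m w)⁻¹ (zJ i hi) (by
      rw [coe_inv, (key w hw).2, inv_eq_of_mul_eq_one_right t2, eq_inv_iff_mul_eq_one, mul_assoc, mul_assoc, e])
    rwa [inv_eq_of_mul_eq_one_right h1, map_inv, eq_inv_iff_mul_eq_one, mul_assoc, mul_assoc] at this
  rcases List.mem_append.1 hr with h | h
  · have hl := (by decide : ∀ r ∈ Ru3TC.RH, ∀ a ∈ r, a < 2 * 4) r h
    rw [(key r hl).1, show ev m r = 1 from Subtype.ext ((key r hl).2.trans (rel r hr)), map_one]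
  · simp only [List.mem_cons, List.not_mem_nil, or_false] at h
    rcases h with rfl | rfl | rfl | rfl | rfl
    exacts [by simpa [lv] using h1, k 0 (by decide) _ (by decide) hr, k 1 (by decide) _ (by decide) hr,
      k 2 (by decide) _ (by decide) hr, by simpa [lv, pow_succ, mul_assoc] using h3]

theorem main {G Ω : Type*} [Group G] [MulAction G Ω] [Finite Ω] [Finite G] [IsPretransitive G Ω] (hΩ : Nat.card Ω = 4060)
    {a b c : Ω} (hb : (orbit (stabilizer G a) b).ncard = 2304) (hc : (orbit (stabilizer G a) c).ncard = 1755)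
    (e : H ≃* stabilizer G a) : Nonempty (G ≃* A) := by
  obtain ⟨ψ, u, hψ, h1, h2, h3⟩ := core hΩ hb hc mod e
  have : IsSimpleGroup A := (RuPerm.gens_eq ▸ RuPerm.H0_simple : IsSimpleGroup (RuPerm.C.grp RuPerm.gens))
  let γ : ℕ → G := fun i => if h : i < 4 then ψ ⟨z i, zH i h⟩ else u
  let δ : ℕ → A := fun i => ⟨_, zA i⟩
  have hle : H ≤ A := hH.1.ge.trans inf_le_left
  refine iso_of_idx Ru3TC.idx (γ := γ) (δ := δ) (amal zH zJ rel h1 h2 h3)
    (fun r hr => Subtype.ext ((map_ev A.subtype _ r).trans (rel r hr))) (eq_top_of_card_eq _ ?_) ?_ ?_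
  · rw [← card_map_of_injective A.subtype_injective, map_grp]
    exact congrArg (fun X : Subgroup _ => Nat.card X) gz
  · have k1 : grp (fun i => (γ i, δ i)) [[0], [2], [4], [6]] ≤ (ψ.prod (inclusion hle)).range :=
      (grp_le_iff _).2 fun w hw => ev_mem_of_lt (k := 4) (fun i hi => MonoidHom.mem_range.2 ⟨⟨z i, zH i hi⟩,
        Prod.ext (show γ i = ψ ⟨z i, zH i hi⟩ from dif_pos hi).symm rfl⟩) ((by decide : ∀ w ∈ [[0], [2], [4], [6]], ∀ a ∈ w, a < 2 * 4) w hw)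
    have k2 := (card_le_of_le k1).trans (Nat.card_le_card_of_surjective _ (MonoidHom.rangeRestrict_surjective _))
    have k3 := Nat.le_of_dvd Nat.card_pos ((grp γ [[0], [2], [4], [6], [8]]).orderOf_dvd_natCard
      (mem_grp γ (w := [2 * 1]) (by decide)))
    rw [ev_gen, show γ 1 = ψ ⟨z 1, zH 1 (by decide)⟩ from dif_pos (by decide), orderOf_injective ψ hψ, ← orderOf_coe, o5] at k3
    rw [hH.2] at k2
    rw [card]; omega
  · rw [← (stabilizer G a).index_mul_card, index_stabilizer_of_transitive, hΩ, ← Nat.card_congr e.toEquiv, hH.2, card]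

end CA.Ru3M
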