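/-
Small linear codes on digit strings: the ternary Golay code and the hexacode, monomial automorphisms.
-/
import Cfsg.Agent.Lib.Spor.StModel
import Cfsg.Agent.Lib.Comp.CMat

set_option maxRecDepth 100000

namespace CA.SmallCodes
open Cfsg CA.NatBits CA.CGroup CA.CGConstr CA.CGCert Finset
open CA.CMat (Ar Sound arP ar4 soundP sound4 elQ)
open scoped Pointwise

/-! ### Monomial maps -/
section
variable {α K : Type*} [Field K] {C : Submodule K (α → K)}

/-- the monomial map preserves the code -/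
abbrev Pr (C : Submodule K (α → K)) (σ : Equiv.Perm α) (c : α → Kˣ) : Prop := ∀ x ∈ C, monomialMap σ c x ∈ C

theorem mon_mul (σ τ : Equiv.Perm α) (c d : α → Kˣ) (x : α → K) :
    monomialMap σ c (monomialMap τ d x) = monomialMap (σ * τ) (fun i => c i * d (σ.symm i)) x := by
  ext i; simp [monomialMap, mul_assoc, Equiv.Perm.mul_def]

theorem mon_inj (σ : Equiv.Perm α) (c : α → Kˣ) : Function.Injective (monomialMap σ c) := fun x y h => by
  ext i; simpa [monomialMap] using congrFun h (σ i)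

theorem pr_of_span {S : Set (α → K)} (hC : C = Submodule.span K S) {σ : Equiv.Perm α} {c : α → Kˣ}
    (h : ∀ x ∈ S, monomialMap σ c x ∈ C) : Pr C σ c := fun x hx => by
  rw [hC] at hx
  induction hx using Submodule.span_induction with
  | mem x hx => exact h x hx
  | zero => convert C.zero_mem; ext; simp [monomialMap]
  | add x y _ _ h1 h2 => convert C.add_mem h1 h2; ext; simp [monomialMap, mul_add]
  | smul a x _ h1 => convert C.smul_mem a h1; ext; simp [monomialMap, mul_left_comm]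

theorem pr_one : Pr C 1 1 := fun x hx => by
  convert hx; ext i; exact one_mul (x i)

/-- the permutation parts of the monomial automorphisms -/
def PP [Finite α] (C : Submodule K (α → K)) : Subgroup (Equiv.Perm α) where
  carrier := {σ | ∃ c, Pr C σ c}
  one_mem' := ⟨1, pr_one⟩
  mul_mem' := by rintro σ τ ⟨c, hc⟩ ⟨d, hd⟩; exact ⟨_, fun x hx => mon_mul σ τ c d x ▸ hc _ (hd x hx)⟩
  inv_mem' := by
    rintro σ ⟨c, hc⟩
    have : ∀ n : ℕ, ∃ d, Pr C (σ ^ n) d := fun n => by
      induction n with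
      | zero => exact ⟨1, pr_one⟩
      | succ n ih => obtain ⟨d, hd⟩ := ih; exact ⟨_, fun x hx => pow_succ σ n ▸ mon_mul _ σ d c x ▸ hd _ (hc x hx)⟩
    have h := this (orderOf σ - 1)
    rwa [eq_inv_of_mul_eq_one_left (show σ ^ (orderOf σ - 1) * σ = 1 by
      rw [← pow_succ, Nat.sub_add_cancel (orderOf_pos σ), pow_orderOf_eq_one])] at h

theorem card_mon [Finite α] [Finite K] [Nonempty α] (hd : ∀ c, Pr C 1 c → ∀ i j, c i = c j) :
    Nat.card {f : Equiv.Perm α × (α → Kˣ) // Pr C f.1 f.2} = Nat.card (PP C) * Nat.card Kˣ := by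
  rw [← Nat.card_prod]
  have hc : ∀ σ : PP C, ∃ c, Pr C σ c := fun σ => σ.2
  choose c hc using hc
  obtain ⟨i0⟩ := ‹Nonempty α›
  refine (Nat.card_eq_of_bijective (fun p : PP C × Kˣ => (⟨(p.1, fun i => p.2 * c p.1 i), fun x hx => by
    convert C.smul_mem (p.2 : K) (hc p.1 x hx); ext; simp [monomialMap, mul_assoc]⟩ :
      {f : Equiv.Perm α × (α → Kˣ) // Pr C f.1 f.2})) ⟨?_, ?_⟩).symm
  · rintro ⟨σ, a⟩ ⟨τ, b⟩ h
    obtain ⟨h1, h2⟩ := Prod.mk.inj (congrArg Subtype.val h)
    obtain rfl : σ = τ := Subtype.ext h1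
    rw [show a = b from mul_right_cancel (congrFun h2 i0)]
  · rintro ⟨⟨σ, d⟩, h⟩
    let s : PP C := ⟨σ, d, h⟩
    have h1 : Pr C 1 fun i => d i * (c s i)⁻¹ := fun y hy => by
      obtain ⟨x, hx⟩ := (Finite.injective_iff_surjective (f := fun x : C => (⟨_, hc s x x.2⟩ : C))).1
        (fun a b e => Subtype.ext (mon_inj _ _ (congrArg Subtype.val e))) ⟨y, hy⟩
      rw [← show monomialMap σ (c s) x = y from congrArg Subtype.val hx, mon_mul]
      convert h x x.2 using 2
      · exact one_mul σ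
      · exact funext fun i => inv_mul_cancel_right (d i) (c s i)
    refine ⟨(s, d i0 * (c s i0)⁻¹), Subtype.ext (Prod.ext rfl (funext fun i => ?_))⟩
    show _ * _ = d i
    rw [hd _ h1 i0 i, inv_mul_cancel_right]

theorem supp_mon [Fintype α] [DecidableEq α] [DecidableEq K] (σ : Equiv.Perm α) (c : α → Kˣ) (x : α → K) :
    (univ.filter fun i => monomialMap σ c x i ≠ 0) = σ • univ.filter fun i => x i ≠ 0 := by
  ext i; rw [← inv_smul_mem_iff]; simp [monomialMap, Equiv.Perm.inv_def]

end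

/-! ### Words as digit strings -/

/-- linear combination of the digits `k` of the rows with the coefficients `u` -/
noncomputable def cmb (A : Ar) (k : ℕ) (rows : List ℕ) : ℕ → ℕ :=
  List.rec (motive := fun _ => ℕ → ℕ) (fun _ => 0)
    (fun r _ ih u => A.add (A.mul (Nat.mod u 4) (ap 2 r k)) (ih (Nat.div u 4))) rows

/-- admissible coefficient strings -/
noncomputable def okU (q : ℕ) (rows : List ℕ) : ℕ → Bool :=
  List.rec (motive := fun _ => ℕ → Bool) (fun _ => true)
    (fun _ _ ih u => Nat.ble (Nat.succ (Nat.mod u 4)) q && ih (Nat.div u 4)) rows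

/-- all code words -/
noncomputable def CL (A : Ar) (n : ℕ) (rows : List ℕ) : List ℕ :=
  ((List.range (4 ^ rows.length)).filter (okU A.q rows)).map fun u => mkD 2 n fun k => cmb A k rows u

/-- the support -/
noncomputable def sup (n c : ℕ) : ℕ := mkD 1 n fun k => Bool.rec 1 0 (Nat.beq (ap 2 c k) 0)

/-- digit `k` of the image of `r` under the monomial map with inverse permutation `s` and coefficients `u` -/
def mon (A : Ar) (s u r k : ℕ) : ℕ :=
  A.add (A.mul (Nat.succ (Nat.mod (Nat.div u (Nat.pow (Nat.pred A.q) k)) (Nat.pred A.q))) (ap 2 r (ap 4 s k))) 0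

theorem exists_digits {b : ℕ} (n : ℕ) (f : ℕ → ℕ) (h : ∀ k < n, f k < b) : ∃ u < b ^ n, ∀ k < n, u / b ^ k % b = f k := by
  induction n generalizing f with
  | zero => exact ⟨0, by simp, by simp⟩
  | succ n ih =>
    obtain ⟨u, h1, h2⟩ := ih (fun k => f (k + 1)) fun k hk => h _ (by omega)
    have h0 := h 0 (by omega)
    refine ⟨f 0 + b * u, by rw [pow_succ']; nlinarith, fun k hk => ?_⟩
    rcases k with _ | k
    · simp [Nat.mod_eq_of_lt h0]
    · rw [pow_succ', ← Nat.div_div_eq_div_mul, Nat.add_mul_div_left _ _ (by omega), Nat.div_eq_of_lt h0, zero_add,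
        h2 k (by omega)]

section
variable {α K : Type*} [Field K] {n : ℕ} (E : Enc α n) {A : Ar} {el : ℕ → K}

/-- the word with the digit string `c` -/
def W (el : ℕ → K) (c : ℕ) : α → K := fun p => el (ap 2 c (E.ix p))

/-- the code spanned by the rows -/
def sp (el : ℕ → K) (rows : List ℕ) : Submodule K (α → K) := Submodule.span K {w | ∃ r ∈ rows, W E el r = w}

/-- canonical digit strings -/
def Can (A : Ar) (n c : ℕ) : Prop := c < 2 ^ (2 * n) ∧ ∀ k < n, ap 2 c k < A.q

variable {E} (hA : Sound A el) (h4 : A.q ≤ 4) (hl : ∀ a b, A.add a b < A.q)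
include hA

theorem W_inj {c d : ℕ} (hc : Can A n c) (hd : Can A n d) (h : W E el c = W E el d) : c = d :=
  eq_of_ap hc.1 hd.1 fun k hk => hA.inj _ _ (hc.2 k hk) (hd.2 k hk) (by
    have := congrFun h (E.pt k); rwa [W, W, E.ix_pt k hk] at this)

theorem supp_W [Fintype α] [DecidableEq K] {c : ℕ} (hc : Can A n c) :
    (univ.filter fun p => W E el c p ≠ 0) = E.ds (sup n c) := by
  ext p
  have h1 : ap 1 (sup n c) (E.ix p) = Bool.rec 1 0 (Nat.beq (ap 2 c (E.ix p)) 0) :=
    ap_mkD (fun i _ => by cases Nat.beq (ap 2 c i) 0 <;> simp) (E.ix_lt p)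
  rw [ap_eq, one_mul, pow_one] at h1
  rw [E.mem_ds, Nat.testBit_eq_decide_div_mod_eq, h1, mem_filter, W, ← hA.zero]
  cases h : Nat.beq (ap 2 c (E.ix p)) 0
  · simpa using fun e => by
      rw [hA.inj _ _ (hc.2 _ (E.ix_lt p)) ((Nat.zero_le _).trans_lt (hc.2 _ (E.ix_lt p))) e] at h; simp at h
  · simp [beq_iff.1 h]

include h4

theorem mem_sp {rows : List ℕ} {x : α → K} : x ∈ sp E el rows ↔ ∃ u < 4 ^ rows.length, okU A.q rows u = true ∧
    (fun p => el (cmb A (E.ix p) rows u)) = x := by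
  induction rows generalizing x with
  | nil => simpa [sp] using ⟨fun h => ⟨rfl, h ▸ funext fun _ => hA.zero⟩, fun h => h.2 ▸ funext fun _ => hA.zero⟩
  | cons r rows ih =>
    have e : ∀ u, (fun p => el (cmb A (E.ix p) (r :: rows) u)) =
        el (u % 4) • W E el r + fun p => el (cmb A (E.ix p) rows (u / 4)) := fun u => funext fun p =>
      (hA.add _ _).trans (congrArg (· + _) (hA.mul _ _))
    have e2 : ∀ u, okU A.q (r :: rows) u = (Nat.ble (Nat.succ (u % 4)) A.q && okU A.q rows (u / 4)) := fun _ => rfl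
    have e3 : {w | ∃ r' ∈ r :: rows, W E el r' = w} = insert (W E el r) {w | ∃ r' ∈ rows, W E el r' = w} := by
      ext; simp [eq_comm]
    rw [sp, e3, Submodule.mem_span_insert]
    simp only [e, e2, Bool.and_eq_true, blt_iff, List.length_cons]
    constructor
    · rintro ⟨a, z, hz, rfl⟩
      obtain ⟨u, h1, h2, rfl⟩ := ih.1 hz
      obtain ⟨a, ha, rfl⟩ := hA.surj a
      have m1 : (a + 4 * u) % 4 = a := by omega
      have m2 : (a + 4 * u) / 4 = u := by omega
      exact ⟨a + 4 * u, by rw [pow_succ]; omega, by rw [m1, m2]; exact ⟨⟨ha, h2⟩, rfl⟩⟩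
    · rintro ⟨u, h1, h2, rfl⟩
      exact ⟨_, _, ih.2 ⟨u / 4, by rw [pow_succ] at h1; omega, h2.2, rfl⟩, rfl⟩

include hl

omit hA h4 in
theorem cmb_lt (k : ℕ) (rows : List ℕ) (u : ℕ) : cmb A k rows u < A.q := by
  cases rows with
  | nil => exact (Nat.zero_le _).trans_lt (hl 0 0)
  | cons r rows => exact hl _ _

omit hA hl in
theorem can_mkD {f : ℕ → ℕ} (h : ∀ k, f k < A.q) : Can A n (mkD 2 n f) ∧ ∀ k < n, ap 2 (mkD 2 n f) k = f k :=
  have h' : ∀ k < n, f k < 2 ^ 2 := fun k _ => (h k).trans_le h4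
  ⟨⟨mkD_lt h', fun k hk => (ap_mkD h' hk).symm ▸ h k⟩, fun _ hk => ap_mkD h' hk⟩

omit hA in
theorem can_CL {rows : List ℕ} {c : ℕ} (h : c ∈ CL A n rows) : Can A n c := by
  obtain ⟨u, -, rfl⟩ := List.mem_map.1 h
  exact (can_mkD h4 fun k => cmb_lt hl k rows u).1

theorem mem_sp' {rows : List ℕ} {x : α → K} : x ∈ sp E el rows ↔ ∃ c ∈ CL A n rows, W E el c = x := by
  have e : ∀ u, W E el (mkD 2 n fun k => cmb A k rows u) = fun p => el (cmb A (E.ix p) rows u) := fun u =>
    funext fun p => congrArg el ((can_mkD h4 fun k => cmb_lt hl k rows u).2 _ (E.ix_lt p))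
  simp [mem_sp hA h4, CL, e, and_assoc]

theorem ncard_sp {rows L : List ℕ} (hL : CL A n rows = L) (hn : L.Nodup) {P : (α → K) → Prop} {f : ℕ → Bool}
    (h : ∀ c, Can A n c → (P (W E el c) ↔ f c = true)) : {x | x ∈ sp E el rows ∧ P x}.ncard = cntL L f := by
  classical
  subst hL
  rw [cntL_eq, ← List.toFinset_card_of_nodup (hn.filter f), ← Set.ncard_coe_finset]
  refine (Set.ncard_congr (fun c _ => W E el c) ?_ ?_ ?_).symm <;>
    simp only [mem_coe, List.mem_toFinset, List.mem_filter, Set.mem_ofPred_eq]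
  · exact fun c hc => ⟨(mem_sp' hA h4 hl).2 ⟨c, hc.1, rfl⟩, (h c (can_CL h4 hl hc.1)).2 hc.2⟩
  · exact fun c d hc hd => W_inj hA (can_CL h4 hl hc.1) (can_CL h4 hl hd.1)
  · rintro x ⟨h1, h2⟩
    obtain ⟨c, hc, rfl⟩ := (mem_sp' hA h4 hl).1 h1
    exact ⟨c, ⟨hc, (h c (can_CL h4 hl hc)).1 h2⟩, rfl⟩

omit h4 hl in
theorem exists_coef (c : α → Kˣ) : ∃ u < (A.q - 1) ^ n, ∀ p, (c p : K) = el (u / (A.q - 1) ^ E.ix p % (A.q - 1) + 1) := by
  have : ∀ k, ∃ a, k < n → a < A.q - 1 ∧ (c (E.pt k) : K) = el (a + 1) := fun k => by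
    obtain ⟨a, h1, h2⟩ := hA.surj (c (E.pt k))
    rcases a with _ | a
    · exact absurd (h2.symm.trans hA.zero) (c _).ne_zero
    · exact ⟨a, fun _ => ⟨by omega, h2.symm⟩⟩
  choose f hf using this
  obtain ⟨u, h1, h2⟩ := exists_digits n f fun k hk => (hf k hk).1
  exact ⟨u, h1, fun p => by rw [h2 _ (E.ix_lt p), ← (hf _ (E.ix_lt p)).2, E.pt_ix]⟩

theorem mon_W {σ : Equiv.Perm α} {s : ℕ} (hs : E.Rep 4 s σ⁻¹) {c : α → Kˣ} {u : ℕ}
    (hc : ∀ p, (c p : K) = el (u / (A.q - 1) ^ E.ix p % (A.q - 1) + 1)) (r : ℕ) :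
    monomialMap σ c (W E el r) = W E el (mkD 2 n (mon A s u r)) := by
  ext p
  rw [W, (can_mkD h4 (f := mon A s u r) fun k => hl _ _).2 _ (E.ix_lt p), mon, hA.add, hA.mul, hA.zero, add_zero,
    monomialMap, hc, W, ← hs.2]
  rfl

theorem pr_iff {rows L : List ℕ} (hL : CL A n rows = L) {σ : Equiv.Perm α} {s : ℕ} (hs : E.Rep 4 s σ⁻¹) {c : α → Kˣ}
    {u : ℕ} (hc : ∀ p, (c p : K) = el (u / (A.q - 1) ^ E.ix p % (A.q - 1) + 1)) :
    Pr (sp E el rows) σ c ↔ allL rows (fun r => force (mkD 2 n (mon A s u r)) fun y => anyL L (Nat.beq y)) = true := by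
  subst hL
  simp only [allL_iff, CA.Perm24.fe, anyL_iff, beq_iff]
  constructor
  · intro h r hr
    obtain ⟨d, hd, e⟩ := (mem_sp' hA h4 hl).1 (mon_W hA h4 hl hs hc r ▸ h _ (Submodule.subset_span ⟨r, hr, rfl⟩))
    exact ⟨d, hd, W_inj hA (can_mkD h4 fun k => hl _ _).1 (can_CL h4 hl hd) e.symm⟩
  · refine fun h => pr_of_span rfl ?_
    rintro _ ⟨r, hr, rfl⟩
    obtain ⟨d, hd, e⟩ := h r hr
    exact (mem_sp' hA h4 hl).2 ⟨d, hd, by rw [mon_W hA h4 hl hs hc, e]⟩

theorem mem_PP [Finite α] (hn : n ≤ 2 ^ 4) (h2 : 2 ≤ A.q) {rows L : List ℕ} (hL : CL A n rows = L) {σ : Equiv.Perm α}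
    {s : ℕ} (hs : E.Rep 4 s σ) (u : ℕ) (h : allL rows (fun r => force (mkD 2 n (mon A (invP 4 n s) u r)) fun y =>
      anyL L (Nat.beq y)) = true) : σ ∈ PP (sp E el rows) :=
  ⟨fun p => Units.mk0 _ (hA.ne_zero (Nat.succ_ne_zero _) (by
    have := Nat.mod_lt (u / (A.q - 1) ^ E.ix p) (show 0 < A.q - 1 by omega); omega)),
    (pr_iff hA h4 hl hL (hs.inv hn) fun _ => rfl).2 h⟩

end

/-- permutations with digits of width four -/
noncomputable abbrev p4 {α : Type*} {n : ℕ} (E : Enc α n) (h : n ≤ 2 ^ 4) : CG (Equiv.Perm α) :=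
  permCG E 4 h (comp 4 n) (invP 4 n) (idP 4 n) rfl rfl rfl

theorem le_card4 {α : Type*} [Finite α] {n : ℕ} (E : Enc α n) (h : n ≤ 2 ^ 4) {K : Subgroup (Equiv.Perm α)}
    {l : List ℕ} (hl : (p4 E h).In l K) (L : List (ℕ × List (List ℕ))) {N : ℕ}
    (hc : (allL L (fun p => Nat.ble (Nat.succ p.1) n) && lowc (ap 4) (comp 4 n) (invP 4 n) (idP 4 n) L l N) = true) :
    N ≤ Nat.card K := by
  rw [Bool.and_eq_true, allL_iff] at hc
  refine le_card_of_lowc (A := ptAct (ap 4) rfl) (fun c h' => ?_) hl hc.2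
  obtain ⟨p, hp, rfl⟩ := List.mem_map.1 h'
  exact ⟨E.pt p.1, (E.ix_pt _ (blt_iff.1 (hc.1 p hp))).symm⟩

/-! ### The ternary Golay code -/

/-- enumeration of the array -/
def tE : Enc ArrayPt 12 where
  ix p := 3 * p.1.val + p.2.val
  pt k := (Fin.ofNat 4 (k / 3), (k : ZMod 3))
  ix_lt := by decide
  pt_ix := by decide
  ix_pt := by decide

instance instFact3 : Fact (Nat.Prime 3) := ⟨Nat.prime_three⟩

/-- basis -/
def tR : List ℕ := [9765889, 9077764, 5784592, 1673280, 9586944, 11096064]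

/-- the code words -/
noncomputable def TL : List ℕ :=
    [0, 9765889, 6948866, 9077764, 5277701, 2457606, 4540424, 1720329, 10503178, 5784592, 2181137, 8798226, 1443860,
    11010069, 4260886, 9535512, 6718489, 559130, 10782752, 4816929, 1213474, 6438948, 279589, 10045478, 2688040,
    8521769, 5505066, 1673280, 10649665, 4490306, 9715780, 6898757, 149574, 5375048, 2361417, 8978506, 6619216,
    656465, 9439314, 2131028, 8751189, 5931094, 11159640, 4210777, 1393754, 8471648, 5654625, 2637922, 4720740,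
    1114213, 10880102, 426088, 9995369, 6391914, 2507904, 8931457, 5324930, 10553476, 4587653, 1574022, 6848648,
    99465, 9865354, 4360336, 1343633, 11109522, 606356, 9585813, 6572182, 8651928, 5834905, 2228378, 10092704,
    6292641, 329890, 5604516, 2787493, 8421542, 1067176, 10829993, 4867242, 9586944, 6570241, 607490, 5832964,
    2229509, 8653062, 1344776, 11110665, 4358410, 2785552, 8422673, 5605650, 10831124, 4868373, 1065238, 6293784,
    327961, 10093850, 4588832, 1575201, 10551586, 100644, 9863461, 6849830, 8929576, 5326121, 2509098, 11011392,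
    4262209, 1442114, 6719812, 557381, 9536838, 2179400, 8799561, 5785930, 280912, 10043729, 6440274, 8520020,
    5506389, 2689366, 4818264, 1214809, 10781018, 5276000, 2458977, 9079138, 1721700, 10504549, 4538726, 9767272,
    6947177, 1386, 8749440, 5932417, 2132354, 4212100, 1395077, 11157894, 657800, 9437577, 6620554, 1115536,
    10881425, 4718994, 9996692, 6390165, 427414, 5652888, 2639257, 8472986, 6900128, 147873, 9717154, 2359716,
    8979877, 5376422, 10651048, 4491689, 1671594, 6391296, 428545, 9994754, 2640388, 8471045, 5654022, 10879496,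
    4720137, 1116682, 8981008, 5374481, 2360850, 4489748, 1672725, 10652182, 149016, 9718297, 6898202, 1393184,
    11159073, 4213282, 9438756, 6621733, 655910, 5933608, 2130473, 8750634, 4866624, 1066561, 10832450, 329284,
    10095173, 6292038, 8424008, 5603913, 2786890, 9864784, 6851153, 98898, 5327444, 2507349, 8930902, 1573464,
    10552921, 4590170, 2230880, 8651361, 5834338, 11108964, 4359781, 1346150, 6571624, 608873, 9585258, 5507712,
    2687617, 8521346, 1213060, 10782341, 4819590, 10045064, 6441609, 279178, 10502800, 4540049, 1723026, 6948500,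
    2709, 9765526, 2460312, 9077401, 5277338, 558752, 9538209, 6718114, 8800932, 5784229, 2180774, 4260520, 1443497,
    11012778, 11096064, 4346881, 1333250, 6558724, 595973, 9572358, 2267144, 8687625, 5870602, 365584, 10131473,
    6328338, 8411156, 5591061, 2774038, 4853784, 1053721, 10819610, 5314592, 2494497, 8918050, 1609764, 10589221,
    4626470, 9851944, 6838313, 86058, 8788032, 5771329, 2167874, 4296772, 1479749, 11049030, 545864, 9525321,
    6705226, 1200208, 10769489, 4806738, 10032212, 6428757, 266326, 5544024, 2723929, 8557658, 6984800, 39009,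
    9801826, 2447460, 9064549, 5264486, 10489960, 4527209, 1710186, 9475200, 6658177, 692354, 5920900, 2117765,
    8737926, 1380488, 11146377, 4200586, 2627728, 8458385, 5641362, 10915988, 4756629, 1153174, 6378648, 415897,
    9982106, 4477088, 1660065, 10639522, 136356, 9705637, 6885542, 9017512, 5410985, 2397354, 4757760, 1151233,
    10917122, 413956, 9983237, 6379782, 8459528, 5642505, 2625802, 9703696, 6886673, 137490, 5412116, 2398485,
    9015574, 1661208, 10637593, 4478234, 2118944, 8739105, 5919010, 11147556, 4198693, 1381670, 6656296, 693545,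
    9476394, 5592384, 2775361, 8409410, 1055044, 10817861, 4855110, 10129736, 6329673, 366922, 10590544, 4624721,
    1611090, 6836564, 87381, 9853270, 2495832, 8919385, 5312858, 594272, 9573729, 6560098, 8688996, 5871973,
    2265446, 4348264, 1331561, 11097450, 6427008, 267649, 10033538, 2725252, 8558981, 5542278, 10770824, 4805001,
    1201546, 9065872, 5265809, 2445714, 4528532, 1708437, 10491286, 37272, 9803161, 6986138, 1481120, 11047329,
    4298146, 9523620, 6706597, 547238, 5772712, 2169257, 8786346, 1709568, 10492417, 4526594, 9804292, 6984197,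
    38406, 5263880, 2446857, 9067018, 6707728, 545297, 9524754, 2167316, 8787477, 5773846, 11048472, 4299289,
    1479194, 8557088, 5543457, 2726434, 4806180, 1202725, 10768934, 268840, 10031657, 6428202, 2396736, 9016897,
    5413442, 10638916, 4479557, 1659462, 6888008, 135753, 9705034, 4200016, 1382993, 11145810, 694868, 9474645,
    6657622, 8737368, 5920345, 2120282, 9984608, 6378081, 415330, 5640804, 2627173, 8460902, 1152616, 10918505,
    4756074, 88704, 9851521, 6837890, 8917636, 5314181, 2497158, 4626056, 1612425, 10588810, 5870224, 2266769,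
    8690322, 1332884, 11098773, 4346518, 9575064, 6558361, 595610, 10819232, 4856481, 1053346, 6331044, 365221,
    10131110, 2773672, 8410793, 5593770, 5677056, 2663425, 8497154, 1139716, 10905605, 4743174, 9971720, 6365193,
    402442, 10626064, 4466705, 1646610, 6924308, 172053, 9741334, 2383896, 9004057, 5400602, 682016, 9461793,
    6644770, 8724516, 5907493, 2107430, 4236328, 1419305, 11182122, 6318144, 352321, 10118210, 2760772, 8397893,
    5580870, 10855496, 4892745, 1089610, 8953936, 5350481, 2533458, 4613204, 1599573, 10575958, 75864, 9838681,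
    6825050, 1320032, 11085921, 4333666, 9611364, 6594661, 631910, 5857384, 2253929, 8677482, 4793472, 1190017,
    10756226, 305284, 10068101, 6464646, 8544392, 5530761, 2713738, 9791632, 6971537, 25746, 5251220, 2434197,
    9054358, 1746072, 10528921, 4563098, 2203808, 8823969, 5810338, 11035812, 4286629, 1466534, 6695080, 532649,
    9512106, 2435328, 9052417, 5252354, 10526980, 4564229, 1747206, 6972680, 26889, 9789706, 4284688, 1467665,
    11036946, 533780, 9513237, 6693142, 8825112, 5808409, 2204954, 10069280, 6465825, 303394, 5531940, 2711845,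
    8545574, 1188136, 10757417, 4794666, 173376, 9742657, 6922562, 9005380, 5398853, 2385222, 4464968, 1647945,
    10627402, 5908816, 2105681, 8725842, 1417556, 11183445, 4237654, 9463128, 6646105, 680282, 10903904, 4744545,
    1141090, 6366564, 403813, 9970022, 2664808, 8495465, 5678442, 1597824, 10577281, 4614530, 9840004, 6826373,
    74118, 5351816, 2531721, 8955274, 6595984, 633233, 9609618, 2255252, 8675733, 5858710, 11084184, 4335001,
    1321370, 8399264, 5579169, 2762146, 4891044, 1090981, 10856870, 353704, 10119593, 6316458, 8676864, 5859841,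
    2253314, 4336132, 1319429, 11085318, 631304, 9610761, 6597130, 1092112, 10854929, 4892178, 10117652, 6317589,
    354838, 5580312, 2763289, 8397338, 6824480, 75297, 9841186, 2532900, 8956453, 5349926, 10578472, 4612649,
    1599018, 9511488, 6694465, 535106, 5809732, 2206277, 8823366, 1469000, 11035209, 4286026, 2713168, 8546897,
    5530194, 10758740, 4792917, 1189462, 6464088, 304729, 10070618, 4565600, 1745505, 10528354, 25188, 9791077,
    6974054, 9053800, 5253737, 2433642, 11184768, 4235905, 1418882, 6644356, 681605, 9464454, 2107016, 8727177,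
    5907082, 402064, 9971345, 6367890, 8496788, 5679765, 2663062, 4745880, 1139353, 10905242, 5400224, 2386593,
    9003682, 1649316, 10625701, 4466342, 9740968, 6923945, 174762]

/-- the hexads -/
noncomputable def TH : List ℕ :=
    [63, 222, 237, 243, 347, 366, 373, 413, 427, 438, 455, 504, 591, 630, 633, 667, 679, 700, 725, 746, 791, 813,
    826, 860, 867, 910, 945, 969, 978, 996, 1117, 1127, 1146, 1175, 1198, 1209, 1227, 1268, 1295, 1331, 1340, 1366,
    1385, 1434, 1445, 1484, 1489, 1506, 1566, 1579, 1589, 1619, 1644, 1677, 1714, 1734, 1752, 1761, 1817, 1830,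
    1861, 1866, 1904, 1923, 1940, 1960, 2135, 2155, 2172, 2191, 2229, 2234, 2265, 2278, 2334, 2343, 2361, 2381,
    2418, 2451, 2476, 2506, 2516, 2529, 2589, 2606, 2611, 2650, 2661, 2710, 2729, 2755, 2764, 2800, 2827, 2868,
    2886, 2897, 2920, 2949, 2968, 2978, 3099, 3117, 3126, 3150, 3185, 3228, 3235, 3269, 3282, 3304, 3349, 3370,
    3395, 3416, 3428, 3462, 3465, 3504, 3591, 3640, 3657, 3668, 3682, 3722, 3729, 3748, 3852, 3858, 3873, 4032]

theorem TL_eq : CL (arP 3) 12 tR = TL := by decide +kernel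
theorem TL_nodup : TL.Nodup := by decide +kernel
theorem t4 : (arP 3).q ≤ 4 := by decide
theorem tl (a b : ℕ) : (arP 3).add a b < (arP 3).q := Nat.mod_lt _ (by decide)

theorem mem_tern {x : ArrayPt → ZMod 3} : x ∈ ternaryGolayCode ↔ ∃ s : ZMod 3, (∀ i : Fin 4, ∑ r : ZMod 3, x (i, r) = -s) ∧
    ∀ a b : ZMod 3, ∑ i : Fin 4, x (i, (a • ![0, 1, 1, 1] + b • ![1, 0, 1, 2] : Fin 4 → ZMod 3) i) = s := by
  refine exists_congr fun s => and_congr_right fun _ => ⟨fun h a b => h _ (Submodule.mem_span_pair.2 ⟨a, b, rfl⟩), ?_⟩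
  intro h t ht
  obtain ⟨a, b, rfl⟩ := Submodule.mem_span_pair.1 ht
  exact h a b

theorem ncard_t {P : (ArrayPt → ZMod 3) → Prop} {f : ℕ → Bool}
    (h : ∀ c, Can (arP 3) 12 c → (P (W tE Nat.cast c) ↔ f c = true)) :
    {x | x ∈ sp tE Nat.cast tR ∧ P x}.ncard = cntL TL f := ncard_sp (soundP 3) t4 tl TL_eq TL_nodup h

theorem tern_eq : ternaryGolayCode = sp tE Nat.cast tR := by
  have h1 : sp tE Nat.cast tR ≤ ternaryGolayCode := Submodule.span_le.2 (by
    rintro _ ⟨r, hr, rfl⟩
    exact mem_tern.2 (by revert r; decide +kernel))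
  have h2 : (sp tE (Nat.cast : ℕ → ZMod 3) tR : Set (ArrayPt → ZMod 3)).ncard = 729 := by
    simpa using (ncard_t (P := fun _ => True) (f := fun _ => true) (by simp)).trans (show _ = 729 by decide +kernel)
  let I : Fin 6 → ℕ := ![0, 1, 2, 3, 4, 6]
  have h3 : ∀ x ∈ ternaryGolayCode, (fun j => x (tE.pt (I j))) = 0 → x = 0 := fun x hx h => by
    have key : ∀ a b c d e f : ZMod 3, let y : ArrayPt → ZMod 3 := fun p => [0, 0, 0, 0, 0, a, 0, b, c, d, e, f].getD (tE.ix p) 0
        (∃ s : ZMod 3, (∀ i : Fin 4, ∑ r : ZMod 3, y (i, r) = -s) ∧ ∀ a b : ZMod 3,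
          ∑ i : Fin 4, y (i, (a • ![0, 1, 1, 1] + b • ![1, 0, 1, 2] : Fin 4 → ZMod 3) i) = s) → ∀ p, y p = 0 := by
      decide +kernel
    have e : x = fun p => [0, 0, 0, 0, 0, x (tE.pt 5), 0, x (tE.pt 7), x (tE.pt 8), x (tE.pt 9), x (tE.pt 10), x (tE.pt 11)].getD (tE.ix p) 0 := funext fun p => by
      obtain ⟨k, hk, rfl⟩ := tE.exists_pt p
      rw [tE.ix_pt k hk]
      interval_cases k
      exacts [congrFun h 0, congrFun h 1, congrFun h 2, congrFun h 3, congrFun h 4, rfl, congrFun h 5, rfl, rfl, rfl, rfl, rfl]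
    rw [e] at hx ⊢
    exact funext (key _ _ _ _ _ _ (mem_tern.1 hx))
  refine (SetLike.coe_injective (Set.eq_of_subset_of_ncard_le h1 ?_)).symm
  rw [h2, show 729 = (Set.univ : Set (Fin 6 → ZMod 3)).ncard by simp]
  exact Set.ncard_le_ncard_of_injOn (fun x j => x (tE.pt (I j))) (by simp) fun x hx y hy h =>
    sub_eq_zero.1 (h3 _ (ternaryGolayCode.sub_mem hx hy) (sub_eq_zero.2 h))

theorem supp_t {c : ℕ} (hc : Can (arP 3) 12 c) : ternarySupport (W tE Nat.cast c) = tE.ds (sup 12 c) :=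
  supp_W (soundP 3) hc

theorem ncard_wt (j : ℕ) : {x | x ∈ ternaryGolayCode ∧ (ternarySupport x).card = j}.ncard =
    cntL TL fun c => Nat.beq (pcRec 12 (sup 12 c)) j := by
  rw [tern_eq]; exact ncard_t fun c hc => by rw [supp_t hc, tE.card_ds, beq_iff]

theorem exists_t {x : ArrayPt → ZMod 3} (h : x ∈ ternaryGolayCode) : ∃ c ∈ TL, Can (arP 3) 12 c ∧ W tE Nat.cast c = x := by
  obtain ⟨c, hc, e⟩ := (mem_sp' (soundP 3) t4 tl).1 (tern_eq ▸ h)
  exact ⟨c, TL_eq ▸ hc, can_CL t4 tl hc, e⟩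

/-- the hexads of the ternary code -/
abbrev THs : Set (Finset ArrayPt) := {h | ∃ x ∈ ternaryGolayCode, ternarySupport x = h ∧ h.card = 6}

theorem mem_THs {s : Finset ArrayPt} : s ∈ THs ↔ ∃ m ∈ TH, tE.ds m = s := by
  have h := show (allL TL (fun c => force (sup 12 c) fun m => !(Nat.beq (pcRec 12 m) 6) || anyL TH (Nat.beq m)) &&
    allL TH fun m => Nat.beq (pcRec 12 m) 6 && anyL TL fun c => Nat.beq (Nat.land (Nat.lor c (c / 2)) 5592405)
      (mkD 2 12 fun k => m / 2 ^ k % 2) && Nat.beq (sup 12 c) m) = true by decide +kernel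
  simp only [Bool.and_eq_true, allL_iff, CA.Perm24.fe, Bool.or_eq_true, anyL_iff, beq_iff, Bool.not_eq_true',
    ← Bool.not_eq_true] at h
  constructor
  · rintro ⟨x, hx, rfl, h6⟩
    obtain ⟨c, hc, hc', rfl⟩ := exists_t hx
    rw [supp_t hc'] at h6 ⊢
    obtain ⟨m, hm, e⟩ := (h.1 c hc).resolve_left fun h' => h' ((tE.card_ds _).symm.trans h6)
    exact ⟨m, hm, e ▸ rfl⟩
  · rintro ⟨m, hm, rfl⟩
    obtain ⟨h6, c, hc, -, rfl⟩ := h.2 m hm
    rw [← TL_eq] at hc
    exact ⟨_, tern_eq ▸ (mem_sp' (soundP 3) t4 tl).2 ⟨c, hc, rfl⟩, supp_t (can_CL t4 tl hc), (tE.card_ds _).trans h6⟩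

theorem steiner_t : IsSteinerSystem 5 6 THs := by
  refine ⟨fun b hb => hb.choose_spec.2.2, fun s hs => ?_⟩
  obtain ⟨a, ha, rfl⟩ := tE.exists_ds s
  have h := allL_iff.1 (show allL (CA.CGRank.kSub 12 5) (fun a =>
    Nat.beq (cntL TH fun m => Nat.beq (Nat.land a m) a) 1) = true by decide +kernel) a
    (CA.CGRank.mem_kSub.2 ⟨ha, (tE.card_ds a).symm.trans hs⟩)
  rw [beq_iff, cntL_eq, List.length_eq_one_iff] at h
  obtain ⟨m, hm⟩ := h
  have key : ∀ m', m' ∈ TH ∧ tE.ds a ⊆ tE.ds m' ↔ m' = m := fun m' => by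
    rw [← List.mem_singleton, ← hm, List.mem_filter, beq_iff, tE.ds_subset_iff ha]
  refine ⟨tE.ds m, ⟨mem_THs.2 ⟨m, ((key m).2 rfl).1, rfl⟩, ((key m).2 rfl).2⟩, fun b hb => ?_⟩
  obtain ⟨m', h1, rfl⟩ := mem_THs.1 hb.1
  rw [(key m').1 ⟨h1, hb.2⟩]

theorem diag_t (c : ArrayPt → (ZMod 3)ˣ) (h : Pr ternaryGolayCode 1 c) : (∀ p, c p = 1) ∨ ∀ p, c p = -1 := by
  obtain ⟨u, hu, hc⟩ := exists_coef (E := tE) (soundP 3) c
  have h1 := (pr_iff (soundP 3) t4 tl TL_eq (σ := 1) (Enc.Rep.one (by norm_num)) hc).1 (tern_eq ▸ h)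
  have h2 := allLt_iff.1 (show allLt 4096 (fun u => !(allL tR (fun r => force (mkD 2 12 (mon (arP 3) (idP 4 12) u r))
    fun y => anyL TL (Nat.beq y))) || Nat.beq u 0 || Nat.beq u 4095) = true by decide +kernel) u hu
  simp only [h1, Bool.not_true, Bool.false_or, Bool.or_eq_true, beq_iff] at h2
  rcases h2 with rfl | rfl
  · exact Or.inl fun p => Units.ext ((hc p).trans (by revert p; decide +kernel))
  · exact Or.inr fun p => Units.ext ((hc p).trans (by revert p; decide +kernel))

theorem PP_t : PP ternaryGolayCode = setSystemAut THs := by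
  have h1 : PP ternaryGolayCode ≤ setSystemAut THs := by
    rintro σ ⟨c, hc⟩
    refine CA.M24Core.mem_stab_of ?_
    rintro _ ⟨x, hx, rfl, h6⟩
    exact ⟨_, hc x hx, supp_mon σ c x, (card_smul_finset _ _).trans h6⟩
  obtain ⟨e, he⟩ := CA.StModel.mod12 (by simp [ArrayPt]) steiner_t
  obtain ⟨φ, -⟩ := CA.StModel.aut12 he
  refine Subgroup.eq_of_le_of_card_ge h1 ?_
  rw [← Nat.card_congr φ.toEquiv, CA.M24Sub.st12.card]
  refine le_card4 tE (by norm_num) (l := [182193471643761, 196291364865801]) (CG.In.of_forall (perm_ok (by decide +kernel)) ?_)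
    [(0, [[0, 0, 0, 0, 0, 2], [1, 3]]), (1, [[0, 3, 0], [0, 2, 1, 3]]), (2, [[2, 2], [3, 1, 3, 0, 0, 2, 2]]), (3, [[3, 0, 0], [3, 3, 0, 2]]), (4, [])] (by decide +kernel)
  simp only [List.mem_cons, List.not_mem_nil, or_false, tern_eq]
  rintro _ (rfl | rfl) g hg
  · exact mem_PP (soundP 3) t4 tl (by norm_num) (by decide) TL_eq hg 867 (by decide +kernel)
  · exact mem_PP (soundP 3) t4 tl (by norm_num) (by decide) TL_eq hg 1093 (by decide +kernel)

/-! ### The hexacode -/

/-- basis -/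
def hR : List ℕ := [3006, 3051, 3771]

/-- the code words -/
def HL : List ℕ :=
    [0, 3006, 3543, 1641, 3051, 85, 1596, 3458, 3453, 1731, 170, 2836, 1686, 3368, 2881, 255, 3771, 1285, 876, 2258,
    1360, 3822, 2183, 825, 966, 2168, 3601, 1455, 2093, 915, 1530, 3652, 2013, 3171, 2570, 436, 3126, 1928, 481,
    2655, 2720, 286, 1911, 3273, 331, 2805, 3228, 1826, 2406, 728, 1201, 3855, 653, 2355, 3930, 1252, 1051, 4005,
    2508, 626, 4080, 1102, 551, 2457]

theorem HL_eq : CL ar4 6 hR = HL := by decide +kernel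
theorem x4 : ar4.q ≤ 4 := by decide
theorem xl (a b : ℕ) : ar4.add a b < ar4.q := by
  show (a + b) % 2 + 2 * ((a / 2 + b / 2) % 2) < 4
  omega

variable {F : Type*} [Field F] [Fintype F] (hF : Fintype.card F = 4) {ω : F} (hω : ω ^ 2 + ω + 1 = 0)
include hF hω

theorem hexa_eq : hexacode F ω = sp (Enc.fin 6) (elQ 2 ω) hR := by
  have := CA.CMat.charP_two hF
  have h2 : elQ 2 ω 2 = ω := by simp [elQ, CharTwo.two_eq_zero]
  have h3 : elQ 2 ω 3 = ω ^ 2 := by
    have : (2 : F) = 0 := CharTwo.two_eq_zero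
    simp only [elQ]; norm_num; linear_combination (-1 : F) * hω + (2 + ω) * this
  have e : ∀ (r : ℕ) (v : Fin 6 → ℕ), (∀ i : Fin 6, ap 2 r i = v i) → W (Enc.fin 6) (elQ 2 ω) r = fun i => elQ 2 ω (v i) :=
    fun r v h => funext fun i => congrArg _ (h i)
  rw [hexacode, sp]; congr 1; ext x
  simp only [hR, List.mem_cons, List.not_mem_nil, or_false, exists_eq_or_imp, exists_eq_left, Set.mem_ofPred_eq,
    Set.mem_insert_iff, Set.mem_singleton_iff, e 3006 ![2, 3, 3, 2, 3, 2] (by decide), e 3051 ![3, 2, 2, 3, 3, 2] (by decide),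
    e 3771 ![3, 2, 3, 2, 2, 3] (by decide), eq_comm (b := x)]
  refine or_congr ?_ (or_congr ?_ ?_) <;> refine Eq.congr_right (funext fun i => ?_) <;> fin_cases i <;>
    simp [h2, h3]

theorem ncard_h [DecidableEq F] (j : ℕ) : {x | x ∈ hexacode F ω ∧ (univ.filter fun i => x i ≠ 0).card = j}.ncard =
    cntL HL fun c => Nat.beq (pcRec 6 (sup 6 c)) j := by
  rw [hexa_eq hF hω]
  exact ncard_sp (sound4 hF hω) x4 xl HL_eq (by decide +kernel) fun c hc => by
    rw [supp_W (sound4 hF hω) hc, Enc.card_ds, beq_iff]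

theorem diag_h (c : Fin 6 → Fˣ) (h : Pr (hexacode F ω) 1 c) (i j : Fin 6) : c i = c j := by
  obtain ⟨u, hu, hc⟩ := exists_coef (E := Enc.fin 6) (sound4 hF hω) c
  have h1 := (pr_iff (sound4 hF hω) x4 xl HL_eq (σ := 1) (Enc.Rep.one (by norm_num)) hc).1 (hexa_eq hF hω ▸ h)
  have h2 := allLt_iff.1 (show allLt 729 (fun u => !(allL hR (fun r => force (mkD 2 6 (mon ar4 (idP 4 6) u r))
    fun y => anyL HL (Nat.beq y))) || Nat.beq (u % 364) 0) = true by decide +kernel) u hu
  simp only [h1, Bool.not_true, Bool.false_or, beq_iff] at h2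
  refine Units.ext (by rw [hc, hc]; congr 2; revert i j; change u < 729 at hu
                       obtain rfl | rfl | rfl : u = 0 ∨ u = 364 ∨ u = 728 := by omega
                       all_goals decide +kernel)

theorem PP_h : PP (hexacode F ω) = alternatingGroup (Fin 6) := by
  have h1 : alternatingGroup (Fin 6) ≤ PP (hexacode F ω) := by
    refine inf_eq_left.1 (Subgroup.eq_of_le_of_card_ge inf_le_left ?_)
    rw [show Nat.card (alternatingGroup (Fin 6)) = 360 by rw [nat_card_alternatingGroup]; simp [Nat.factorial]]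
    refine le_card4 (Enc.fin 6) (by norm_num) (l := [5517345, 1393440]) (CG.In.of_forall (perm_ok (by decide +kernel)) ?_)
      [(0, [[1, 1, 2, 0, 2], [2]]), (1, [[2, 0, 2, 1, 1, 2], [1]]), (2, [[0, 2, 2, 2]]), (3, [])] (by decide +kernel)
    simp only [List.mem_cons, List.not_mem_nil, or_false, hexa_eq hF hω]
    rintro _ (rfl | rfl) g hg
    · refine ⟨?_, mem_PP (sound4 hF hω) x4 xl (by norm_num) (by decide) HL_eq hg 161 (by decide +kernel)⟩
      rw [hg.unique (h := Equiv.swap 0 1 * Equiv.swap 1 2) (Enc.rep_of (by decide) (by decide +kernel))]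
      exact Equiv.Perm.mem_alternatingGroup.2 (by decide +kernel)
    · refine ⟨?_, mem_PP (sound4 hF hω) x4 xl (by norm_num) (by decide) HL_eq hg 194 (by decide +kernel)⟩
      rw [hg.unique (h := Equiv.swap 1 2 * Equiv.swap 2 3 * Equiv.swap 3 4 * Equiv.swap 4 5)
        (Enc.rep_of (by decide) (by decide +kernel))]
      exact Equiv.Perm.mem_alternatingGroup.2 (by decide +kernel)
  have h2 : Equiv.swap 0 1 ∉ PP (hexacode F ω) := by
    rintro ⟨c, h⟩
    obtain ⟨u, hu, hc⟩ := exists_coef (E := Enc.fin 6) (sound4 hF hω) c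
    have h1 := (pr_iff (sound4 hF hω) x4 xl HL_eq (σ := Equiv.swap 0 1) (s := 5517825)
      (Enc.rep_of (by decide) (by decide +kernel)) hc).1 (hexa_eq hF hω ▸ h)
    have h2 := allLt_iff.1 (show allLt 729 (fun u => !(allL hR (fun r => force (mkD 2 6 (mon ar4 5517825 u r))
      fun y => anyL HL (Nat.beq y)))) = true by decide +kernel) u hu
    rw [h1] at h2; exact absurd h2 (by decide)
  refine le_antisymm (fun σ hσ => ?_) h1
  by_contra hn
  refine h2 (((PP _).mul_mem_cancel_left hσ).1 (h1 ?_))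
  rw [Equiv.Perm.mem_alternatingGroup] at hn ⊢
  rw [map_mul, Equiv.Perm.sign_swap (by decide), (Int.units_eq_one_or _).resolve_left hn]; rfl

end CA.SmallCodes
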