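import Cfsg.Agent.Lib.Comp.CTodd
import Cfsg.Agent.Lib.Comp.H27Pres
import Cfsg.Agent.Lib.Fi.Pc

/-! Rank 3 groups of degree 1782: the amalgam. -/

set_option autoImplicit false
set_option linter.unusedVariables false

namespace CA.Suz3A
open Subgroup MulAction CA.CWord CA.CTodd CA.H27Pres CA.Fi
universe u

theorem iso_of_idx {G : Type u} {S : Type} [Group G] [Group S] [Finite G] [Finite S] [IsSimpleGroup S]
    {rels gs hs : List Word} {n : ℕ} (hI : Idx.{u} rels gs hs n) {γ : ℕ → G} {δ : ℕ → S}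
    (h1 : ∀ r ∈ rels, ev γ r = 1) (h2 : ∀ r ∈ rels, ev δ r = 1) (h3 : grp δ gs = ⊤)
    (h4 : n * Nat.card (grp (fun i => (γ i, δ i)) hs) < Nat.card S * Nat.card (grp γ gs))
    (h5 : Nat.card G ≤ Nat.card S) : Nonempty (G ≃* S) := by
  let L := grp (fun i => (γ i, δ i)) gs
  let K := grp (fun i => (γ i, δ i)) hs
  obtain ⟨-, a2⟩ := hI (G × S) (fun i => (γ i, δ i)) fun r hr =>
    Prod.ext ((map_ev (MonoidHom.fst G S) _ r).trans (h1 r hr)) ((map_ev (MonoidHom.snd G S) _ r).trans (h2 r hr))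
  have c1 : Nat.card L ≤ n * Nat.card K := by
    rw [← (K.subgroupOf L).index_mul_card]
    exact Nat.mul_le_mul a2 (Nat.card_le_card_of_injective (fun x => (⟨x.1.1, x.2⟩ : K))
      fun x y e => Subtype.ext (Subtype.ext (congrArg (Subtype.val : K → _) e)))
  let p := (MonoidHom.fst G S).comp L.subtype
  let q := (MonoidHom.snd G S).comp L.subtype
  have hp : p.range = grp γ gs := by rw [MonoidHom.range_comp, range_subtype, map_grp_fst]
  have hq : Function.Surjective q := by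
    rw [← MonoidHom.range_eq_top, MonoidHom.range_comp, range_subtype, map_grp_snd, h3]
  have c2 : Nat.card p.ker * Nat.card p.range = Nat.card L := by rw [← index_ker, card_mul_index]
  rcases (MonoidHom.normal_ker p).map q hq |>.eq_bot_or_eq_top with e | e
  · have hi : Function.Injective p := (injective_iff_map_eq_one _).2 fun x hx =>
      Subtype.ext (Prod.ext hx (e.le (mem_map_of_mem q hx)))
    have c3 := Nat.card_le_card_of_injective p hi
    have c4 := Nat.card_le_card_of_surjective q hq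
    exact ⟨(MulEquiv.ofBijective p (hi.bijective_of_nat_card_le (by omega))).symm.trans
      (MulEquiv.ofBijective q (hq.bijective_of_nat_card_le (by omega)))⟩
  · have c3 : Nat.card S ≤ Nat.card p.ker := by rw [← card_top, ← e]; exact (card_map_le _ _).2
    rw [← hp] at h4
    exact absurd ((c2 ▸ Nat.mul_le_mul_right _ c3).trans c1) (Nat.not_le.2 h4)

theorem aut_of_norm {H G : Type*} [Group H] [Group G] {ψ : H →* G} (hψ : Function.Injective ψ) (J : Subgroup H) {t : G}
    (h : t ∈ normalizer (J.map ψ : Set G)) : ∃ θ : MulAut J, ∀ j : J, ψ (θ j) = t * ψ j * t⁻¹ := by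
  let e := J.equivMapOfInjective ψ hψ
  refine ⟨e.trans (((J.map ψ).normalizerMonoidHom ⟨t, h⟩).trans e.symm), fun j => ?_⟩
  exact congrArg Subtype.val (e.apply_symm_apply ((J.map ψ).normalizerMonoidHom ⟨t, h⟩ (e j)))

structure Mod {H : Type*} [Group H] (m : ℕ → H) (J : Subgroup H) : Prop where
  cH : Nat.card H = 251596800
  mJ : ∀ i < 4, m i ∈ J
  uniq : ∀ X : Subgroup H, Nat.card X = 604800 → ∃ h, ∀ x, h * x * h⁻¹ ∈ X ↔ x ∈ J
  aut : ∀ θ : MulAut J, ∃ j ∈ J, (∀ x : J, (θ x : H) = j * x * j⁻¹) ∨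
    ∀ i (hi : i < 4), (θ ⟨m i, mJ i hi⟩ : H) = j * (m i)⁻¹ * j⁻¹
  fix : ∀ h, (∀ i < 3, h⁻¹ * m i * h ∈ J) → h ∈ J ∨ (m 4)⁻¹ * h ∈ J
  s2 : m 4 * m 4 = 1
  sJ : m 4 ∉ J
  sU : ∀ i < 3, m 4 * m i * (m 4)⁻¹ = (m i)⁻¹
  o7 : orderOf (m 0) = 7
  c21 : ∀ h, Commute h (m 0) → h ^ 21 = 1
  cU : ∀ h, (∀ i < 3, Commute h (m i)) → h = 1

variable {G Ω : Type*} [Group G] [MulAction G Ω]

/-- the order of a two-point stabiliser -/
noncomputable def nn (G : Type*) [Group G] [MulAction G Ω] (x y : Ω) : ℕ :=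
  Nat.card (stabilizer G x ⊓ stabilizer G y : Subgroup G)

theorem nn_smul (g : G) (x y : Ω) : nn G (g • x) (g • y) = nn G x y := by
  rw [nn, stabilizer_smul_eq_stabilizer_map_conj, stabilizer_smul_eq_stabilizer_map_conj,
    ← map_inf _ _ _ (MulAut.conj g).injective, card_map_of_injective (MulAut.conj g).injective, nn]

theorem nn_orb (x y : Ω) : (orbit (stabilizer G x) y).ncard * nn G x y = Nat.card (stabilizer G x) := by
  rw [← index_stabilizer, nn, ← (stabilizer (stabilizer G x) y).index_mul_card, inf_comm, ← subgroupOf_map_subtype,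
    card_map_of_injective (subtype_injective _)]
  rfl

theorem cover [Finite Ω] (hΩ : Nat.card Ω = 1782) {a b c : Ω} (hb : (orbit (stabilizer G a) b).ncard = 416)
    (hc : (orbit (stabilizer G a) c).ncard = 1365) (x : Ω) :
    x = a ∨ x ∈ orbit (stabilizer G a) b ∨ x ∈ orbit (stabilizer G a) c := by
  have h0 : orbit (stabilizer G a) a = {a} := Set.eq_singleton_iff_unique_mem.2 ⟨mem_orbit_self _, by
    rintro _ ⟨g, rfl⟩; exact g.2⟩
  have d : ∀ u v : Ω, (orbit (stabilizer G a) u).ncard ≠ (orbit (stabilizer G a) v).ncard →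
      Disjoint (orbit (stabilizer G a) u) (orbit (stabilizer G a) v) := fun u v h =>
    Set.disjoint_left.2 fun z h1 h2 => h (by rw [← orbit_eq_iff.2 h1, ← orbit_eq_iff.2 h2])
  have h1 : (orbit (stabilizer G a) a).ncard = 1 := by rw [h0, Set.ncard_singleton]
  have h2 : (orbit (stabilizer G a) a ∪ (orbit (stabilizer G a) b ∪ orbit (stabilizer G a) c)) = Set.univ :=
    Set.eq_of_subset_of_ncard_le (Set.subset_univ _) (by
      rw [Set.ncard_union_eq (Set.disjoint_union_right.2 ⟨d _ _ (by omega), d _ _ (by omega)⟩),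
        Set.ncard_union_eq (d _ _ (by omega)), Set.ncard_univ]; omega)
  have := h2.ge (Set.mem_univ x)
  rwa [h0] at this

theorem core [Finite Ω] [Finite G] [IsPretransitive G Ω] (hΩ : Nat.card Ω = 1782) {a b c : Ω}
    (hb : (orbit (stabilizer G a) b).ncard = 416) (hc : (orbit (stabilizer G a) c).ncard = 1365)
    {H : Type*} [Group H] {m : ℕ → H} {J : Subgroup H} (M : Mod m J) (e : H ≃* stabilizer G a) :
    ∃ (ψ : H →* G) (t : G), Function.Injective ψ ∧ t * t = 1 ∧ (∀ i < 4, t * ψ (m i) * t⁻¹ = (ψ (m i))⁻¹) ∧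
      (t * ψ (m 4)) ^ 3 = 1 := by
  have := Finite.of_equiv _ e.toEquiv.symm
  have c0 : Nat.card (stabilizer G a) = 251596800 := (Nat.card_congr e.toEquiv).symm.trans M.cH
  have c1 : nn G a b = 604800 := by have := nn_orb (G := G) a b; rw [hb] at this; omega
  have c2 : nn G a c = 184320 := by have := nn_orb (G := G) a c; rw [hc] at this; omega
  have c3 : nn G a a = 251596800 := by rw [nn, inf_idem, c0]
  have c4 : ∀ x ∈ orbit (stabilizer G a) c, nn G a x = 184320 := by
    rintro _ ⟨g, rfl⟩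
    rw [← c2, ← nn_smul g.1 a c, g.2]; rfl
  have ab : b ≠ a := by rintro rfl; omega
  let ψ0 := (stabilizer G a).subtype.comp e.toMonoidHom
  have i0 : Function.Injective ψ0 := (subtype_injective _).comp e.injective
  have r0 : ψ0.range = stabilizer G a := by
    rw [MonoidHom.range_comp, MonoidHom.range_eq_top.2 e.surjective, ← MonoidHom.range_eq_map, range_subtype]
  obtain ⟨k, hk⟩ := M.uniq ((stabilizer G b).comap ψ0) (by
    rw [← card_map_of_injective i0, map_comap_eq, r0]; exact c1)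
  let ψ := ψ0.comp (MulAut.conj k).toMonoidHom
  have hψ : Function.Injective ψ := i0.comp (MulAut.conj k).injective
  have pa : ∀ h, ψ h • a = a := fun h => (e _).2
  have pb : ∀ h, ψ h • b = b ↔ h ∈ J := hk
  have ex : ∀ g : G, g • a = a → ∃ h, ψ h = g := fun g hg => by
    obtain ⟨h, rfl⟩ := r0.ge hg
    exact ⟨k⁻¹ * h * k, congrArg ψ0 (by simp [mul_assoc])⟩
  clear_value ψ
  -- an element that interchanges `a` and `b`
  obtain ⟨t, ta, tb⟩ : ∃ t : G, t • a = b ∧ t • b = a := by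
    obtain ⟨g, hg⟩ := exists_smul_eq G a b
    have h1 : nn G a (g⁻¹ • a) = 604800 := by rw [← nn_smul g, hg, smul_inv_smul, nn, inf_comm]; exact c1
    rcases cover hΩ hb hc (g⁻¹ • a) with h | ⟨u, hu⟩ | h
    · rw [h] at h1; omega
    · exact ⟨g * u, by rw [mul_smul, u.2, hg], by rw [mul_smul]; exact (congrArg (g • ·) hu).trans (smul_inv_smul _ _)⟩
    · have := c4 _ h; omega
  have hJ : J.map ψ = stabilizer G a ⊓ stabilizer G b := Subgroup.ext fun g =>
    ⟨by rintro ⟨h, hh, rfl⟩; exact ⟨pa h, (pb h).2 hh⟩, fun hg => by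
      obtain ⟨h, rfl⟩ := ex g hg.1
      exact ⟨h, (pb h).1 hg.2, rfl⟩⟩
  obtain ⟨θ, hθ⟩ := aut_of_norm hψ J (t := t) (hJ ▸ mem_normalizer_fintype fun g hg =>
    ⟨by show (t * g * t⁻¹) • a = a; rw [mul_smul, mul_smul, ← tb, inv_smul_smul, hg.2],
     by show (t * g * t⁻¹) • b = b; rw [mul_smul, mul_smul, ← ta, inv_smul_smul, hg.1]⟩)
  -- the three fixed points of `U`
  have s2 : ψ (m 4) * ψ (m 4) = 1 := by rw [← map_mul, M.s2, map_one]
  have db : ψ (m 4) • b ≠ b := fun h => M.sJ ((pb _).1 h)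
  have da : ψ (m 4) • b ≠ a := fun h => ab (smul_left_cancel _ (h.trans (pa _).symm))
  have fd : ∀ i < 3, ψ (m i) • ψ (m 4) • b = ψ (m 4) • b := fun i hi => by
    rw [eq_comm, ← inv_smul_eq_iff (g := ψ (m i)), ← map_inv, ← M.sU i hi, map_mul, map_mul, map_inv, mul_smul, mul_smul, inv_smul_smul,
      (pb _).2 (M.mJ i (by omega))]
  have fx : ∀ x, (∀ i < 3, ψ (m i) • x = x) → x = a ∨ x = b ∨ x = ψ (m 4) • b := fun x hx => by
    rcases cover hΩ hb hc x with h | ⟨u, rfl⟩ | h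
    · exact Or.inl h
    · obtain ⟨h, e⟩ := ex u u.2
      have hu : (fun v : stabilizer G a => v • b) u = ψ h • b := e ▸ rfl
      rw [hu] at hx ⊢
      refine Or.inr ((M.fix h fun i hi => (pb _).1 ?_).imp (pb h).2 fun h1 => ?_)
      · rw [map_mul, map_mul, map_inv, mul_smul, mul_smul, hx i hi, inv_smul_smul]
      · have := (pb _).2 h1
        rwa [map_mul, map_inv, mul_smul, inv_smul_eq_iff] at this
    · have h1 := (stabilizer G a ⊓ stabilizer G x).orderOf_dvd_natCard (x := ψ (m 0)) ⟨pa _, hx 0 (by decide)⟩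
      rw [orderOf_injective ψ hψ, M.o7] at h1
      exact absurd (h1.trans (c4 x h).dvd) (by decide)
  obtain ⟨j, hj, h⟩ := M.aut θ
  have ua : ((ψ j)⁻¹ * t) • a = b := by rw [mul_smul, ta, inv_smul_eq_iff, (pb j).2 hj]
  have ub : ((ψ j)⁻¹ * t) • b = a := by rw [mul_smul, tb, inv_smul_eq_iff, pa]
  have cj : ∀ (x : J) (y : H), (θ x : H) = j * y * j⁻¹ → (ψ j)⁻¹ * t * ψ x * ((ψ j)⁻¹ * t)⁻¹ = ψ y := fun x y h => by
    have := hθ x
    rw [h, map_mul, map_mul, map_inv] at this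
    calc _ = (ψ j)⁻¹ * (t * ψ x * t⁻¹) * ψ j := by group
      _ = _ := by rw [← this]; group
  generalize (ψ j)⁻¹ * t = u at ua ub cj
  have ud : (∀ i < 3, u * ψ (m i) * u⁻¹ = ψ (m i) ∨ u * ψ (m i) * u⁻¹ = (ψ (m i))⁻¹) →
      u • ψ (m 4) • b = ψ (m 4) • b := fun h => by
    have h1 : ∀ i < 3, ψ (m i) • u • ψ (m 4) • b = u • ψ (m 4) • b := fun i hi => by
      have : (u * ψ (m i) * u⁻¹) • u • ψ (m 4) • b = u • ψ (m 4) • b := by
        rw [mul_smul, mul_smul, inv_smul_smul, fd i hi]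
      rcases h i hi with e | e <;> rw [e] at this
      exacts [this, (inv_smul_eq_iff.1 this).symm]
    rcases fx _ h1 with e | e | e
    exacts [absurd (smul_left_cancel _ (e.trans ub.symm)) db, absurd (smul_left_cancel _ (e.trans ua.symm)) da, e]
  have one : ∀ z : G, z • a = a → (∀ i < 3, Commute z (ψ (m i))) → z = 1 := fun z hz h => by
    obtain ⟨y, rfl⟩ := ex z hz
    rw [M.cU y fun i hi => hψ (by simpa using (h i hi).eq), map_one]
  rcases h with h | h
  · exfalso
    have h1 := fun i hi => cj ⟨m i, M.mJ i hi⟩ _ (h _)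
    obtain ⟨g, hg⟩ := exists_smul_eq G (ψ (m 4) • b) a
    have st : ∀ z : G, z • ψ (m 4) • b = ψ (m 4) • b → ∃ y, ψ y = g * z * g⁻¹ := fun z hz =>
      ex _ (by rw [mul_smul, mul_smul, ← hg, inv_smul_smul, hz])
    obtain ⟨y, hy⟩ := st u (ud fun i hi => Or.inl (h1 i (by omega)))
    obtain ⟨x, hx⟩ := st _ (fd 0 (by decide))
    have o1 : orderOf x = 7 := by
      rw [← orderOf_injective ψ hψ, hx, ← M.o7, ← orderOf_injective ψ hψ (m 0)]
      exact (MulAut.conj g).orderOf_eq _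
    have cm : Commute y x := hψ (by
      rw [map_mul, map_mul, hx, hy]
      calc _ = g * (u * ψ (m 0) * u⁻¹ * u) * g⁻¹ := by group
        _ = _ := by rw [h1 0 (by decide)]; group)
    obtain ⟨w, hw⟩ := exists_conj_mem (p := 7) (m := 1) (by decide) (P := zpowers x) (by rw [Nat.card_zpowers, o1]; rfl)
      (by rw [M.cH]; decide) (Q := zpowers (m 0)) (IsPGroup.of_card (n := 1) (by rw [Nat.card_zpowers, M.o7]; rfl))
    obtain ⟨n, hn⟩ := hw _ (mem_zpowers _)
    have h2 := M.c21 (w⁻¹ * y * w⁻¹⁻¹) (by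
      show _ = _
      calc _ = w⁻¹ * (y * (w * m 0 * w⁻¹)) * w := by group
        _ = _ := by rw [← hn]; dsimp only; rw [(cm.zpow_right n).eq, show x ^ n = _ from hn]; group)
    rw [conj_pow, mul_inv_eq_one, mul_eq_left] at h2
    have h3 : u ^ 21 = 1 := by
      have := congrArg ψ h2
      rwa [map_pow, hy, conj_pow, map_one, mul_inv_eq_one, mul_eq_left] at this
    have h4 : ∀ n, (u * u) ^ n • a = a := fun n => (stabilizer G a).pow_mem (by
      show (u * u) • a = a; rw [mul_smul, ua, ub]) n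
    have := h4 10
    rw [← pow_two, ← pow_mul, ← smul_left_cancel_iff u, ← mul_smul, ← pow_succ', h3, one_smul, ua] at this
    exact ab this.symm
  · have h1 := fun i hi => (cj ⟨m i, M.mJ i hi⟩ _ (h i hi)).trans (map_inv _ _)
    have uc := ud fun i hi => Or.inr (h1 i (by omega))
    refine ⟨ψ, u, hψ, one _ (by rw [mul_smul, ua, ub]) fun i hi => ?_, h1, one _ ?_ fun i hi => Commute.pow_left ?_ _⟩
    · refine mul_inv_eq_iff_eq_mul.1 ?_
      calc _ = u * (u * ψ (m i) * u⁻¹) * u⁻¹ := by group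
        _ = (u * ψ (m i) * u⁻¹)⁻¹ := by nth_rw 1 [h1 i (by omega)]; group
        _ = _ := by rw [h1 i (by omega), inv_inv]
    · simp only [pow_succ, pow_zero, one_mul, mul_smul, pa, ua, uc]
      rw [← mul_smul (ψ _), s2, one_smul, ub]
    · refine mul_inv_eq_iff_eq_mul.1 ?_
      calc _ = u * (ψ (m 4 * m i * (m 4)⁻¹)) * u⁻¹ := by rw [map_mul, map_mul, map_inv]; group
        _ = (u * ψ (m i) * u⁻¹)⁻¹ := by rw [M.sU i hi, map_inv]; group
        _ = _ := by rw [h1 i (by omega), inv_inv]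

end CA.Suz3A
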