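import Cfsg.Agent.Lib.Spor.ThM
import Cfsg.Agent.Lib.Spor.LyU1
import Cfsg.Agent.Lib.Comp.CBack

/-! An automorphism of the Thompson group centralising `³D₄(2):3` is trivial. -/

set_option autoImplicit false
set_option maxRecDepth 100000
set_option Elab.async false

namespace CA.ThE
open Equiv CA.CNet CA.CWord CA.CLevel CA.CSimple CA.CPoint CA.CLow CA.ThM Subgroup MulAction

noncomputable abbrev N := C.grp gens
def o : Fin C.n := ⟨0, by decide⟩

noncomputable def fixA (ws : List Word) : ℕ :=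
  List.rec (motive := fun _ => ℕ) (full C.n) (fun w _ ih => Nat.land (CBack.fixM C w) ih) ws

theorem fixA_spec (ws : List Word) (i : Fin C.n) (h : ∀ w ∈ ws, C.ev w i = i) : (fixA ws).testBit i = true := by
  induction ws with
  | nil => exact (testBit_full _ _).trans (decide_eq_true i.2)
  | cons w ws ih =>
    show (CBack.fixM C w &&& fixA ws).testBit i = true
    rw [Nat.testBit_and, (CBack.testBit_fixM hC _ i).2 (h w List.mem_cons_self),
      ih fun w hw => h w (List.mem_cons_of_mem _ hw)]; rfl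

theorem fixK {i : Fin C.n} (h : ∀ w ∈ SW, C.ev w i = i) : i = o := by
  have := fixA_spec SW i h
  rw [(by decide +kernel : fixA SW = bit 0), testBit_bit, decide_eq_true_iff] at this
  exact Fin.ext this.symm

def M : ℕ := [2, 9, 62, 65, 69, 110, 114, 121, 126, 134, 357, 381, 385, 600, 611, 615, 628, 638, 1791, 1822, 2939, 2959,
  2993, 3060].foldr (fun a s => bit a ||| s) 0
theorem hM : C.inv SW M = true := by decide +kernel
theorem mp {w : Word} (p : ℕ) {q : ℕ} (h : p < C.n ∧ q < C.n ∧ mapsP C lk w p q = true) :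
    C.ev w ⟨p, h.1⟩ = ⟨q, h.2.1⟩ := Fin.ext (mapsP_spec (p := ⟨p, h.1⟩) hlk h.2.2)

theorem cenK (mem : ∀ w, C.ev w ∈ N) (base : IsBase N B) (stab : ∀ k ∈ N, k o = o → k ∈ C.grp SW)
    {h : Perm (Fin C.n)} (hN : h ∈ N) (hc : ∀ w ∈ SW, h * C.ev w = C.ev w * h) : h = 1 := by
  have c0 : C.grp SW ≤ centralizer {h} := (grp_le_iff _).2 fun w hw => mem_centralizer_singleton_iff.2 (hc w hw).symm
  have c : ∀ (v : Word) (p : Fin C.n), h (C.ev (subst SW v) p) = C.ev (subst SW v) (h p) := fun v p =>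
    (congrArg (· p) (mem_centralizer_singleton_iff.1 (c0 (subst_mem_grp _ _ v)))).symm
  have h0 : h o = o := fixK fun w hw => by
    have := congrArg (· o) (hc w hw)
    simp only [Perm.mul_apply] at this
    rw [← this, show C.ev w o = o from Fin.ext (mapsP_spec (p := o) hlk (lall_iff.1 fixKW w hw))]
  let p : Fin C.n := ⟨6, by decide⟩
  have h1 := fixA_spec [subst SW [0, 0], subst SW [5, 0], subst SW [2, 9, 3, 4, 3, 5, 2]] (h p) (by
    intro w hw
    simp only [List.mem_cons, List.not_mem_nil, or_false] at hw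
    rcases hw with rfl | rfl | rfl <;> rw [← c] <;> exact congrArg h (mp 6 (q := 6) (by decide +kernel)))
  rw [(by decide +kernel : fixA [subst SW [0, 0], subst SW [5, 0], subst SW [2, 9, 3, 4, 3, 5, 2]] =
    bit 0 ||| (bit 6 ||| bit 2192)), Nat.testBit_or, Nat.testBit_or, testBit_bit, testBit_bit, testBit_bit] at h1
  simp only [Bool.or_eq_true, decide_eq_true_iff] at h1
  rcases h1 with h1 | h1 | h1
  · exact absurd (congrArg Fin.val (h.injective ((Fin.ext h1.symm : h p = o).trans h0.symm))) (by decide)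
  · have h2 : h p = p := Fin.ext h1.symm
    have h3 : ∀ v, h (C.ev (subst SW v) p) = C.ev (subst SW v) p := fun v => by rw [c, h2]
    have := base ((C.ev [7, 2, 26, 22])⁻¹ * h * C.ev [7, 2, 26, 22]) (mul_mem (mul_mem (inv_mem (mem _)) hN) (mem _))
      fun i hi => by
        obtain ⟨v, -, q, -, a, b⟩ := (by decide +kernel : ∀ i ∈ B, ∃ v ∈ [[], [1, 2, 4, 3, 3, 0], [3, 3, 5, 3, 5, 3, 0]],
          ∃ q ∈ [6, 14696, 9239], mapsP C lk [7, 2, 26, 22] i q = true ∧ mapsP C lk (subst SW v) 6 q = true) i hi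
        have e : C.ev [7, 2, 26, 22] i = C.ev (subst SW v) p :=
          Fin.ext ((mapsP_spec hlk a).trans (mapsP_spec (p := p) hlk b).symm)
        rw [Perm.mul_apply, Perm.mul_apply, Perm.inv_eq_iff_eq, e, h3]
    rwa [mul_assoc, inv_mul_eq_one, right_eq_mul] at this
  · exfalso
    have e6 : C.ev [6, 2] o = p := mp 0 (q := 6) (by decide +kernel)
    have e2 : C.ev [32, 28, 6, 2] o = h p := Fin.ext ((mapsP_spec (p := o) hlk (by decide +kernel)).trans h1)
    have k := stab ((C.ev [32, 28, 6, 2])⁻¹ * h * C.ev [6, 2]) (mul_mem (mul_mem (inv_mem (mem _)) hN) (mem _))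
      (by rw [Perm.mul_apply, Perm.mul_apply, Perm.inv_eq_iff_eq, e6, e2])
    have t := Ctx.inv_spec hC hM k ⟨225, by decide⟩
    have e3 : ((C.ev [32, 28, 6, 2])⁻¹ * h * C.ev [6, 2]) ⟨225, by decide⟩ = ⟨134, by decide⟩ := by
      have a : C.ev [6, 2] ⟨225, by decide⟩ = C.ev (subst SW [0]) p := by
        rw [← Perm.inv_eq_iff_eq, ← Perm.mul_apply, ← ev_winv, ← ev_append]
        exact mp 225 (q := 6) (by decide +kernel)
      rw [Perm.mul_apply, Perm.mul_apply, a, c, ← e2, ← Perm.mul_apply, ← Perm.mul_apply, ← ev_winv, ← ev_append,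
        ← ev_append]
      exact mp 0 (q := 134) (by decide +kernel)
    rw [e3] at t
    exact absurd t (by decide +kernel)

variable {G : Type} [Group G] {g : ℕ → G}

theorem fix0 {H : Subgroup G} {x : G} : x • ((1 : G) : G ⧸ H) = ((1 : G) : G ⧸ H) ↔ x ∈ H := by
  show ((x * 1 : G) : G ⧸ H) = (1 : G) ↔ _
  rw [QuotientGroup.eq]; simp
theorem fixy {H : Subgroup G} {x y : G} : x • y • ((1 : G) : G ⧸ H) = y • ((1 : G) : G ⧸ H) ↔ y⁻¹ * x * y ∈ H := by
  rw [← fix0, mul_smul, mul_smul, inv_smul_eq_iff]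

theorem endgame [Finite G] (mem : ∀ w, C.ev w ∈ N) (base : IsBase N B) (stab : ∀ k ∈ N, k o = o → k ∈ C.grp SW)
    (φ : N →* G) (hφ : ∀ w, φ ⟨_, mem w⟩ = ev g (subst W w)) (inj : Function.Injective φ)
    (φ_mem : ∀ h, φ h ∈ grp g gens) (φ_surj : ∀ x ∈ grp g gens, ∃ h, φ h = x)
    (tw : ∀ i, MulAut.conj (g 7) (ev g (subst W (nth SW [] i))) = ev g (subst W (nth KW [] i)))
    (uu : g 7 * g 7 ∈ grp g gens)
    (c1 : Nat.card (grp g gens ⊓ stabilizer G (g 7 • ((1 : G) : G ⧸ grp g gens)) : Subgroup G) = 36864)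
    (orb : ∀ ξ : G ⧸ grp g gens, Nat.card (grp g gens ⊓ stabilizer G ξ : Subgroup G) = 36864 →
      ξ ∈ orbit (grp g gens) (g 7 • ((1 : G) : G ⧸ grp g gens)))
    (α : MulAut G) (hα : ∀ x ∈ grp g gens, α x = x) : α (g 7) = g 7 := by
  have hα' : ∀ x, α x ∈ grp g gens ↔ x ∈ grp g gens := fun x =>
    ⟨fun h => α.injective (hα _ h) ▸ h, fun h => (hα _ h).symm ▸ h⟩
  have mW : ∀ w, ev g (subst W w) ∈ grp g gens := fun w => hφ w ▸ φ_mem _
  have sS : ∀ w ∈ SW, (g 7)⁻¹ * ev g (subst W w) * g 7 ∈ grp g gens := fun w hw => by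
    obtain ⟨i, -, rfl⟩ := (by decide +kernel : ∀ w ∈ SW, ∃ i < 5, nth SW [] i = w) w hw
    have := mul_mem (mul_mem (inv_mem uu) (tw i ▸ mW (nth KW [] i))) uu
    rw [MulAut.conj_apply] at this
    convert this using 1; group
  have e : ((C.grp SW).subgroupOf N).map φ = grp g gens ⊓ stabilizer G (g 7 • ((1 : G) : G ⧸ grp g gens)) := by
    have le : C.grp SW ≤ N := (grp_le_iff _).2 fun w _ => mem w
    refine eq_of_le_of_card_ge ?_ ?_
    · have : C.grp SW ≤ ((stabilizer G (g 7 • ((1 : G) : G ⧸ grp g gens))).comap φ).map N.subtype :=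
        (grp_le_iff _).2 fun w hw => ⟨⟨_, mem w⟩, mem_comap.2 (by rw [hφ]; exact fixy.2 (sS w hw)), rfl⟩
      rintro _ ⟨x, hx, rfl⟩
      obtain ⟨y, hy, e⟩ := this hx
      exact ⟨φ_mem x, (Subtype.ext e : y = x) ▸ hy⟩
    · rw [c1, card_map_of_injective inj, Nat.card_congr (subgroupOfEquivOfLe le).toEquiv]
      exact low1.1
  have st : grp g gens ⊓ stabilizer G (α (g 7) • ((1 : G) : G ⧸ grp g gens)) =
      grp g gens ⊓ stabilizer G (g 7 • ((1 : G) : G ⧸ grp g gens)) := Subgroup.ext fun x => and_congr_right fun hx => by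
    refine fixy.trans (Iff.trans ?_ fixy.symm)
    rw [← hα' ((g 7)⁻¹ * x * g 7), map_mul, map_mul, map_inv, hα x hx]
  obtain ⟨k, hk⟩ := orb _ (st ▸ c1)
  obtain ⟨m, hm⟩ := φ_surj k k.2
  have hk' : φ m • g 7 • ((1 : G) : G ⧸ grp g gens) = α (g 7) • ((1 : G) : G ⧸ grp g gens) := hm ▸ hk
  have m0 : m.1 o = o := fixK fun w hw => by
    have a : φ ⟨_, mem w⟩ ∈ grp g gens ⊓ stabilizer G (α (g 7) • ((1 : G) : G ⧸ grp g gens)) :=
      st ▸ ⟨φ_mem _, (hφ w).symm ▸ fixy.2 (sS w hw)⟩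
    have b : φ (m⁻¹ * ⟨_, mem w⟩ * m) ∈ ((C.grp SW).subgroupOf N).map φ := by
      rw [e]
      refine ⟨φ_mem _, ?_⟩
      show _ • _ = _
      rw [map_mul, map_mul, map_inv, mul_smul, mul_smul, inv_smul_eq_iff, hk']
      exact a.2
    obtain ⟨x, hx, e'⟩ := b
    have := fix_of_mapsP hlk (p := o) fixKW _ hx
    rw [inj e'] at this
    exact Perm.inv_eq_iff_eq.1 this
  have h1 : φ m ∈ ((C.grp SW).subgroupOf N).map φ := ⟨m, stab _ m.2 m0, rfl⟩
  rw [e] at h1
  have h2 : (g 7)⁻¹ * α (g 7) ∈ grp g gens := by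
    rw [← fix0, mul_smul, inv_smul_eq_iff, ← hk']; exact h1.2
  obtain ⟨h, hh⟩ := φ_surj _ h2
  have h3 : h = 1 := Subtype.ext (cenK mem base stab h.2 fun w hw => by
    obtain ⟨i, -, rfl⟩ := (by decide +kernel : ∀ w ∈ SW, ∃ i < 5, nth SW [] i = w) w hw
    refine congrArg Subtype.val (inj (a₁ := h * ⟨_, mem _⟩) (a₂ := ⟨_, mem _⟩ * h) ?_)
    have a := congrArg α (tw i)
    rw [hα _ (mW _), ← tw i, MulAut.conj_apply, map_mul, map_mul, map_inv, hα _ (mW _)] at a
    rw [map_mul, map_mul, hφ, hh]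
    calc _ = (g 7)⁻¹ * (α (g 7) * ev g (subst W (nth SW [] i)) * (α (g 7))⁻¹) * α (g 7) := by group
      _ = _ := by rw [a]; group)
  rw [h3, map_one, eq_comm, inv_mul_eq_one] at hh
  exact hh.symm

end CA.ThE
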