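import Cfsg.Agent.Lib.Spor.ThS
import Cfsg.Prelude.Def_KGroupFacts

/-! Gluing lemma for `Out(Th) = 1`. -/

set_option autoImplicit false

namespace CA.ThGl

theorem inner {G N : Type*} [Group G] [Group N] [Finite N] (φ : N →* G) (hφ : Function.Injective φ)
    (hA : ∀ α : MulAut G, ∃ x : G, ∀ h ∈ φ.range, x⁻¹ * α h * x ∈ φ.range)
    (hB : ∀ θ : MulAut N, ∃ x : N, ∀ y, θ y = x * y * x⁻¹)
    (hC : ∀ α : MulAut G, (∀ h ∈ φ.range, α h = h) → α = 1) (α : MulAut G) : ∃ x, α = MulAut.conj x := by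
  obtain ⟨x, hx⟩ := hA α
  let β : MulAut G := (MulAut.conj x)⁻¹ * α
  have hβ : ∀ h, β h = x⁻¹ * α h * x := fun h => by simp [β]
  let e := MonoidHom.ofInjective hφ
  have he : ∀ y : φ.range, φ (e.symm y) = y := fun y => MonoidHom.apply_ofInjective_symm hφ y
  let f : N →* N := e.symm.toMonoidHom.comp ((β.toMonoidHom.comp φ).codRestrict φ.range fun y => by
    show β (φ y) ∈ _
    rw [hβ]; exact hx _ ⟨y, rfl⟩)
  have hf : ∀ y, φ (f y) = β (φ y) := fun y => he _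
  have fi : Function.Injective f := fun a b h => hφ (β.injective (by rw [← hf, ← hf, h]))
  obtain ⟨y, hy⟩ := hB (MulEquiv.ofBijective f (Finite.injective_iff_bijective.1 fi))
  have := hC ((MulAut.conj (φ y))⁻¹ * β) (by
    rintro _ ⟨z, rfl⟩
    have h1 : f z = y * z * y⁻¹ := hy z
    rw [MulAut.mul_apply, ← hf, h1]
    simp [mul_assoc])
  refine ⟨x * φ y, ?_⟩
  rw [map_mul, inv_mul_eq_one.1 this]
  simp [β]

theorem out {G : Type*} [Group G] (h : ∀ α : MulAut G, ∃ x, α = MulAut.conj x) : Nat.card (Cfsg.Out G) = 1 := by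
  refine Nat.card_eq_one_iff_unique.2 ⟨⟨fun a b => ?_⟩, ⟨1⟩⟩
  have k : ∀ a : Cfsg.Out G, a = 1 := fun a => by
    obtain ⟨α, rfl⟩ := QuotientGroup.mk_surjective a
    obtain ⟨x, rfl⟩ := h α
    exact (QuotientGroup.eq_one_iff _).2 ⟨x, rfl⟩
  rw [k a, k b]

open CA.CWord CA.CTodd in
theorem main {G : Type} [Group G] {g : ℕ → G} (hr : ∀ r ∈ ThRel.rels, ev g r = 1) (hu : g 7 ∉ grp g ThP.gens)
    (hA : ∀ α : MulAut G, ∃ x : G, ∀ h ∈ grp g ThP.gens, x⁻¹ * α h * x ∈ grp g ThP.gens)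
    (hB : ∀ θ : MulAut (ThP.C.grp ThP.gens), ∃ x : ThP.C.grp ThP.gens, ∀ y, θ y = x * y * x⁻¹)
    (hC : ∀ α : MulAut G, (∀ h ∈ grp g ThP.gens, α h = h) → α = 1) : Nat.card (Cfsg.Out G) = 1 :=
  out (inner (ThS.φ hr) (ThS.inj hr hu) (by rw [ThS.range]; exact hA) hB (by rw [ThS.range]; exact hC))

end CA.ThGl
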