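import Cfsg.Agent.Lib.Spor.ThS
import Cfsg.Prelude.Def_Sporadic
import Cfsg.Prelude.Def_Exceptional

/-! Faithful images of the Thompson group and their subgroup `³D₄(2)`. -/

set_option autoImplicit false
set_option maxRecDepth 100000

namespace CA.ThS2
open CA.CWord CA.ThP

theorem image {G : Type} [Group G] {g : ℕ → G} (hr : ∀ r ∈ ThRel.rels, ev g r = 1)
    (hs : IsSimpleGroup G ∧ Nat.card G = 90745943887872000) (hu : g 7 ∉ grp g gens)
    (hn : (grp g gens).index = 143127000) {M : Type} [Group M] (ψ : G →* M) (hψ : ψ (g 7) ≠ 1) :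
    ∃ H : Subgroup M, Cfsg.IsTh H ∧ ∃ K : Subgroup H, K.index = 143127000 ∧
      ∃ L : Subgroup H, L ≤ K ∧ Cfsg.Is3D4 L := by
  have := hs.1
  have inj : Function.Injective ψ := by
    rw [← MonoidHom.ker_eq_bot_iff]
    refine (ψ.normal_ker.eq_bot_or_eq_top).resolve_right fun h => hψ ?_
    exact MonoidHom.mem_ker.1 (h ▸ Subgroup.mem_top _)
  let e := MonoidHom.ofInjective inj
  have i2 : Function.Injective (e.toMonoidHom.comp (ThS.φ hr)) := e.injective.comp (ThS.inj hr hu)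
  have := simpleD
  let f := (Subgroup.subgroupOfEquivOfLe gD_le).symm.trans
    (((C.grp gD).subgroupOf (C.grp gens)).equivMapOfInjective _ i2)
  refine ⟨ψ.range, ⟨e.symm.isSimpleGroup, (Nat.card_congr e.toEquiv).symm.trans hs.2⟩,
    (grp g gens).map e.toMonoidHom, (Subgroup.index_map_equiv _ e).trans hn,
    ((C.grp gD).subgroupOf (C.grp gens)).map (e.toMonoidHom.comp (ThS.φ hr)), ?_, f.symm.isSimpleGroup,
    2, Nat.prime_two.isPrimePow, (Nat.card_congr f.toEquiv).symm.trans (cardD.trans (by norm_num))⟩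
  rintro _ ⟨x, -, rfl⟩
  exact ⟨ThS.φ hr x, ThS.range hr ▸ ⟨x, rfl⟩, rfl⟩

end CA.ThS2
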