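import Cfsg.Agent.Lib.Spor.ThO
import Cfsg.Agent.Lib.Spor.ThT
import Cfsg.Agent.Lib.Spor.ThS2
import Cfsg.Agent.Lib.Spor.ThC28
import Cfsg.Agent.Lib.Spor.ThQf

/-! Groups satisfying the relators of the Thompson group in which `u` lies outside `³D₄(2):3`. -/

set_option autoImplicit false
set_option maxRecDepth 100000

namespace CA.ThI0
open CA.CWord CA.CTodd CA.CPres Cfsg.Spor

theorem rels_eq : ThRel.rels = ThM.RH ++ ThM.RU := by decide +kernel

variable {G : Type} [Group G] {g : ℕ → G} (hr : ∀ r ∈ ThRel.rels, ev g r = 1)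
include hr

theorem hyp : ThO.Hyp g :=
  ⟨(by decide +kernel : ThRel.rels.take 27 = ThM.RH) ▸ ThH.bound, fun r h => hr r (rels_eq ▸ List.mem_append_left _ h),
    fun r h => hr r (rels_eq ▸ List.mem_append_right _ h), ThT.tw hr⟩

variable (hu : g 7 ∉ grp g ThP.gens) (ht : grp g ThRel.gens = ⊤)
include hu ht

theorem index : (grp g ThP.gens).index = 143127000 := ThO.index (hyp hr) hu ht

theorem isTh : IsSimpleGroup G ∧ Nat.card G = 90745943887872000 :=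
  ThS.isTh hr ht (l := ThO.nn) (by decide +kernel) (O := (ThO.S (hyp hr)).O)
    (ThO.all _ ht) (fun i _ => ⟨_, ThO.orbit_eq _ i⟩)
    (fun i hi => (ThO.cardO _ hu i hi).trans (nth_eq_getD _ _ _)) (index hr hu ht)

theorem le : Nat.card (Subgroup.centralizer {g 0}) ≤ 92897280 := by
  refine ThC28.le hr hu (isTh hr hu ht).2 (pt := (ThO.S (hyp hr)).p) (one_smul G _)
    (fun ξ => (ThO.all (hyp hr) ht ξ).imp fun i h => ⟨h.1, (ThO.orbit_eq (hyp hr) i).ge h.2⟩)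
    (fun i hi => (congrArg (fun s : Set (G ⧸ grp g ThM.gens) => Nat.card s) (ThO.orbit_eq (hyp hr) i)).trans
      (ThO.cardO _ hu i hi)) fun i hi w hw => ?_
  obtain ⟨q, -, h0, h1, h2, h3, rfl⟩ := (by decide +kernel : ∀ i < 11, ∀ w ∈ nth ThCd.GW [] i, ∃ q ∈ nth ThCd.QS [] i,
    q < 4241 ∧ (ThM.F q).t = 0 ∧ (ThM.F q).i = i ∧ (ThM.F q).j = i ∧ w = subst ThM.W (ThM.F q).h) i hi w hw
  have := (ThO.holds (hyp hr) q h0).1 h1
  rw [h2, h3, ThO.ρ_w] at this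
  exact this.symm

omit ht in
theorem a_ne : g 0 ≠ 1 := fun h =>
  hu ((ev_gen g 7).symm.trans (ThS.triv_of hr h [14] (by decide)) ▸ Subgroup.one_mem _)

end CA.ThI0

namespace CA.ThI1
open CA.CWord CA.CTodd CA.CPres Cfsg.Spor

/-- the generators of the presented group -/
abbrev γ : ℕ → Th := pg Th.edges Th.extra ThRel.gen

theorem top : grp γ ThRel.gens = ⊤ := ThRel.enc.top _ (by decide)

/-- a representation of degree 248 over the field with three elements -/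
def Rep : Prop := ∃ g : ℕ → GL (Fin 248) (ZMod 3), (∀ r ∈ ThRel.rels, ev g r = 1) ∧ g 7 ∉ grp g ThP.gens

theorem rep (R : Rep) : γ 7 ∉ grp γ ThP.gens ∧ ∃ φ : Th →* GL (Fin 248) (ZMod 3), φ (γ 7) ≠ 1 := by
  obtain ⟨g, h1, h2⟩ := R
  obtain ⟨φ, h5, h6⟩ := ThRel.enc.hom' h1
  have h3 := h5 [2 * 7] (by decide)
  rw [ev_gen, ev_gen] at h3
  exact ⟨fun h => h2 (h3 ▸ h6 ThP.gens (by decide) ▸ Subgroup.mem_map_of_mem φ h), φ,
    fun h => h2 (h3 ▸ h ▸ Subgroup.one_mem _)⟩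

theorem s1706 (R : Rep) : (grp γ ThP.gens).index = 143127000 := ThI0.index ThRel.enc.hold (rep R).1 top

theorem s1700 (R : Rep) : Cfsg.IsTh Th := ThI0.isTh ThRel.enc.hold (rep R).1 top

theorem s0464 (R : Rep) : ∃ H : Subgroup (GL (Fin 248) (ZMod 3)), Cfsg.IsTh H ∧ ∃ K : Subgroup H, K.index = 143127000 ∧
    ∃ L : Subgroup H, L ≤ K ∧ Cfsg.Is3D4 L := by
  obtain ⟨h, φ, h1⟩ := rep R
  exact ThS2.image ThRel.enc.hold (s1700 R) h (s1706 R) φ h1

theorem s0475 (R : Rep) : ∃ (G : Type) (_ : Group G) (_ : Finite G), Cfsg.IsTh G ∧ ∃ z : G, orderOf z = 2 ∧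
    ∃ (Q : Subgroup (Subgroup.centralizer ({z} : Set G))) (_ : Q.Normal), Nat.card Q = 2 ^ 9 ∧ Cfsg.IsExtraspecial 2 Q ∧
      Nonempty ((Subgroup.centralizer ({z} : Set G)) ⧸ Q ≃* alternatingGroup (Fin 9)) := by
  have : Finite Th := Nat.finite_of_card_ne_zero (by rw [(s1700 R).2]; decide)
  exact ⟨Th, _, this, s1700 R, ThQ.final γ ThRel.enc.hold (ThI0.a_ne ThRel.enc.hold (rep R).1)
    (ThI0.le ThRel.enc.hold (rep R).1 top)⟩

end CA.ThI1
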