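import Cfsg.Agent.Lib.Spor.ThI0
import Cfsg.Agent.Lib.Spor.ThY4

/-! The outer automorphism group of the presented Thompson group. -/

set_option autoImplicit false

namespace CA.ThI2
open CA.ThI1 Cfsg.Spor

theorem s2083 (R : Rep) : Nat.card (Cfsg.Out Th) = 1 :=
  ThY.out ThRel.enc.hold (ThI0.a_ne ThRel.enc.hold (rep R).1) top (s1700 R).2 (ThI0.le ThRel.enc.hold (rep R).1 top)

end CA.ThI2
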