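import Cfsg.Agent.Lib.Spor.ThRel
import Cfsg.Agent.Lib.Comp.CTodd

/-! Central extensions of the presented Thompson group: normalised lifts and central slack letters. -/

set_option autoImplicit false
set_option maxRecDepth 100000

namespace CA.ThL0
open CA.CNet CA.CWord CA.CTodd CA.CPres
open CA.ThRel (rels)

variable {G : Type} [Group G]

def sg (k a : ℕ) : ℤ := if a / 2 = k then (if a % 2 = 0 then 1 else -1) else 0

def ex (k : ℕ) (w : Word) : ℤ := (w.map (sg k)).sum

theorem ev_upd (x : ℕ → G) (k : ℕ) {c : G} (hc : c ∈ Subgroup.center G) (w : Word) :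
    ev (Function.update x k (x k * c)) w = ev x w * c ^ ex k w := by
  induction w with
  | nil => simp [ex]
  | cons a w ih =>
    have h1 : lv (Function.update x k (x k * c)) a = lv x a * c ^ sg k a := by
      unfold lv sg
      by_cases h : a / 2 = k
      · subst h
        simp only [Function.update_self, if_true]
        split_ifs
        · simp
        · rw [mul_inv_rev, zpow_neg_one]
          exact (Subgroup.mem_center_iff.1 (inv_mem hc) _).symm
      · simp [Function.update_of_ne h, h]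
    have h2 : ex k (a :: w) = sg k a + ex k w := by simp [ex]
    have h3 := Subgroup.mem_center_iff.1 (zpow_mem hc (sg k a)) (ev x w)
    rw [ev_cons, ev_cons, ih, h1, h2, zpow_add, mul_assoc, ← mul_assoc (c ^ sg k a), ← h3]
    simp only [mul_assoc]

theorem norm {Q : Type} [Group Q] (σ : G →* Q) (hs : Function.Surjective σ)
    (hk : σ.ker ≤ Subgroup.center G) (p : ℕ → Q) (L : List (ℕ × Word)) (h1 : ∀ q ∈ L, ev p q.2 = 1)
    (h2 : L.Pairwise fun q q' => ex q.1 q'.2 = 0) (h3 : ∀ q ∈ L, ex q.1 q.2 = 1) :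
    ∃ g : ℕ → G, (∀ i, σ (g i) = p i) ∧ ∀ q ∈ L, ev g q.2 = 1 := by
  induction L with
  | nil => exact ⟨fun i => (hs (p i)).choose, fun i => (hs (p i)).choose_spec, by simp⟩
  | cons q L ih =>
    obtain ⟨x, hx, hL⟩ := ih (fun q' h => h1 q' (List.mem_cons_of_mem _ h)) (List.pairwise_cons.1 h2).2
      fun q' h => h3 q' (List.mem_cons_of_mem _ h)
    have hz : σ (ev x q.2) = 1 := by
      rw [map_ev, funext hx]; exact h1 q List.mem_cons_self
    refine ⟨Function.update x q.1 (x q.1 * (ev x q.2)⁻¹), fun i => ?_, fun q' hq' => ?_⟩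
    · by_cases h : i = q.1
      · subst h; rw [Function.update_self, map_mul, map_inv, hz, inv_one, mul_one, hx]
      · rw [Function.update_of_ne h, hx]
    · rw [ev_upd x _ (inv_mem (hk hz))]
      rcases List.mem_cons.1 hq' with rfl | h
      · rw [h3 _ List.mem_cons_self, zpow_one, mul_inv_cancel]
      · rw [(List.pairwise_cons.1 h2).1 _ h, zpow_zero, mul_one, hL _ h]

/-- the generators together with the values of the relators -/
noncomputable def gz (g : ℕ → G) (i : ℕ) : G := if i < 8 then g i else ev g (nth rels [] (i - 8))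

theorem ev_gz (g : ℕ → G) {w : Word} (h : ∀ a ∈ w, a < 2 * 8) : ev (gz g) w = ev g w :=
  ev_congr (fun _ hi => if_pos hi) h

theorem gz_z (g : ℕ → G) (j : ℕ) : gz g (8 + j) = ev g (nth rels [] j) := by
  unfold gz; rw [if_neg (by omega), Nat.add_sub_cancel_left]

theorem lv_odd' (g : ℕ → G) (i : ℕ) : lv g (2 * i + 1) = (g i)⁻¹ := by
  unfold lv; rw [if_neg (by omega), show (2 * i + 1) / 2 = i by omega]

abbrev Ok (K X : List Word) (r : Word) : Prop :=
  (r ∈ K ∧ ∀ a ∈ r, a < 2 * 8) ∨ r ∈ X ∨ (∃ j < 39, r = nth rels [] j ++ [2 * (8 + j) + 1]) ∨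
    ∃ j < 39, ∃ x < 47, r = [2 * (8 + j) + 1, 2 * x + 1, 2 * (8 + j), 2 * x]

theorem hold {g : ℕ → G} (hc : ∀ j, ev g (nth rels [] j) ∈ Subgroup.center G) (K X : List Word)
    (hK : ∀ w ∈ K, ev g w = 1) (hX : ∀ w ∈ X, ev (gz g) w = 1) {R : List Word} (h : ∀ r ∈ R, Ok K X r) :
    ∀ r ∈ R, ev (gz g) r = 1 := fun r hr => by
  rcases h r hr with ⟨h1, h2⟩ | h1 | ⟨j, hj, rfl⟩ | ⟨j, -, x, -, rfl⟩
  · rw [ev_gz g h2, hK r h1]
  · exact hX r h1
  · rw [ev_append, ev_gz g ((by decide +kernel : ∀ j < 39, ∀ a ∈ nth rels [] j, a < 2 * 8) j hj), ev_cons,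
      lv_odd', gz_z, ev_nil, mul_one, mul_inv_cancel]
  · simp only [ev_cons, ev_nil, lv_odd', lv_even, gz_z]
    rw [mul_one, ← Subgroup.mem_center_iff.1 (hc j), inv_mul_cancel_left, inv_mul_cancel]

theorem of_der {g : ℕ → G} {R : List Word} (h : ∀ r ∈ R, ev (gz g) r = 1) {j : ℕ}
    (hd : Der.{0} R [2 * (8 + j)]) : ev g (nth rels [] j) = 1 := by
  have := hd G (gz g) h
  rwa [ev_gen, gz_z] at this

theorem two_of_bound {R gens : List Word} {N : ℕ} (h : Bound.{0} R gens (2 * N)) {Q : Type} [Group Q]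
    {q : ℕ → Q} (hq : ∀ r ∈ R, ev q r = 1) (hN : N ≤ Nat.card (grp q gens)) (u v : Word)
    (hu : ev q (subst gens u) = 1) (hv : ev q (subst gens v) = 1) {g : ℕ → G} (hr : ∀ r ∈ R, ev g r = 1) :
    ev g (subst gens u) = 1 ∨ ev g (subst gens v) = 1 ∨ ev g (subst gens u) = ev g (subst gens v) := by
  let d : ℕ → G × Q := fun i => (g i, q i)
  have e1 : ∀ w, (ev d w).1 = ev g w := fun w => map_ev (MonoidHom.fst G Q) d w
  have e2 : ∀ w, (ev d w).2 = ev q w := fun w => map_ev (MonoidHom.snd G Q) d w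
  obtain ⟨h1, h2⟩ := h (G × Q) d fun r h1 => Prod.ext ((e1 r).trans (hr r h1)) ((e2 r).trans (hq r h1))
  let φ := (MonoidHom.snd G Q).subgroupMap (grp d gens)
  have hs : Function.Surjective φ := (MonoidHom.snd G Q).subgroupMap_surjective _
  have hc := φ.ker.card_mul_index
  rw [Subgroup.index_ker, MonoidHom.range_eq_top.2 hs, Subgroup.card_top] at hc
  have hm : (grp d gens).map (MonoidHom.snd G Q) = grp q gens := map_grp _ _ _
  haveI := Finite.of_surjective φ hs
  have hp : 0 < Nat.card ((grp d gens).map (MonoidHom.snd G Q)) := Nat.card_pos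
  rw [← hm] at hN
  by_contra hh
  push Not at hh
  haveI := Fintype.ofFinite φ.ker
  have h3 : 2 < Nat.card φ.ker := by
    rw [Nat.card_eq_fintype_card, Fintype.two_lt_card_iff]
    refine ⟨1, ⟨⟨_, subst_mem_grp d gens u⟩, Subtype.ext ((e2 _).trans hu)⟩,
      ⟨⟨_, subst_mem_grp d gens v⟩, Subtype.ext ((e2 _).trans hv)⟩, fun e => hh.1 ?_, fun e => hh.2.1 ?_,
      fun e => hh.2.2 ?_⟩
    · exact (e1 _).symm.trans (congrArg (fun x : φ.ker => x.1.1.1) e).symm
    · exact (e1 _).symm.trans (congrArg (fun x : φ.ker => x.1.1.1) e).symm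
    · exact (e1 _).symm.trans ((congrArg (fun x : φ.ker => x.1.1.1) e).trans (e1 _))
  nlinarith

end CA.ThL0
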