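import Cfsg.Agent.Lib.Spor.ThP2

/-! Central extensions of the Thompson group: three identities by hand. -/

set_option autoImplicit false
set_option maxRecDepth 100000

namespace CA.ThL5
open CA.CNet CA.CWord

variable {G : Type} [Group G]

theorem core {v e u s k θ ζ α β : G} (hθ : θ ∈ Subgroup.center G) (hζ : ζ ∈ Subgroup.center G)
    (hα : α ∈ Subgroup.center G) (hβ : β ∈ Subgroup.center G)
    (ee : e * e = 1) (vv : v * v = 1) (ve : v * e = e * v) (vk : v * k = k * v) (vs : v * s = s * v)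
    (h32 : u⁻¹ * v⁻¹ * u * v * e⁻¹ = θ) (h30 : u⁻¹ * e⁻¹ * u * e = ζ) (h27 : u * u * k⁻¹ = α)
    (h36 : k * ((u * s) ^ 3)⁻¹ = β) :
    θ ^ 2 = 1 ∧ ζ = 1 ∧ (s⁻¹ * e * s) * ((u * s)⁻¹ * (s⁻¹ * e * s) * (u * s)) *
      ((u * s)⁻¹ * ((u * s)⁻¹ * (s⁻¹ * e * s) * (u * s)) * (u * s)) * θ = 1 := by
  have cθ := Subgroup.mem_center_iff.1 hθ
  have vi : v⁻¹ = v := inv_eq_of_mul_eq_one_right vv
  have ei : e⁻¹ = e := inv_eq_of_mul_eq_one_right ee
  rw [vi, ei] at h32
  -- u⁻¹ v u = θ e v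
  have a1 : u⁻¹ * v * u = θ * e * v := by
    rw [← h32, mul_assoc _ e e, ee, mul_one, mul_assoc _ v v, vv, mul_one]
  have t2 : θ ^ 2 = 1 := by
    have : (u⁻¹ * v * u) * (u⁻¹ * v * u) = 1 := by
      calc _ = u⁻¹ * (v * v) * u := by group
        _ = 1 := by rw [vv]; group
    rw [a1] at this
    calc θ ^ 2 = θ * θ * (e * e) * (v * v) := by rw [ee, vv, sq, mul_one, mul_one]
      _ = θ * (θ * e) * (e * v) * v := by simp only [mul_assoc]
      _ = θ * (e * θ) * (v * e) * v := by rw [← ve, cθ e]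
      _ = θ * e * (θ * v) * e * v := by simp only [mul_assoc]
      _ = θ * e * (v * θ) * e * v := by rw [cθ v]
      _ = 1 := by rw [← this]; simp only [mul_assoc]
  have θθ : θ * θ = 1 := by rw [← sq, t2]
  -- v u v = u e θ
  have a2 : v * u * v = u * (θ * e) := by
    calc v * u * v = u * (u⁻¹ * v * u) * v := by group
      _ = u * (θ * e) * (v * v) := by rw [a1]; simp only [mul_assoc]
      _ = _ := by rw [vv, mul_one]
  have a3 : v * (u * u) * v = u * u := by
    have : u * u = α * k := by rw [← h27]; group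
    rw [this, ← mul_assoc, Subgroup.mem_center_iff.1 hα v, mul_assoc α, vk, mul_assoc, mul_assoc k, vv, mul_one]
  have z1 : ζ = 1 := by
    have h1 : u * u = u * (θ * e) * (u * (θ * e)) := by
      rw [← a2, ← a3]
      calc v * (u * u) * v = v * u * (v * v) * u * v := by rw [vv]; group
        _ = _ := by simp only [mul_assoc]
    have h2 : u * (θ * e) * (u * (θ * e)) = u * u * (θ * θ) * (u⁻¹ * e * u * e) := by
      calc _ = u * (θ * (e * u) * θ) * e := by simp only [mul_assoc]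
        _ = u * ((e * u) * θ * θ) * e := by rw [cθ (e * u)]
        _ = u * ((e * u) * (θ * θ)) * e := by simp only [mul_assoc]
        _ = _ := by rw [θθ]; group
    rw [θθ, mul_one, ← h1] at h2
    rw [← h30, ei]
    exact (left_eq_mul.1 h2)
  refine ⟨t2, z1, ?_⟩
  set y := u * s with hy
  set p := s⁻¹ * e * s with hp
  have b1 : y⁻¹ * v * y = v * p * θ := by
    calc y⁻¹ * v * y = s⁻¹ * (u⁻¹ * v * u) * s := by rw [hy]; group
      _ = s⁻¹ * ((v * e) * θ) * s := by rw [a1, mul_assoc θ, ← ve, cθ]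
      _ = s⁻¹ * (v * s) * (s⁻¹ * e * (θ * s)) := by group
      _ = _ := by rw [vs, ← cθ s, hp]; group
  have cy : ∀ x, y⁻¹ * (x * θ) * y = y⁻¹ * x * y * θ := fun x => by
    rw [mul_assoc _ y θ, cθ y]; simp only [mul_assoc]
  have b2 : y⁻¹ * (y⁻¹ * v * y) * y = v * p * (y⁻¹ * p * y) := by
    calc _ = y⁻¹ * (v * p * θ) * y := by rw [b1]
      _ = (y⁻¹ * v * y) * (y⁻¹ * p * y) * θ := by rw [cy]; group
      _ = v * p * (θ * (y⁻¹ * p * y)) * θ := by rw [b1]; simp only [mul_assoc]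
      _ = v * p * (y⁻¹ * p * y) * (θ * θ) := by rw [← cθ]; simp only [mul_assoc]
      _ = _ := by rw [θθ, mul_one]
  have b3 : y⁻¹ * (y⁻¹ * (y⁻¹ * v * y) * y) * y = v := by
    have : y ^ 3 = β⁻¹ * k := by rw [← h36]; group
    calc _ = (y ^ 3)⁻¹ * v * y ^ 3 := by simp only [pow_three, mul_inv_rev, mul_assoc]
      _ = k⁻¹ * (β * (v * β⁻¹)) * k := by rw [this]; group
      _ = k⁻¹ * (v * k) := by rw [Subgroup.mem_center_iff.1 (inv_mem hβ) v]; group
      _ = v := by rw [vk]; group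
  rw [b2] at b3
  have b4 : v * (p * (y⁻¹ * p * y) * (y⁻¹ * (y⁻¹ * p * y) * y) * θ) = v := by
    calc _ = v * p * ((y⁻¹ * p * y) * (y⁻¹ * (y⁻¹ * p * y) * y) * θ) := by simp only [mul_assoc]
      _ = (v * p * θ) * (y⁻¹ * p * y) * (y⁻¹ * (y⁻¹ * p * y) * y) := by rw [cθ]; simp only [mul_assoc]
      _ = y⁻¹ * (v * p * (y⁻¹ * p * y)) * y := by rw [← b1]; group
      _ = v := b3
  exact mul_eq_left.1 b4

variable {g : ℕ → G}

theorem hand (hc : ∀ j, ev g (nth ThRel.rels [] j) ∈ Subgroup.center G)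
    (h : ∀ j < 27, ev g (nth ThRel.rels [] j) = 1) :
    ev g (nth ThRel.rels [] 32) ^ 2 = 1 ∧ ev g (nth ThRel.rels [] 30) = 1 ∧
      ev g [11, 8, 10, 11, 15, 11, 8, 10, 14, 10, 11, 15, 11, 15, 11, 8, 10, 14, 10, 14, 10] *
        ev g (nth ThRel.rels [] 32) = 1 := by
  have hH : ∀ x ∈ ThRel.rels.take 27, ev g x = 1 := fun x hx => by
    obtain ⟨j, hj, rfl⟩ := (by decide +kernel : ∀ x ∈ ThRel.rels.take 27, ∃ j < 27, nth ThRel.rels [] j = x) x hx
    exact h j hj
  have D : ∀ w, subst ThP.gens w = w → ThP.C.eqW w [] = true → ev g w = 1 := fun w h1 h2 =>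
    ThP.der27' w h1 h2 G g hH
  have q : ∀ u v : Word, ev g (u ++ winv v) = 1 → ev g u = ev g v := fun u v h => by
    rwa [ev_append, ev_winv, mul_inv_eq_one] at h
  have := core (v := ev g [3, 0, 4, 2]) (e := g 4) (u := g 7) (s := g 5) (k := ev g [0, 4]) (hc 32) (hc 30) (hc 27) (hc 36)
    (by simpa [lv] using D [8, 8] (by decide +kernel) (by decide +kernel))
    (by rw [← ev_append]; exact D _ (by decide +kernel) (by decide +kernel))
    (by simpa [lv, mul_assoc] using q [3, 0, 4, 2, 8] [8, 3, 0, 4, 2] (D _ (by decide +kernel) (by decide +kernel)))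
    (by rw [← ev_append, ← ev_append]; exact q _ _ (D _ (by decide +kernel) (by decide +kernel)))
    (by simpa [lv, mul_assoc] using q [3, 0, 4, 2, 10] [10, 3, 0, 4, 2] (D _ (by decide +kernel) (by decide +kernel)))
    (by rw [show nth ThRel.rels [] 32 = [15,3,5,1,2,14,3,0,4,2,9] from by decide +kernel]; simp [lv, mul_assoc])
    (by rw [show nth ThRel.rels [] 30 = [15,9,14,8] from by decide +kernel]; simp [lv, mul_assoc])
    (by rw [show nth ThRel.rels [] 27 = [14,14,5,1] from by decide +kernel]; simp [lv, mul_assoc])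
    (by rw [show nth ThRel.rels [] 36 = [0,4,11,15,11,15,11,15] from by decide +kernel]; simp [lv, mul_assoc, pow_succ])
  refine ⟨this.1, this.2.1, ?_⟩
  rw [← this.2.2]
  simp [lv, mul_assoc]

end CA.ThL5
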