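import Cfsg.Agent.Lib.Spor.ThRel
import Cfsg.Agent.Lib.Grp.SchurHopf

/-! Hand computations with the relators of the Thompson group in central extensions. -/

set_option autoImplicit false
set_option maxRecDepth 100000

namespace CA.ThV
open CA.CNet CA.CWord CA.CPres Cfsg Cfsg.Spor Subgroup

variable {G : Type} [Group G] {g : ℕ → G}

theorem cop0 {s x : G} {n : ℕ} (hz : s⁻¹ * (x⁻¹ * (s * x)) ∈ center G) (hx : x * x = 1) (hs : s ^ (2 * n + 1) = 1) :
    s⁻¹ * (x⁻¹ * (s * x)) = 1 := by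
  generalize e : s⁻¹ * (x⁻¹ * (s * x)) = z at hz
  have c : ∀ y, Commute y z := fun y => mem_center_iff.1 hz y
  have h1 : z ^ (2 * n + 1) = 1 := by
    have : (s * z) ^ (2 * n + 1) = 1 := by
      rw [show s * z = x⁻¹ * s * x⁻¹⁻¹ by rw [← e]; group, conj_pow, hs]; group
    rwa [(c s).mul_pow, hs, one_mul] at this
  have h2 : z ^ 2 = 1 := by
    have : (z * x⁻¹) ^ 2 = 1 := by
      rw [show z * x⁻¹ = s⁻¹ * x⁻¹ * s⁻¹⁻¹ by rw [← e]; group, conj_pow, inv_pow, pow_two, hx]; group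
    rwa [(c x⁻¹).symm.mul_pow, inv_pow, pow_two x, hx, inv_one, mul_one] at this
  rwa [pow_succ, pow_mul, h2, one_pow, one_mul] at h1

theorem cop (hc : ∀ j, ev g (nth ThRel.rels [] j) ∈ center G) (h : ∀ j < 15, ev g (nth ThRel.rels [] j) = 1)
    (h20 : ev g (nth ThRel.rels [] 20) = 1) : ∀ j ∈ [15, 16, 17, 21, 22, 23], ev g (nth ThRel.rels [] j) = 1 := by
  have key : ∀ (i k n : ℕ), ev g [2 * k + 1, 2 * i + 1, 2 * k, 2 * i] ∈ center G → ev g [2 * i, 2 * i] = 1 →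
      ev g (wpow [2 * k] (2 * n + 1)) = 1 → ev g [2 * k + 1, 2 * i + 1, 2 * k, 2 * i] = 1 := fun i k n a b c => by
    rw [ev_wpow, ev_gen] at c
    have o : ∀ j, lv g (2 * j + 1) = (g j)⁻¹ := fun j => by
      unfold lv; rw [if_neg (by omega), show (2 * j + 1) / 2 = j by omega]
    simp only [ev_cons, ev_nil, lv_even, o, mul_one] at a b ⊢
    exact cop0 a b c
  intro j hj
  simp only [List.mem_cons, List.not_mem_nil, or_false] at hj
  rcases hj with rfl | rfl | rfl | rfl | rfl | rfl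
  exacts [key 0 5 3 (hc 15) (h 0 (by decide)) (h 14 (by decide)), key 1 5 3 (hc 16) (h 1 (by decide)) (h 14 (by decide)),
    key 2 5 3 (hc 17) (h 2 (by decide)) (h 14 (by decide)), key 0 6 1 (hc 21) (h 0 (by decide)) h20,
    key 1 6 1 (hc 22) (h 1 (by decide)) h20, key 2 6 1 (hc 23) (h 2 (by decide)) h20]

theorem t3 (hc : ∀ j, ev g (nth ThRel.rels [] j) ∈ center G)
    (h : ev g (nth ThRel.rels [] 20) = ev g (nth ThRel.rels [] 34)) : ev g (nth ThRel.rels [] 20) = 1 := by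
  have e : ev g (nth ThRel.rels [] 20) = g 6 ^ 3 := by
    show ev g (wpow [2 * 6] 3) = _
    rw [ev_wpow, ev_gen]
  have e' : ev g (nth ThRel.rels [] 34) = (g 7)⁻¹ * g 6 * g 7 * g 6 := by
    show ev g [15, 12, 14, 12] = _
    simp [lv, mul_assoc]
  have c := mem_center_iff.1 (hc 20)
  rw [e] at h c ⊢
  rw [e'] at h
  have h1 : (g 7)⁻¹ * g 6 * (g 7)⁻¹⁻¹ = g 6 ^ 2 := by
    rw [inv_inv, ← mul_left_inj (g 6), ← h, pow_succ]
  have h2 := congrArg (· ^ 3) h1
  simp only [conj_pow] at h2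
  rw [c, mul_inv_cancel_right, ← pow_mul, show 2 * 3 = 3 + 3 from rfl, pow_add] at h2
  exact left_eq_mul.1 h2

theorem acen (h : ∀ j < 39, ev g (nth ThRel.rels [] j) = 1) (ha : g 0 ∈ center G) : ∀ i < 8, g i = 1 := by
  have sq : ∀ i < 5, g i ^ 2 = 1 := fun i hi => by
    have := h i (by omega)
    rw [(by decide +kernel : ∀ i < 5, nth ThRel.rels [] i = wpow [2 * i] 2) i hi, ev_wpow, ev_gen] at this
    exact this
  have pw : ∀ (j : ℕ) (w : Word) (k : ℕ), j < 39 → nth ThRel.rels [] j = wpow w k → ev g w ^ k = 1 := fun j w k hj e =>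
    ev_wpow g w k ▸ e ▸ h j hj
  have k3 : ∀ x y : G, x ∈ center G → x ^ 2 = 1 → y ^ 2 = 1 → (x * y) ^ 3 = 1 → y = x := fun x y c a b e => by
    have c : Commute x y := (mem_center_iff.1 c y).symm
    rw [c.mul_pow, pow_succ, a, pow_succ, b, one_mul, one_mul] at e
    rw [← mul_right_inj x, e, ← pow_two, a]
  have b : g 1 = g 0 := k3 _ _ ha (sq 0 (by decide)) (sq 1 (by decide)) (by simpa [lv] using pw 5 [0, 2] 3 (by decide) rfl)
  have c : g 2 = g 0 := k3 _ _ ha (sq 0 (by decide)) (sq 2 (by decide))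
    (by simpa [lv, b] using pw 7 [2, 4] 3 (by decide) rfl)
  have a : g 0 = 1 := by
    have : ev g ([2 * 0] ++ wpow [7, 5] 4) = 1 := h 10 (by decide)
    rw [ev_append, ev_wpow, ev_gen, show ev g [7, 5] = (g 0 * g 3)⁻¹ by simp [lv, c], inv_pow,
      (show Commute (g 0) (g 3) from (mem_center_iff.1 ha _).symm).mul_pow, show 4 = 2 * 2 from rfl, pow_mul, pow_mul,
      sq 0 (by decide), sq 3 (by decide)] at this
    simpa using this
  rw [a] at b c
  have de : g 3 * g 4 = 1 := by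
    have h1 : (g 3 * g 4) ^ 3 = 1 := by simpa [lv] using pw 12 [6, 8] 3 (by decide) rfl
    have h2 : (g 3 * g 4) ^ 8 = 1 := by simpa [lv, b, c] using pw 13 [2, 4, 6, 8] 8 (by decide) rfl
    have : (g 3 * g 4) ^ 9 = 1 := by rw [show 9 = 3 * 3 from rfl, pow_mul, h1, one_pow]
    rwa [pow_succ, h2, one_mul] at this
  have d : g 3 = g 4 := by rw [← mul_left_inj (g 4), de, ← pow_two, sq 4 (by decide)]
  have s7 : g 5 ^ 7 = 1 := by simpa [lv] using pw 14 [10] 7 (by decide) rfl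
  have i4 : (g 4)⁻¹ = g 4 := inv_eq_of_mul_eq_one_right (by rw [← pow_two, sq 4 (by decide)])
  have sd : (g 5)⁻¹ * g 4 = g 4 * g 5 := by
    have : g 5 * (g 4 * (g 5 * g 4)) = 1 := by simpa [lv, d] using (show ev g [10, 6, 10, 6] = 1 from h 18 (by decide))
    rw [inv_mul_eq_iff_eq_mul, ← i4, eq_comm, ← mul_eq_one_iff_eq_inv, i4, ← this]; group
  have e4 : g 4 * g 5 ^ 4 = 1 := by
    have : (g 4)⁻¹ * ((g 5)⁻¹ * g 4) * ((g 5)⁻¹ * ((g 5)⁻¹ * (g 4)⁻¹)) * g 5 ^ 3 = 1 := by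
      simpa [lv, mul_assoc, pow_succ] using (show ev g [9,11,8,10,11,11,11,9,10,10,10] = 1 from h 19 (by decide))
    rw [sd, inv_mul_cancel_left, mul_inv_cancel_left, i4, sd] at this
    rw [← this]; group
  have s : g 5 = 1 := by
    have h1 := sq 4 (by decide)
    rw [eq_inv_of_mul_eq_one_left e4, inv_pow, inv_eq_one, ← pow_mul, show 4 * 2 = 7 + 1 from rfl, pow_succ, s7] at h1
    simpa using h1
  have e : g 4 = 1 := by simpa [s] using e4
  have u : g 7 = 1 := by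
    have h1 : g 7 * g 7 = 1 := by simpa [lv, a, c] using (show ev g [14, 14, 5, 1] = 1 from h 27 (by decide))
    have h2 : (g 7)⁻¹ * ((g 7)⁻¹ * (g 7)⁻¹) = 1 := by
      simpa [lv, a, c, s] using (show ev g [0,4,11,15,11,15,11,15] = 1 from h 36 (by decide))
    rwa [← mul_inv_rev, h1, inv_one, mul_one, inv_eq_one] at h2
  have t : g 6 = 1 := by
    have h1 : g 6 * g 6 = 1 := by simpa [lv, u] using (show ev g [15, 12, 14, 12] = 1 from h 34 (by decide))
    have h2 : g 6 * (g 6 * g 6) = 1 := by simpa [lv] using (show ev g [12, 12, 12] = 1 from h 20 (by decide))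
    rwa [h1, mul_one] at h2
  intro i hi
  interval_cases i
  exacts [a, b, c, d.trans e, e, s, t, u]

theorem fin [Finite Th] (H : ∀ (Γ : Type) [Group Γ] (σ : Γ →* Th), Function.Surjective σ → σ.ker ≤ center Γ →
    (pg Th.edges Th.extra ThRel.gen 0 ∉ center Th) → ∃ g : ℕ → Γ, (∀ i < 8, σ (g i) = pg Th.edges Th.extra ThRel.gen i) ∧
      ∀ r ∈ ThRel.rels, ev g r = 1) : HasCyclicSchurMultiplier Th 1 := by
  refine SchurHopf.has_one fun Γ _ _ σ hσ => ?_
  have top := ThRel.enc.top ThRel.gens (by decide +kernel)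
  have gn : ∀ w ∈ ThRel.gens, ∃ i < 8, [2 * i] = w := by decide +kernel
  by_cases ha : pg Th.edges Th.extra ThRel.gen 0 ∈ center Th
  · have h1 := acen (fun j hj => ThRel.enc.hold _ ((by decide +kernel : ∀ j < 39, nth ThRel.rels [] j ∈ ThRel.rels) j hj)) ha
    have h2 : (⊤ : Subgroup Th) ≤ ⊥ := top.ge.trans ((grp_le_iff _).2 fun w hw => by
      obtain ⟨i, hi, rfl⟩ := gn w hw
      rw [ev_gen]; exact h1 i hi)
    refine eq_bot_iff.2 (hσ.2.2.trans (commutator_le.2 fun x _ y _ => ?_))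
    exact commutatorElement_eq_one_iff_mul_comm.2 (mem_center_iff.1 (hσ.2.1 (h2 (mem_top (σ y)))) x)
  obtain ⟨g, h1, h2⟩ := H Γ σ hσ.1 hσ.2.1 ha
  obtain ⟨φ, hφ⟩ := ThRel.enc.hom Γ g h2
  have hid : ∀ x, σ (φ x) = x := fun x => by
    have : grp (pg Th.edges Th.extra ThRel.gen) ThRel.gens ≤ (σ.comp φ).eqLocus (MonoidHom.id _) :=
      (grp_le_iff _).2 fun w hw => by
        obtain ⟨i, hi, rfl⟩ := gn w hw
        rw [ev_gen]
        exact (congrArg σ (hφ i hi)).trans (h1 i hi)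
    exact this (top.ge (mem_top x))
  have hsurj := SchurHopf.surj_of_stem hσ φ fun x => ⟨x, hid x⟩
  refine eq_bot_iff.2 fun a ha => ?_
  obtain ⟨x, rfl⟩ := hsurj a
  have : x = 1 := (hid x).symm.trans ha
  rw [this, map_one]; exact one_mem _

end CA.ThV
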