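import Cfsg.Agent.Lib.Spor.ThL0
import Cfsg.Agent.Lib.Spor.ThL1
import Cfsg.Agent.Lib.Spor.ThL2
import Cfsg.Agent.Lib.Spor.ThL3
import Cfsg.Agent.Lib.Spor.ThP
import Cfsg.Agent.Lib.Spor.ThT2
import Cfsg.Agent.Lib.Spor.ThL5
import Cfsg.Agent.Lib.Spor.ThV

/-! Every central extension of the presented Thompson group splits. -/

set_option autoImplicit false
set_option maxRecDepth 100000

namespace CA.ThL4
open CA.CNet CA.CWord CA.CTodd CA.CPres CA.ThL0 Cfsg Cfsg.Spor
open CA.ThRel (rels)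

noncomputable section

def r (j : ℕ) : Word := nth rels [] j
def nE : Word := winv (r 19)
def nS : Word := winv (r 26)
def nT : Word := r 20 ++ winv (r 34)
def nD : Word := r 12 ++ winv (r 3)
def nA : Word := r 10 ++ r 2 ++ r 2 ++ r 3 ++ r 3
def nB : Word := r 5 ++ winv (r 1)
def nC : Word := r 7 ++ winv (r 2)
def nU : Word := winv (r 27 ++ r 36)
def L : List (ℕ × Word) := [(7, nU), (2, nC), (1, nB), (0, nA), (3, nD), (6, nT), (5, nS), (4, nE)]
def w : Word := [4, 7, 9, 11, 9, 7, 4, 6, 8, 10, 8, 4, 6, 9, 7, 4, 6, 11, 9, 7, 4, 6, 8, 10, 8, 10, 9, 7, 4, 6, 8, 10, 9, 7, 4, 6, 8, 11, 11, 11, 9, 7, 4, 6, 8, 11, 9, 7, 4, 6, 8, 10, 10]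
def X : Word := [11, 8, 10, 11, 15, 11, 8, 10, 14, 10, 11, 15, 11, 15, 11, 8, 10, 14, 10, 14, 10]

theorem derw : Der.{0} ThH.relsH (subst ThP.gens w) :=
  Der.of_bound ThH.b_H ThP.hrel ThP.low.1 w (Ctx.eq_of_eqW ThP.hC (v := []) (by decide +kernel))

variable {G : Type} [Group G] {g : ℕ → G}

theorem low27 (hc : ∀ j, ev g (r j) ∈ Subgroup.center G) (hL : ∀ q ∈ L, ev g q.2 = 1) :
    (∀ j < 27, ev g (r j) = 1) ∧ ev g (r 34) = 1 := by
  simp only [L, List.forall_mem_cons] at hL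
  obtain ⟨-, eC, eB, eA, eD, eT, eS, eE, -⟩ := hL
  have eT' : ev g (r 20) = ev g (r 34) := by
    rwa [nT, ev_append, ev_winv, mul_inv_eq_one] at eT
  have e20 : ev g (r 20) = 1 := ThV.t3 hc eT'
  have h1 := hold hc [nE, nS, nD, r 20] [] (by simp [eE, eS, eD, e20]) (by simp) (R := ThL1.R0) (by decide +kernel)
  have s1 : ∀ j ∈ [3, 4, 14, 18, 24, 25], ev g (r j) = 1 := fun j hj => of_der h1 (ThL1.der j hj)
  simp only [List.forall_mem_cons] at s1
  obtain ⟨e3, e4, e14, e18, e24, e25, -⟩ := s1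
  have e12 : ev g (r 12) = 1 := by rwa [nD, ev_append, ev_winv, e3, inv_one, mul_one] at eD
  have e19 : ev g (r 19) = 1 := by rwa [nE, ev_winv, inv_eq_one] at eE
  have e26 : ev g (r 26) = 1 := by rwa [nS, ev_winv, inv_eq_one] at eS
  have h2 := hold hc [nA, nB, nC, r 3, r 4, r 12] [] (by simp [eA, eB, eC, e3, e4, e12]) (by simp) (R := ThL2.R0)
    (by decide +kernel)
  have s2 : ∀ j ∈ [0, 1, 2, 6, 8, 9, 11, 13], ev g (r j) = 1 := fun j hj => of_der h2 (ThL2.der j hj)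
  simp only [List.forall_mem_cons] at s2
  obtain ⟨e0, e1, e2, e6, e8, e9, e11, e13, -⟩ := s2
  have e5 : ev g (r 5) = 1 := by rwa [nB, ev_append, ev_winv, e1, inv_one, mul_one] at eB
  have e7 : ev g (r 7) = 1 := by rwa [nC, ev_append, ev_winv, e2, inv_one, mul_one] at eC
  have e10 : ev g (r 10) = 1 := by
    simpa only [nA, ev_append, e2, e3, mul_one] using eA
  have h15 : ∀ j < 15, ev g (r j) = 1 := fun j hj => by interval_cases j <;> assumption
  have s3 : ∀ j ∈ [15, 16, 17, 21, 22, 23], ev g (r j) = 1 := ThV.cop hc h15 e20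
  simp only [List.forall_mem_cons] at s3
  obtain ⟨e15, e16, e17, e21, e22, e23, -⟩ := s3
  exact ⟨fun j hj => by interval_cases j <;> assumption, eT' ▸ e20⟩

theorem all (hc : ∀ j, ev g (r j) ∈ Subgroup.center G) (hL : ∀ q ∈ L, ev g q.2 = 1)
    (ha : g 0 ∉ Subgroup.center G) : ∀ x ∈ rels, ev g x = 1 := by
  obtain ⟨h27, e34⟩ := low27 hc hL
  have eU : ev g nU = 1 := hL (7, nU) List.mem_cons_self
  obtain ⟨-, e30, eX⟩ := ThL5.hand hc h27
  have hH : ∀ x ∈ ThH.relsH, ev g x = 1 := fun x hx => by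
    obtain ⟨j, hj, rfl⟩ := (by decide +kernel : ∀ x ∈ ThH.relsH, ∃ j < 27, r j = x) x hx
    exact h27 j hj
  have ew : ev g w = 1 := by
    have := derw G g hH
    rwa [(by decide +kernel : subst ThP.gens w = w)] at this
  have h3 := hold hc (r 34 :: r 30 :: nU :: w :: ThH.relsH) [X ++ [2 * (8 + 32)]]
    (by simpa only [List.forall_mem_cons] using ⟨e34, e30, eU, ew, hH⟩)
    (by
      simp only [List.forall_mem_cons]
      refine ⟨?_, by simp⟩
      rw [ev_append, ev_gen, gz_z, ev_gz g (by decide +kernel)]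
      exact eX) (R := ThL3.R0) (by decide +kernel)
  have s4 : ∀ j ∈ [27, 28, 29, 31, 35, 37, 38, 32], ev g (r j) = 1 := fun j hj => by
    obtain ⟨v, -, e, hv⟩ := ThL3.chk j hj
    have := two_of_bound (N := 46448640) ThL3.bound ThL3.hrel ThL3.low.1 [v] [0]
      (Ctx.eq_of_eqW ThL3.hC (v := []) hv) (Ctx.eq_of_eqW ThL3.hC (v := []) ThL3.chk0) h3
    rw [e, (by decide +kernel : subst ThL3.gens [0] = [2 * 0]), ev_gen, ev_gen, gz_z] at this
    rcases this with h | h | h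
    · exact h
    · exact absurd (show g 0 ∈ _ from (show g 0 = 1 from h) ▸ Subgroup.one_mem _) ha
    · exact absurd (show g 0 ∈ _ from (show ev g (r j) = g 0 from h) ▸ hc j) ha
  simp only [List.forall_mem_cons] at s4
  obtain ⟨e27, e28, e29, e31, e35, e37, e38, e32, -⟩ := s4
  have e36 : ev g (r 36) = 1 := by rwa [nU, ev_winv, inv_eq_one, ev_append, e27, one_mul] at eU
  have h33 : ∀ j < 33, ev g (r j) = 1 := fun j hj => by
    by_cases h : j < 27
    · exact h27 j h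
    · push Not at h
      interval_cases j <;> assumption
  have e33 : ev g (r 33) = 1 := ThT2.r33 h33 (hc 33)
  intro x hx
  obtain ⟨j, hj, rfl⟩ := (by decide +kernel : ∀ x ∈ rels, ∃ j < 39, r j = x) x hx
  by_cases h : j < 33
  · exact h33 j h
  · push Not at h
    interval_cases j <;> assumption

theorem lift (Γ : Type) [Group Γ] (σ : Γ →* Th) (hs : Function.Surjective σ)
    (hk : σ.ker ≤ Subgroup.center Γ) (ha : pg Th.edges Th.extra ThRel.gen 0 ∉ Subgroup.center Th) :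
    ∃ g : ℕ → Γ, (∀ i < 8, σ (g i) = pg Th.edges Th.extra ThRel.gen i) ∧ ∀ x ∈ rels, ev g x = 1 := by
  have hR : ∀ j, ev (pg Th.edges Th.extra ThRel.gen) (r j) = 1 := fun j =>
    (nth_mem_or rels [] j).elim (ThRel.enc.hold _) fun h => by rw [r, h, ev_nil]
  obtain ⟨g, hg, hL⟩ := norm σ hs hk (pg Th.edges Th.extra ThRel.gen) L
    (by simp [L, nU, nC, nB, nA, nD, nT, nS, nE, ev_append, ev_winv, hR]) (by decide +kernel) (by decide +kernel)
  refine ⟨g, fun i _ => hg i, all (fun j => hk ?_) hL fun h => ha ?_⟩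
  · rw [MonoidHom.mem_ker, map_ev, funext hg]; exact hR j
  · rw [← hg 0, Subgroup.mem_center_iff]
    intro y
    obtain ⟨x, rfl⟩ := hs y
    rw [← map_mul, ← map_mul, Subgroup.mem_center_iff.1 h]

theorem mult [Finite Th] : HasCyclicSchurMultiplier Th 1 := ThV.fin lift

end
end CA.ThL4
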