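import Cfsg.Agent.Lib.Spor.ThP

set_option autoImplicit false
set_option linter.all false
set_option maxRecDepth 100000

namespace CA.ThP
open CA.CNet CA.CWord CA.CLevel CA.CSimple CA.CPoint CA.CTodd CA.CPres CA.CLow
universe u

/-- any relation of the model is a consequence of the first 27 relators -/
theorem der27 (v : Word) (hv : C.ev (CWord.subst gens v) = 1) :
    Der.{u} (ThRel.rels.take 27) (CWord.subst gens v) :=
  ThH.relsH_eq ▸ Der.of_bound ThH.b_H hrel low.1 v hv

/-- the same with the checks done by `decide +kernel` -/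
theorem der27' (w : Word) (h1 : CWord.subst gens w = w) (h2 : C.eqW w [] = true) :
    Der.{u} (ThRel.rels.take 27) w :=
  h1 ▸ der27 w (by rw [h1]; exact Ctx.eq_of_eqW hC h2)

theorem derw : Der.{0} (ThRel.rels.take 27) [4, 7, 9, 11, 9, 7, 4, 6, 8, 10, 8, 4, 6, 9, 7, 4, 6, 11, 9, 7, 4, 6, 8, 10, 8, 10, 9, 7, 4, 6, 8, 10, 9, 7, 4, 6, 8, 11, 11, 11, 9, 7, 4, 6, 8, 11, 9, 7, 4, 6, 8, 10, 10] :=
  der27' _ (by decide +kernel) (by decide +kernel)

theorem hrel27 : ∀ r ∈ ThRel.rels.take 27, C.ev r = 1 := ThH.relsH_eq ▸ hrel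

end CA.ThP
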