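import Mathlib

/-! Poisson summation for Gaussians on `ℤⁿ`. -/

set_option autoImplicit false

namespace CA.Theta
open Complex Finset
open scoped Real

section
variable {R : Type*} [Field R] {n : ℕ}

def qf (M : Fin n → Fin n → R) (u : Fin n → R) : R := ∑ i, ∑ j, u i * M i j * u j

theorem qf_split {M : Fin (n + 1) → Fin (n + 1) → R} (h : ∀ i j, M i j = M j i) (u : Fin (n + 1) → R) :
    qf M u = M 0 0 * u 0 ^ 2 + 2 * u 0 * ∑ j : Fin n, M 0 j.succ * u j.succ +
      qf (fun i j => M i.succ j.succ) fun i => u i.succ := by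
  simp only [qf, Fin.sum_univ_succ, sum_add_distrib, mul_sum, two_mul, add_mul]
  have : ∀ i : Fin n, u i.succ * M i.succ 0 * u 0 = u 0 * (M 0 i.succ * u i.succ) := fun i => by rw [h i.succ]; ring
  simp only [this, mul_assoc]; ring

theorem qf_schur (M : Fin n → Fin n → R) (v u : Fin n → R) (a : R) :
    qf (fun i j => M i j - v i * v j / a) u = qf M u - (∑ j, v j * u j) ^ 2 / a := by
  simp only [qf, pow_two, sum_mul_sum, sum_div, ← sum_sub_distrib]
  exact sum_congr rfl fun i _ => sum_congr rfl fun j _ => by ring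

theorem qf_add {M : Fin n → Fin n → R} (h : ∀ i j, M i j = M j i) (w v : Fin n → R) :
    qf M (fun i => w i + v i) = qf M w + 2 * ∑ j, (∑ i, v i * M i j) * w j + qf M v := by
  have : ∑ i, ∑ j, w i * M i j * v j = ∑ j, ∑ i, v i * M i j * w j :=
    sum_congr rfl fun i _ => sum_congr rfl fun j _ => by rw [h i]; ring
  simp only [qf, add_mul, mul_add, sum_add_distrib, sum_mul, two_mul, this]
  rw [sum_comm (f := fun i j => v i * M i j * w j)]; ring

theorem qf_smul (M : Fin n → Fin n → R) (c : R) (v : Fin n → R) : qf M (fun i => c * v i) = c ^ 2 * qf M v := by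
  simp only [qf, mul_sum]
  exact sum_congr rfl fun i _ => sum_congr rfl fun j _ => by ring

theorem qf_eq (M : Fin n → Fin n → R) (v : Fin n → R) : qf M v = ∑ j, (∑ i, v i * M i j) * v j := by
  simp only [qf, sum_mul]; exact sum_comm

end

variable {n : ℕ}

def PD (A : Fin n → Fin n → ℝ) : Prop := ∀ x : Fin n → ℝ, x ≠ 0 → 0 < qf A x

theorem qf_cast (A : Fin n → Fin n → ℝ) (x : Fin n → ℝ) :
    qf (fun i j => (A i j : ℂ)) (fun i => (x i : ℂ)) = (qf A x : ℝ) := by simp [qf]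

theorem PD.eps {A : Fin n → Fin n → ℝ} (h : PD A) : ∃ ε > 0, ∀ x, ε * ∑ i, x i ^ 2 ≤ qf A x := by
  have c : Continuous (qf A) := by unfold qf; fun_prop
  rcases (Metric.sphere (0 : Fin n → ℝ) 1).eq_empty_or_nonempty with e | e
  · refine ⟨1, one_pos, fun x => ?_⟩
    by_cases hx : x = 0
    · simp [hx, qf]
    · exact absurd (e.le (mem_sphere_zero_iff_norm.2 (norm_smul_inv_norm (𝕜 := ℝ) hx))) (by simp)
  obtain ⟨m, hm, e⟩ := (isCompact_sphere (0 : Fin n → ℝ) 1).exists_isMinOn e c.continuousOn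
  have h0 := h m (by rintro rfl; simp at hm)
  refine ⟨qf A m / (n + 1), by positivity, fun x => ?_⟩
  by_cases hx : x = 0
  · simp [hx, qf]
  have hn := norm_pos_iff.2 hx
  have h1 : qf A m ≤ _ := e (mem_sphere_zero_iff_norm.2 (norm_smul_inv_norm (𝕜 := ℝ) hx))
  have h2 : qf A (‖x‖⁻¹ • x) = _ := qf_smul A ‖x‖⁻¹ x
  have h3 : ∑ i, x i ^ 2 ≤ (n + 1) * ‖x‖ ^ 2 := by
    refine (sum_le_card_nsmul _ _ (‖x‖ ^ 2) fun i _ => ?_).trans (by simp; nlinarith)
    rw [← sq_abs]; exact pow_le_pow_left₀ (abs_nonneg _) (norm_le_pi_norm x i) 2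
  erw [h2] at h1
  calc _ ≤ qf A m / (n + 1) * ((n + 1) * ‖x‖ ^ 2) := by gcongr
    _ = qf A m * ‖x‖ ^ 2 := by field_simp
    _ ≤ ‖x‖⁻¹ ^ 2 * qf A x * ‖x‖ ^ 2 := by gcongr
    _ = _ := by field_simp

theorem sum1 {a : ℂ} (ha : 0 < a.re) (b : ℂ) : Summable fun m : ℤ => ‖cexp (-π * a * m ^ 2 + 2 * π * b * m)‖ := by
  refine ((summable_jacobiTheta₂_term_iff (-I * b) (I * a)).2 (by simpa)).norm.congr fun m => ?_
  rw [jacobiTheta₂_term]; congr 2
  linear_combination (π * m ^ 2 * a - 2 * π * m * b) * I_mul_I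

theorem sum_pi : ∀ (n : ℕ) (f : Fin n → ℤ → ℝ), (∀ i, Summable (f i)) → (∀ i x, 0 ≤ f i x) →
    Summable fun x : Fin n → ℤ => ∏ i, f i (x i)
  | 0, _, _, _ => .of_finite
  | n + 1, f, h1, h2 => by
    rw [← (Fin.consEquiv fun _ => ℤ).summable_iff]
    refine ((h1 0).mul_of_nonneg (sum_pi n (fun i => f i.succ) (fun i => h1 _) fun i => h2 _) (h2 0)
      fun x => prod_nonneg fun i _ => h2 _ _).congr fun x => ?_
    simp [Fin.prod_univ_succ, Fin.consEquiv]

noncomputable def TT (A : Fin n → Fin n → ℝ) (t : ℂ) (b : Fin n → ℂ) (x : Fin n → ℤ) : ℂ :=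
  cexp (-π * t * qf (fun i j => (A i j : ℂ)) (fun i => x i) + 2 * π * ∑ i, b i * x i)
noncomputable def DD (P : Fin n → Fin n → ℝ) (t : ℂ) (b : Fin n → ℂ) (y : Fin n → ℤ) : ℂ :=
  cexp (-π / t * qf (fun i j => (P i j : ℂ)) fun i => y i + I * b i)

theorem norm_TT (A : Fin n → Fin n → ℝ) (t : ℂ) (b : Fin n → ℂ) (x : Fin n → ℤ) :
    ‖TT A t b x‖ = Real.exp (-π * t.re * qf A (fun i => x i) + 2 * π * ∑ i, (b i).re * x i) := by
  have := qf_cast A fun i => x i
  simp only [ofReal_intCast] at this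
  rw [TT, norm_exp, this]; simp [re_sum]

theorem PD.sumT {A : Fin n → Fin n → ℝ} (h : PD A) {t : ℂ} (ht : 0 < t.re) (b : Fin n → ℂ) :
    Summable fun x => ‖TT A t b x‖ := by
  obtain ⟨ε, h0, h1⟩ := h.eps
  refine (sum_pi n _ (fun i => sum1 (a := (t.re * ε : ℝ)) (by simpa using mul_pos ht h0) (b i))
    fun _ _ => norm_nonneg _).of_nonneg_of_le (fun _ => norm_nonneg _) fun x => ?_
  simp only [norm_TT, norm_exp, ← Real.exp_sum, Real.exp_le_exp]
  have h2 := mul_le_mul_of_nonneg_left (h1 fun i => x i) (mul_pos Real.pi_pos ht).le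
  have h3 : ∀ i, (-π * ((t.re * ε : ℝ) : ℂ) * (x i : ℂ) ^ 2 + 2 * π * b i * x i).re =
      -(π * t.re * (ε * (x i : ℝ) ^ 2)) + 2 * π * ((b i).re * x i) := fun i => by simp [pow_two]; ring
  simp only [h3, sum_add_distrib, sum_neg_distrib, ← mul_sum]
  linarith

theorem PD.sumD {P : Fin n → Fin n → ℝ} (h : PD P) (hs : ∀ i j, P i j = P j i) {t : ℂ} (ht : 0 < t.re) (b : Fin n → ℂ) :
    Summable (DD P t b) := by
  have : 0 < (t⁻¹).re := by
    rw [inv_re]; exact div_pos ht (normSq_pos.2 (by rintro rfl; simp at ht))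
  refine ((h.sumT this fun j => -t⁻¹ * ∑ i, I * b i * P i j).of_norm.mul_left
    (cexp (-π / t * qf (fun i j => (P i j : ℂ)) fun i => I * b i))).congr fun y => ?_
  rw [TT, DD, ← Complex.exp_add, qf_add fun i j => by rw [hs]]
  simp only [mul_assoc (-t⁻¹), ← mul_sum]
  congr 1; ring

theorem poisson : ∀ (n : ℕ) (A P : Fin n → Fin n → ℝ), (∀ i j, A i j = A j i) → (∀ i j, P i j = P j i) →
    (∀ i j, ∑ k, A i k * P k j = if i = j then 1 else 0) → PD A → PD P →
    ∃ κ : ℂ, ∀ t : ℂ, 0 < t.re → ∀ b, ∑' x, TT A t b x = κ * (1 / t ^ (1 / 2 : ℂ)) ^ n * ∑' y, DD P t b y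
  | 0, A, P, _, _, _, _, _ => ⟨1, fun t _ b => by simp [TT, DD, qf]⟩
  | n + 1, A, P, sA, sP, hAP, pA, pP => by
    have ha : 0 < A 0 0 := by
      have := pA (Pi.single 0 1) (by simp)
      rw [qf_split sA] at this; simpa [qf] using this
    have e0 : ∀ j : Fin n, ∑ i : Fin n, A 0 i.succ * P i.succ j.succ = -(A 0 0 * P 0 j.succ) := fun j => by
      have := hAP 0 j.succ
      rw [Fin.sum_univ_succ, if_neg (Fin.succ_ne_zero j).symm] at this; linarith
    have e1 : ∑ i : Fin n, P 0 i.succ * A 0 i.succ = 1 - A 0 0 * P 0 0 := by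
      have := hAP 0 0
      rw [Fin.sum_univ_succ, if_pos rfl] at this
      rw [← this, add_sub_cancel_left]; exact sum_congr rfl fun i _ => by rw [sP 0]; ring
    have pS : PD fun i j : Fin n => A i.succ j.succ - A 0 i.succ * A 0 j.succ / A 0 0 := fun x hx => by
      have := pA (Fin.cons (-(∑ j, A 0 j.succ * x j) / A 0 0) x) fun e => hx (funext fun i => congrFun e i.succ)
      rw [qf_split sA] at this
      simp only [Fin.cons_zero, Fin.cons_succ] at this
      rw [qf_schur]; convert this using 1; field_simp; ring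
    have pP' : PD fun i j : Fin n => P i.succ j.succ := fun x hx => by
      have := pP (Fin.cons 0 x) fun e => hx (funext fun i => congrFun e i.succ)
      rw [qf_split sP] at this; simpa using this
    obtain ⟨κ, hκ⟩ := poisson n _ _ (fun i j => by rw [sA, mul_comm]) (fun i j => sP _ _) (fun i j => by
      have := hAP i.succ j.succ
      rw [Fin.sum_univ_succ, sA i.succ 0] at this
      simp only [sub_mul, sum_sub_distrib, mul_div_right_comm, mul_assoc, ← mul_sum, e0, Fin.succ_inj] at this ⊢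
      rw [← this]; field_simp; ring) pS pP'
    refine ⟨κ / (A 0 0 : ℂ) ^ (1 / 2 : ℂ), fun t ht b => ?_⟩
    have t0 : t ≠ 0 := by rintro rfl; simp at ht
    have a0 : (A 0 0 : ℂ) ≠ 0 := ofReal_ne_zero.2 ha.ne'
    have hat : 0 < ((A 0 0 : ℂ) * t).re := by simpa using mul_pos ha ht
    let G : (Fin n → ℤ) → ℤ → ℂ := fun x y => cexp (-π / (A 0 0 * t) * (y + I * b 0) ^ 2) *
      TT (fun i j : Fin n => A i.succ j.succ - A 0 i.succ * A 0 j.succ / A 0 0) t
        (fun i => b i.succ + I * (y + I * b 0) * A 0 i.succ / A 0 0) x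
    have sG : Summable (Function.uncurry G) := by
      have h1 := sum1 (a := ((A 0 0 : ℂ) * t)⁻¹) (by rw [inv_re]; exact div_pos hat (normSq_pos.2 (mul_ne_zero a0 t0)))
        (-((A 0 0 : ℂ) * t)⁻¹ * I * b 0)
      refine .of_norm (((pS.sumT ht fun i => b i.succ - b 0 * A 0 i.succ / A 0 0).mul_of_nonneg
        (h1.mul_left ‖cexp (π / (A 0 0 * t) * b 0 ^ 2)‖) (fun _ => norm_nonneg _) fun _ => by positivity).congr fun p => ?_)
      simp only [Function.uncurry, G, norm_mul, norm_TT]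
      rw [mul_comm, ← norm_mul, ← Complex.exp_add]
      congr 3
      · linear_combination (π / (A 0 0 * t) * b 0 ^ 2) * I_mul_I
      · congr 1; refine sum_congr rfl fun i _ => ?_
        simp [div_ofReal_re, add_mul, mul_add, sub_eq_add_neg, neg_div]
    have h1 : ∀ x, ∑' x0, TT A t b (Fin.cons x0 x) = 1 / ((A 0 0 : ℂ) * t) ^ (1 / 2 : ℂ) * ∑' y, G x y := fun x => by
      have := tsum_exp_neg_quadratic hat (b 0 - t * ∑ j : Fin n, (A 0 j.succ : ℂ) * x j)
      have := congrArg (· * cexp (-π * t * qf (fun i j : Fin n => (A i.succ j.succ : ℂ)) (fun i => x i) +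
        2 * π * ∑ i : Fin n, b i.succ * x i)) this
      rw [mul_assoc (1 / _ : ℂ), ← tsum_mul_right, ← tsum_mul_right] at this
      refine Eq.trans (tsum_congr fun x0 => ?_) (this.trans (congrArg _ (tsum_congr fun y => ?_)))
      · rw [TT, qf_split fun i j => by rw [sA], ← Complex.exp_add, Fin.sum_univ_succ]
        simp only [Fin.cons_zero, Fin.cons_succ]; congr 1; ring
      · simp only [G, TT, ← Complex.exp_add, ofReal_sub, ofReal_div, ofReal_mul, qf_schur, add_mul, sum_add_distrib]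
        have : ∑ i : Fin n, I * (y + I * b 0) * A 0 i.succ / A 0 0 * x i =
            I * (y + I * b 0) / A 0 0 * ∑ i : Fin n, A 0 i.succ * (x i : ℂ) := by
          rw [mul_sum]; exact sum_congr rfl fun i _ => by ring
        rw [this]; congr 1; field_simp
        linear_combination (-t ^ 2 * (∑ i : Fin n, A 0 i.succ * (x i : ℂ)) ^ 2) * I_mul_I
    have h2 : ∀ y0 : ℤ, ∑' x, G x y0 = κ * (1 / t ^ (1 / 2 : ℂ)) ^ n * ∑' y, DD P t b (Fin.cons y0 y) := fun y0 => by
      rw [tsum_mul_left, hκ t ht, mul_left_comm, ← tsum_mul_left]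
      congr 2; ext y
      have c0 : ∀ j : Fin n, ∑ i : Fin n, (A 0 i.succ : ℂ) * P i.succ j.succ = -(A 0 0 * P 0 j.succ) := fun j => by
        exact_mod_cast e0 j
      have c1 : ∑ i : Fin n, (P 0 i.succ : ℂ) * A 0 i.succ = 1 - A 0 0 * P 0 0 := by exact_mod_cast e1
      have c2 : ∀ i : Fin n, (y i : ℂ) + I * (b i.succ + I * (y0 + I * b 0) * A 0 i.succ / A 0 0) =
          (y i + I * b i.succ) + -(y0 + I * b 0) / A 0 0 * A 0 i.succ := fun i => by
        linear_combination ((y0 + I * b 0) * A 0 i.succ / A 0 0) * I_mul_I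
      simp only [DD, ← Complex.exp_add, c2]
      rw [qf_split (n := n) fun i j => by rw [sP], qf_add fun i j => by rw [sP], qf_smul, qf_eq _ fun i => (A 0 i.succ : ℂ)]
      simp only [Fin.cons_zero, Fin.cons_succ, mul_assoc (-_ / _ : ℂ), ← mul_sum, c0, neg_mul, sum_neg_distrib,
        mul_assoc (A 0 0 : ℂ), c1]
      congr 1; field_simp; ring
    have sT := (Fin.consEquiv fun _ => ℤ).summable_iff.2 (pA.sumT ht b).of_norm
    have sD := (Fin.consEquiv fun _ => ℤ).summable_iff.2 (pP.sumD sP ht b)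
    rw [← (Fin.consEquiv fun _ => ℤ).tsum_eq, ← (Fin.consEquiv fun _ => ℤ).tsum_eq (DD P t b)]
    have e3 : ((A 0 0 : ℂ) * t) ^ (1 / 2 : ℂ) = (A 0 0 : ℂ) ^ (1 / 2 : ℂ) * t ^ (1 / 2 : ℂ) := by
      rw [cpow_def_of_ne_zero (mul_ne_zero a0 t0), cpow_def_of_ne_zero a0, cpow_def_of_ne_zero t0, log_ofReal_mul ha t0,
        ofReal_log ha.le, add_mul, Complex.exp_add]
    have e4 : ∑' p : ℤ × (Fin n → ℤ), TT A t b (Fin.consEquiv (fun _ => ℤ) p) = ∑' x, ∑' x0, TT A t b (Fin.cons x0 x) := by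
      rw [← (Equiv.prodComm _ _).tsum_eq]; exact sT.prod_symm.tsum_prod
    have e5 : ∑' p : ℤ × (Fin n → ℤ), DD P t b (Fin.consEquiv (fun _ => ℤ) p) = ∑' y0, ∑' y, DD P t b (Fin.cons y0 y) :=
      sD.tsum_prod
    rw [e4, e5, tsum_congr h1, tsum_mul_left, ← sG.tsum_comm, tsum_congr h2, tsum_mul_left, e3]
    ring

end CA.Theta
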