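import Cfsg.Agent.Lib.Spor.Theta1

/-! The theta series of an even unimodular lattice of rank 24 is a modular form of weight 12. -/

set_option autoImplicit false

namespace CA.Theta
open Complex Finset Matrix
open scoped Real

variable {n : ℕ}

theorem qf_int {R : Type*} [Field R] (B : Matrix (Fin n) (Fin n) ℤ) (x : Fin n → ℤ) :
    qf (fun i j => (B i j : R)) (fun i => (x i : R)) = ((x ⬝ᵥ B *ᵥ x : ℤ) : R) := by
  simp [qf, dotProduct, mulVec, mul_sum, mul_assoc]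

theorem pd_int (B : Matrix (Fin n) (Fin n) ℤ) (hs : B.IsSymm) (hpos : ∀ x, x ≠ 0 → 0 < x ⬝ᵥ B *ᵥ x)
    (hdet : B.det = 1) : PD fun i j => (B i j : ℝ) := by
  have h0 : ∀ x : Fin n → ℤ, 0 ≤ x ⬝ᵥ B *ᵥ x := fun x => by
    by_cases hx : x = 0
    · simp [hx]
    · exact (hpos x hx).le
  have h1 : ∀ x, 0 ≤ qf (fun i j => (B i j : ℝ)) x := fun x => by
    refine (DenseRange.piMap fun _ : Fin n => Rat.denseRange_cast (𝕜 := ℝ)).induction_on x
      (isClosed_le continuous_const (by unfold qf; fun_prop)) fun q => ?_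
    obtain ⟨⟨d, hd⟩, h⟩ := IsLocalization.exist_integer_multiples_of_finite (nonZeroDivisors ℤ) q
    choose y hy using h
    have e : (fun i => (y i : ℝ)) = fun i => (d : ℝ) * Pi.map (fun _ (a : ℚ) => (a : ℝ)) q i := funext fun i => by
      have := congrArg (Rat.cast : ℚ → ℝ) (hy i)
      simpa using this
    have := qf_int (R := ℝ) B y
    rw [e, qf_smul] at this
    have d0 : (0 : ℝ) < (d : ℝ) ^ 2 := by have := nonZeroDivisors.ne_zero hd; positivity
    exact nonneg_of_mul_nonneg_right (this ▸ Int.cast_nonneg (h0 y)) d0 |> fun h => by simpa using h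
  have e : ∀ x, star x ⬝ᵥ B.map (Int.castRingHom ℝ) *ᵥ x = qf (fun i j => (B i j : ℝ)) x := fun x => by
    simp [qf, dotProduct, mulVec, mul_sum, mul_assoc]
  have h2 : (B.map (Int.castRingHom ℝ)).PosSemidef :=
    .of_dotProduct_mulVec_nonneg (by ext i j; simp [hs.apply i j]) fun x => e x ▸ h1 x
  refine fun x hx => (h1 x).lt_of_ne fun h => hx ?_
  refine eq_zero_of_mulVec_eq_zero ?_ ((h2.dotProduct_mulVec_zero_iff x).1 ((e x).trans h.symm))
  rw [← RingHom.mapMatrix_apply, ← RingHom.map_det, hdet]; simp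

noncomputable def th (B : Matrix (Fin n) (Fin n) ℤ) (t : ℂ) : ℂ := ∑' x : Fin n → ℤ, cexp (-π * t * (x ⬝ᵥ B *ᵥ x : ℤ))

theorem TT_eq (B : Matrix (Fin n) (Fin n) ℤ) (t : ℂ) (x : Fin n → ℤ) :
    TT (fun i j => (B i j : ℝ)) t 0 x = cexp (-π * t * (x ⬝ᵥ B *ᵥ x : ℤ)) := by
  simp only [TT, ofReal_intCast, qf_int]; simp

variable (B : Matrix (Fin 24) (Fin 24) ℤ) (hs : B.IsSymm) (hpos : ∀ x, x ≠ 0 → 0 < x ⬝ᵥ B *ᵥ x) (hdet : B.det = 1)
include hs hpos hdet

theorem th_sum {t : ℂ} (ht : 0 < t.re) : Summable fun x : Fin 24 → ℤ => ‖cexp (-π * t * (x ⬝ᵥ B *ᵥ x : ℤ))‖ := by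
  simpa only [TT_eq] using (pd_int B hs hpos hdet).sumT ht 0

theorem th_inv {t : ℂ} (ht : 0 < t.re) : th B t = (t ^ 12)⁻¹ * th B t⁻¹ := by
  have u : IsUnit B.det := hdet ▸ isUnit_one
  have s2 : (B⁻¹).IsSymm := by rw [Matrix.IsSymm, transpose_nonsing_inv, hs.eq]
  have e1 : ∀ z, (B *ᵥ z) ⬝ᵥ B⁻¹ *ᵥ (B *ᵥ z) = z ⬝ᵥ B *ᵥ z := fun z => by
    rw [mulVec_mulVec, nonsing_inv_mul _ u, one_mulVec, dotProduct_comm]
  let E : (Fin 24 → ℤ) ≃ (Fin 24 → ℤ) := ⟨(B *ᵥ ·), (B⁻¹ *ᵥ ·), fun z => by simp [nonsing_inv_mul _ u],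
    fun z => by simp [mul_nonsing_inv _ u]⟩
  obtain ⟨κ, h⟩ := poisson 24 (fun i j => (B i j : ℝ)) (fun i j => (B⁻¹ i j : ℝ)) (fun i j => by rw [hs.apply])
    (fun i j => by rw [s2.apply]) (fun i j => by
      have := congrFun (congrFun (mul_nonsing_inv _ u) i) j
      rw [mul_apply, one_apply] at this
      exact_mod_cast this) (pd_int B hs hpos hdet) (pd_int _ s2 (fun y hy => by
      obtain ⟨z, rfl⟩ := E.surjective y
      exact (e1 z).symm ▸ hpos z (by rintro rfl; exact hy (mulVec_zero B))) (by rw [det_nonsing_inv, hdet]; simp))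
  have h1 : ∀ t : ℂ, 0 < t.re → th B t = κ * (t ^ 12)⁻¹ * th B t⁻¹ := fun t ht => by
    have := h t ht 0
    simp only [TT_eq] at this
    rw [th, this, ← E.tsum_eq, th]
    congr 2
    · rw [one_div, inv_pow, show 24 = 2 * 12 from rfl, pow_mul, one_div]
      exact congrArg (fun x => (x ^ 12)⁻¹) (cpow_ofNat_inv_pow t 2)
    · ext z
      simp only [DD, Pi.zero_apply, mul_zero, add_zero, ofReal_intCast, qf_int]
      rw [← e1 z]; rfl
  have h2 := h1 1 (by simp)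
  have h3 : th B 1 ≠ 0 := by
    have := th_sum B hs hpos hdet (t := 1) (by simp)
    have e : th B 1 = (∑' x : Fin 24 → ℤ, ‖cexp (-π * 1 * (x ⬝ᵥ B *ᵥ x : ℤ))‖ : ℝ) := by
      rw [th, ofReal_tsum]; congr 1; ext x
      rw [norm_exp, ofReal_exp]; congr 1; simp
    rw [e, ofReal_ne_zero]
    exact (this.tsum_pos (fun _ => norm_nonneg _) 0 (by simp)).ne'
  rw [h1 t ht, show κ = 1 from mul_right_cancel₀ h3 (by simpa using h2.symm), one_mul]

open UpperHalfPlane hiding I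
open ModularForm EisensteinSeries MatrixGroups

omit hs hpos hdet in
theorem re_pos (τ : ℍ) : 0 < (-I * τ).re := by simpa using τ.im_pos

theorem th_holo : DifferentiableOn ℂ (fun z => th B (-I * z)) {z | 0 < z.im} := fun z hz => by
  have hz : 0 < z.im := hz
  have o : IsOpen {w : ℂ | z.im / 2 < w.im} := isOpen_lt continuous_const continuous_im
  refine ((differentiableOn_tsum_of_summable_norm (th_sum B hs hpos hdet (t := (z.im / 2 : ℝ)) (by simpa using hz))
    (fun x => by fun_prop) o fun x w hw => ?_).differentiableAt (o.mem_nhds (by simpa using hz))).differentiableWithinAt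
  have h0 : (0 : ℝ) ≤ (x ⬝ᵥ B *ᵥ x : ℤ) := by
    by_cases hx : x = 0
    · simp [hx]
    · exact_mod_cast (hpos x hx).le
  have hw : z.im / 2 < w.im := hw
  generalize x ⬝ᵥ B *ᵥ x = m at h0
  simp only [norm_exp, Real.exp_le_exp]
  simp only [mul_re, mul_im, neg_re, neg_im, ofReal_re, ofReal_im, Complex.I_re, Complex.I_im, intCast_re, intCast_im]
  nlinarith [mul_nonneg (mul_pos Real.pi_pos (sub_pos.2 hw)).le h0]

variable (hev : ∀ x : Fin 24 → ℤ, (2 : ℤ) ∣ x ⬝ᵥ B *ᵥ x)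
include hev

theorem th_q (τ : ℍ) : HasSum (fun m : ℕ => ({x : Fin 24 → ℤ | x ⬝ᵥ B *ᵥ x = 2 * m}.ncard : ℂ) •
    Function.Periodic.qParam 1 τ ^ m) (th B (-I * τ)) := by
  have h0 : ∀ x : Fin 24 → ℤ, 0 ≤ x ⬝ᵥ B *ᵥ x := fun x => by
    by_cases hx : x = 0
    · simp [hx]
    · exact (hpos x hx).le
  have := (th_sum B hs hpos hdet (re_pos τ)).of_norm.hasSum.tsum_fiberwise fun x => (x ⬝ᵥ B *ᵥ x / 2).toNat
  refine (congrArg (HasSum · _) (funext fun m => ?_)).mpr this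
  have e : (fun x : Fin 24 → ℤ => (x ⬝ᵥ B *ᵥ x / 2).toNat) ⁻¹' {m} = {x | x ⬝ᵥ B *ᵥ x = 2 * m} := by
    ext x; have := h0 x; have := hev x; simp only [Set.mem_preimage, Set.mem_singleton_iff, Set.mem_ofPred_eq]; omega
  rw [e, tsum_congr (g := fun _ => Function.Periodic.qParam 1 τ ^ m) fun x => ?_, tsum_const, Nat.card_coe_set_eq,
    nsmul_eq_mul, smul_eq_mul]
  rw [x.2, Function.Periodic.qParam, ← Complex.exp_nat_mul]; congr 1; push_cast; ring

theorem th_slash (γ : SL(2, ℤ)) : (fun τ : ℍ => th B (-I * τ)) ∣[(12 : ℤ)] γ = fun τ : ℍ => th B (-I * τ) := by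
  refine SlashInvariantForm.slash_action_generators_SL2Z ?_ ?_ γ <;> ext z
  · have h := th_inv B hs hpos hdet (re_pos (ModularGroup.S • z))
    rw [SL_slash_apply, h, modular_S_smul]
    have := z.ne_zero
    have e : (-I * (-(z : ℂ))⁻¹)⁻¹ = -I * z := by field_simp; simp
    simp only [ModularGroup.denom_S, e]
    simp [mul_pow, show I ^ 12 = 1 by rw [show 12 = 4 * 3 from rfl, pow_mul, I_pow_four, one_pow]]
    field_simp
  · rw [SL_slash_apply, modular_T_smul, show denom ModularGroup.T z = 1 by rw [ModularGroup.denom_apply]; simp [ModularGroup.T],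
      _root_.one_zpow, mul_one]
    simp only [th, UpperHalfPlane.coe_vadd]
    refine tsum_congr fun x => ?_
    obtain ⟨k, hk⟩ := hev x
    rw [hk, ← exp_periodic.int_mul k (-π * (-I * z) * _)]; congr 1; push_cast; ring

noncomputable def thF : ModularForm 𝒮ℒ 12 where
  toFun τ := th B (-I * τ)
  slash_action_eq' A hA := by
    obtain ⟨A, rfl⟩ := hA
    exact th_slash B hs hpos hdet hev A
  holo' := by
    rw [UpperHalfPlane.mdifferentiable_iff]
    exact (th_holo B hs hpos hdet).congr fun z hz => by simp [ofComplex_apply_of_im_pos hz]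
  bdd_at_cusps' hc := by
    rw [Subgroup.IsArithmetic.isCusp_iff_isCusp_SL2Z] at hc
    rw [OnePoint.isBoundedAt_iff_forall_SL2Z hc]
    intro γ _
    rw [th_slash B hs hpos hdet hev]
    exact isBoundedAtImInfty_of_hasSum_qExpansion one_pos (th_q B hs hpos hdet hev)

theorem thF_coeff (m : ℕ) : (qExpansion 1 (thF B hs hpos hdet hev)).coeff m =
    ({x : Fin 24 → ℤ | x ⬝ᵥ B *ᵥ x = 2 * m}.ncard : ℂ) :=
  (ModularFormClass.qExpansion_coeff_unique one_pos one_mem_strictPeriods_SL (f := thF B hs hpos hdet hev)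
    (th_q B hs hpos hdet hev) m).symm

omit hs hpos hdet hev in
theorem wt12 (f : ModularForm 𝒮ℒ 12) (h0 : (qExpansion 1 f).coeff 0 = 1) (h1 : (qExpansion 1 f).coeff 1 = 0) :
    (qExpansion 1 f).coeff 2 = 196560 ∧ (qExpansion 1 f).coeff 3 = 16773120 ∧ (qExpansion 1 f).coeff 4 = 398034000 := by
  obtain ⟨F, hF⟩ : ∃ F : ModularForm 𝒮ℒ 12, qExpansion 1 F = qExpansion 1 E₄ * qExpansion 1 E₄ * qExpansion 1 E₄ :=
    ⟨ModularForm.mcast (by decide) (E₄.pow 3), by
      rw [coe_mcast, ModularForm.qExpansion_pow one_pos one_mem_strictPeriods_SL]; ring⟩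
  obtain ⟨G, hG⟩ : ∃ F : ModularForm 𝒮ℒ 12, qExpansion 1 F = qExpansion 1 E₆ * qExpansion 1 E₆ :=
    ⟨ModularForm.mcast (by decide) (E₆.pow 2), by
      rw [coe_mcast, ModularForm.qExpansion_pow one_pos one_mem_strictPeriods_SL]; ring⟩
  let g : ModularForm 𝒮ℒ 12 := f - (7 / 12 : ℂ) • F - (5 / 12 : ℂ) • G
  have e : qExpansion 1 g = qExpansion 1 f - (7 / 12 : ℂ) • (qExpansion 1 E₄ * qExpansion 1 E₄ * qExpansion 1 E₄) -
      (5 / 12 : ℂ) • (qExpansion 1 E₆ * qExpansion 1 E₆) := by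
    rw [← hF, ← hG, ← ModularForm.qExpansion_smul one_pos one_mem_strictPeriods_SL _ F,
      ← ModularForm.qExpansion_smul one_pos one_mem_strictPeriods_SL _ G]
    exact (ModularForm.qExpansion_sub one_pos one_mem_strictPeriods_SL (f - (7 / 12 : ℂ) • F) ((5 / 12 : ℂ) • G)).trans
      (congrArg (· - _) (ModularForm.qExpansion_sub one_pos one_mem_strictPeriods_SL f ((7 / 12 : ℂ) • F)))
  have b4 : bernoulli 4 = -1 / 30 := by decide +kernel
  have b6 : bernoulli 6 = 1 / 42 := by decide +kernel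
  have c4 : ∀ m, (qExpansion 1 E₄).coeff m = if m = 0 then 1 else 240 * (ArithmeticFunction.sigma 3 m : ℂ) := fun m => by
    rw [E_qExpansion_coeff _ ⟨2, rfl⟩, b4]; norm_num
  have c6 : ∀ m, (qExpansion 1 E₆).coeff m = if m = 0 then 1 else -504 * (ArithmeticFunction.sigma 5 m : ℂ) := fun m => by
    rw [E_qExpansion_coeff _ ⟨3, rfl⟩, b6]; norm_num
  have s : ArithmeticFunction.sigma 3 1 = 1 ∧ ArithmeticFunction.sigma 3 2 = 9 ∧ ArithmeticFunction.sigma 3 3 = 28 ∧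
      ArithmeticFunction.sigma 3 4 = 73 ∧ ArithmeticFunction.sigma 5 1 = 1 ∧ ArithmeticFunction.sigma 5 2 = 33 ∧
      ArithmeticFunction.sigma 5 3 = 244 ∧ ArithmeticFunction.sigma 5 4 = 1057 := by decide +kernel
  have g0 : g = 0 := sturm_bound_levelOne (by
    refine lt_of_lt_of_le (show _ < ((2 : ℕ) : ℕ∞) by decide) (PowerSeries.nat_le_order _ _ fun i hi => ?_)
    rw [e]
    interval_cases i <;>
      norm_num [PowerSeries.coeff_mul, Finset.Nat.antidiagonal_succ, c4, c6, h0, h1, s,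
        -PowerSeries.coeff_zero_eq_constantCoeff])
  rw [g0, sub_sub, eq_comm, FunLike.coe_zero, qExpansion_zero, sub_eq_zero] at e
  rw [e]
  norm_num [PowerSeries.coeff_mul, Finset.Nat.antidiagonal_succ, c4, c6, s, -PowerSeries.coeff_zero_eq_constantCoeff]

theorem counts (h2 : ∀ x : Fin 24 → ℤ, x ⬝ᵥ B *ᵥ x ≠ 2) : {x : Fin 24 → ℤ | x ⬝ᵥ B *ᵥ x = 4}.ncard = 196560 ∧
    {x : Fin 24 → ℤ | x ⬝ᵥ B *ᵥ x = 6}.ncard = 16773120 ∧ {x : Fin 24 → ℤ | x ⬝ᵥ B *ᵥ x = 8}.ncard = 398034000 := by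
  have := wt12 (thF B hs hpos hdet hev) (by
    rw [thF_coeff, show {x : Fin 24 → ℤ | x ⬝ᵥ B *ᵥ x = 2 * (0 : ℕ)} = {0} from Set.ext fun x =>
      ⟨fun h => by_contra fun hx => (hpos x hx).ne' h, by rintro rfl; simp⟩]; simp) (by
    rw [thF_coeff, show {x : Fin 24 → ℤ | x ⬝ᵥ B *ᵥ x = 2 * (1 : ℕ)} = ∅ from Set.eq_empty_of_forall_notMem h2]; simp)
  simp only [thF_coeff] at this
  exact_mod_cast this

end CA.Theta
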